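import Mathlib
import Cfsg.Agent.Lib.MatConj
import Cfsg.Agent.Lib.EigenSq
import Cfsg.Agent.Lib.InvolConj
import Cfsg.Agent.Lib.SqZero
import Cfsg.Agent.Lib.ClassicalCore
import Cfsg.Agent.S5969
import Cfsg.Statements.S5964
-- import your own Cfsg.Agent.* helpers here

set_option autoImplicit false
open scoped MatrixGroups
open Cfsg

namespace Cfsg.Agent.S5964

open Matrix Module Cfsg.Geo
open Cfsg.Agent.Lib.SqScalar Cfsg.Agent.Lib.MatConj Cfsg.Agent.Lib.EigenSq Cfsg.Agent.Lib.InvolConj Cfsg.Agent.Lib.SqZero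

set_option linter.unusedSimpArgs false
set_option linter.unusedVariables false

variable {F : Type*} [Field F] {n : ℕ} (F₀ : Subfield F)

local notation "Mt" => Matrix (Fin n) (Fin n) F

theorem mem_sub_of (g : GL (Fin n) F) (w : F) (hw : w ≠ 0) (c : Matrix (Fin n) (Fin n) F₀)
    (hg : (g : Mt) = w • c.map F₀.subtype) : g ∈ subfieldSubgroup F₀ 1 := by
  classical
  have hu : IsUnit (g : Mt).det := Matrix.isUnits_det_units g
  have hne : (g : Mt).det ≠ 0 := hu.ne_zero
  rw [hg, Matrix.det_smul] at hne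
  have hd : (c.map F₀.subtype).det ≠ 0 := right_ne_zero_of_mul hne
  have hc : c.det ≠ 0 := by
    intro h0
    apply hd
    have : (c.map F₀.subtype).det = F₀.subtype c.det := (F₀.subtype.map_det c).symm
    rw [this, h0, map_zero]
  let c₀ : GL (Fin n) F₀ := Matrix.GeneralLinearGroup.mkOfDetNeZero c hc
  let s : GL (Fin n) F := Units.map (Matrix.scalar (Fin n) : F →+* Matrix (Fin n) (Fin n) F).toMonoidHom (Units.mk0 w hw)
  have hgm : g = Matrix.GeneralLinearGroup.map F₀.subtype c₀ * s := by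
    apply Units.ext
    rw [hg, Units.val_mul]
    ext i j
    simp [s, c₀, Matrix.mul_apply, Matrix.scalar_apply, Matrix.diagonal_apply, Matrix.smul_apply, mul_comm]
  unfold subfieldSubgroup
  rw [Subgroup.mem_map]
  refine ⟨g, ?_, by simp⟩
  rw [hgm]
  exact Subgroup.mul_mem_sup ⟨c₀, rfl⟩ ⟨_, rfl⟩

theorem exists_of_mem (g : GL (Fin n) F) (hg : g ∈ subfieldSubgroup F₀ 1) :
    ∃ (w : F) (c : Matrix (Fin n) (Fin n) F₀), (g : Mt) = w • c.map F₀.subtype := by
  classical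
  obtain ⟨g', hg', rfl⟩ := Subgroup.mem_map.mp hg
  have h1 : g' ∈ ((↑((Matrix.GeneralLinearGroup.map (F₀.subtype : F₀ →+* F)).range ⊔ scalars (Fin n) F) : Subgroup (GL (Fin n) F)) : Set (GL (Fin n) F)) := hg'
  rw [Subgroup.mul_normal] at h1
  obtain ⟨a, ⟨c, rfl⟩, b, hb, rfl⟩ := Set.mem_mul.mp h1
  obtain ⟨d, hd⟩ := (mem_scalars_iff _).mp (show b ∈ scalars (Fin n) F from hb)
  refine ⟨d, (c : Matrix (Fin n) (Fin n) F₀), ?_⟩
  have : (MulAut.conj (1 : GL (Fin n) F)).toMonoidHom = MonoidHom.id _ := by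
    ext x
    simp
  rw [this]
  simp only [MonoidHom.id_apply]
  rw [Units.val_mul, hd, Matrix.mul_smul, Matrix.mul_one]
  congr 1

theorem exists_conj_into (x : GL (Fin n) F) {ι : Type} [Fintype ι] [DecidableEq ι]
    (e : Basis ι F (Fin n → F)) (w : F) (hw : w ≠ 0)
    (h : ∀ j, ∃ d : ι → F₀, (x : Mt) *ᵥ e j = w • ∑ i, ((d i : F₀) : F) • e i) :
    ∃ P : GL (Fin n) F, P⁻¹ * x * P ∈ subfieldSubgroup F₀ 1 := by
  classical
  choose c hc using h
  let g : ι ≃ Fin n := e.indexEquiv (Pi.basisFun F (Fin n))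
  let E : (Fin n → F) ≃ₗ[F] (Fin n → F) := e.equiv (Pi.basisFun F (Fin n)) g
  have hEe : ∀ j, E (e j) = Pi.single (g j) 1 := by
    intro j
    simp [E, Basis.equiv_apply]
  let C : Matrix (Fin n) (Fin n) F₀ := fun a b => c (g.symm b) (g.symm a)
  let Y : Mt := w • C.map F₀.subtype
  have hY : ∀ a b, Y a b = w * ((c (g.symm b) (g.symm a) : F₀) : F) := fun a b => rfl
  have hE : ∀ v, E ((x : Mt) *ᵥ v) = Y *ᵥ E v := by
    intro v
    have : (E : (Fin n → F) →ₗ[F] (Fin n → F)).comp (Matrix.toLin' (x : Mt)) =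
        (Matrix.toLin' Y).comp (E : (Fin n → F) →ₗ[F] (Fin n → F)) := by
      apply e.ext
      intro j
      simp only [LinearMap.comp_apply, Matrix.toLin'_apply, LinearEquiv.coe_coe]
      rw [hc, map_smul, map_sum]
      simp only [map_smul, hEe]
      rw [Matrix.mulVec_single_one]
      funext a
      rw [Matrix.col_apply, hY]
      simp only [Pi.smul_apply, Finset.sum_apply, smul_eq_mul, Pi.single_apply, Equiv.symm_apply_apply]
      rw [Finset.sum_eq_single (g.symm a)]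
      · simp
      · intro b _ hb
        rw [if_neg, mul_zero]
        intro h
        apply hb
        rw [h, Equiv.symm_apply_apply]
      · simp
    have := LinearMap.congr_fun this v
    simpa using this
  obtain ⟨P, hP⟩ := exists_conj_of_equiv' E x Y hE
  exact ⟨P, mem_sub_of F₀ _ w hw C hP⟩

theorem sum_single {ι : Type} [Fintype ι] [DecidableEq ι] {V : Type*} [AddCommGroup V] [Module F V]
    (e : ι → V) (j : ι) (a : F₀) :
    ∑ i, (((Pi.single j a : ι → F₀) i : F₀) : F) • e i = (a : F) • e j := by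
  rw [Finset.sum_eq_single j]
  · simp
  · intro b _ hb
    simp [Pi.single_apply, hb]
  · simp

/-- `q` odd, `z` a square -/
theorem case_sq [Fintype F] {q : ℕ} (hq : Fintype.card F = q) (hodd : Odd q) (x : GL (Fin n) F)
    (w : F) (hw0 : w ≠ 0) (hz : (x : Mt) * x = (w * w) • (1 : Mt)) :
    ∃ P : GL (Fin n) F, P⁻¹ * x * P ∈ subfieldSubgroup F₀ 1 := by
  classical
  have h2F := two_ne_zero_of_odd hq hodd
  obtain ⟨a, b, e, he1, he2⟩ := exists_eigen_basis (Matrix.toLin' (x : Mt)) w (mul_ne_zero h2F hw0) (by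
    intro v
    simp only [Matrix.toLin'_apply, Matrix.mulVec_mulVec, hz, Matrix.smul_mulVec, Matrix.one_mulVec])
  refine exists_conj_into F₀ x e w hw0 ?_
  rintro (j | j)
  · refine ⟨Pi.single (Sum.inl j) 1, ?_⟩
    rw [sum_single]
    simpa using he1 j
  · refine ⟨Pi.single (Sum.inr j) (-1), ?_⟩
    rw [sum_single]
    simpa using he2 j

/-- `q` even -/
theorem case_even [Fintype F] (h2F : (2 : F) = 0) (x : GL (Fin n) F)
    (w : F) (hw0 : w ≠ 0) (hz : (x : Mt) * x = (w * w) • (1 : Mt)) :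
    ∃ P : GL (Fin n) F, P⁻¹ * x * P ∈ subfieldSubgroup F₀ 1 := by
  classical
  let T : (Fin n → F) →ₗ[F] (Fin n → F) := Matrix.toLin' (x : Mt)
  have hT : ∀ v, T (T v) = (w * w) • v := by
    intro v
    simp only [T, Matrix.toLin'_apply, Matrix.mulVec_mulVec, hz, Matrix.smul_mulVec, Matrix.one_mulVec]
  let N : (Fin n → F) →ₗ[F] (Fin n → F) := w⁻¹ • T - LinearMap.id
  have hNv : ∀ v, N v = w⁻¹ • T v - v := fun v => rfl
  have hN : ∀ v, N (N v) = 0 := by
    intro v
    rw [hNv, hNv, map_sub, map_smul, hT, smul_sub, smul_smul, smul_smul]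
    have e1 : w⁻¹ * (w * w) = w := by field_simp
    have e2 : w⁻¹ * w⁻¹ * (w * w) = 1 := by field_simp
    rw [e2, one_smul]
    have : v - w⁻¹ • T v - (w⁻¹ • T v - v) = (2 : F) • (v - w⁻¹ • T v) := by module
    rw [this, h2F, zero_smul]
  obtain ⟨r, s, e, he1, he2⟩ := exists_sqzero_basis N hN
  have hTN : ∀ v, (x : Mt) *ᵥ v = w • (v + N v) := by
    intro v
    rw [hNv, smul_add, smul_sub, smul_smul, mul_inv_cancel₀ hw0, one_smul]
    simp [T]
  refine exists_conj_into F₀ x e w hw0 ?_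
  rintro (j | j | j)
  · refine ⟨Pi.single (Sum.inl j) 1 + Pi.single (Sum.inr (Sum.inl j)) 1, ?_⟩
    rw [hTN, he1]
    congr 1
    simp only [Pi.add_apply, Subfield.coe_add, add_smul, Finset.sum_add_distrib]
    rw [sum_single, sum_single]
    simp
  · refine ⟨Pi.single (Sum.inr (Sum.inl j)) 1, ?_⟩
    rw [sum_single, hTN, ← he1, hN]
    simp
  · refine ⟨Pi.single (Sum.inr (Sum.inr j)) 1, ?_⟩
    rw [sum_single, hTN, he2]
    simp

theorem isSquare_of_mem_subfield [Fintype F] {q q₀ : ℕ} (hq : Fintype.card F = q) (hodd : Odd q)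
    (hF₀ : Nat.card F₀ = q₀) (hqk : q = q₀ ^ 2) (a : F₀) : IsSquare (a : F) := by
  classical
  by_cases ha : a = 0
  · rw [ha]
    exact ⟨0, by simp⟩
  haveI : Fintype F₀ := Fintype.ofFinite _
  have hc : Fintype.card F₀ = q₀ := by rw [Fintype.card_eq_nat_card, hF₀]
  have h1 : a ^ (q₀ - 1) = 1 := by
    rw [← hc]
    exact FiniteField.pow_card_sub_one_eq_one a ha
  have h1' : (a : F) ^ (q₀ - 1) = 1 := by
    have := congrArg (fun t : F₀ => (t : F)) h1
    simpa using this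
  have ha' : (a : F) ≠ 0 := by simpa using ha
  rw [isSquare_iff_pow hq hodd ha']
  have hq₀ : Odd q₀ := by
    by_contra hne
    have : Even q₀ := Nat.not_odd_iff_even.mp hne
    rw [hqk] at hodd
    exact (Nat.not_even_iff_odd.mpr hodd) (this.pow_of_ne_zero (by norm_num))
  obtain ⟨t, ht⟩ := hq₀
  have : (q - 1) / 2 = (q₀ - 1) * (t + 1) := by
    rw [hqk, ht]
    have : (2 * t + 1) ^ 2 - 1 = 2 * (2 * t * (t + 1)) := by
      have : (2 * t + 1) ^ 2 = 2 * (2 * t * (t + 1)) + 1 := by ring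
      rw [this]
      simp
    rw [this]
    simp
  rw [this, pow_mul, h1', one_pow]

open Cfsg.Agent.S5969 in
theorem no_nonsq [Fintype F] {q q₀ : ℕ} (hq : Fintype.card F = q) (hodd : Odd q)
    (hF₀ : Nat.card F₀ = q₀) (hqk : q = q₀ ^ 2) (hn0 : n ≠ 0) (hv : padicValNat 2 n ≤ padicValNat 2 (q - 1))
    (x : Matrix.SpecialLinearGroup (Fin n) F) (z : F) (hz : (x : Mt) * x = z • (1 : Mt)) (hnsq : ¬ IsSquare z) : False := by
  classical
  have hno : ∀ s : F, s * s - 0 * s - z ≠ 0 := by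
    intro r hr
    apply hnsq
    exact ⟨r, by linear_combination -hr⟩
  have hirr := quadPoly_irred 0 z hno
  have hx0 : Polynomial.aeval (x : Mt) (quadPoly 0 z) = 0 := by
    rw [aeval_quadPoly, hz]; simp
  have h2n : 2 ∣ n := by
    let T : Module.End F (Fin n → F) := Matrix.toLin' (x : Mt)
    have hT : ∀ v, T (T v) = z • v := by
      intro v
      simp only [T, Matrix.toLin'_apply, Matrix.mulVec_mulVec, hz, Matrix.smul_mulVec, Matrix.one_mulVec]
    have hT0 : Polynomial.aeval T (quadPoly 0 z) = 0 := by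
      refine (aeval_quadPoly 0 z T).trans ?_
      apply LinearMap.ext
      intro v
      simp only [LinearMap.sub_apply, Module.End.mul_apply, LinearMap.smul_apply, Module.End.one_apply, hT,
        LinearMap.zero_apply, zero_smul]
      simp
    have := Cfsg.Agent.Lib.PolyBasis.natDegree_dvd_finrank T (quadPoly 0 z) hirr hT0
    rw [quadPoly_natDegree] at this
    simpa using this
  obtain ⟨m, rfl⟩ := h2n
  have hm0 : m ≠ 0 := by
    rintro rfl
    exact hn0 rfl
  obtain ⟨X, hX, hXd⟩ := exists_block (F := F) (n := 2 * m) m rfl z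
  obtain ⟨P, hP⟩ := exists_conj_of_poly (Matrix.SpecialLinearGroup.toGL x) X (quadPoly 0 z) hirr (quadPoly_monic 0 z)
    (by exact hx0) (by rw [aeval_quadPoly, hX]; simp)
  have hdet : X.det = 1 := by
    rw [← hP]
    have hxd : (x : Matrix (Fin (2 * m)) (Fin (2 * m)) F).det = 1 := x.2
    rw [Units.val_mul, Units.val_mul, Matrix.det_mul, Matrix.det_mul, mul_comm, ← mul_assoc, ← Matrix.det_mul,
      Units.mul_inv, Matrix.det_one, one_mul]
    exact hxd
  rw [hdet] at hXd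
  have hvm : padicValNat 2 m < padicValNat 2 (q - 1) := by
    have : padicValNat 2 (2 * m) = 1 + padicValNat 2 m := by
      rw [padicValNat.mul (by norm_num) hm0, padicValNat_self]
    omega
  have h1 : IsSquare (-z) := isSquare_of_pow_eq_one hq hodd (-z) m hm0 hXd.symm hvm
  have h2 : IsSquare (-1 : F) := by
    have := isSquare_of_mem_subfield F₀ hq hodd hF₀ hqk (-1)
    simpa using this
  apply hnsq
  have := h2.mul h1
  simpa using this

theorem exists_bad [Fintype F] {q q₀ : ℕ} (hq : Fintype.card F = q) (hodd : Odd q)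
    (hF₀ : Nat.card F₀ = q₀) (hqk : q = q₀ ^ 2) (hn0 : n ≠ 0) (hv : padicValNat 2 (q - 1) < padicValNat 2 n)
    (hall : ∀ x : Matrix.SpecialLinearGroup (Fin n) F,
      (∃ z : F, ((x ^ 2 : Matrix.SpecialLinearGroup (Fin n) F) : Matrix (Fin n) (Fin n) F) = z • (1 : Matrix (Fin n) (Fin n) F)) →
      (∀ z : F, (x : Matrix (Fin n) (Fin n) F) ≠ z • (1 : Matrix (Fin n) (Fin n) F)) →
      ∃ P : Matrix.SpecialLinearGroup (Fin n) F, P⁻¹ * x * P ∈ ((Cfsg.Geo.subfieldSubgroup F₀ 1).comap (Matrix.SpecialLinearGroup.toGL : Matrix.SpecialLinearGroup (Fin n) F →* GL (Fin n) F))) :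
    False := by
  classical
  have h2n : 2 ∣ n := by
    apply dvd_of_one_le_padicValNat
    omega
  obtain ⟨m, rfl⟩ := h2n
  have hm0 : m ≠ 0 := by
    rintro rfl
    exact hn0 rfl
  have hvm : padicValNat 2 (q - 1) ≤ padicValNat 2 m := by
    have : padicValNat 2 (2 * m) = 1 + padicValNat 2 m := by
      rw [padicValNat.mul (by norm_num) hm0, padicValNat_self]
    omega
  obtain ⟨g, hg0, hgn, hgm⟩ := exists_nonsquare_pow_one hq hodd m hm0 hvm
  have hm1 : IsSquare (-1 : F) := by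
    have := isSquare_of_mem_subfield F₀ hq hodd hF₀ hqk (-1)
    simpa using this
  have hzn : ¬ IsSquare (-g) := by
    intro h
    apply hgn
    have := hm1.mul h
    simpa using this
  obtain ⟨X, hX, hXd⟩ := exists_block (F := F) (n := 2 * m) m rfl (-g)
  rw [neg_neg, hgm] at hXd
  let i₀ : Fin (2 * m) := ⟨0, by omega⟩
  have hnonsc : ∀ s : F, X ≠ s • (1 : Matrix (Fin (2 * m)) (Fin (2 * m)) F) := by
    intro s hs
    apply hzn
    have h1 := congrFun (congrFun hX i₀) i₀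
    rw [hs] at h1
    simp [Matrix.smul_mul, Matrix.mul_smul] at h1
    refine ⟨s, ?_⟩
    rw [← h1]
  let x : Matrix.SpecialLinearGroup (Fin (2 * m)) F := ⟨X, hXd⟩
  obtain ⟨P, hP⟩ := hall x ⟨-g, by
    rw [pow_two, Matrix.SpecialLinearGroup.coe_mul]
    exact hX⟩ (fun z hz => hnonsc z hz)
  rw [Subgroup.mem_comap] at hP
  obtain ⟨w, c, hc⟩ := exists_of_mem F₀ _ hP
  have hval : ((Matrix.SpecialLinearGroup.toGL (P⁻¹ * x * P) : GL (Fin (2 * m)) F) : Matrix (Fin (2 * m)) (Fin (2 * m)) F)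
      = ((P⁻¹ : Matrix.SpecialLinearGroup (Fin (2 * m)) F) : Matrix (Fin (2 * m)) (Fin (2 * m)) F) * X * (P : Matrix (Fin (2 * m)) (Fin (2 * m)) F) := rfl
  have hQR : ((P⁻¹ : Matrix.SpecialLinearGroup (Fin (2 * m)) F) : Matrix (Fin (2 * m)) (Fin (2 * m)) F) * (P : Matrix (Fin (2 * m)) (Fin (2 * m)) F) = 1 := by
    have : ((P⁻¹ * P : Matrix.SpecialLinearGroup (Fin (2 * m)) F) : Matrix (Fin (2 * m)) (Fin (2 * m)) F) = 1 := by rw [inv_mul_cancel]; rfl
    rwa [Matrix.SpecialLinearGroup.coe_mul] at this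
  have hRQ : (P : Matrix (Fin (2 * m)) (Fin (2 * m)) F) * ((P⁻¹ : Matrix.SpecialLinearGroup (Fin (2 * m)) F) : Matrix (Fin (2 * m)) (Fin (2 * m)) F) = 1 := by
    have : ((P * P⁻¹ : Matrix.SpecialLinearGroup (Fin (2 * m)) F) : Matrix (Fin (2 * m)) (Fin (2 * m)) F) = 1 := by rw [mul_inv_cancel]; rfl
    rwa [Matrix.SpecialLinearGroup.coe_mul] at this
  set Q := ((P⁻¹ : Matrix.SpecialLinearGroup (Fin (2 * m)) F) : Matrix (Fin (2 * m)) (Fin (2 * m)) F)
  set R := (P : Matrix (Fin (2 * m)) (Fin (2 * m)) F)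
  rw [hval] at hc
  have hYY : (Q * X * R) * (Q * X * R) = (-g) • (1 : Matrix (Fin (2 * m)) (Fin (2 * m)) F) := by
    calc (Q * X * R) * (Q * X * R) = Q * X * (R * Q) * X * R := by simp only [Matrix.mul_assoc]
      _ = Q * (X * X) * R := by rw [hRQ, Matrix.mul_one]; simp only [Matrix.mul_assoc]
      _ = _ := by rw [hX, Matrix.mul_smul, Matrix.smul_mul, Matrix.mul_one, hQR]
  rw [hc, Matrix.smul_mul, Matrix.mul_smul, smul_smul] at hYY
  have hent := congrFun (congrFun hYY i₀) i₀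
  have hmap : (c.map F₀.subtype) * (c.map F₀.subtype) = (c * c).map F₀.subtype := by
    rw [Matrix.map_mul]
  rw [hmap] at hent
  simp only [Matrix.smul_apply, Matrix.map_apply, Matrix.one_apply_eq, smul_eq_mul, mul_one] at hent
  obtain ⟨d, hd⟩ := isSquare_of_mem_subfield F₀ hq hodd hF₀ hqk ((c * c) i₀ i₀)
  apply hzn
  refine ⟨w * d, ?_⟩
  rw [← hent]
  have : F₀.subtype ((c * c) i₀ i₀) = (((c * c) i₀ i₀ : F₀) : F) := rfl
  rw [this, hd]
  ring

theorem geom (R k : ℕ) (hR : Odd R) : ∃ u, (Even u ↔ Even k) ∧ (R - 1) * u + 1 = R ^ k := by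
  obtain ⟨r, hr, rfl⟩ : ∃ r, Even r ∧ R = r + 1 := ⟨R - 1, by
    obtain ⟨t, rfl⟩ := hR
    exact ⟨⟨t, by omega⟩, by omega⟩⟩
  simp only [Nat.add_sub_cancel]
  induction k with
  | zero => exact ⟨0, by simp, by simp⟩
  | succ k ih =>
    obtain ⟨u, hu, h⟩ := ih
    refine ⟨u * (r + 1) + 1, ?_, ?_⟩
    · rw [Nat.even_add_one, Nat.even_add_one, Nat.even_mul, Nat.even_add_one, ← hu]
      simp [hr]
    · rw [pow_succ, ← h]
      ring

theorem key_factor (Q k i d : ℕ) (hQ : Odd Q) (hk : Odd k) (hd : d ≠ 0) :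
    ∃ u, Odd u ∧ (Q ^ k) ^ (i + d) - (Q ^ k) ^ i = (Q ^ (i + d) - Q ^ i) * u := by
  obtain ⟨u, hu, h⟩ := geom (Q ^ d) k hQ.pow
  have hu' : Odd u := by
    rw [← Nat.not_even_iff_odd, hu]
    exact Nat.not_even_iff_odd.mpr hk
  have hk1 : 1 ≤ k := hk.pos
  refine ⟨Q ^ ((k - 1) * i) * u, hQ.pow.mul hu', ?_⟩
  have e1 : (Q ^ k) ^ (i + d) - (Q ^ k) ^ i = (Q ^ k) ^ i * ((Q ^ d) ^ k - 1) := by
    rw [Nat.mul_sub, mul_one, pow_add]
    congr 2
    rw [← pow_mul, ← pow_mul, mul_comm d k]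
  have e2 : Q ^ (i + d) - Q ^ i = Q ^ i * (Q ^ d - 1) := by
    rw [Nat.mul_sub, mul_one, pow_add]
  have e3 : (Q ^ d) ^ k - 1 = (Q ^ d - 1) * u := by
    rw [← h]
    simp
  rw [e1, e2, e3]
  have e4 : (Q ^ k) ^ i = Q ^ i * Q ^ ((k - 1) * i) := by
    rw [← pow_mul, ← pow_add]
    congr 1
    obtain ⟨k', rfl⟩ : ∃ k', k = k' + 1 := ⟨k - 1, by omega⟩
    simp
    ring
  rw [e4]
  ring

theorem key_product (Q k n : ℕ) (hQ : Odd Q) (hk : Odd k) :
    ∃ U, Odd U ∧ ∏ i : Fin n, ((Q ^ k) ^ n - (Q ^ k) ^ (i : ℕ)) = (∏ i : Fin n, (Q ^ n - Q ^ (i : ℕ))) * U := by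
  have : ∀ i : Fin n, ∃ u, Odd u ∧ (Q ^ k) ^ n - (Q ^ k) ^ (i : ℕ) = (Q ^ n - Q ^ (i : ℕ)) * u := by
    intro i
    obtain ⟨d, hd⟩ : ∃ d, n = i + d := ⟨n - i, by omega⟩
    have := key_factor Q k i d hQ hk (by omega)
    rw [← hd] at this
    exact this
  choose u hu hu' using this
  refine ⟨∏ i, u i, ?_, ?_⟩
  · exact Finset.prod_induction _ Odd (fun _ _ h1 h2 => h1.mul h2) odd_one (fun i _ => hu i)
  · rw [← Finset.prod_mul_distrib]
    exact Finset.prod_congr rfl (fun i _ => hu' i)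

theorem odd_index [Fintype F] {q q₀ k : ℕ} (hq : Fintype.card F = q) (hodd : Odd q)
    (hF₀ : Nat.card F₀ = q₀) (hqk : q = q₀ ^ k) (hk : Odd k) (hn0 : n ≠ 0) :
    ¬ 2 ∣ ((Cfsg.Geo.subfieldSubgroup F₀ 1).comap (Matrix.SpecialLinearGroup.toGL : Matrix.SpecialLinearGroup (Fin n) F →* GL (Fin n) F)).index := by
  classical
  intro hdvd
  haveI : Fintype F₀ := Fintype.ofFinite _
  haveI : Nonempty (Fin n) := ⟨⟨0, by omega⟩⟩
  have hc : Fintype.card F₀ = q₀ := by rw [Fintype.card_eq_nat_card, hF₀]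
  have hq₀ : Odd q₀ := by
    by_contra hne
    have : Even q₀ := Nat.not_odd_iff_even.mp hne
    rw [hqk] at hodd
    exact (Nat.not_even_iff_odd.mpr hodd) (this.pow_of_ne_zero hk.pos.ne')
  let φ : Matrix.SpecialLinearGroup (Fin n) F₀ →* Matrix.SpecialLinearGroup (Fin n) F :=
    Matrix.SpecialLinearGroup.map F₀.subtype
  have hφv : ∀ A, ((φ A : Matrix.SpecialLinearGroup (Fin n) F) : Mt) = (A : Matrix (Fin n) (Fin n) F₀).map F₀.subtype := fun A => rfl
  have hinj : Function.Injective φ := by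
    intro A B h
    apply Subtype.ext
    ext i j
    have := congrFun (congrFun (congrArg (fun g : Matrix.SpecialLinearGroup (Fin n) F => (g : Mt)) h) i) j
    simp only [hφv, Matrix.map_apply] at this
    exact this
  have hle : φ.range ≤ ((Cfsg.Geo.subfieldSubgroup F₀ 1).comap (Matrix.SpecialLinearGroup.toGL : Matrix.SpecialLinearGroup (Fin n) F →* GL (Fin n) F)) := by
    rintro _ ⟨A, rfl⟩
    rw [Subgroup.mem_comap]
    apply mem_sub_of F₀ _ 1 one_ne_zero (A : Matrix (Fin n) (Fin n) F₀)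
    rw [one_smul]
    rfl
  have h2 : 2 ∣ φ.range.index := hdvd.trans (Subgroup.index_dvd_of_le hle)
  have hcard : φ.range.index * Nat.card φ.range = Nat.card (Matrix.SpecialLinearGroup (Fin n) F) := Subgroup.index_mul_card _
  have hrange : Nat.card φ.range = Nat.card (Matrix.SpecialLinearGroup (Fin n) F₀) :=
    (Nat.card_congr (MonoidHom.ofInjective hinj).toEquiv).symm
  rw [hrange] at hcard
  have hG1 := Cfsg.Agent.Lib.ClassicalCore.card_GL_eq_mul_card_SL (n := Fin n) (F := F)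
  have hG0 := Cfsg.Agent.Lib.ClassicalCore.card_GL_eq_mul_card_SL (n := Fin n) (F := F₀)
  rw [Matrix.card_GL_field, hq] at hG1
  rw [Matrix.card_GL_field, hc] at hG0
  obtain ⟨U, hU, hprod⟩ := key_product q₀ k n hq₀ hk
  rw [← hqk, hG1, hG0] at hprod
  obtain ⟨w, -, hw⟩ := geom q₀ k hq₀
  have hq₀2 : 2 ≤ q₀ := by
    have := Fintype.one_lt_card (α := F₀)
    omega
  have hq1 : q - 1 = (q₀ - 1) * w := by
    rw [hqk, ← hw]
    simp
  rw [hq1, mul_assoc, mul_assoc] at hprod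
  have h3 := Nat.eq_of_mul_eq_mul_left (by omega : 0 < q₀ - 1) hprod
  obtain ⟨t, ht⟩ := h2
  rw [ht] at hcard
  rw [← hcard] at h3
  have hApos : 0 < Nat.card (Matrix.SpecialLinearGroup (Fin n) F₀) := Nat.card_pos
  have h4 : w * (2 * t) = U := by
    apply Nat.eq_of_mul_eq_mul_left hApos
    rw [← h3]
    ring
  rw [← h4] at hU
  exact (Nat.not_even_iff_odd.mpr hU) ⟨w * t, by ring⟩



/-- Involutions of PSL_n(q) and subfield subgroups. Here `T = PSL_n(F)` for a field `F` with `q = p^f` elements (`n ≥ 2`, `(n, q) ≠ (2, 2), (2, 3)`), `F₀` is the subfield with `q₀` elements where `q = q₀^k` for a prime `k`, and `H` is the subgroup of matrices of determinant 1 lying in the subfield group of `F₀` (invertible matrices over `F₀` times scalars) — a maximal subgroup of type GL_n(q₀) (the case `n = 2`, `q₀ = 2` is excluded); Ω is the set of `T`-conjugates of `H` (cosets of `H`), so an element of `T` of prime order `r` (a matrix `x` of determinant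 1 with `x^r` scalar, `x` not scalar) fixes a point of Ω when some conjugate of `x` by a matrix of determinant 1 lies in `H`. Suppose the index of `H` is even. Then every involution of `T` is conjugate in `T` into `H` if and only if either `q` is even, or `k = 2` and `(n)_2 ≤ (q − 1)_2`. (For `q` odd and `k` odd the index of `H` is odd, so that case does not arise.) -/
theorem result {F : Type*} [Field F] [Fintype F] {p : ℕ} [Fact p.Prime] [CharP F p] {q : ℕ} (hq : Fintype.card F = q)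
    (n : ℕ) (hn : 2 ≤ n) (hT : (n, q) ≠ (2, 2) ∧ (n, q) ≠ (2, 3))
    (F₀ : Subfield F) (k q₀ : ℕ) (hk : k.Prime) (hF₀ : Nat.card ↥F₀ = q₀) (hqk : q = q₀ ^ k) (hC5 : ¬ (n = 2 ∧ q₀ = 2)) (hΩ : 2 ∣ ((Cfsg.Geo.subfieldSubgroup F₀ 1).comap (Matrix.SpecialLinearGroup.toGL : Matrix.SpecialLinearGroup (Fin n) F →* GL (Fin n) F)).index) :
    (∀ x : Matrix.SpecialLinearGroup (Fin n) F,
      (∃ z : F, ((x ^ 2 : Matrix.SpecialLinearGroup (Fin n) F) : Matrix (Fin n) (Fin n) F) = z • (1 : Matrix (Fin n) (Fin n) F)) →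
      (∀ z : F, (x : Matrix (Fin n) (Fin n) F) ≠ z • (1 : Matrix (Fin n) (Fin n) F)) →
      ∃ P : Matrix.SpecialLinearGroup (Fin n) F, P⁻¹ * x * P ∈ ((Cfsg.Geo.subfieldSubgroup F₀ 1).comap (Matrix.SpecialLinearGroup.toGL : Matrix.SpecialLinearGroup (Fin n) F →* GL (Fin n) F))) ↔
    (Odd q → (k = 2 ∧ padicValNat 2 n ≤ padicValNat 2 (q - 1))) := by
  have hn0 : n ≠ 0 := by omega
  refine ⟨fun hall hoddq => ?_, fun hright => ?_⟩
  · have hk2 : k = 2 := by
      by_contra hk2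
      have hkodd : Odd k := hk.eq_two_or_odd'.resolve_left hk2
      exact odd_index F₀ hq hoddq hF₀ hqk hkodd hn0 hΩ
    refine ⟨hk2, ?_⟩
    subst hk2
    by_contra hv
    exact exists_bad F₀ hq hoddq hF₀ hqk hn0 (not_le.mp hv) hall
  · rintro x ⟨z, hz⟩ hx
    apply Cfsg.Agent.Lib.InvolConj.reduce_GL _ x z hz hx
    have hzz : (x : Matrix (Fin n) (Fin n) F) * x = z • (1 : Matrix (Fin n) (Fin n) F) := by
      rw [pow_two, Matrix.SpecialLinearGroup.coe_mul] at hz
      exact hz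
    have hw0' : ∀ w : F, z = w * w → w ≠ 0 := by
      rintro w rfl rfl
      have h1 := congrArg Matrix.det hzz
      have hxd : (x : Matrix (Fin n) (Fin n) F).det = 1 := x.2
      haveI : Nonempty (Fin n) := ⟨⟨0, by omega⟩⟩
      rw [Matrix.det_mul, hxd] at h1
      simp at h1
    by_cases hodd : Odd q
    · obtain ⟨hk2, hv⟩ := hright hodd
      subst hk2
      by_cases hsq : IsSquare z
      · obtain ⟨w, rfl⟩ := hsq
        exact case_sq F₀ hq hodd (Matrix.SpecialLinearGroup.toGL x) w (hw0' w rfl) hzz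
      · exact (no_nonsq F₀ hq hodd hF₀ hqk hn0 hv x z hzz hsq).elim
    · have h2F := Cfsg.Agent.Lib.InvolConj.two_eq_zero_of_even hq hodd
      haveI : CharP F 2 := CharTwo.of_one_ne_zero_of_two_eq_zero one_ne_zero h2F
      have hc : ringChar F = 2 := ringChar.eq F 2
      obtain ⟨w, rfl⟩ : IsSquare z := FiniteField.isSquare_of_char_two hc z
      exact case_even F₀ h2F (Matrix.SpecialLinearGroup.toGL x) w (hw0' w rfl) hzz

end Cfsg.Agent.S5964
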