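import Mathlib
import Cfsg.Agent.Lib.SqScalar
import Cfsg.Agent.Lib.MatConj
import Cfsg.Agent.Lib.EigenThree
import Cfsg.Agent.S5971
import Cfsg.Agent.Lib.InvolConj
import Cfsg.Statements.S5979
-- import your own Cfsg.Agent.* helpers here

set_option autoImplicit false
open scoped MatrixGroups
open Cfsg

namespace Cfsg.Agent.S5979

open scoped Kronecker
open Matrix Module Polynomial Cfsg.Geo
open Cfsg.Agent.Lib.SqScalar Cfsg.Agent.Lib.MatConj Cfsg.Agent.Lib.EigenThree

set_option linter.unusedSimpArgs false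
set_option linter.unusedVariables false
set_option linter.unusedSectionVars false

variable {F : Type*} [Field F]

section rank

variable {ι κ : Type*} [Fintype ι] [DecidableEq ι] [Fintype κ] [DecidableEq κ]

/-- pure tensors -/
def tn (u : ι → F) (v : κ → F) : ι × κ → F := fun a => u a.1 * v a.2

theorem kron_mulVec_tn (A : Matrix ι ι F) (B : Matrix κ κ F) (u : ι → F) (v : κ → F) :
    (A ⊗ₖ B) *ᵥ tn u v = tn (A *ᵥ u) (B *ᵥ v) := by
  ext ⟨i, j⟩
  simp only [Matrix.mulVec, dotProduct, tn, kroneckerMap_apply, Fintype.sum_prod_type, Finset.sum_mul_sum]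
  refine Finset.sum_congr rfl fun k _ => Finset.sum_congr rfl fun l _ => by ring

/-- `u ↦ u ⊗ v` -/
def tnL (v : κ → F) : (ι → F) →ₗ[F] (ι × κ → F) where
  toFun u := tn u v
  map_add' u u' := by ext a; simp [tn, add_mul]
  map_smul' c u := by ext a; simp [tn, mul_assoc]

theorem card_le_rank (A : Matrix ι ι F) (hA : A.det ≠ 0) (B : Matrix κ κ F) (hB : ∀ c : F, B ≠ c • (1 : Matrix κ κ F)) (c : F) :
    Fintype.card ι ≤ ((A ⊗ₖ B) - c • (1 : Matrix (ι × κ) (ι × κ) F)).rank := by
  obtain ⟨v, hv⟩ := exists_not_eigen B hB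
  obtain ⟨l, hl0, hl1⟩ := exists_row B v hv
  let L : (ι → F) →ₗ[F] (ι × κ → F) := ((A ⊗ₖ B) - c • (1 : Matrix (ι × κ) (ι × κ) F)).mulVecLin ∘ₗ tnL v
  have hLu : ∀ u, L u = tn (A *ᵥ u) (B *ᵥ v) - c • tn u v := by
    intro u
    show ((A ⊗ₖ B) - c • (1 : Matrix (ι × κ) (ι × κ) F)) *ᵥ tn u v = _
    rw [Matrix.sub_mulVec, kron_mulVec_tn, Matrix.smul_mulVec, Matrix.one_mulVec]
  have hinj : Function.Injective L := by
    rw [← LinearMap.ker_eq_bot, LinearMap.ker_eq_bot']
    intro u hu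
    rw [hLu] at hu
    apply Matrix.eq_zero_of_mulVec_eq_zero hA
    ext i
    have h1 : ∑ j, (tn (A *ᵥ u) (B *ᵥ v) - c • tn u v) (i, j) * l j = 0 := by
      rw [hu]
      simp
    have h2 : ∑ j, (tn (A *ᵥ u) (B *ᵥ v) - c • tn u v) (i, j) * l j =
        (A *ᵥ u) i * (l ⬝ᵥ (B *ᵥ v)) - c * u i * (l ⬝ᵥ v) := by
      simp only [dotProduct, Finset.mul_sum, ← Finset.sum_sub_distrib]
      refine Finset.sum_congr rfl fun j _ => ?_
      simp only [tn, Pi.sub_apply, Pi.smul_apply, smul_eq_mul]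
      ring
    rw [h2, hl0, hl1] at h1
    simpa using h1
  calc Fintype.card ι = finrank F (ι → F) := (Module.finrank_fintype_fun_eq_card F).symm
    _ = finrank F (LinearMap.range L) := (LinearMap.finrank_range_of_inj hinj).symm
    _ ≤ finrank F (LinearMap.range ((A ⊗ₖ B) - c • (1 : Matrix (ι × κ) (ι × κ) F)).mulVecLin) :=
        Submodule.finrank_mono (LinearMap.range_comp_le_range _ _)
    _ = _ := rfl

theorem rank_swap (A : Matrix ι ι F) (B : Matrix κ κ F) (c : F) :
    ((A ⊗ₖ B) - c • (1 : Matrix (ι × κ) (ι × κ) F)).rank = ((B ⊗ₖ A) - c • (1 : Matrix (κ × ι) (κ × ι) F)).rank := by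
  have : ((B ⊗ₖ A) - c • (1 : Matrix (κ × ι) (κ × ι) F)) =
      ((A ⊗ₖ B) - c • (1 : Matrix (ι × κ) (ι × κ) F)).submatrix (Equiv.prodComm κ ι) (Equiv.prodComm κ ι) := by
    ext ⟨i, j⟩ ⟨k, l⟩
    simp [Matrix.one_apply, mul_comm, and_comm]
  rw [this, Matrix.rank_submatrix]

theorem card_le_rank' (A : Matrix ι ι F) (hA : ∀ c : F, A ≠ c • (1 : Matrix ι ι F)) (B : Matrix κ κ F) (hB : B.det ≠ 0) (c : F) :
    Fintype.card κ ≤ ((A ⊗ₖ B) - c • (1 : Matrix (ι × κ) (ι × κ) F)).rank := by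
  rw [rank_swap]
  exact card_le_rank B hB A hA c

/-- The rank of `1 ⊗ M`. -/
theorem rank_one_kron (M : Matrix κ κ F) :
    ((1 : Matrix ι ι F) ⊗ₖ M).rank = Fintype.card ι * M.rank := by
  let W := LinearMap.range M.mulVecLin
  let C : (ι × κ → F) ≃ₗ[F] (ι → κ → F) := LinearEquiv.curry F F ι κ
  let g : (ι → κ → F) →ₗ[F] (ι → W) := LinearMap.compLeft M.mulVecLin.rangeRestrict ι
  let f : (ι → W) →ₗ[F] (ι → κ → F) := LinearMap.compLeft W.subtype ι
  have hg : LinearMap.range g = ⊤ := by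
    rw [LinearMap.range_eq_top]
    intro w
    have hs : Function.Surjective M.mulVecLin.rangeRestrict := LinearMap.surjective_rangeRestrict _
    choose t ht using hs
    exact ⟨fun i => t (w i), by ext i; simp [g, ht]⟩
  have hf : Function.Injective f := by
    intro u u' h
    ext i k
    have := congrFun (congrFun h i) k
    simpa [f] using this
  have hL : ((1 : Matrix ι ι F) ⊗ₖ M).mulVecLin = C.symm.toLinearMap ∘ₗ (f ∘ₗ g) ∘ₗ C.toLinearMap := by
    apply LinearMap.ext
    rintro w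
    ext ⟨i, j⟩
    have : ((1 : Matrix ι ι F) ⊗ₖ M).mulVecLin w (i, j) = ∑ l, M j l * w (i, l) := by
      simp only [Matrix.mulVecLin_apply, Matrix.mulVec, dotProduct, Fintype.sum_prod_type, kroneckerMap_apply, Matrix.one_apply]
      rw [Finset.sum_eq_single i]
      · simp
      · intro k _ hk
        simp [hk.symm]
      · simp
    rw [this]
    rfl
  show finrank F (LinearMap.range ((1 : Matrix ι ι F) ⊗ₖ M).mulVecLin) = _
  rw [hL, LinearMap.range_comp, LinearEquiv.finrank_map_eq, LinearEquiv.range_comp, LinearMap.range_comp_of_range_eq_top _ hg,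
    LinearMap.finrank_range_of_inj hf, Module.finrank_pi_fintype]
  simp [W, Matrix.rank]

theorem pow_one_add {m : Type*} [Fintype m] [DecidableEq m] (N : Matrix m m F) (hN : N * N = 0) (k : ℕ) :
    (1 + N) ^ k = 1 + (k : F) • N := by
  induction k with
  | zero => simp
  | succ k ih =>
    rw [pow_succ, ih]
    simp only [Matrix.add_mul, Matrix.mul_add, Matrix.smul_mul, hN, Matrix.one_mul, Matrix.mul_one, smul_zero, add_zero,
      Nat.cast_succ, add_smul, one_smul]
    abel

section keyLemma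

variable [Fintype F] {q r : ℕ}

theorem exists_dvd_of_order {k : ℕ} (hq : Fintype.card F = q) (hr : r.Prime) (hrq : ¬ r ∣ q)
    (M : GL (Fin k) F) (hM : M ^ r = 1) (hM1 : M ≠ 1) : ∃ i, 0 < i ∧ i ≤ k ∧ r ∣ q ^ i - 1 := by
  haveI : Fact r.Prime := ⟨hr⟩
  have ho : orderOf M = r := orderOf_eq_prime hM hM1
  have h1 : r ∣ Nat.card (GL (Fin k) F) := ho ▸ orderOf_dvd_natCard M
  rw [Matrix.card_GL_field, hq] at h1
  obtain ⟨i, -, hi⟩ := (Prime.dvd_finset_prod_iff hr.prime _).mp h1
  have hik : (i : ℕ) < k := i.2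
  refine ⟨k - i, by omega, by omega, ?_⟩
  have hh : q ^ k - q ^ (i : ℕ) = q ^ (i : ℕ) * (q ^ (k - i) - 1) := by
    rw [Nat.mul_sub, ← pow_add, mul_one]
    congr 2
    omega
  rw [hh] at hi
  exact (hr.dvd_mul.mp hi).resolve_left (fun h => hrq (hr.dvd_of_dvd_pow h))

theorem le_rank {m d : ℕ} (hq : Fintype.card F = q) (hr : r.Prime) (hrq : ¬ r ∣ q) (hrF : (r : F) ≠ 0)
    (hmin : ∀ i, 0 < i → r ∣ q ^ i - 1 → d ≤ i)
    (y : GL (Fin m) F) (hy : y ^ r = 1) (hy1 : y ≠ 1) : d ≤ ((y : Matrix (Fin m) (Fin m) F) - 1).rank := by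
  classical
  set Y : Matrix (Fin m) (Fin m) F := (y : Matrix (Fin m) (Fin m) F) with hY
  have hYr : Y ^ r = 1 := by
    have := congrArg Units.val hy
    simpa using this
  let W : Submodule F (Fin m → F) := LinearMap.range (Y - 1).mulVecLin
  have hW : ∀ v ∈ W, Y.mulVecLin v ∈ W := by
    rintro _ ⟨u, rfl⟩
    refine ⟨Y *ᵥ u, ?_⟩
    simp only [Matrix.mulVecLin_apply, Matrix.mulVec_mulVec]
    congr 1
    noncomm_ring
  let f : Module.End F W := Y.mulVecLin.restrict hW
  have hfk : ∀ (k : ℕ) (v : W), (((f ^ k) v : W) : Fin m → F) = (Y ^ k) *ᵥ (v : Fin m → F) := by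
    intro k
    induction k with
    | zero => intro v; simp
    | succ k ih =>
      intro v
      rw [pow_succ, Module.End.mul_apply, ih, pow_succ, ← Matrix.mulVec_mulVec]
      rfl
  have hfr : f ^ r = 1 := by
    apply LinearMap.ext
    intro v
    apply Subtype.ext
    rw [hfk, hYr, Matrix.one_mulVec]
    rfl
  let b : Basis (Fin (finrank F W)) F W := Module.finBasisOfFinrankEq F W rfl
  let M : Matrix (Fin (finrank F W)) (Fin (finrank F W)) F := LinearMap.toMatrixAlgEquiv b f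
  have hMr : M ^ r = 1 := by
    show (LinearMap.toMatrixAlgEquiv b f) ^ r = 1
    rw [← map_pow, hfr, map_one]
  let u : GL (Fin (finrank F W)) F := Units.ofPowEqOne M r hMr hr.ne_zero
  have hur : u ^ r = 1 := Units.ext (by
    rw [Units.val_pow_eq_pow_val]
    exact hMr)
  have hu1 : u ≠ 1 := by
    intro h
    have hM1 : M = 1 := congrArg Units.val h
    have hf1 : f = 1 := (LinearMap.toMatrixAlgEquiv b).injective (by
      show M = _
      rw [hM1, map_one])
    have hN : (Y - 1) * (Y - 1) = 0 := by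
      apply Matrix.toLin'.injective
      apply LinearMap.ext
      intro v
      have h1 : (Y - 1) *ᵥ v ∈ W := ⟨v, rfl⟩
      have h2 : f ⟨_, h1⟩ = ⟨_, h1⟩ := by rw [hf1]; rfl
      have h3 : Y *ᵥ ((Y - 1) *ᵥ v) = (Y - 1) *ᵥ v := congrArg Subtype.val h2
      show ((Y - 1) * (Y - 1)) *ᵥ v = 0 *ᵥ v
      rw [← Matrix.mulVec_mulVec, Matrix.sub_mulVec ( Y) 1 ((Y - 1) *ᵥ v), h3, Matrix.one_mulVec, sub_self, Matrix.zero_mulVec]
    have h4 := pow_one_add (Y - 1) hN r
    rw [add_sub_cancel, hYr] at h4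
    apply hy1
    apply Units.ext
    have h5 : (r : F) • (Y - 1) = 0 := by
      have := sub_eq_zero.mpr h4
      rw [← sub_sub, sub_self, zero_sub, neg_eq_zero] at this
      exact this
    have h6 := (smul_eq_zero.mp h5).resolve_left hrF
    exact sub_eq_zero.mp h6
  obtain ⟨i, h0, hik, hdv⟩ := exists_dvd_of_order hq hr hrq u hur hu1
  exact (hmin i h0 hdv).trans hik

theorem eq_one_of_pow (hq : Fintype.card F = q) (hr : r.Prime) (hrq1 : ¬ r ∣ q - 1) {z : F} (h : z ^ r = 1) : z = 1 := by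
  have hz0 : z ≠ 0 := by
    rintro rfl
    rw [zero_pow hr.ne_zero] at h
    exact zero_ne_one h
  have h2 : z ^ (q - 1) = 1 := by
    rw [← hq]
    exact FiniteField.pow_card_sub_one_eq_one z hz0
  have hco : Nat.Coprime r (q - 1) := (Nat.Prime.coprime_iff_not_dvd hr).2 hrq1
  have h3 := (pow_gcd_eq_one).mpr ⟨h, h2⟩
  rwa [Nat.Coprime.gcd_eq_one hco, pow_one] at h3

theorem exists_pow_eq (hq : Fintype.card F = q) (hr : r.Prime) (hrq1 : ¬ r ∣ q - 1) (α : F) (hα : α ≠ 0) :
    ∃ γ : F, γ ≠ 0 ∧ γ ^ r = α := by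
  classical
  have hinj : Function.Injective (powMonoidHom r : Fˣ →* Fˣ) := by
    rw [injective_iff_map_eq_one]
    intro u hu
    apply Units.ext
    have : ((u ^ r : Fˣ) : F) = 1 := by
      have h1 : (u ^ r : Fˣ) = 1 := hu
      rw [h1]
      rfl
    rw [Units.val_pow_eq_pow_val] at this
    exact eq_one_of_pow hq hr hrq1 this
  obtain ⟨u, hu⟩ := Finite.surjective_of_injective hinj (Units.mk0 α hα)
  refine ⟨u, u.ne_zero, ?_⟩
  have : ((u ^ r : Fˣ) : F) = α := by
    have h1 : (u ^ r : Fˣ) = Units.mk0 α hα := hu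
    rw [h1]
    rfl
  simpa using this

end keyLemma

section fix

theorem kron_pow {ι κ : Type*} [Fintype ι] [DecidableEq ι] [Fintype κ] [DecidableEq κ]
    (A : Matrix ι ι F) (B : Matrix κ κ F) (k : ℕ) : (A ⊗ₖ B) ^ k = (A ^ k) ⊗ₖ (B ^ k) := by
  induction k with
  | zero => simp
  | succ k ih => rw [pow_succ, ih, ← Matrix.mul_kronecker_mul, ← pow_succ, ← pow_succ]

theorem kron_eq_one {ι κ : Type*} [Fintype ι] [DecidableEq ι] [Fintype κ] [DecidableEq κ] [Nonempty ι] [Nonempty κ]
    (A : Matrix ι ι F) (B : Matrix κ κ F) (h : A ⊗ₖ B = 1) :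
    ∃ α β : F, A = α • (1 : Matrix ι ι F) ∧ B = β • (1 : Matrix κ κ F) ∧ α * β = 1 := by
  have h1 : ∀ i j k l, A i k * B j l = if (i = k ∧ j = l) then 1 else 0 := by
    intro i j k l
    have := congrFun (congrFun h (i, j)) (k, l)
    simpa [Matrix.one_apply, Prod.mk_inj] using this
  obtain ⟨i₀⟩ := ‹Nonempty ι›
  obtain ⟨j₀⟩ := ‹Nonempty κ›
  have hab : A i₀ i₀ * B j₀ j₀ = 1 := by simpa using h1 i₀ j₀ i₀ j₀
  have hα : A i₀ i₀ ≠ 0 := left_ne_zero_of_mul_eq_one hab
  have hβ : B j₀ j₀ ≠ 0 := right_ne_zero_of_mul_eq_one hab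
  refine ⟨A i₀ i₀, B j₀ j₀, ?_, ?_, hab⟩
  · ext i k
    simp only [Matrix.smul_apply, Matrix.one_apply, smul_eq_mul]
    by_cases hik : i = k
    · subst hik
      have h2 : A i i * B j₀ j₀ = 1 := by simpa using h1 i j₀ i j₀
      simp only [if_true, mul_one]
      exact mul_right_cancel₀ hβ (h2.trans hab.symm)
    · have h2 : A i k * B j₀ j₀ = 0 := by simpa [hik] using h1 i j₀ k j₀
      simpa [hik, hβ] using h2
  · ext j l
    simp only [Matrix.smul_apply, Matrix.one_apply, smul_eq_mul]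
    by_cases hjl : j = l
    · subst hjl
      have h2 : A i₀ i₀ * B j j = 1 := by simpa using h1 i₀ j i₀ j
      simp only [if_true, mul_one]
      exact mul_left_cancel₀ hα (h2.trans hab.symm)
    · have h2 : A i₀ i₀ * B j l = 0 := by simpa [hjl] using h1 i₀ j i₀ l
      simpa [hjl, hα] using h2

variable {n a b : ℕ}

/-- The data of a conjugate of `x` being a Kronecker product. -/
def FixD (e : Fin n ≃ Fin a × Fin b) (x : GL (Fin n) F) (Q : GL (Fin n) F) (A : GL (Fin a) F) (B : GL (Fin b) F) : Prop :=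
  ((Q⁻¹ * x * Q : GL (Fin n) F) : Matrix (Fin n) (Fin n) F) =
    ((A : Matrix (Fin a) (Fin a) F) ⊗ₖ (B : Matrix (Fin b) (Fin b) F)).submatrix e e

theorem fixD_of_mem (e : Fin n ≃ Fin a × Fin b) (P g x : GL (Fin n) F) (h : g⁻¹ * x * g ∈ tensorProductSubgroup a b e P) :
    ∃ Q A B, FixD e x Q A B := by
  obtain ⟨K, hK, hKe⟩ := h
  obtain ⟨K₀, hK₀, rfl⟩ := hK
  obtain ⟨A, B, hAB⟩ := hK₀
  refine ⟨g * P, A, B, ?_⟩
  have h1 : (g * P)⁻¹ * x * (g * P) = glReindex e.symm K₀ := by
    have h2 : P * glReindex e.symm K₀ * P⁻¹ = g⁻¹ * x * g := hKe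
    have h3 : (g * P)⁻¹ * x * (g * P) = P⁻¹ * (g⁻¹ * x * g) * P := by group
    rw [h3, ← h2]
    group
  unfold FixD
  rw [h1, ← hAB]
  rfl

theorem mem_of_fixD (e : Fin n ≃ Fin a × Fin b) (P x Q : GL (Fin n) F) (A : GL (Fin a) F) (B : GL (Fin b) F) (h : FixD e x Q A B) :
    (Q * P⁻¹)⁻¹ * x * (Q * P⁻¹) ∈ tensorProductSubgroup a b e P := by
  let K₀ : GL (Fin a × Fin b) F := glReindex e (Q⁻¹ * x * Q)
  have hK₀ : K₀ ∈ kroneckerSubgroup a b F := by
    refine ⟨A, B, ?_⟩
    have : (K₀ : Matrix _ _ F) = ((Q⁻¹ * x * Q : GL (Fin n) F) : Matrix (Fin n) (Fin n) F).submatrix e.symm e.symm := rfl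
    rw [this, h]
    ext i j
    simp
  refine ⟨glReindex e.symm K₀, ⟨K₀, hK₀, rfl⟩, ?_⟩
  have h2 : glReindex e.symm K₀ = Q⁻¹ * x * Q := by
    apply Units.ext
    ext i j
    show ((Q⁻¹ * x * Q : GL (Fin n) F) : Matrix (Fin n) (Fin n) F) (e.symm (e.symm.symm i)) (e.symm (e.symm.symm j)) = _
    simp
  show P * glReindex e.symm K₀ * P⁻¹ = _
  rw [h2]
  group

theorem scalar_of_conj (x Q : GL (Fin n) F) (z : F)
    (h : ((Q⁻¹ * x * Q : GL (Fin n) F) : Matrix (Fin n) (Fin n) F) = z • (1 : Matrix (Fin n) (Fin n) F)) :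
    (x : Matrix (Fin n) (Fin n) F) = z • (1 : Matrix (Fin n) (Fin n) F) := by
  have h1 : x = Q * (Q⁻¹ * x * Q) * Q⁻¹ := by group
  have h2 := congrArg Units.val h1
  rw [Units.val_mul, Units.val_mul, h, Matrix.mul_smul, Matrix.mul_one, Matrix.smul_mul, ← Units.val_mul, mul_inv_cancel] at h2
  simpa using h2

theorem rank_fix (e : Fin n ≃ Fin a × Fin b) (x Q : GL (Fin n) F) (A : GL (Fin a) F) (B : GL (Fin b) F) (h : FixD e x Q A B) (c : F) :
    ((x : Matrix (Fin n) (Fin n) F) - c • (1 : Matrix (Fin n) (Fin n) F)).rank =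
      (((A : Matrix (Fin a) (Fin a) F) ⊗ₖ (B : Matrix (Fin b) (Fin b) F)) - c • (1 : Matrix (Fin a × Fin b) (Fin a × Fin b) F)).rank := by
  have h1 : (((A : Matrix (Fin a) (Fin a) F) ⊗ₖ (B : Matrix (Fin b) (Fin b) F)) - c • (1 : Matrix (Fin a × Fin b) (Fin a × Fin b) F)).submatrix e e =
      ((Q⁻¹ : GL (Fin n) F) : Matrix (Fin n) (Fin n) F) * ((x : Matrix (Fin n) (Fin n) F) - c • (1 : Matrix (Fin n) (Fin n) F)) * (Q : Matrix (Fin n) (Fin n) F) := by
    have h2 : ((Q⁻¹ : GL (Fin n) F) : Matrix (Fin n) (Fin n) F) * (x : Matrix (Fin n) (Fin n) F) * (Q : Matrix (Fin n) (Fin n) F) =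
      ((A : Matrix (Fin a) (Fin a) F) ⊗ₖ (B : Matrix (Fin b) (Fin b) F)).submatrix e e := by
      rw [← h]
      rfl
    have h3 : ((Q⁻¹ : GL (Fin n) F) : Matrix (Fin n) (Fin n) F) * (Q : Matrix (Fin n) (Fin n) F) = 1 := by
      rw [← Units.val_mul, inv_mul_cancel]
      rfl
    rw [Matrix.mul_sub, Matrix.sub_mul, h2, Matrix.mul_smul, Matrix.mul_one, Matrix.smul_mul, h3]
    ext i j
    simp [Matrix.one_apply]
  rw [← Matrix.rank_submatrix _ e e, h1, Matrix.rank_mul_eq_left_of_isUnit_det _ _ (Matrix.isUnits_det_units Q),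
    Matrix.rank_mul_eq_right_of_isUnit_det _ _ (Matrix.isUnits_det_units Q⁻¹)]

theorem det_ne_zero_GL {ι : Type*} [Fintype ι] [DecidableEq ι] (A : GL ι F) : (A : Matrix ι ι F).det ≠ 0 :=
  (Matrix.isUnits_det_units A).ne_zero

/-- Either factor nonscalar gives rank at least `a`. -/
theorem le_rank_of_fix (e : Fin n ≃ Fin a × Fin b) (hab : a < b) (x Q : GL (Fin n) F) (A : GL (Fin a) F) (B : GL (Fin b) F)
    (h : FixD e x Q A B) (hx : ∀ z : F, (x : Matrix (Fin n) (Fin n) F) ≠ z • (1 : Matrix (Fin n) (Fin n) F)) (c : F) :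
    a ≤ ((x : Matrix (Fin n) (Fin n) F) - c • (1 : Matrix (Fin n) (Fin n) F)).rank := by
  rw [rank_fix e x Q A B h]
  by_cases hB : ∃ β : F, (B : Matrix (Fin b) (Fin b) F) = β • (1 : Matrix (Fin b) (Fin b) F)
  · obtain ⟨β, hβ⟩ := hB
    by_cases hA : ∃ α : F, (A : Matrix (Fin a) (Fin a) F) = α • (1 : Matrix (Fin a) (Fin a) F)
    · obtain ⟨α, hα⟩ := hA
      exfalso
      apply hx (α * β)
      apply scalar_of_conj x Q
      rw [h, hα, hβ, smul_kronecker, kronecker_smul, Matrix.one_kronecker_one]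
      ext i j
      simp only [Matrix.submatrix_apply, Matrix.smul_apply, Matrix.one_apply, EmbeddingLike.apply_eq_iff_eq, smul_eq_mul]
      ring
    · have := card_le_rank' (A : Matrix (Fin a) (Fin a) F) (fun c hc => hA ⟨c, hc⟩) (B : Matrix (Fin b) (Fin b) F) (det_ne_zero_GL B) c
      simp only [Fintype.card_fin] at this
      omega
  · simpa using card_le_rank (A : Matrix (Fin a) (Fin a) F) (det_ne_zero_GL A) (B : Matrix (Fin b) (Fin b) F) (fun c hc => hB ⟨c, hc⟩) c


theorem rank_kron_scalar (e : Fin n ≃ Fin a × Fin b) (α : F) (B : Matrix (Fin b) (Fin b) F) (c : F) :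
    ((α • (1 : Matrix (Fin a) (Fin a) F)) ⊗ₖ B - c • (1 : Matrix (Fin a × Fin b) (Fin a × Fin b) F)).rank =
      a * (α • B - c • (1 : Matrix (Fin b) (Fin b) F)).rank := by
  have : (α • (1 : Matrix (Fin a) (Fin a) F)) ⊗ₖ B - c • (1 : Matrix (Fin a × Fin b) (Fin a × Fin b) F) =
      (1 : Matrix (Fin a) (Fin a) F) ⊗ₖ (α • B - c • (1 : Matrix (Fin b) (Fin b) F)) := by
    ext ⟨i, j⟩ ⟨k, l⟩
    by_cases hik : i = k
    · subst hik
      simp [Matrix.one_apply]
    · simp [Matrix.one_apply, hik]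
  rw [this, rank_one_kron, Fintype.card_fin]

/-- All ranks are divisible by `a` once the first factor is scalar. -/
theorem dvd_rank_of_fix (e : Fin n ≃ Fin a × Fin b) (hab : a < b) (x Q : GL (Fin n) F) (A : GL (Fin a) F) (B : GL (Fin b) F)
    (h : FixD e x Q A B) (c : F) (hc : ((x : Matrix (Fin n) (Fin n) F) - c • (1 : Matrix (Fin n) (Fin n) F)).rank < b) (c' : F) :
    a ∣ ((x : Matrix (Fin n) (Fin n) F) - c' • (1 : Matrix (Fin n) (Fin n) F)).rank := by
  have hA : ∃ α : F, (A : Matrix (Fin a) (Fin a) F) = α • (1 : Matrix (Fin a) (Fin a) F) := by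
    by_contra hA
    have := card_le_rank' (A : Matrix (Fin a) (Fin a) F) (fun c hc => hA ⟨c, hc⟩) (B : Matrix (Fin b) (Fin b) F) (det_ne_zero_GL B) c
    rw [← rank_fix e x Q A B h, Fintype.card_fin] at this
    omega
  obtain ⟨α, hα⟩ := hA
  rw [rank_fix e x Q A B h, hα, rank_kron_scalar e]
  exact Dvd.intro _ rfl

end fix


section large

variable [Fintype F] {q r n a b : ℕ}

theorem no_fix_large (hq : Fintype.card F = q) (hr : r.Prime) (hrq : ¬ r ∣ q) (hrq1 : ¬ r ∣ q - 1) (hrF : (r : F) ≠ 0)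
    {d : ℕ} (hd : 0 < d) (hmin : ∀ i, 0 < i → r ∣ q ^ i - 1 → d ≤ i)
    (e : Fin n ≃ Fin a × Fin b) (ha : 2 ≤ a) (hab : a < b) (x : GL (Fin n) F) (hxr : x ^ r = 1) (hx1 : x ≠ 1)
    (hrank : ((x : Matrix (Fin n) (Fin n) F) - 1).rank ≤ d) (Q : GL (Fin n) F) (A : GL (Fin a) F) (B : GL (Fin b) F)
    (h : FixD e x Q A B) : False := by
  classical
  haveI : Nonempty (Fin a) := ⟨⟨0, by omega⟩⟩
  haveI : Nonempty (Fin b) := ⟨⟨0, by omega⟩⟩
  have hKr : ((A : Matrix (Fin a) (Fin a) F) ⊗ₖ (B : Matrix (Fin b) (Fin b) F)) ^ r = 1 := by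
    have h1 : (A : Matrix (Fin a) (Fin a) F) ⊗ₖ (B : Matrix (Fin b) (Fin b) F) =
        Matrix.reindexAlgEquiv F F e (((Q⁻¹ * x * Q : GL (Fin n) F) : Matrix (Fin n) (Fin n) F)) := by
      rw [h]
      ext i j
      simp
    rw [h1, ← map_pow, ← Units.val_pow_eq_pow_val]
    have h2 : (Q⁻¹ * x * Q) ^ r = 1 := by
      have h3 : Q⁻¹ * x * Q = Q⁻¹ * x * (Q⁻¹)⁻¹ := by rw [inv_inv]
      rw [h3, conj_pow, hxr]
      group
    rw [h2]
    simp
  rw [kron_pow] at hKr
  obtain ⟨α, β, hα, hβ, hαβ⟩ := kron_eq_one _ _ hKr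
  obtain ⟨γ, hγ0, hγ⟩ := exists_pow_eq hq hr hrq1 α (left_ne_zero_of_mul_eq_one hαβ)
  let A₁ : GL (Fin a) F := Matrix.GeneralLinearGroup.mkOfDetNeZero (γ⁻¹ • (A : Matrix (Fin a) (Fin a) F)) (by
    rw [Matrix.det_smul]
    exact mul_ne_zero (pow_ne_zero _ (inv_ne_zero hγ0)) (det_ne_zero_GL A))
  let B₁ : GL (Fin b) F := Matrix.GeneralLinearGroup.mkOfDetNeZero (γ • (B : Matrix (Fin b) (Fin b) F)) (by
    rw [Matrix.det_smul]
    exact mul_ne_zero (pow_ne_zero _ hγ0) (det_ne_zero_GL B))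
  have hA₁ : (A₁ : Matrix (Fin a) (Fin a) F) = γ⁻¹ • (A : Matrix (Fin a) (Fin a) F) := rfl
  have hB₁ : (B₁ : Matrix (Fin b) (Fin b) F) = γ • (B : Matrix (Fin b) (Fin b) F) := rfl
  have hK₁ : (A : Matrix (Fin a) (Fin a) F) ⊗ₖ (B : Matrix (Fin b) (Fin b) F) =
      (A₁ : Matrix (Fin a) (Fin a) F) ⊗ₖ (B₁ : Matrix (Fin b) (Fin b) F) := by
    rw [hA₁, hB₁, smul_kronecker, kronecker_smul, smul_smul, inv_mul_cancel₀ hγ0, one_smul]
  have hA₁r : A₁ ^ r = 1 := Units.ext (by
    rw [Units.val_pow_eq_pow_val, hA₁, _root_.smul_pow, hα, inv_pow, hγ, smul_smul, inv_mul_cancel₀ (left_ne_zero_of_mul_eq_one hαβ), one_smul]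
    rfl)
  have hB₁r : B₁ ^ r = 1 := Units.ext (by
    rw [Units.val_pow_eq_pow_val, hB₁, _root_.smul_pow, hβ, hγ, smul_smul, hαβ, one_smul]
    rfl)
  have hFix₁ : FixD e x Q A₁ B₁ := by
    unfold FixD
    rw [← hK₁]
    exact h
  by_cases hA1 : A₁ = 1
  · have hB1 : B₁ ≠ 1 := by
      intro hB1
      apply hx1
      have h5 : ((Q⁻¹ * x * Q : GL (Fin n) F) : Matrix (Fin n) (Fin n) F) = (1 : F) • (1 : Matrix (Fin n) (Fin n) F) := by
        rw [hFix₁, hA1, hB1, one_smul]
        simp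
      have h6 := scalar_of_conj x Q 1 h5
      apply Units.ext
      simpa using h6
    have hd2 := le_rank hq hr hrq hrF hmin B₁ hB₁r hB1
    have h3 := rank_fix e x Q A₁ B₁ hFix₁ 1
    have h4 := rank_kron_scalar e (1 : F) (B₁ : Matrix (Fin b) (Fin b) F) (1 : F)
    rw [hA1, Units.val_one] at h3
    simp only [one_smul] at h3 h4
    rw [h3, h4] at hrank
    have h7 : a * d ≤ a * ((B₁ : Matrix (Fin b) (Fin b) F) - 1).rank := Nat.mul_le_mul_left _ hd2
    nlinarith
  · have hd1 := le_rank hq hr hrq hrF hmin A₁ hA₁r hA1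
    have hda : d ≤ a := hd1.trans (by simpa using Matrix.rank_le_width ((A₁ : Matrix (Fin a) (Fin a) F) - 1))
    have hns : ∀ c : F, (A₁ : Matrix (Fin a) (Fin a) F) ≠ c • (1 : Matrix (Fin a) (Fin a) F) := by
      intro c hc
      apply hA1
      have h5 : c ^ r • (1 : Matrix (Fin a) (Fin a) F) = 1 := by
        have := congrArg Units.val hA₁r
        rw [Units.val_pow_eq_pow_val, hc, _root_.smul_pow, one_pow] at this
        exact this
      have h6 : c ^ r = 1 := by
        have := congrFun (congrFun h5 ⟨0, by omega⟩) ⟨0, by omega⟩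
        simpa using this
      have h7 := eq_one_of_pow hq hr hrq1 h6
      apply Units.ext
      rw [hc, h7, one_smul]
      rfl
    have h8 := card_le_rank' (A₁ : Matrix (Fin a) (Fin a) F) hns (B₁ : Matrix (Fin b) (Fin b) F) (det_ne_zero_GL B₁) 1
    rw [← rank_fix e x Q A₁ B₁ hFix₁, one_smul, Fintype.card_fin] at h8
    omega

theorem exists_large_elt (hq : Fintype.card F = q) (hr : r.Prime) {d : ℕ} (hdn : d ≤ n) (hd : 0 < d) (hdv : r ∣ q ^ d - 1) :
    ∃ x : GL (Fin n) F, x ^ r = 1 ∧ x ≠ 1 ∧ ((x : Matrix (Fin n) (Fin n) F) - 1).rank ≤ d := by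
  classical
  haveI : Fact r.Prime := ⟨hr⟩
  have hcard : r ∣ Nat.card (GL (Fin d) F) := by
    rw [Matrix.card_GL_field, hq]
    refine hdv.trans ?_
    have := Finset.dvd_prod_of_mem (fun i : Fin d => q ^ d - q ^ (i : ℕ)) (Finset.mem_univ (⟨0, hd⟩ : Fin d))
    simpa using this
  obtain ⟨f, hf⟩ := exists_prime_orderOf_dvd_card' r hcard
  have hfr : f ^ r = 1 := by rw [← hf]; exact pow_orderOf_eq_one f
  have hf1 : f ≠ 1 := by
    rintro rfl
    rw [orderOf_one] at hf
    exact hr.one_lt.ne hf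
  let M : Matrix (Fin d ⊕ Fin (n - d)) (Fin d ⊕ Fin (n - d)) F := fromBlocks (f : Matrix (Fin d) (Fin d) F) 0 0 1
  have hMr : M ^ r = 1 := by
    show (fromBlocks (f : Matrix (Fin d) (Fin d) F) 0 0 1) ^ r = 1
    rw [fromBlocks_diagonal_pow, ← Units.val_pow_eq_pow_val, hfr, one_pow]
    simp
  let u : GL (Fin d ⊕ Fin (n - d)) F := Units.ofPowEqOne M r hMr hr.ne_zero
  have hur : u ^ r = 1 := Units.ext (by
    rw [Units.val_pow_eq_pow_val]
    exact hMr)
  let ε : Fin d ⊕ Fin (n - d) ≃ Fin n := finSumFinEquiv.trans (finCongr (by omega))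
  refine ⟨glReindex ε u, ?_, ?_, ?_⟩
  · rw [← map_pow, hur, map_one]
  · intro h
    have h1 : u = 1 := (glReindex ε).injective (by rw [h, map_one])
    have h2 : M = 1 := congrArg Units.val h1
    apply hf1
    apply Units.ext
    have h3 : fromBlocks (f : Matrix (Fin d) (Fin d) F) 0 0 1 = (1 : Matrix (Fin d ⊕ Fin (n - d)) (Fin d ⊕ Fin (n - d)) F) := h2
    rw [← Matrix.fromBlocks_one, Matrix.fromBlocks_inj] at h3
    exact h3.1
  · have h1 : ((glReindex ε u : GL (Fin n) F) : Matrix (Fin n) (Fin n) F) - 1 = Matrix.reindex ε ε (M - 1) := by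
      have : ((glReindex ε u : GL (Fin n) F) : Matrix (Fin n) (Fin n) F) = Matrix.reindex ε ε M := rfl
      rw [this]
      ext i j
      simp [Matrix.one_apply]
    rw [h1, Matrix.rank_reindex]
    have h2 : M - 1 = Matrix.fromRows (1 : Matrix (Fin d) (Fin d) F) (0 : Matrix (Fin (n - d)) (Fin d) F) *
        Matrix.fromCols ((f : Matrix (Fin d) (Fin d) F) - 1) (0 : Matrix (Fin d) (Fin (n - d)) F) := by
      rw [Matrix.fromRows_mul_fromCols]
      show fromBlocks (f : Matrix (Fin d) (Fin d) F) 0 0 1 - 1 = _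
      ext (i | i) (j | j) <;> simp [Matrix.one_apply]
    rw [h2]
    refine (Matrix.rank_mul_le_left _ _).trans ?_
    simpa using Matrix.rank_le_card_width (Matrix.fromRows (1 : Matrix (Fin d) (Fin d) F) (0 : Matrix (Fin (n - d)) (Fin d) F))

end large


section diag

variable [Fintype F] {n : ℕ}

noncomputable def mkDiag (d : Fin n → F) (hd : ∀ i, d i ≠ 0) : GL (Fin n) F :=
  Matrix.GeneralLinearGroup.mkOfDetNeZero (diagonal d) (by
    rw [det_diagonal]
    exact Finset.prod_ne_zero_iff.mpr fun i _ => hd i)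

theorem mkDiag_val (d : Fin n → F) (hd : ∀ i, d i ≠ 0) : (mkDiag d hd : Matrix (Fin n) (Fin n) F) = diagonal d := rfl

theorem rank_diag (d : Fin n → F) (c : F) : (diagonal d - c • (1 : Matrix (Fin n) (Fin n) F)).rank =
    @Finset.card _ (@Finset.filter _ (fun i => d i ≠ c) (fun _ => Classical.dec _) Finset.univ) := by
  classical
  have h : diagonal d - c • (1 : Matrix (Fin n) (Fin n) F) = diagonal (fun i => d i - c) := by
    ext i j
    by_cases hij : i = j
    · subst hij
      simp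
    · simp [hij, Matrix.one_apply, Matrix.diagonal_apply_ne]
  rw [h, Matrix.rank_diagonal, Fintype.card_subtype]
  congr 1
  ext i
  simp [sub_eq_zero]

theorem rank_diag_le (d : Fin n → F) (c : F) (S : Finset (Fin n)) (hS : ∀ i, i ∉ S → d i = c) :
    (diagonal d - c • (1 : Matrix (Fin n) (Fin n) F)).rank ≤ S.card := by
  classical
  rw [rank_diag]
  apply Finset.card_le_card
  intro i hi
  simp only [Finset.mem_filter, Finset.mem_univ, true_and] at hi
  by_contra h
  exact hi (hS i h)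

end diag

section forward

variable [Fintype F] {q n a b r : ℕ}

theorem forward {p : ℕ} [Fact p.Prime] [CharP F p] (hq : Fintype.card F = q) (hab : n = a * b) (ha : 2 ≤ a) (hlt : a < b)
    (e : Fin n ≃ Fin a × Fin b) [Fact r.Prime]
    (hcard : r ∣ Nat.card (GL (Fin n) F))
    (hfix : ∀ x : GL (Fin n) F, (x : Matrix (Fin n) (Fin n) F).det = 1 →
      (∃ z : F, ((x ^ r : GL (Fin n) F) : Matrix (Fin n) (Fin n) F) = z • (1 : Matrix (Fin n) (Fin n) F)) →
      (∀ z : F, (x : Matrix (Fin n) (Fin n) F) ≠ z • (1 : Matrix (Fin n) (Fin n) F)) → ∃ Q A B, FixD e x Q A B) :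
    r = 2 ∧ a = 2 ∧ Odd q ∧ padicValNat 2 (q - 1) ≤ padicValNat 2 n := by
  classical
  have hr : r.Prime := Fact.out
  have hpp : p.Prime := Fact.out
  have hn6 : 6 ≤ n := by
    rw [hab]
    exact (by norm_num : 6 = 2 * 3) ▸ Nat.mul_le_mul ha (by omega)
  let i₀ : Fin n := ⟨0, by omega⟩
  let i₁ : Fin n := ⟨1, by omega⟩
  let i₂ : Fin n := ⟨2, by omega⟩
  have h01 : i₀ ≠ i₁ := by simp [i₀, i₁, Fin.ext_iff]
  have h02 : i₀ ≠ i₂ := by simp [i₀, i₂, Fin.ext_iff]
  have h12 : i₁ ≠ i₂ := by simp [i₁, i₂, Fin.ext_iff]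
  -- transvections exclude `r = p`
  have hrp : r ≠ p := by
    intro hrp
    subst hrp
    let N : Matrix (Fin n) (Fin n) F := Matrix.single i₀ i₁ (1 : F)
    have hN : N * N = 0 := by
      show Matrix.single i₀ i₁ (1 : F) * Matrix.single i₀ i₁ (1 : F) = 0
      exact Matrix.single_mul_single_of_ne _ _ _ _ h01.symm _
    have hdet : (1 + N).det = 1 := Matrix.det_transvection_of_ne i₀ i₁ h01 1
    let x : GL (Fin n) F := Matrix.GeneralLinearGroup.mkOfDetNeZero (1 + N) (by rw [hdet]; exact one_ne_zero)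
    have hxv : (x : Matrix (Fin n) (Fin n) F) = 1 + N := rfl
    have hxr : ((x ^ r : GL (Fin n) F) : Matrix (Fin n) (Fin n) F) = (1 : F) • (1 : Matrix (Fin n) (Fin n) F) := by
      rw [Units.val_pow_eq_pow_val, hxv, pow_one_add N hN, CharP.cast_eq_zero, zero_smul, add_zero, one_smul]
    have hns : ∀ z : F, (x : Matrix (Fin n) (Fin n) F) ≠ z • (1 : Matrix (Fin n) (Fin n) F) := by
      intro z hz
      have h1 := congrFun (congrFun hz i₀) i₁
      simp [hxv, N, Matrix.one_apply, h01, Matrix.single_apply] at h1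
    obtain ⟨Q, A, B, hf⟩ := hfix x (by rw [hxv, hdet]) ⟨1, hxr⟩ hns
    have h1 := le_rank_of_fix e hlt x Q A B hf hns 1
    have h2 : ((x : Matrix (Fin n) (Fin n) F) - (1 : F) • (1 : Matrix (Fin n) (Fin n) F)).rank ≤ 1 := by
      rw [one_smul, hxv, add_sub_cancel_left]
      have : N = Matrix.vecMulVec (Pi.single i₀ 1) (Pi.single i₁ 1) := by
        ext k l
        by_cases h1 : k = i₀ <;> by_cases h2 : l = i₁ <;> simp [N, Matrix.vecMulVec_apply, Matrix.single_apply, Pi.single_apply, h1, h2, eq_comm]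
      rw [this]
      exact Matrix.rank_vecMulVec_le _ _
    omega
  have hrF : (r : F) ≠ 0 := by
    intro h
    have h1 := (CharP.cast_eq_zero_iff F p r).mp h
    exact hrp ((Nat.prime_dvd_prime_iff_eq hpp hr).mp h1).symm
  have hrq : ¬ r ∣ q := by
    intro h
    obtain ⟨k, hk, hqk⟩ := FiniteField.card F p
    rw [hq] at hqk
    rw [hqk] at h
    exact hrp ((Nat.prime_dvd_prime_iff_eq hr hpp).mp (hr.dvd_of_dvd_pow h))
  by_cases hr1 : r ∣ q - 1
  · have hc : r ∣ Nat.card Fˣ := by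
      rw [Nat.card_eq_fintype_card, Fintype.card_units, hq]
      exact hr1
    obtain ⟨u, hu⟩ := exists_prime_orderOf_dvd_card' r hc
    set l : F := (u : F) with hl
    have hl0 : l ≠ 0 := u.ne_zero
    have hlr : l ^ r = 1 := by
      have h1 : u ^ r = 1 := by rw [← hu]; exact pow_orderOf_eq_one u
      have h2 := congrArg Units.val h1
      simpa using h2
    have hl1 : l ≠ 1 := by
      intro h
      have h1 : u = 1 := Units.ext h
      rw [h1, orderOf_one] at hu
      exact hr.one_lt.ne hu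
    let d : Fin n → F := fun i => (if i = i₀ then l else 1) * (if i = i₁ then l⁻¹ else 1)
    have hd0 : d i₀ = l := by simp [d, h01]
    have hd1 : d i₁ = l⁻¹ := by simp [d, h01.symm]
    have hd2 : ∀ i, i ≠ i₀ → i ≠ i₁ → d i = 1 := by
      intro i h h'
      simp [d, h, h']
    have hdne : ∀ i, d i ≠ 0 := by
      intro i
      simp only [d]
      apply mul_ne_zero <;> split_ifs <;> simp [hl0]
    have hdprod : ∏ i, d i = 1 := by
      simp only [d]
      rw [Finset.prod_mul_distrib]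
      simp [Finset.prod_ite_eq', hl0]
    have hdr : ∀ i, d i ^ r = 1 := by
      intro i
      simp only [d, mul_pow]
      split_ifs <;> simp [inv_pow, hlr]
    let x : GL (Fin n) F := mkDiag d hdne
    have hxv : (x : Matrix (Fin n) (Fin n) F) = diagonal d := rfl
    have hxr : ((x ^ r : GL (Fin n) F) : Matrix (Fin n) (Fin n) F) = (1 : F) • (1 : Matrix (Fin n) (Fin n) F) := by
      rw [Units.val_pow_eq_pow_val, hxv, diagonal_pow, one_smul]
      have : d ^ r = 1 := by
        ext i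
        simpa using hdr i
      rw [this]
      exact Matrix.diagonal_one
    have hns : ∀ z : F, (x : Matrix (Fin n) (Fin n) F) ≠ z • (1 : Matrix (Fin n) (Fin n) F) := by
      intro z hz
      have h1 : d i₀ = z := by
        have := congrFun (congrFun hz i₀) i₀
        simpa [hxv] using this
      have h2 : d i₂ = z := by
        have := congrFun (congrFun hz i₂) i₂
        simpa [hxv] using this
      rw [hd0] at h1
      rw [hd2 i₂ h02.symm h12.symm] at h2
      exact hl1 (h1.trans h2.symm)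
    obtain ⟨Q, A, B, hf⟩ := hfix x (by rw [hxv, det_diagonal]; exact hdprod) ⟨1, hxr⟩ hns
    have hrk1 : ((x : Matrix (Fin n) (Fin n) F) - (1 : F) • (1 : Matrix (Fin n) (Fin n) F)).rank ≤ 2 := by
      have := rank_diag_le d 1 {i₀, i₁} (by
        intro i hi
        simp only [Finset.mem_insert, Finset.mem_singleton, not_or] at hi
        exact hd2 i hi.1 hi.2)
      rw [hxv]
      exact this.trans Finset.card_le_two
    have ha2 : a = 2 := by
      have := le_rank_of_fix e hlt x Q A B hf hns 1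
      omega
    have hr2 : r = 2 := by
      by_contra hr2
      have hl2 : l⁻¹ ≠ l := by
        intro h
        have h5 : l ^ 2 = 1 := by
          have : l * l⁻¹ = 1 := mul_inv_cancel₀ hl0
          rw [h] at this
          rw [pow_two]
          exact this
        have h6 : u ^ 2 = 1 := Units.ext (by
          rw [Units.val_pow_eq_pow_val, Units.val_one]
          exact h5)
        have h7 := orderOf_dvd_of_pow_eq_one h6
        rw [hu] at h7
        exact hr2 ((Nat.prime_dvd_prime_iff_eq hr Nat.prime_two).mp h7)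
      have hdv := dvd_rank_of_fix e hlt x Q A B hf 1 (by omega) l
      rw [hxv, rank_diag] at hdv
      have h8 : @Finset.filter _ (fun i => d i ≠ l) (fun _ => Classical.dec _) Finset.univ = Finset.univ.erase i₀ := by
        ext i
        simp only [Finset.mem_filter, Finset.mem_univ, true_and, Finset.mem_erase, and_true]
        constructor
        · rintro h rfl
          exact h hd0
        · intro h
          by_cases h' : i = i₁
          · rw [h', hd1]
            exact hl2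
          · rw [hd2 i h h']
            exact hl1.symm
      rw [h8, Finset.card_erase_of_mem (Finset.mem_univ _), Finset.card_univ, Fintype.card_fin, ha2] at hdv
      have h9 : n = 2 * b := by rw [hab, ha2]
      omega
    have hp2 : p ≠ 2 := fun h => hrp (hr2.trans h.symm)
    have hodd : Odd q := by
      have := FiniteField.odd_card_of_char_ne_two (F := F) (by rw [ringChar.eq F p]; exact hp2)
      rw [hq] at this
      exact Nat.odd_iff.mpr this
    refine ⟨hr2, ha2, hodd, ?_⟩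
    by_contra hlt'
    have hlt'' : padicValNat 2 n < padicValNat 2 (q - 1) := not_le.mp hlt'
    obtain ⟨w, hw⟩ := (pow_eq_neg_one_iff hq hodd n (by omega)).mpr hlt''
    have hnn : n = 2 * b := by rw [hab, ha2]
    have h2F : (2 : F) ≠ 0 := by
      intro h
      have h1 : ((2 : ℕ) : F) = 0 := by exact_mod_cast h
      have := (CharP.cast_eq_zero_iff F p 2).mp h1
      exact hp2 ((Nat.prime_dvd_prime_iff_eq hpp Nat.prime_two).mp this)
    have hw0 : w ≠ 0 := by
      rintro rfl
      rw [zero_pow (by omega)] at hw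
      have : (1 : F) = 0 := by linear_combination hw
      exact one_ne_zero this
    have hwne : w ≠ -w := by
      intro h
      have h1 : 2 * w = 0 := by linear_combination h
      exact (mul_eq_zero.mp h1).elim h2F hw0
    let d' : Fin n → F := fun i => (-w) * (if i = i₀ then -1 else 1)
    have hd'0 : d' i₀ = w := by simp [d']
    have hd'1 : ∀ i, i ≠ i₀ → d' i = -w := by
      intro i h
      simp [d', h]
    have hd'ne : ∀ i, d' i ≠ 0 := by
      intro i
      simp only [d']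
      apply mul_ne_zero (neg_ne_zero.mpr hw0)
      split_ifs <;> simp
    have hd'prod : ∏ i, d' i = 1 := by
      simp only [d']
      rw [Finset.prod_mul_distrib]
      simp only [Finset.prod_const, Finset.card_univ, Fintype.card_fin, Finset.prod_ite_eq', Finset.mem_univ, if_true]
      rw [hnn, pow_mul, neg_sq, ← pow_mul, ← hnn, hw]
      ring
    have hd'r : ∀ i, d' i ^ 2 = w ^ 2 := by
      intro i
      simp only [d', mul_pow]
      split_ifs <;> simp
    let x' : GL (Fin n) F := mkDiag d' hd'ne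
    have hx'v : (x' : Matrix (Fin n) (Fin n) F) = diagonal d' := rfl
    have hx'r : ((x' ^ r : GL (Fin n) F) : Matrix (Fin n) (Fin n) F) = (w ^ 2) • (1 : Matrix (Fin n) (Fin n) F) := by
      rw [Units.val_pow_eq_pow_val, hx'v, diagonal_pow, hr2]
      ext i j
      by_cases hij : i = j
      · subst hij
        simp [hd'r]
      · simp [hij, Matrix.one_apply]
    have hns' : ∀ z : F, (x' : Matrix (Fin n) (Fin n) F) ≠ z • (1 : Matrix (Fin n) (Fin n) F) := by
      intro z hz
      have h1 : d' i₀ = z := by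
        have := congrFun (congrFun hz i₀) i₀
        simpa [hx'v] using this
      have h2 : d' i₁ = z := by
        have := congrFun (congrFun hz i₁) i₁
        simpa [hx'v] using this
      rw [hd'0] at h1
      rw [hd'1 i₁ h01.symm] at h2
      exact hwne (h1.trans h2.symm)
    obtain ⟨Q', A', B', hf'⟩ := hfix x' (by rw [hx'v, det_diagonal]; exact hd'prod) ⟨_, hx'r⟩ hns'
    have h10 := le_rank_of_fix e hlt x' Q' A' B' hf' hns' (-w)
    have h11 := rank_diag_le d' (-w) {i₀} (by
      intro i hi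
      simp only [Finset.mem_singleton] at hi
      exact hd'1 i hi)
    rw [hx'v] at h10
    simp only [Finset.card_singleton] at h11
    omega
  · exfalso
    rw [Matrix.card_GL_field, hq] at hcard
    obtain ⟨i, -, hi⟩ := (Prime.dvd_finset_prod_iff hr.prime _).mp hcard
    have hik : (i : ℕ) < n := i.2
    have hh : q ^ n - q ^ (i : ℕ) = q ^ (i : ℕ) * (q ^ (n - i) - 1) := by
      rw [Nat.mul_sub, ← pow_add, mul_one]
      congr 2
      omega
    rw [hh] at hi
    have hi' : r ∣ q ^ (n - i) - 1 := (hr.dvd_mul.mp hi).resolve_left (fun h => hrq (hr.dvd_of_dvd_pow h))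
    have hex : ∃ d, 0 < d ∧ r ∣ q ^ d - 1 := ⟨n - i, by omega, hi'⟩
    have hspec := Nat.find_spec hex
    have hmin : ∀ j, 0 < j → r ∣ q ^ j - 1 → Nat.find hex ≤ j := fun j h1 h2 => Nat.find_min' hex ⟨h1, h2⟩
    have hdn : Nat.find hex ≤ n := (hmin _ (by omega) hi').trans (by omega)
    obtain ⟨x, hxr, hx1, hrk⟩ := exists_large_elt hq hr hdn hspec.1 hspec.2
    have hdet : (x : Matrix (Fin n) (Fin n) F).det = 1 := by
      apply eq_one_of_pow hq hr hr1
      rw [← Matrix.det_pow, ← Units.val_pow_eq_pow_val, hxr]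
      simp
    have hns : ∀ z : F, (x : Matrix (Fin n) (Fin n) F) ≠ z • (1 : Matrix (Fin n) (Fin n) F) := by
      intro z hz
      apply hx1
      have h5 : z ^ r • (1 : Matrix (Fin n) (Fin n) F) = 1 := by
        have := congrArg Units.val hxr
        rw [Units.val_pow_eq_pow_val, hz, _root_.smul_pow, one_pow] at this
        exact this
      have h6 : z ^ r = 1 := by
        have := congrFun (congrFun h5 i₀) i₀
        simpa using this
      have h7 := eq_one_of_pow hq hr hr1 h6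
      apply Units.ext
      rw [hz, h7, one_smul]
      rfl
    obtain ⟨Q, A, B, hf⟩ := hfix x hdet ⟨1, by
      rw [hxr, one_smul]
      rfl⟩ hns
    exact no_fix_large hq hr hrq hr1 hrF hspec.1 hmin e ha hlt x hxr hx1 hrk Q A B hf

end forward


section backward

variable [Fintype F] {q n b : ℕ}

theorem exists_fix (hq : Fintype.card F = q) (hodd : Odd q) (hnb : n = 2 * b) (hn0 : n ≠ 0) (e : Fin n ≃ Fin 2 × Fin b)
    (hv : padicValNat 2 (q - 1) ≤ padicValNat 2 n) (x : GL (Fin n) F) (hdet : (x : Matrix (Fin n) (Fin n) F).det = 1) (z : F)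
    (hz0 : z ≠ 0)
    (hx2 : (x : Matrix (Fin n) (Fin n) F) * x = z • (1 : Matrix (Fin n) (Fin n) F)) :
    ∃ Q A B, FixD e x Q A B := by
  classical
  have h2F : (2 : F) ≠ 0 := Cfsg.Agent.Lib.InvolConj.two_ne_zero_of_odd hq hodd
  by_cases hsq : IsSquare z
  · obtain ⟨μ, hμ⟩ := hsq
    have hμ0 : μ ≠ 0 := by
      rintro rfl
      exact hz0 (by rw [hμ]; ring)
    have hne : μ ≠ -μ := by
      intro h
      have h1 : 2 * μ = 0 := by linear_combination h
      exact (mul_eq_zero.mp h1).elim h2F hμ0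
    let T : Module.End F (Fin n → F) := Matrix.toLin' (x : Matrix (Fin n) (Fin n) F)
    have hTv : ∀ v, T v = (x : Matrix (Fin n) (Fin n) F) *ᵥ v := fun v => rfl
    have h00 : aeval T ((X - C μ) * (X - C (-μ)) : F[X]) = 0 := by
      have e1 : ((X - C μ) * (X - C (-μ)) : F[X]) = X ^ 2 - C z := by
        rw [C_neg, hμ, C_mul]
        ring
      rw [e1]
      apply LinearMap.ext
      intro v
      simp only [map_sub, aeval_X_pow, aeval_C, LinearMap.sub_apply, LinearMap.zero_apply, sub_eq_zero]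
      show (T ^ 2) v = _
      rw [pow_two, Module.End.mul_apply, hTv, hTv, Matrix.mulVec_mulVec, hx2, Matrix.smul_mulVec, Matrix.one_mulVec]
      simp [Algebra.algebraMap_eq_smul_one, Module.algebraMap_end_apply]
    obtain ⟨r, s, e₀, h1, h2⟩ := exists_basis_two T μ (-μ) hne h00
    have hcard : r + s = n := by
      have := Module.finrank_eq_card_basis e₀
      simpa using this.symm
    have hdetT : LinearMap.det T = ∏ i, (Sum.elim (fun _ : Fin r => μ) (fun _ : Fin s => -μ)) i :=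
      Cfsg.Agent.S5971.det_of_basis T e₀ _ (by
        rintro (i | i)
        · simpa using h1 i
        · simpa using h2 i)
    rw [LinearMap.det_toLin', hdet, Fintype.prod_sum_type] at hdetT
    simp only [Sum.elim_inl, Sum.elim_inr, Finset.prod_const, Finset.card_univ, Fintype.card_fin] at hdetT
    have hs : Even s := by
      by_contra hs
      rw [Nat.not_even_iff_odd] at hs
      have h3 : μ ^ n = -1 := by
        rw [← hcard, pow_add]
        have h4 : (-μ) ^ s = - μ ^ s := hs.neg_pow μ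
        rw [h4] at hdetT
        linear_combination hdetT
      have := (pow_eq_neg_one_iff hq hodd n hn0).mp ⟨μ, h3⟩
      omega
    obtain ⟨w, hw⟩ := hs
    have hr : ∃ u, r = u + u := ⟨b - w, by omega⟩
    obtain ⟨u, hu⟩ := hr
    have hb : u + w = b := by omega
    let ε₁ : Fin r ≃ Fin 2 × Fin u := (finCongr (by omega)).trans finProdFinEquiv.symm
    let ε₂ : Fin s ≃ Fin 2 × Fin w := (finCongr (by omega)).trans finProdFinEquiv.symm
    let σ : Fin u ⊕ Fin w ≃ Fin b := finSumFinEquiv.trans (finCongr hb)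
    let φ : Fin r ⊕ Fin s ≃ Fin 2 × Fin b := (Equiv.sumCongr ε₁ ε₂).trans
      ((Equiv.prodSumDistrib (Fin 2) (Fin u) (Fin w)).symm.trans (Equiv.prodCongr (Equiv.refl _) σ))
    let D : Fin b → F := fun j => Sum.elim (fun _ : Fin u => μ) (fun _ : Fin w => -μ) (σ.symm j)
    have hφ : ∀ t, T (e₀ t) = D (φ t).2 • e₀ t := by
      rintro (i | i)
      · have : D (φ (Sum.inl i)).2 = μ := by
          simp [D, φ]
        rw [this]
        exact h1 i
      · have : D (φ (Sum.inr i)).2 = -μ := by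
          simp [D, φ]
        rw [this]
        exact h2 i
    have hDne : ∀ j, D j ≠ 0 := by
      intro j
      simp only [D]
      rcases σ.symm j with i | i
      · simpa using hμ0
      · simpa using hμ0
    let B : GL (Fin b) F := mkDiag D hDne
    let f : Basis (Fin 2 × Fin b) F (Fin n → F) := e₀.reindex φ
    let g : Basis (Fin 2 × Fin b) F (Fin n → F) := (Pi.basisFun F (Fin n)).reindex e
    let E : (Fin n → F) ≃ₗ[F] (Fin n → F) := f.equiv g (Equiv.refl _)
    have hEf : ∀ t, E (f t) = g t := by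
      intro t
      simp [E]
    have hTf : ∀ t, T (f t) = D t.2 • f t := by
      intro t
      have := hφ (φ.symm t)
      simpa [f] using this
    have hyg : ∀ t, ((((1 : GL (Fin 2) F) : Matrix (Fin 2) (Fin 2) F) ⊗ₖ (B : Matrix (Fin b) (Fin b) F)).submatrix e e) *ᵥ g t = D t.2 • g t := by
      intro t
      have hgt : g t = Pi.single (e.symm t) 1 := by
        simp [g]
      have hBv : (B : Matrix (Fin b) (Fin b) F) = diagonal D := rfl
      rw [hgt, Matrix.mulVec_single_one]
      ext i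
      obtain ⟨t₁, t₂⟩ := t
      simp only [Matrix.col_apply, Matrix.submatrix_apply, Equiv.apply_symm_apply, Matrix.kroneckerMap_apply, Units.val_one,
        Pi.smul_apply, smul_eq_mul, hBv, Pi.single_apply]
      by_cases hi : i = e.symm (t₁, t₂)
      · subst hi
        rw [Equiv.apply_symm_apply]
        simp [Matrix.one_apply]
      · have h3 : e i ≠ (t₁, t₂) := fun h => hi (by rw [← h]; simp)
        rw [if_neg hi, mul_zero]
        by_cases h4 : (e i).1 = t₁
        · have h5 : (e i).2 ≠ t₂ := fun h => h3 (Prod.ext h4 h)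
          rw [Matrix.diagonal_apply_ne _ h5, mul_zero]
        · rw [Matrix.one_apply_ne h4, zero_mul]
    obtain ⟨P, hP⟩ := exists_conj_of_equiv' E x (((1 : GL (Fin 2) F) : Matrix (Fin 2) (Fin 2) F) ⊗ₖ (B : Matrix (Fin b) (Fin b) F) |>.submatrix e e) (by
      intro v
      have h5 : ∀ v, E (T v) = (((((1 : GL (Fin 2) F) : Matrix (Fin 2) (Fin 2) F) ⊗ₖ (B : Matrix (Fin b) (Fin b) F)).submatrix e e).mulVecLin) (E v) := by
        intro v
        have h6 : E.toLinearMap ∘ₗ T = (((((1 : GL (Fin 2) F) : Matrix (Fin 2) (Fin 2) F) ⊗ₖ (B : Matrix (Fin b) (Fin b) F)).submatrix e e).mulVecLin) ∘ₗ E.toLinearMap := by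
          apply f.ext
          intro t
          simp only [LinearMap.comp_apply, LinearEquiv.coe_coe, Matrix.mulVecLin_apply]
          rw [hTf, map_smul, hEf, hyg]
        exact LinearMap.congr_fun h6 v
      exact h5 v)
    exact ⟨P, 1, B, hP⟩
  · have hf : Irreducible (X ^ 2 - C z : F[X]) := X_pow_sub_C_irreducible_of_prime Nat.prime_two (fun y hy => hsq ⟨y, by rw [← hy]; ring⟩)
    have hm : (X ^ 2 - C z : F[X]).Monic := monic_X_pow_sub_C z (by norm_num)
    let A₀ : Matrix (Fin 2) (Fin 2) F := !![0, z; 1, 0]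
    have hA₀ : A₀ * A₀ = z • 1 := by
      ext i j
      fin_cases i <;> fin_cases j <;> simp [A₀, Matrix.mul_apply, Fin.sum_univ_two]
    have hA₀d : A₀.det ≠ 0 := by
      simp [A₀, Matrix.det_fin_two, hz0]
    let A : GL (Fin 2) F := Matrix.GeneralLinearGroup.mkOfDetNeZero A₀ hA₀d
    let y : Matrix (Fin n) (Fin n) F := (A₀ ⊗ₖ (1 : Matrix (Fin b) (Fin b) F)).submatrix e e
    have hy2 : y * y = z • 1 := by
      show (A₀ ⊗ₖ (1 : Matrix (Fin b) (Fin b) F)).submatrix e e * (A₀ ⊗ₖ (1 : Matrix (Fin b) (Fin b) F)).submatrix e e = _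
      rw [Matrix.submatrix_mul_equiv, ← Matrix.mul_kronecker_mul, hA₀, Matrix.one_mul, smul_kronecker, Matrix.one_kronecker_one]
      ext i j
      simp [Matrix.one_apply]
    have haev : ∀ M : Matrix (Fin n) (Fin n) F, M * M = z • 1 → aeval M (X ^ 2 - C z : F[X]) = 0 := by
      intro M hM
      simp only [map_sub, aeval_X_pow, aeval_C, Algebra.algebraMap_eq_smul_one]
      rw [pow_two, hM, sub_self]
    obtain ⟨Q, hQ⟩ := exists_conj_of_poly x y (X ^ 2 - C z) hf hm (haev _ hx2) (haev _ hy2)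
    exact ⟨Q, A, 1, hQ⟩

end backward

end rank



/-- Elements of prime order of PSL_n(q) and the stabilizers of tensor decompositions with factors of different dimensions. Here `T = PSL_n(F)` for a field `F` with `q` elements and `n = a·b` with `2 ≤ a < b`; a tensor decomposition `F^n ≅ F^a ⊗ F^b` is given by a bijection `e` of index sets and a change of basis `P`, and `H` is the subgroup of matrices of determinant 1 in its stabilizer (the conjugate by `P` of the group of Kronecker products `g₁ ⊗ g₂`) — a subgroup of type GL_a(q) ⊗ GL_b(q) (maximality is not assumed); Ω is the set of cosets of `H` in `T`, so an element of `T` of prime order `r` (a matrix `x` of determinant 1 with `x^r` scalar, `x` not scalar) fixes a point of Ω exactly when some conjugate of `x` by a matrix of determinant 1 lies in `H`. Let `r` be a prime dividing the index of `H`. Then every element of `T` of order `r` fixes a point of Ω if and only if `r = 2`, `a = 2`, `q` is odd and `(q −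 1)_2 ≤ (n)_2` (2-parts). -/
theorem result {F : Type*} [Field F] [Fintype F] {p : ℕ} [Fact p.Prime] [CharP F p] {q : ℕ} (hq : Fintype.card F = q)
    (n a b : ℕ) (hab : n = a * b) (ha : 2 ≤ a) (hlt : a < b) (e : Fin n ≃ Fin a × Fin b) (P : GL (Fin n) F)
    (r : ℕ) [Fact r.Prime]
    (hΩ : r ∣ (Cfsg.Geo.tensorProductSubgroup a b e P).relIndex (Cfsg.Geo.specialLinear (Fin n) F)) :
    (∀ x ∈ Cfsg.Geo.specialLinear (Fin n) F, (∃ z : F, ((x ^ r : GL (Fin n) F) : Matrix (Fin n) (Fin n) F) = z • (1 : Matrix (Fin n) (Fin n) F)) →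
      (∀ z : F, (x : Matrix (Fin n) (Fin n) F) ≠ z • (1 : Matrix (Fin n) (Fin n) F)) →
      ∃ g ∈ Cfsg.Geo.specialLinear (Fin n) F, g⁻¹ * x * g ∈ Cfsg.Geo.tensorProductSubgroup a b e P) ↔
    (r = 2 ∧ a = 2 ∧ Odd q ∧ padicValNat 2 (q - 1) ≤ padicValNat 2 n) := by
  classical
  have hSL : ∀ x : GL (Fin n) F, x ∈ Cfsg.Geo.specialLinear (Fin n) F ↔ (x : Matrix (Fin n) (Fin n) F).det = 1 := by
    intro x
    show Matrix.GeneralLinearGroup.det x = 1 ↔ _
    rw [Units.ext_iff]
    rfl
  constructor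
  · intro h
    apply forward hq hab ha hlt e
    · -- divisibility
      have h1 : (Cfsg.Geo.tensorProductSubgroup a b e P).relIndex (Cfsg.Geo.specialLinear (Fin n) F) ∣ Nat.card (Cfsg.Geo.specialLinear (Fin n) F) :=
        Subgroup.index_dvd_card _
      exact (hΩ.trans h1).trans (Subgroup.card_subgroup_dvd_card _)
    · intro x hd hz hns
      obtain ⟨g, -, hg⟩ := h x ((hSL x).mpr hd) hz hns
      exact fixD_of_mem e P g x hg
  · rintro ⟨hr2, ha2, hodd, hv⟩ x hx ⟨z, hz⟩ hns
    subst hr2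
    subst ha2
    have hx2 : (x : Matrix (Fin n) (Fin n) F) * x = z • (1 : Matrix (Fin n) (Fin n) F) := by
      rw [← hz, Units.val_pow_eq_pow_val, pow_two]
    have hn0 : n ≠ 0 := by
      rw [hab]
      exact Nat.mul_ne_zero (by omega) (by omega)
    have hz0 : z ≠ 0 := by
      rintro rfl
      haveI : Nonempty (Fin n) := ⟨⟨0, by omega⟩⟩
      have hd := congrArg Matrix.det hx2
      rw [zero_smul, Matrix.det_mul, (hSL x).mp hx, Matrix.det_zero] at hd
      have hd' : (1 : F) = 0 := by simpa using hd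
      exact one_ne_zero hd'
    obtain ⟨Q, A, B, hf⟩ := exists_fix hq hodd hab hn0 e hv x ((hSL x).mp hx) z hz0 hx2
    obtain ⟨P', hP', hP'e⟩ := Cfsg.Agent.Lib.SqScalar.exists_conj_fix x (Q * P⁻¹) z hx2 hns
    refine ⟨P', (hSL P').mpr hP', ?_⟩
    rw [hP'e]
    exact mem_of_fixD e P x Q A B hf

end Cfsg.Agent.S5979
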