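import Mathlib
import Cfsg.Agent.S5979
import Cfsg.Agent.Lib.SpInvol
import Cfsg.Agent.Lib.TensorForm
import Cfsg.Agent.Lib.SpOrder
import Cfsg.Agent.Lib.SympWitt
import Cfsg.Statements.S5980
-- import your own Cfsg.Agent.* helpers here

set_option autoImplicit false
open scoped MatrixGroups
open Cfsg

namespace Cfsg.Agent.S5980

open scoped Kronecker
open Matrix Module Cfsg.Geo
open Cfsg.Agent.Lib.TensorForm (tn psi kron_mulVec form_tn gram_of_left form_tn_gram)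
open Cfsg.Agent.S5979 (card_le_rank card_le_rank' rank_swap rank_one_kron pow_one_add le_rank eq_one_of_pow exists_pow_eq kron_pow kron_eq_one det_ne_zero_GL)
open Cfsg.Agent.Lib.SqScalar (exists_not_eigen exists_row)

set_option linter.unusedSimpArgs false
set_option linter.unusedVariables false
set_option linter.unusedSectionVars false

variable {F : Type*} [Field F]

section rankBound

variable {n₁ n₂ : ℕ}

/-- contraction in the second factor -/
def contr (l : (Fin n₂ → F) →ₗ[F] F) (w : Fin n₁ × Fin n₂ → F) : Fin n₁ → F := fun i => l (fun j => w (i, j))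

theorem contr_tn (l : (Fin n₂ → F) →ₗ[F] F) (u : Fin n₁ → F) (v : Fin n₂ → F) : contr l (tn u v) = l v • u := by
  ext i
  have : (fun j => tn u v (i, j)) = u i • v := by
    ext j
    simp [tn]
  simp only [contr, this, map_smul, Pi.smul_apply, smul_eq_mul]
  ring

theorem contr_add (l : (Fin n₂ → F) →ₗ[F] F) (w w' : Fin n₁ × Fin n₂ → F) : contr l (w + w') = contr l w + contr l w' := by
  ext i
  show l (fun j => (w + w') (i, j)) = l (fun j => w (i, j)) + l (fun j => w' (i, j))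
  rw [← map_add]
  rfl

theorem contr_sub (l : (Fin n₂ → F) →ₗ[F] F) (w w' : Fin n₁ × Fin n₂ → F) : contr l (w - w') = contr l w - contr l w' := by
  ext i
  show l (fun j => (w - w') (i, j)) = l (fun j => w (i, j)) - l (fun j => w' (i, j))
  rw [← map_sub]
  rfl

theorem contr_zero (l : (Fin n₂ → F) →ₗ[F] F) : contr l (0 : Fin n₁ × Fin n₂ → F) = 0 := by
  ext i
  show l (fun j => (0 : F)) = 0
  exact map_zero l

/-- `u ↦ u ⊗ v` -/
def tnL (v : Fin n₂ → F) : (Fin n₁ → F) →ₗ[F] (Fin n₁ × Fin n₂ → F) where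
  toFun u := tn u v
  map_add' u u' := Cfsg.Agent.Lib.TensorForm.tn_add_left u u' v
  map_smul' c u := Cfsg.Agent.Lib.TensorForm.tn_smul_left c u v

theorem two_mul_le_rank (A : Matrix (Fin n₁) (Fin n₁) F) (hA : A.det ≠ 0) (B : Matrix (Fin n₂) (Fin n₂) F)
    (hB : ∀ c : F, B ≠ c • (1 : Matrix (Fin n₂) (Fin n₂) F)) (h3 : 3 ≤ n₂) (U : Submodule F (Fin n₁ → F))
    (hU : ∀ u ∈ U, ∀ l : F, u = l • (A *ᵥ u) → u = 0) :
    2 * finrank F U ≤ ((A ⊗ₖ B) - (1 : Matrix (Fin n₁ × Fin n₂) (Fin n₁ × Fin n₂) F)).rank := by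
  classical
  obtain ⟨v₁, hv₁⟩ := exists_not_eigen B hB
  let S : Submodule F (Fin n₂ → F) := Submodule.span F {v₁, B *ᵥ v₁}
  have hS : S < ⊤ := by
    rw [lt_top_iff_ne_top]
    intro h
    have h4 : finrank F S = n₂ := by
      rw [h]
      simp
    have h5 : finrank F S ≤ 2 := by
      have := finrank_span_finset_le_card (R := F) ({v₁, B *ᵥ v₁} : Finset (Fin n₂ → F))
      have h6 : (({v₁, B *ᵥ v₁} : Finset (Fin n₂ → F)) : Set (Fin n₂ → F)) = {v₁, B *ᵥ v₁} := by simp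
      rw [h6] at this
      exact this.trans Finset.card_le_two
    omega
  obtain ⟨l, hl0, hl⟩ := Submodule.exists_le_ker_of_lt_top S hS
  obtain ⟨v₂', hv₂'⟩ : ∃ w, l w ≠ 0 := by
    by_contra hcon
    apply hl0
    apply LinearMap.ext
    intro w
    by_contra h
    exact hcon ⟨w, h⟩
  let v₂ : Fin n₂ → F := (l v₂')⁻¹ • v₂'
  have hv₂ : l v₂ = 1 := by
    simp only [v₂, map_smul, smul_eq_mul]
    exact inv_mul_cancel₀ hv₂'
  have hl1 : l v₁ = 0 := hl (Submodule.subset_span (by simp))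
  have hl2 : l (B *ᵥ v₁) = 0 := hl (Submodule.subset_span (by simp))
  obtain ⟨l₀, hl₀0, hl₀1⟩ := exists_row B v₁ hv₁
  let l' : (Fin n₂ → F) →ₗ[F] F :=
    { toFun := fun w => l₀ ⬝ᵥ w
      map_add' := fun a b => dotProduct_add _ _ _
      map_smul' := fun c a => by simp [dotProduct_smul] }
  have hl'1 : l' v₁ = 0 := hl₀0
  have hl'2 : l' (B *ᵥ v₁) = 1 := hl₀1
  let K : Matrix (Fin n₁ × Fin n₂) (Fin n₁ × Fin n₂) F := (A ⊗ₖ B) - 1
  let L : (U × U) →ₗ[F] (Fin n₁ × Fin n₂ → F) := K.mulVecLin ∘ₗ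
    ((tnL v₁) ∘ₗ U.subtype ∘ₗ LinearMap.fst F U U + (tnL v₂) ∘ₗ U.subtype ∘ₗ LinearMap.snd F U U)
  have hL : ∀ p : U × U, L p = (tn (A *ᵥ (p.1 : Fin n₁ → F)) (B *ᵥ v₁) + tn (A *ᵥ (p.2 : Fin n₁ → F)) (B *ᵥ v₂)) -
      (tn (p.1 : Fin n₁ → F) v₁ + tn (p.2 : Fin n₁ → F) v₂) := by
    intro p
    show K *ᵥ (tn (p.1 : Fin n₁ → F) v₁ + tn (p.2 : Fin n₁ → F) v₂) = _
    simp only [K]
    rw [Matrix.sub_mulVec, Matrix.one_mulVec, Matrix.mulVec_add, kron_mulVec, kron_mulVec]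
  have hinj : Function.Injective L := by
    rw [← LinearMap.ker_eq_bot, LinearMap.ker_eq_bot']
    rintro ⟨u₁, u₂⟩ hp
    rw [hL] at hp
    simp only at hp
    have h4 := congrArg (contr l) hp
    simp only [contr_sub, contr_add, contr_tn, hl1, hl2, hv₂, zero_smul, zero_add, one_smul] at h4
    rw [contr_zero] at h4
    have hu₂ : (u₂ : Fin n₁ → F) = 0 := hU u₂ u₂.2 _ (sub_eq_zero.mp h4).symm
    rw [hu₂] at hp
    have h6 := congrArg (contr l') hp
    rw [contr_zero] at h6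
    simp only [contr_sub, contr_add, contr_tn, hl'1, hl'2, zero_smul, zero_add, one_smul, Matrix.mulVec_zero, smul_zero, add_zero, sub_zero] at h6
    have hu₁ : (u₁ : Fin n₁ → F) = 0 := Matrix.eq_zero_of_mulVec_eq_zero hA h6
    ext1
    · exact Subtype.ext hu₁
    · exact Subtype.ext hu₂
  calc 2 * finrank F U = finrank F (U × U) := by
        rw [Module.finrank_prod]
        ring
    _ = finrank F (LinearMap.range L) := (LinearMap.finrank_range_of_inj hinj).symm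
    _ ≤ finrank F (LinearMap.range K.mulVecLin) := Submodule.finrank_mono (LinearMap.range_comp_le_range _ _)
    _ = _ := rfl

end rankBound

section semisimple

variable [Fintype F] {q r : ℕ}

theorem no_eig {n : ℕ} (hq : Fintype.card F = q) (hr : r.Prime) (hrq1 : ¬ r ∣ q - 1) (hrF : (r : F) ≠ 0) (A : GL (Fin n) F) (hAr : A ^ r = 1) :
    ∀ u ∈ LinearMap.range ((A : Matrix (Fin n) (Fin n) F) - 1).mulVecLin, ∀ l : F, u = l • ((A : Matrix (Fin n) (Fin n) F) *ᵥ u) → u = 0 := by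
  classical
  rintro _ ⟨w, rfl⟩ l hl
  set X : Matrix (Fin n) (Fin n) F := (A : Matrix (Fin n) (Fin n) F) with hX
  set u : Fin n → F := (X - 1).mulVecLin w with hu
  by_contra hne
  have hXr : X ^ r = 1 := by
    have := congrArg Units.val hAr
    simpa using this
  have hl0 : l ≠ 0 := by
    rintro rfl
    rw [zero_smul] at hl
    exact hne hl
  have hAu : X *ᵥ u = l⁻¹ • u := by
    conv_rhs => rw [hl]
    rw [smul_smul, inv_mul_cancel₀ hl0, one_smul]
  have hpow : ∀ k : ℕ, (X ^ k) *ᵥ u = (l⁻¹) ^ k • u := by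
    intro k
    induction k with
    | zero => simp
    | succ k ih =>
      rw [pow_succ', ← Matrix.mulVec_mulVec, ih, Matrix.mulVec_smul, hAu, smul_smul, pow_succ]
  have h1 := hpow r
  rw [hXr, Matrix.one_mulVec] at h1
  have h2 : (l⁻¹) ^ r = 1 := by
    by_contra h3
    have h4 : ((l⁻¹) ^ r - 1) • u = 0 := by
      rw [sub_smul, ← h1, one_smul, sub_self]
    rcases smul_eq_zero.mp h4 with h5 | h5
    · exact h3 (sub_eq_zero.mp h5)
    · exact hne h5
  have h3 := eq_one_of_pow hq hr hrq1 h2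
  have hAu1 : X *ᵥ u = u := by rw [hAu, h3, one_smul]
  have hAw : X *ᵥ w = w + u := by
    simp only [hu, Matrix.mulVecLin_apply, Matrix.sub_mulVec, Matrix.one_mulVec]
    abel
  have hpw : ∀ k : ℕ, (X ^ k) *ᵥ w = w + (k : F) • u := by
    intro k
    induction k with
    | zero => simp
    | succ k ih =>
      rw [pow_succ', ← Matrix.mulVec_mulVec, ih, Matrix.mulVec_add, Matrix.mulVec_smul, hAu1, hAw]
      push_cast
      rw [add_smul, one_smul]
      abel
  have h5 := hpw r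
  rw [hXr, Matrix.one_mulVec] at h5
  have h6 : (r : F) • u = 0 := by
    have := congrArg (fun t => t - w) h5
    simpa using this.symm
  rcases smul_eq_zero.mp h6 with h7 | h7
  · exact hrF h7
  · exact hne h7

end semisimple

section orth

variable {n : ℕ}

/-- Orthogonal elements of odd order have even rank of `B - 1`. -/
theorem rank_even_of_orth (f : (Fin n → F) → (Fin n → F) → F) (hf : IsSymmetricForm f) (h2 : (2 : F) ≠ 0) {r : ℕ} (hr : Odd r)
    (B : GL (Fin n) F) (hBr : B ^ r = 1)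
    (hBf : ∀ u v, f ((B : Matrix (Fin n) (Fin n) F) *ᵥ u) ((B : Matrix (Fin n) (Fin n) F) *ᵥ v) = f u v) :
    ∃ t, ((B : Matrix (Fin n) (Fin n) F) - 1).rank = 2 * t := by
  classical
  set X : Matrix (Fin n) (Fin n) F := (B : Matrix (Fin n) (Fin n) F) with hX
  set Y : Matrix (Fin n) (Fin n) F := ((B⁻¹ : GL (Fin n) F) : Matrix (Fin n) (Fin n) F) with hY
  have hXY : X * Y = 1 := by
    rw [hX, hY, ← Units.val_mul, mul_inv_cancel]
    rfl
  have hYX : Y * X = 1 := by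
    rw [hX, hY, ← Units.val_mul, inv_mul_cancel]
    rfl
  have hXr : X ^ r = 1 := by
    have := congrArg Units.val hBr
    simpa using this
  let S : Matrix (Fin n) (Fin n) F := X - Y
  -- rank of `S`
  have hdet : (X + 1).det ≠ 0 := by
    intro h0
    obtain ⟨v, hv0, hv⟩ := Matrix.exists_mulVec_eq_zero_iff.mpr h0
    have h3 : X *ᵥ v = - v := by
      rw [Matrix.add_mulVec, Matrix.one_mulVec] at hv
      exact eq_neg_of_add_eq_zero_left hv
    have h4 : ∀ k : ℕ, (X ^ k) *ᵥ v = (-1 : F) ^ k • v := by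
      intro k
      induction k with
      | zero => simp
      | succ k ih =>
        rw [pow_succ', ← Matrix.mulVec_mulVec, ih, Matrix.mulVec_smul, h3, pow_succ, mul_neg_one, neg_smul, smul_neg]
    have h5 := h4 r
    rw [hXr, Matrix.one_mulVec, hr.neg_one_pow, neg_smul, one_smul] at h5
    have h6 : (2 : F) • v = 0 := by
      rw [two_smul]
      nth_rewrite 1 [h5]
      simp
    exact hv0 ((smul_eq_zero.mp h6).resolve_left h2)
  have hYdet : Y.det ≠ 0 := det_ne_zero_GL B⁻¹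
  have hSeq : S = (X - 1) * ((X + 1) * Y) := by
    have : (X - 1) * ((X + 1) * Y) = X * (X * Y) - Y := by noncomm_ring
    rw [this, hXY, Matrix.mul_one]
  have hrS : S.rank = (X - 1).rank := by
    rw [hSeq]
    apply Matrix.rank_mul_eq_left_of_isUnit_det
    rw [Matrix.det_mul]
    exact (mul_ne_zero hdet hYdet).isUnit
  rw [← hrS]
  -- the alternating form
  let fL : (Fin n → F) →ₗ[F] (Fin n → F) →ₗ[F] F :=
    LinearMap.mk₂ F f hf.bilinear.add_left (fun c u v => hf.bilinear.smul_left c u v) hf.bilinear.add_right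
      (fun c u v => hf.bilinear.smul_right c u v)
  have hfL : ∀ u v, fL u v = f u v := fun u v => rfl
  let ω : (Fin n → F) →ₗ[F] (Fin n → F) →ₗ[F] F := fL.compl₂ S.mulVecLin
  have hω : ∀ u v, ω u v = f u (X *ᵥ v) - f (X *ᵥ u) v := by
    intro u v
    show fL u ((X - Y) *ᵥ v) = _
    rw [Matrix.sub_mulVec, map_sub, hfL, hfL]
    congr 1
    rw [← hBf u (Y *ᵥ v), Matrix.mulVec_mulVec, hXY, Matrix.one_mulVec]
  have halt : ∀ v, ω v v = 0 := by
    intro v
    rw [hω, hf.symm, sub_self]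
  have hskew : ∀ a b, ω a b = - ω b a := by
    intro a b
    have := halt (a + b)
    simp only [map_add, LinearMap.add_apply, halt, zero_add, add_zero] at this
    exact eq_neg_of_add_eq_zero_right this
  obtain ⟨C, hC⟩ := Submodule.exists_isCompl (LinearMap.ker S.mulVecLin)
  have h5 := LinearMap.finrank_range_add_finrank_ker S.mulVecLin
  have h6 := Submodule.finrank_add_eq_of_isCompl hC
  have hrk : S.rank = finrank F C := by
    have : S.rank = finrank F (LinearMap.range S.mulVecLin) := rfl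
    omega
  rw [hrk]
  let BC : C →ₗ[F] C →ₗ[F] F := ω.domRestrict₁₂ C C
  refine Cfsg.Agent.Lib.SpInvol.even_finrank BC (fun v => halt _) ?_
  intro c hc
  have hall : ∀ v, ω c v = 0 := by
    intro v
    obtain ⟨a, ha, b, hb, rfl⟩ := Cfsg.Agent.Lib.SpInvol.exists_add_of_compl hC v
    rw [map_add]
    have h7 : ω c a = 0 := by
      show fL c (S.mulVecLin a) = 0
      rw [LinearMap.mem_ker.mp ha, map_zero]
    have h8 : ω c b = 0 := hc ⟨b, hb⟩
    rw [h7, h8, add_zero]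
  have hker : (S.mulVecLin) (c : Fin n → F) = 0 := by
    by_contra hne
    obtain ⟨x, hx⟩ := (hf.nondegenerate _ hne).1
    apply hx
    have h8 : ω x c = 0 := by rw [hskew, hall, neg_zero]
    exact h8
  exact Subtype.ext (Submodule.disjoint_def.mp hC.disjoint _ hker c.2)

end orth


section fix

variable {ι : Type} [Fintype ι] [DecidableEq ι] {a b : ℕ}

/-- The data of a conjugate of `x` being a Kronecker product. -/
def FixI (e : ι ≃ Fin a × Fin b) (x Q : GL ι F) (A : GL (Fin a) F) (B : GL (Fin b) F) : Prop :=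
  ((Q⁻¹ * x * Q : GL ι F) : Matrix ι ι F) =
    ((A : Matrix (Fin a) (Fin a) F) ⊗ₖ (B : Matrix (Fin b) (Fin b) F)).submatrix e e

theorem fixI_of_mem (e : ι ≃ Fin a × Fin b) (P g x : GL ι F) (h : g⁻¹ * x * g ∈ tensorProductSubgroup a b e P) :
    ∃ A B, FixI e x (g * P) A B := by
  obtain ⟨K, hK, hKe⟩ := h
  obtain ⟨K₀, hK₀, rfl⟩ := hK
  obtain ⟨A, B, hAB⟩ := hK₀
  refine ⟨A, B, ?_⟩
  have h1 : (g * P)⁻¹ * x * (g * P) = glReindex e.symm K₀ := by
    have h2 : P * glReindex e.symm K₀ * P⁻¹ = g⁻¹ * x * g := hKe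
    have h3 : (g * P)⁻¹ * x * (g * P) = P⁻¹ * (g⁻¹ * x * g) * P := by group
    rw [h3, ← h2]
    group
  unfold FixI
  rw [h1, ← hAB]
  rfl

theorem scalar_of_conjI (x Q : GL ι F) (z : F)
    (h : ((Q⁻¹ * x * Q : GL ι F) : Matrix ι ι F) = z • (1 : Matrix ι ι F)) :
    (x : Matrix ι ι F) = z • (1 : Matrix ι ι F) := by
  have h1 : x = Q * (Q⁻¹ * x * Q) * Q⁻¹ := by group
  have h2 := congrArg Units.val h1
  rw [Units.val_mul, Units.val_mul, h, Matrix.mul_smul, Matrix.mul_one, Matrix.smul_mul, ← Units.val_mul, mul_inv_cancel] at h2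
  simpa using h2

theorem rank_fixI (e : ι ≃ Fin a × Fin b) (x Q : GL ι F) (A : GL (Fin a) F) (B : GL (Fin b) F) (h : FixI e x Q A B) (c : F) :
    ((x : Matrix ι ι F) - c • (1 : Matrix ι ι F)).rank =
      (((A : Matrix (Fin a) (Fin a) F) ⊗ₖ (B : Matrix (Fin b) (Fin b) F)) - c • (1 : Matrix (Fin a × Fin b) (Fin a × Fin b) F)).rank := by
  have h1 : (((A : Matrix (Fin a) (Fin a) F) ⊗ₖ (B : Matrix (Fin b) (Fin b) F)) - c • (1 : Matrix (Fin a × Fin b) (Fin a × Fin b) F)).submatrix e e =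
      ((Q⁻¹ : GL ι F) : Matrix ι ι F) * ((x : Matrix ι ι F) - c • (1 : Matrix ι ι F)) * (Q : Matrix ι ι F) := by
    have h2 : ((Q⁻¹ : GL ι F) : Matrix ι ι F) * (x : Matrix ι ι F) * (Q : Matrix ι ι F) =
      ((A : Matrix (Fin a) (Fin a) F) ⊗ₖ (B : Matrix (Fin b) (Fin b) F)).submatrix e e := by
      rw [← h]
      rfl
    have h3 : ((Q⁻¹ : GL ι F) : Matrix ι ι F) * (Q : Matrix ι ι F) = 1 := by
      rw [← Units.val_mul, inv_mul_cancel]
      rfl
    rw [Matrix.mul_sub, Matrix.sub_mul, h2, Matrix.mul_smul, Matrix.mul_one, Matrix.smul_mul, h3]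
    ext i j
    simp [Matrix.one_apply]
  rw [← Matrix.rank_submatrix _ e e, h1, Matrix.rank_mul_eq_left_of_isUnit_det _ _ (Matrix.isUnits_det_units Q),
    Matrix.rank_mul_eq_right_of_isUnit_det _ _ (Matrix.isUnits_det_units Q⁻¹)]

/-- Non-scalar elements have rank at least `min a b`. -/
theorem min_le_rank_of_fix (e : ι ≃ Fin a × Fin b) (x Q : GL ι F) (A : GL (Fin a) F) (B : GL (Fin b) F)
    (h : FixI e x Q A B) (hx : ∀ z : F, (x : Matrix ι ι F) ≠ z • (1 : Matrix ι ι F)) (c : F) :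
    min a b ≤ ((x : Matrix ι ι F) - c • (1 : Matrix ι ι F)).rank := by
  rw [rank_fixI e x Q A B h]
  by_cases hB : ∃ β : F, (B : Matrix (Fin b) (Fin b) F) = β • (1 : Matrix (Fin b) (Fin b) F)
  · obtain ⟨β, hβ⟩ := hB
    by_cases hA : ∃ α : F, (A : Matrix (Fin a) (Fin a) F) = α • (1 : Matrix (Fin a) (Fin a) F)
    · obtain ⟨α, hα⟩ := hA
      exfalso
      apply hx (α * β)
      apply scalar_of_conjI x Q
      rw [h, hα, hβ, smul_kronecker, kronecker_smul, Matrix.one_kronecker_one]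
      ext i j
      simp only [Matrix.submatrix_apply, Matrix.smul_apply, Matrix.one_apply, EmbeddingLike.apply_eq_iff_eq, smul_eq_mul]
      ring
    · have := card_le_rank' (A : Matrix (Fin a) (Fin a) F) (fun c hc => hA ⟨c, hc⟩) (B : Matrix (Fin b) (Fin b) F) (det_ne_zero_GL B) c
      simp only [Fintype.card_fin] at this
      omega
  · have := card_le_rank (A : Matrix (Fin a) (Fin a) F) (det_ne_zero_GL A) (B : Matrix (Fin b) (Fin b) F) (fun c hc => hB ⟨c, hc⟩) c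
    simp only [Fintype.card_fin] at this
    omega

theorem rank_kron_scalarI (α : F) (B : Matrix (Fin b) (Fin b) F) (c : F) :
    ((α • (1 : Matrix (Fin a) (Fin a) F)) ⊗ₖ B - c • (1 : Matrix (Fin a × Fin b) (Fin a × Fin b) F)).rank =
      a * (α • B - c • (1 : Matrix (Fin b) (Fin b) F)).rank := by
  have : (α • (1 : Matrix (Fin a) (Fin a) F)) ⊗ₖ B - c • (1 : Matrix (Fin a × Fin b) (Fin a × Fin b) F) =
      (1 : Matrix (Fin a) (Fin a) F) ⊗ₖ (α • B - c • (1 : Matrix (Fin b) (Fin b) F)) := by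
    ext ⟨i, j⟩ ⟨k, l⟩
    by_cases hik : i = k
    · subst hik
      simp [Matrix.one_apply]
    · simp [Matrix.one_apply, hik]
  rw [this, rank_one_kron, Fintype.card_fin]

/-- All ranks are divisible by `a` once the first factor is scalar. -/
theorem dvd_rank_of_fixI (e : ι ≃ Fin a × Fin b) (x Q : GL ι F) (A : GL (Fin a) F) (B : GL (Fin b) F)
    (h : FixI e x Q A B) (c : F) (hc : ((x : Matrix ι ι F) - c • (1 : Matrix ι ι F)).rank < b) (c' : F) :
    a ∣ ((x : Matrix ι ι F) - c' • (1 : Matrix ι ι F)).rank := by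
  have hA : ∃ α : F, (A : Matrix (Fin a) (Fin a) F) = α • (1 : Matrix (Fin a) (Fin a) F) := by
    by_contra hA
    have := card_le_rank' (A : Matrix (Fin a) (Fin a) F) (fun c hc => hA ⟨c, hc⟩) (B : Matrix (Fin b) (Fin b) F) (det_ne_zero_GL B) c
    rw [← rank_fixI e x Q A B h, Fintype.card_fin] at this
    omega
  obtain ⟨α, hα⟩ := hA
  rw [rank_fixI e x Q A B h, hα, rank_kron_scalarI]
  exact Dvd.intro _ rfl

/-- The Kronecker product as an invertible matrix. -/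
noncomputable def kronGL (A : GL (Fin a) F) (B : GL (Fin b) F) : GL (Fin a × Fin b) F where
  val := (A : Matrix (Fin a) (Fin a) F) ⊗ₖ (B : Matrix (Fin b) (Fin b) F)
  inv := ((A⁻¹ : GL (Fin a) F) : Matrix (Fin a) (Fin a) F) ⊗ₖ ((B⁻¹ : GL (Fin b) F) : Matrix (Fin b) (Fin b) F)
  val_inv := by
    rw [← Matrix.mul_kronecker_mul, ← Units.val_mul, ← Units.val_mul, mul_inv_cancel, mul_inv_cancel]
    simp
  inv_val := by
    rw [← Matrix.mul_kronecker_mul, ← Units.val_mul, ← Units.val_mul, inv_mul_cancel, inv_mul_cancel]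
    simp

/-- The conjugated Kronecker product. -/
noncomputable def yOf (e : ι ≃ Fin a × Fin b) (P : GL ι F) (A : GL (Fin a) F) (B : GL (Fin b) F) : GL ι F :=
  P * glReindex e.symm (kronGL A B) * P⁻¹

theorem yOf_mem (e : ι ≃ Fin a × Fin b) (P : GL ι F) (A : GL (Fin a) F) (B : GL (Fin b) F) :
    yOf e P A B ∈ tensorProductSubgroup a b e P :=
  ⟨glReindex e.symm (kronGL A B), ⟨kronGL A B, ⟨A, B, rfl⟩, rfl⟩, rfl⟩

theorem yOf_fix (e : ι ≃ Fin a × Fin b) (P : GL ι F) (A : GL (Fin a) F) (B : GL (Fin b) F) :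
    FixI e (yOf e P A B) P A B := by
  unfold FixI
  have : P⁻¹ * yOf e P A B * P = glReindex e.symm (kronGL A B) := by
    unfold yOf
    group
  rw [this]
  rfl

/-- Action on tensor coordinates. -/
theorem mulVec_psi_of_conj (e : ι ≃ Fin a × Fin b) (P y : GL ι F) (K : Matrix (Fin a × Fin b) (Fin a × Fin b) F)
    (hy : ((P⁻¹ * y * P : GL ι F) : Matrix ι ι F) = K.submatrix e e) (s : Fin a × Fin b → F) :
    (y : Matrix ι ι F) *ᵥ psi e P s = psi e P (K *ᵥ s) := by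
  have h1 : (y : Matrix ι ι F) * (P : Matrix ι ι F) = (P : Matrix ι ι F) * K.submatrix e e := by
    rw [← hy, ← Units.val_mul, ← Units.val_mul]
    congr 1
    group
  unfold psi
  rw [Matrix.mulVec_mulVec, h1, ← Matrix.mulVec_mulVec]
  congr 1
  rw [Matrix.submatrix_mulVec_equiv]
  have : (s ∘ e) ∘ e.symm = s := by
    ext i
    simp
  rw [this]

theorem gram_bil {κ : Type} [Fintype κ] [DecidableEq κ] (f : (κ → F) → (κ → F) → F) (hf : IsBilinearForm f) (x y : κ → F) :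
    f x y = formOfGram id (gramMatrix f) x y := by
  classical
  apply gram_of_left id f hf.add_left hf.smul_left
  intro z c
  let fL : (κ → F) →ₗ[F] (κ → F) →ₗ[F] F :=
    LinearMap.mk₂ F f hf.add_left (fun c u v => hf.smul_left c u v) hf.add_right
      (fun c u v => hf.smul_right c u v)
  have hz : z = ∑ b, z b • (Pi.single b 1 : κ → F) := by
    ext j
    simp [Finset.sum_apply, Pi.single_apply]
  show fL (Pi.single c 1) z = _
  conv_lhs => rw [hz]
  rw [map_sum]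
  refine Finset.sum_congr rfl fun b _ => ?_
  rw [map_smul, smul_eq_mul, mul_comm]
  rfl

theorem formOfGram_eq {κ : Type} [Fintype κ] (G : Matrix κ κ F) (x y : κ → F) : formOfGram id G x y = x ⬝ᵥ (G *ᵥ y) := by
  simp only [formOfGram, dotProduct, Matrix.mulVec, Finset.mul_sum, id]
  refine Finset.sum_congr rfl fun a _ => Finset.sum_congr rfl fun b _ => ?_
  ring

theorem formOfGram_mulVec {κ : Type} [Fintype κ] (G K : Matrix κ κ F) (hK : Kᵀ * G * K = G) (x y : κ → F) :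
    formOfGram id G (K *ᵥ x) (K *ᵥ y) = formOfGram id G x y := by
  rw [formOfGram_eq, formOfGram_eq]
  calc (K *ᵥ x) ⬝ᵥ (G *ᵥ (K *ᵥ y)) = (x ᵥ* Kᵀ) ⬝ᵥ (G *ᵥ (K *ᵥ y)) := by rw [Matrix.vecMul_transpose]
    _ = x ⬝ᵥ (Kᵀ *ᵥ (G *ᵥ (K *ᵥ y))) := (Matrix.dotProduct_mulVec x Kᵀ _).symm
    _ = x ⬝ᵥ ((Kᵀ * G * K) *ᵥ y) := by rw [Matrix.mulVec_mulVec, Matrix.mulVec_mulVec, Matrix.mul_assoc]
    _ = _ := by rw [hK]

/-- Preservation on the tensor coordinates. -/
theorem yOf_pres (e : ι ≃ Fin a × Fin b) (P : GL ι F) (f : (ι → F) → (ι → F) → F) (f₁ : (Fin a → F) → (Fin a → F) → F)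
    (f₂ : (Fin b → F) → (Fin b → F) → F) (hS : IsTensorFormStructure id f f₁ f₂ e P) (A : GL (Fin a) F) (B : GL (Fin b) F)
    (hA : (A : Matrix (Fin a) (Fin a) F)ᵀ * gramMatrix f₁ * A = gramMatrix f₁)
    (hB : (B : Matrix (Fin b) (Fin b) F)ᵀ * gramMatrix f₂ * B = gramMatrix f₂) (v v' : ι → F) :
    f ((yOf e P A B : Matrix ι ι F) *ᵥ v) ((yOf e P A B : Matrix ι ι F) *ᵥ v') = f v v' := by
  obtain ⟨s, rfl⟩ := Cfsg.Agent.Lib.TensorForm.psi_surj e P v
  obtain ⟨s', rfl⟩ := Cfsg.Agent.Lib.TensorForm.psi_surj e P v'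
  obtain ⟨c, hc, h⟩ := hS
  have hy := yOf_fix e P A B
  rw [mulVec_psi_of_conj e P _ _ hy, mulVec_psi_of_conj e P _ _ hy]
  show f ((P : Matrix ι ι F) *ᵥ (_ ∘ e)) ((P : Matrix ι ι F) *ᵥ (_ ∘ e)) = f ((P : Matrix ι ι F) *ᵥ (_ ∘ e)) ((P : Matrix ι ι F) *ᵥ (_ ∘ e))
  rw [h, h, formOfGram_mulVec]
  rw [← Matrix.kroneckerMap_transpose, ← Matrix.mul_kronecker_mul, ← Matrix.mul_kronecker_mul, hA, hB]

end fix


section elements

variable {d : ℕ}

theorem mem_sp_iff (x : GL (Fin d ⊕ Fin d) F) :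
    x ∈ Cfsg.spGL d F ↔ ∀ u v, sympForm d F ((x : Matrix (Fin d ⊕ Fin d) (Fin d ⊕ Fin d) F) *ᵥ u) ((x : Matrix (Fin d ⊕ Fin d) (Fin d ⊕ Fin d) F) *ᵥ v) = sympForm d F u v :=
  Iff.rfl

/-- Orthogonal basis: an element `B` of `O(f₂)` with `B² = 1` and prescribed rank of `B - 1`. -/
theorem exists_B_t {b t : ℕ} (f₂ : (Fin b → F) → (Fin b → F) → F) (hf₂ : IsSymmetricForm f₂) (h2 : (2 : F) ≠ 0) (ht : t ≤ b) :
    ∃ B : GL (Fin b) F, (B : Matrix (Fin b) (Fin b) F) * B = 1 ∧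
      (∀ u v, f₂ ((B : Matrix (Fin b) (Fin b) F) *ᵥ u) ((B : Matrix (Fin b) (Fin b) F) *ᵥ v) = f₂ u v) ∧
      ((B : Matrix (Fin b) (Fin b) F) - 1).rank = t := by
  classical
  let fL : (Fin b → F) →ₗ[F] (Fin b → F) →ₗ[F] F :=
    LinearMap.mk₂ F f₂ hf₂.bilinear.add_left (fun c u v => hf₂.bilinear.smul_left c u v) hf₂.bilinear.add_right
      (fun c u v => hf₂.bilinear.smul_right c u v)
  have hfL : ∀ u v, fL u v = f₂ u v := fun u v => rfl
  haveI : Invertible (2 : F) := invertibleOfNonzero h2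
  obtain ⟨v₀, hv₀⟩ := LinearMap.BilinForm.exists_orthogonal_basis (B := fL) (by
    refine ⟨fun u v => ?_⟩
    simp [hfL, hf₂.symm u v])
  let v : Basis (Fin b) F (Fin b → F) := v₀.reindex (finCongr (by simp))
  have hv : ∀ i j, i ≠ j → f₂ (v i) (v j) = 0 := by
    intro i j hij
    have h1 : (finCongr (by simp : finrank F (Fin b → F) = b)).symm i ≠ (finCongr (by simp : finrank F (Fin b → F) = b)).symm j :=
      fun h => hij ((finCongr _).symm.injective h)
    have h' : fL (v₀ _) (v₀ _) = 0 := hv₀ h1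
    simpa [v, hfL] using h'
  let ε : Fin b → F := fun i => if (i : ℕ) < t then -1 else 1
  have hε2 : ∀ i, ε i * ε i = 1 := by
    intro i
    simp only [ε]
    split_ifs <;> simp
  let E : (Fin b → F) ≃ₗ[F] (Fin b → F) := (Pi.basisFun F (Fin b)).equiv v (Equiv.refl _)
  let M : GL (Fin b) F := Cfsg.Agent.Lib.MatConj.glOfEquiv E
  have hMs : ∀ i, (M : Matrix (Fin b) (Fin b) F) *ᵥ (Pi.single i 1) = v i := by
    intro i
    rw [Cfsg.Agent.Lib.MatConj.glOfEquiv_mulVec]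
    have : (Pi.single i (1 : F) : Fin b → F) = Pi.basisFun F (Fin b) i := by simp
    rw [this]
    exact (Pi.basisFun F (Fin b)).equiv_apply i v (Equiv.refl _)
  have hεne : ∀ i, ε i ≠ 0 := by
    intro i
    simp only [ε]
    split_ifs <;> simp
  let D : GL (Fin b) F := Matrix.GeneralLinearGroup.mkOfDetNeZero (diagonal ε) (by
    rw [det_diagonal]
    exact Finset.prod_ne_zero_iff.mpr fun i _ => hεne i)
  have hDv : (D : Matrix (Fin b) (Fin b) F) = diagonal ε := rfl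
  let B : GL (Fin b) F := M * D * M⁻¹
  have hMMi : ((M⁻¹ : GL (Fin b) F) : Matrix (Fin b) (Fin b) F) * (M : Matrix (Fin b) (Fin b) F) = 1 := by
    rw [← Units.val_mul, inv_mul_cancel]
    rfl
  have hMiM : (M : Matrix (Fin b) (Fin b) F) * ((M⁻¹ : GL (Fin b) F) : Matrix (Fin b) (Fin b) F) = 1 := by
    rw [← Units.val_mul, mul_inv_cancel]
    rfl
  have hBv : (B : Matrix (Fin b) (Fin b) F) = (M : Matrix (Fin b) (Fin b) F) * diagonal ε * ((M⁻¹ : GL (Fin b) F) : Matrix (Fin b) (Fin b) F) := rfl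
  have hDD : (diagonal ε : Matrix (Fin b) (Fin b) F) * diagonal ε = 1 := by
    rw [Matrix.diagonal_mul_diagonal]
    have : (fun i => ε i * ε i) = 1 := by
      ext i
      simpa using hε2 i
    rw [this]
    exact Matrix.diagonal_one
  have hBvi : ∀ i, (B : Matrix (Fin b) (Fin b) F) *ᵥ v i = ε i • v i := by
    intro i
    rw [hBv, ← hMs i, Matrix.mulVec_mulVec, Matrix.mul_assoc, Matrix.mul_assoc, hMMi, Matrix.mul_one, ← Matrix.mulVec_mulVec,
      Matrix.mulVec_single_one, ← Matrix.mulVec_smul]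
    congr 1
    ext j
    simp [Matrix.diagonal_apply, Pi.single_apply]
    by_cases h : j = i <;> simp [h]
  refine ⟨B, ?_, ?_, ?_⟩
  · rw [hBv]
    calc (M : Matrix (Fin b) (Fin b) F) * diagonal ε * ((M⁻¹ : GL (Fin b) F) : Matrix (Fin b) (Fin b) F) *
          ((M : Matrix (Fin b) (Fin b) F) * diagonal ε * ((M⁻¹ : GL (Fin b) F) : Matrix (Fin b) (Fin b) F))
        = (M : Matrix (Fin b) (Fin b) F) * (diagonal ε * (((M⁻¹ : GL (Fin b) F) : Matrix (Fin b) (Fin b) F) * (M : Matrix (Fin b) (Fin b) F)) * diagonal ε) * ((M⁻¹ : GL (Fin b) F) : Matrix (Fin b) (Fin b) F) := by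
          simp only [Matrix.mul_assoc]
      _ = 1 := by rw [hMMi, Matrix.mul_one, hDD, Matrix.mul_one, hMiM]
  · have hbil : fL.compl₁₂ (B : Matrix (Fin b) (Fin b) F).mulVecLin (B : Matrix (Fin b) (Fin b) F).mulVecLin = fL := by
      apply v.ext
      intro i
      apply v.ext
      intro j
      simp only [LinearMap.compl₁₂_apply, Matrix.mulVecLin_apply, hBvi, map_smul, LinearMap.smul_apply, smul_eq_mul, hfL]
      by_cases hij : i = j
      · subst hij
        rw [← mul_assoc, hε2, one_mul]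
      · rw [hv i j hij, mul_zero, mul_zero]
    intro u w
    have := LinearMap.congr_fun (LinearMap.congr_fun hbil u) w
    exact this
  · have h1 : (B : Matrix (Fin b) (Fin b) F) - 1 = (M : Matrix (Fin b) (Fin b) F) * (diagonal ε - 1) * ((M⁻¹ : GL (Fin b) F) : Matrix (Fin b) (Fin b) F) := by
      rw [hBv, Matrix.mul_sub, Matrix.sub_mul, Matrix.mul_one, hMiM]
    rw [h1, Matrix.rank_mul_eq_left_of_isUnit_det _ _ (Matrix.isUnits_det_units M⁻¹),
      Matrix.rank_mul_eq_right_of_isUnit_det _ _ (Matrix.isUnits_det_units M)]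
    have h2' : (diagonal ε - 1 : Matrix (Fin b) (Fin b) F) = diagonal (fun i => ε i - 1) := by
      ext i j
      by_cases hij : i = j
      · subst hij
        simp
      · simp [hij, Matrix.one_apply]
    rw [h2', Matrix.rank_diagonal]
    have h3 : ∀ i : Fin b, ε i - 1 ≠ 0 ↔ (i : ℕ) < t := by
      intro i
      simp only [ε]
      split_ifs with h
      · simp only [h, iff_true]
        intro h4
        apply h2
        linear_combination -h4
      · simp [h]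
    rw [Fintype.card_congr (Equiv.subtypeEquivRight h3)]
    rw [Fintype.card_congr (show {i : Fin b // (i : ℕ) < t} ≃ Fin t from
      { toFun := fun i => ⟨i.1.1, i.2⟩
        invFun := fun j => ⟨⟨j.1, lt_of_lt_of_le j.2 ht⟩, j.2⟩
        left_inv := fun i => rfl
        right_inv := fun j => rfl })]
    simp

/-- The diagonal elements of `Sp`. -/
theorem diag_mem (δ : Fin d ⊕ Fin d → F) (hδ : ∀ i, δ (Sum.inl i) * δ (Sum.inr i) = 1) (hne : ∀ i, δ i ≠ 0) :
    (Matrix.GeneralLinearGroup.mkOfDetNeZero (diagonal δ) (by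
      rw [det_diagonal]
      exact Finset.prod_ne_zero_iff.mpr fun i _ => hne i) : GL (Fin d ⊕ Fin d) F) ∈ Cfsg.spGL d F := by
  rw [mem_sp_iff]
  intro u v
  show sympForm d F (diagonal δ *ᵥ u) (diagonal δ *ᵥ v) = _
  rw [Cfsg.Agent.Lib.SympForm.sympForm_apply, Cfsg.Agent.Lib.SympForm.sympForm_apply]
  refine Finset.sum_congr rfl fun i _ => ?_
  simp only [Matrix.mulVec_diagonal]
  linear_combination (u (Sum.inr i) * v (Sum.inl i) - u (Sum.inl i) * v (Sum.inr i)) * hδ i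

/-- The element `x ↦ x + x_(inr i) e_(inl i)` of `Sp`. -/
theorem exists_tv (p : ℕ) [CharP F p] [Fact p.Prime] (hd : 1 ≤ d) :
    ∃ x : GL (Fin d ⊕ Fin d) F, x ∈ Cfsg.spGL d F ∧ x ^ p = 1 ∧
      (∀ z : F, (x : Matrix (Fin d ⊕ Fin d) (Fin d ⊕ Fin d) F) ≠ z • (1 : Matrix (Fin d ⊕ Fin d) (Fin d ⊕ Fin d) F)) ∧
      ((x : Matrix (Fin d ⊕ Fin d) (Fin d ⊕ Fin d) F) - (1 : F) • 1).rank ≤ 1 := by
  classical
  let i₀ : Fin d := ⟨0, hd⟩
  let N : Matrix (Fin d ⊕ Fin d) (Fin d ⊕ Fin d) F := Matrix.single (Sum.inl i₀) (Sum.inr i₀) (1 : F)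
  have hne : (Sum.inl i₀ : Fin d ⊕ Fin d) ≠ Sum.inr i₀ := by simp
  have hN : N * N = 0 := Matrix.single_mul_single_of_ne _ _ _ _ hne.symm _
  have hdet : (1 + N).det = 1 := Matrix.det_transvection_of_ne _ _ hne 1
  let x : GL (Fin d ⊕ Fin d) F := Matrix.GeneralLinearGroup.mkOfDetNeZero (1 + N) (by rw [hdet]; exact one_ne_zero)
  have hxv : (x : Matrix (Fin d ⊕ Fin d) (Fin d ⊕ Fin d) F) = 1 + N := rfl
  have hNv : ∀ v, N *ᵥ v = v (Sum.inr i₀) • Pi.single (Sum.inl i₀) 1 := by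
    intro v
    ext k
    by_cases hk : k = Sum.inl i₀
    · subst hk
      simp [N, Matrix.mulVec, dotProduct, Matrix.single_apply, Finset.sum_ite_eq, Fintype.sum_sum_type]
    · simp [N, Matrix.mulVec, dotProduct, Matrix.single_apply, hk, Ne.symm hk, Pi.single_apply]
  refine ⟨x, ?_, ?_, ?_, ?_⟩
  · rw [mem_sp_iff]
    intro u v
    rw [hxv, Matrix.add_mulVec, Matrix.add_mulVec, Matrix.one_mulVec, Matrix.one_mulVec, hNv, hNv]
    simp only [Cfsg.Agent.Lib.SympForm.sympForm_add_left, Cfsg.Agent.Lib.SympForm.sympForm_add_right,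
      Cfsg.Agent.Lib.SympForm.sympForm_smul_left, Cfsg.Agent.Lib.SympForm.sympForm_smul_right,
      Cfsg.Agent.Lib.SympForm.sympForm_self]
    have h1 : ∀ w, sympForm d F w (Pi.single (Sum.inl i₀) 1) = w (Sum.inr i₀) := by
      intro w
      rw [Cfsg.Agent.Lib.SympForm.sympForm_apply]
      simp [Pi.single_apply, Finset.sum_ite_eq]
    have h3 : ∀ w, sympForm d F (Pi.single (Sum.inl i₀) 1) w = - w (Sum.inr i₀) := by
      intro w
      rw [Cfsg.Agent.Lib.SympForm.sympForm_antisymm, h1]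
    rw [h1, h3]
    ring
  · apply Units.ext
    rw [Units.val_pow_eq_pow_val, hxv, pow_one_add N hN, CharP.cast_eq_zero, zero_smul, add_zero]
    rfl
  · intro z hz
    have h1 := congrFun (congrFun hz (Sum.inl i₀)) (Sum.inr i₀)
    simp [hxv, N, Matrix.one_apply, Matrix.single_apply] at h1
  · rw [one_smul, hxv, add_sub_cancel_left]
    have : N = Matrix.vecMulVec (Pi.single (Sum.inl i₀) 1) (Pi.single (Sum.inr i₀) 1) := by
      ext k l
      by_cases h1 : k = Sum.inl i₀ <;> by_cases h2 : l = Sum.inr i₀ <;>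
        simp [N, Matrix.vecMulVec_apply, Matrix.single_apply, Pi.single_apply, h1, h2, eq_comm]
    rw [this]
    exact Matrix.rank_vecMulVec_le _ _

end elements


section small

variable {d : ℕ}

theorem exists_small [Fintype F] {r f₀ : ℕ} [hr : Fact r.Prime] (h0 : 0 < f₀) (hd : f₀ ≤ d) (hdv : r ∣ Fintype.card F ^ (2 * f₀) - 1) :
    ∃ x : GL (Fin d ⊕ Fin d) F, x ∈ Cfsg.spGL d F ∧ x ^ r = 1 ∧ x ≠ 1 ∧
      ((x : Matrix (Fin d ⊕ Fin d) (Fin d ⊕ Fin d) F) - 1).rank ≤ 2 * f₀ := by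
  classical
  have hcard : r ∣ Nat.card (Matrix.symplecticGroup (Fin f₀) F) := by
    have h1 := Cfsg.Agent.Lib.SpOrder.card_Sp (F := F) f₀
    rw [show Nat.card (Matrix.symplecticGroup (Fin f₀) F) = _ from h1]
    apply Dvd.dvd.mul_left
    obtain ⟨k, rfl⟩ : ∃ k, f₀ = k + 1 := ⟨f₀ - 1, by omega⟩
    exact hdv.trans (Finset.dvd_prod_of_mem (fun i => Fintype.card F ^ (2 * (i + 1)) - 1) (Finset.mem_range.mpr (Nat.lt_succ_self k)))
  obtain ⟨x₀, hx₀⟩ := exists_prime_orderOf_dvd_card' r hcard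
  set X₀ : Matrix (Fin f₀ ⊕ Fin f₀) (Fin f₀ ⊕ Fin f₀) F := (x₀ : Matrix (Fin f₀ ⊕ Fin f₀) (Fin f₀ ⊕ Fin f₀) F) with hX₀
  have hX₀r : X₀ ^ r = 1 := by
    have h1 : x₀ ^ r = 1 := by rw [← hx₀]; exact pow_orderOf_eq_one x₀
    have h2 := congrArg Subtype.val h1
    simpa using h2
  have hX₀1 : X₀ ≠ 1 := by
    intro h
    have h1 : x₀ = 1 := Subtype.ext h
    rw [h1, orderOf_one] at hx₀
    exact hr.out.one_lt.ne hx₀
  let U₀ : GL (Fin f₀ ⊕ Fin f₀) F := Units.ofPowEqOne X₀ r hX₀r hr.out.ne_zero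
  have hU₀ : (U₀ : Matrix (Fin f₀ ⊕ Fin f₀) (Fin f₀ ⊕ Fin f₀) F) = X₀ := rfl
  let T₀ : (Fin f₀ ⊕ Fin f₀ → F) ≃ₗ[F] (Fin f₀ ⊕ Fin f₀ → F) :=
    Matrix.toLin'OfInv (M' := X₀) (M := ((U₀⁻¹ : GL (Fin f₀ ⊕ Fin f₀) F) : Matrix (Fin f₀ ⊕ Fin f₀) (Fin f₀ ⊕ Fin f₀) F))
      (by
        rw [← hU₀, ← Units.val_mul, inv_mul_cancel]
        rfl)
      (by
        rw [← hU₀, ← Units.val_mul, mul_inv_cancel]
        rfl)
  have hT₀ : ∀ a, T₀ a = X₀ *ᵥ a := fun a => by simp [T₀, Matrix.toLin'OfInv]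
  let W := (Fin f₀ ⊕ Fin f₀ → F) × (Fin (d - f₀) ⊕ Fin (d - f₀) → F)
  let BW : W →ₗ[F] W →ₗ[F] F :=
    (Cfsg.Agent.Lib.SympWitt.sympB f₀ F).compl₁₂ (LinearMap.fst F _ _) (LinearMap.fst F _ _) +
      (Cfsg.Agent.Lib.SympWitt.sympB (d - f₀) F).compl₁₂ (LinearMap.snd F _ _) (LinearMap.snd F _ _)
  have hBW : ∀ a a' : W, BW a a' = sympForm f₀ F a.1 a'.1 + sympForm (d - f₀) F a.2 a'.2 := fun a a' => rfl
  have hfW : finrank F W = 2 * d := by
    show finrank F ((Fin f₀ ⊕ Fin f₀ → F) × (Fin (d - f₀) ⊕ Fin (d - f₀) → F)) = _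
    rw [Module.finrank_prod, Module.finrank_fintype_fun_eq_card, Module.finrank_fintype_fun_eq_card]
    simp only [Fintype.card_sum, Fintype.card_fin]
    omega
  obtain ⟨E, hE⟩ := Cfsg.Agent.Lib.SympEquiv.exists_symp_equiv BW
    (fun v => by rw [hBW, Cfsg.Agent.Lib.SympForm.sympForm_self, Cfsg.Agent.Lib.SympForm.sympForm_self, add_zero])
    (fun v hv => by
      apply Prod.ext
      · apply Cfsg.Agent.Lib.SympWitt.eq_zero_of_forall_sympForm
        intro w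
        have := hv (w, 0)
        rw [hBW] at this
        simpa [Cfsg.Agent.Lib.SympForm.sympForm_zero_right] using this
      · apply Cfsg.Agent.Lib.SympWitt.eq_zero_of_forall_sympForm
        intro w
        have := hv (0, w)
        rw [hBW] at this
        simpa [Cfsg.Agent.Lib.SympForm.sympForm_zero_right] using this) hfW
  let T : W ≃ₗ[F] W := T₀.prodCongr (LinearEquiv.refl F _)
  have hT : ∀ a : W, T a = (X₀ *ᵥ a.1, a.2) := fun a => Prod.ext (hT₀ _) rfl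
  let g : (Fin d ⊕ Fin d → F) ≃ₗ[F] (Fin d ⊕ Fin d → F) := E.trans (T.trans E.symm)
  have hgv : ∀ v, g v = E.symm (X₀ *ᵥ (E v).1, (E v).2) := fun v => by
    rw [← hT]
    rfl
  have hgB : ∀ u v, sympForm d F (g u) (g v) = sympForm d F u v := by
    intro u v
    rw [← hE, ← hE, hgv, hgv, LinearEquiv.apply_symm_apply, LinearEquiv.apply_symm_apply, hBW, hBW]
    simp only
    rw [Cfsg.Agent.Lib.SympForm.sp_preserves x₀]
  let x : GL (Fin d ⊕ Fin d) F := Cfsg.Agent.Lib.MatConj.glOfEquiv g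
  have hxv : ∀ v, (x : Matrix (Fin d ⊕ Fin d) (Fin d ⊕ Fin d) F) *ᵥ v = g v := Cfsg.Agent.Lib.MatConj.glOfEquiv_mulVec g
  have hpow : ∀ (k : ℕ) v, ((x ^ k : GL (Fin d ⊕ Fin d) F) : Matrix (Fin d ⊕ Fin d) (Fin d ⊕ Fin d) F) *ᵥ v = E.symm ((X₀ ^ k) *ᵥ (E v).1, (E v).2) := by
    intro k
    induction k with
    | zero =>
      intro v
      simp
    | succ k ih =>
      intro v
      rw [pow_succ', Units.val_mul, ← Matrix.mulVec_mulVec, ih, hxv, hgv, LinearEquiv.apply_symm_apply]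
      simp only
      rw [Matrix.mulVec_mulVec, ← pow_succ']
  refine ⟨x, Cfsg.Agent.Lib.SpInvol.glOfEquiv_mem g hgB, ?_, ?_, ?_⟩
  · apply Units.ext
    apply Matrix.toLin'.injective
    apply LinearMap.ext
    intro v
    show ((x ^ r : GL (Fin d ⊕ Fin d) F) : Matrix (Fin d ⊕ Fin d) (Fin d ⊕ Fin d) F) *ᵥ v = (1 : Matrix (Fin d ⊕ Fin d) (Fin d ⊕ Fin d) F) *ᵥ v
    rw [hpow, hX₀r, Matrix.one_mulVec, Matrix.one_mulVec]
    simp
  · intro h
    apply hX₀1
    apply Matrix.toLin'.injective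
    apply LinearMap.ext
    intro a
    show X₀ *ᵥ a = (1 : Matrix (Fin f₀ ⊕ Fin f₀) (Fin f₀ ⊕ Fin f₀) F) *ᵥ a
    rw [Matrix.one_mulVec]
    have h1 := hxv (E.symm (a, 0))
    rw [h, hgv, LinearEquiv.apply_symm_apply] at h1
    have h3 : (E.symm (a, 0) : Fin d ⊕ Fin d → F) = E.symm (X₀ *ᵥ a, 0) := by simpa using h1
    have h4 := E.symm.injective h3
    exact (congrArg Prod.fst h4).symm
  · have hsub : LinearMap.range ((x : Matrix (Fin d ⊕ Fin d) (Fin d ⊕ Fin d) F) - 1).mulVecLin ≤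
        (LinearMap.range (LinearMap.inl F (Fin f₀ ⊕ Fin f₀ → F) (Fin (d - f₀) ⊕ Fin (d - f₀) → F))).map (E.symm : W →ₗ[F] (Fin d ⊕ Fin d → F)) := by
      rintro _ ⟨v, rfl⟩
      refine ⟨(X₀ *ᵥ (E v).1 - (E v).1, 0), ⟨X₀ *ᵥ (E v).1 - (E v).1, rfl⟩, ?_⟩
      simp only [Matrix.mulVecLin_apply, Matrix.sub_mulVec, Matrix.one_mulVec, hxv, hgv]
      have h3 : E.symm (X₀ *ᵥ (E v).1, (E v).2) - v = E.symm ((X₀ *ᵥ (E v).1, (E v).2) - E v) := by
        rw [map_sub, LinearEquiv.symm_apply_apply]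
      rw [h3]
      show E.symm _ = _
      congr 1
      exact Prod.ext rfl (sub_self _).symm
    have h1 := Submodule.finrank_mono hsub
    rw [LinearEquiv.finrank_map_eq, LinearMap.finrank_range_of_inj LinearMap.inl_injective, Module.finrank_fintype_fun_eq_card] at h1
    simp only [Fintype.card_sum, Fintype.card_fin] at h1
    have h2 : ((x : Matrix (Fin d ⊕ Fin d) (Fin d ⊕ Fin d) F) - 1).rank = finrank F (LinearMap.range ((x : Matrix (Fin d ⊕ Fin d) (Fin d ⊕ Fin d) F) - 1).mulVecLin) := rfl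
    omega

end small


section main

variable [Fintype F] {q r d a b : ℕ}

theorem no_fix_odd {o c : ℕ} (hq : Fintype.card F = q) (hr : r.Prime) (hr2 : r ≠ 2) (hrq : ¬ r ∣ q) (hrq1 : ¬ r ∣ q - 1)
    (hrF : (r : F) ≠ 0) (h2F : (2 : F) ≠ 0) (ho2 : 2 ≤ o) (hmin : ∀ i, 0 < i → r ∣ q ^ i - 1 → o ≤ i)
    (hc : (Even o ∧ c = o) ∨ (Odd o ∧ c = 2 * o)) (ha : 2 ≤ a) (hb : 3 ≤ b)
    (e : (Fin d ⊕ Fin d) ≃ Fin a × Fin b) (P : GL (Fin d ⊕ Fin d) F)
    (f₁ : (Fin a → F) → (Fin a → F) → F) (f₂ : (Fin b → F) → (Fin b → F) → F)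
    (hf₁ : IsSymplecticForm f₁) (hf₂ : IsSymmetricForm f₂) (hS : IsTensorFormStructure id (Cfsg.sympForm d F) f₁ f₂ e P)
    (x : GL (Fin d ⊕ Fin d) F) (hxr : x ^ r = 1) (hx1 : x ≠ 1)
    (hrank : ((x : Matrix (Fin d ⊕ Fin d) (Fin d ⊕ Fin d) F) - 1).rank ≤ c) (g : GL (Fin d ⊕ Fin d) F)
    (hg : g⁻¹ * x * g ∈ Cfsg.spGL d F) (A : GL (Fin a) F) (B : GL (Fin b) F) (h : FixI e x (g * P) A B) : False := by
  classical
  haveI : Nonempty (Fin a) := ⟨⟨0, by omega⟩⟩
  haveI : Nonempty (Fin b) := ⟨⟨0, by omega⟩⟩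
  set Q := g * P with hQ
  have hKr : ((A : Matrix (Fin a) (Fin a) F) ⊗ₖ (B : Matrix (Fin b) (Fin b) F)) ^ r = 1 := by
    have h1 : (A : Matrix (Fin a) (Fin a) F) ⊗ₖ (B : Matrix (Fin b) (Fin b) F) =
        Matrix.reindexAlgEquiv F F e (((Q⁻¹ * x * Q : GL (Fin d ⊕ Fin d) F) : Matrix (Fin d ⊕ Fin d) (Fin d ⊕ Fin d) F)) := by
      rw [h]
      ext i j
      simp
    rw [h1, ← map_pow, ← Units.val_pow_eq_pow_val]
    have h2 : (Q⁻¹ * x * Q) ^ r = 1 := by
      have h3 : Q⁻¹ * x * Q = Q⁻¹ * x * (Q⁻¹)⁻¹ := by rw [inv_inv]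
      rw [h3, conj_pow, hxr]
      group
    rw [h2]
    simp
  rw [kron_pow] at hKr
  obtain ⟨α, β, hα, hβ, hαβ⟩ := kron_eq_one _ _ hKr
  obtain ⟨γ, hγ0, hγ⟩ := exists_pow_eq hq hr hrq1 α (left_ne_zero_of_mul_eq_one hαβ)
  let A₁ : GL (Fin a) F := Matrix.GeneralLinearGroup.mkOfDetNeZero (γ⁻¹ • (A : Matrix (Fin a) (Fin a) F)) (by
    rw [Matrix.det_smul]
    exact mul_ne_zero (pow_ne_zero _ (inv_ne_zero hγ0)) (det_ne_zero_GL A))
  let B₁ : GL (Fin b) F := Matrix.GeneralLinearGroup.mkOfDetNeZero (γ • (B : Matrix (Fin b) (Fin b) F)) (by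
    rw [Matrix.det_smul]
    exact mul_ne_zero (pow_ne_zero _ hγ0) (det_ne_zero_GL B))
  have hA₁ : (A₁ : Matrix (Fin a) (Fin a) F) = γ⁻¹ • (A : Matrix (Fin a) (Fin a) F) := rfl
  have hB₁ : (B₁ : Matrix (Fin b) (Fin b) F) = γ • (B : Matrix (Fin b) (Fin b) F) := rfl
  have hK₁ : (A : Matrix (Fin a) (Fin a) F) ⊗ₖ (B : Matrix (Fin b) (Fin b) F) =
      (A₁ : Matrix (Fin a) (Fin a) F) ⊗ₖ (B₁ : Matrix (Fin b) (Fin b) F) := by
    rw [hA₁, hB₁, smul_kronecker, kronecker_smul, smul_smul, inv_mul_cancel₀ hγ0, one_smul]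
  have hA₁r : A₁ ^ r = 1 := Units.ext (by
    rw [Units.val_pow_eq_pow_val, hA₁, _root_.smul_pow, hα, inv_pow, hγ, smul_smul, inv_mul_cancel₀ (left_ne_zero_of_mul_eq_one hαβ), one_smul]
    rfl)
  have hB₁r : B₁ ^ r = 1 := Units.ext (by
    rw [Units.val_pow_eq_pow_val, hB₁, _root_.smul_pow, hβ, hγ, smul_smul, hαβ, one_smul]
    rfl)
  have hFix₁ : FixI e x Q A₁ B₁ := by
    unfold FixI
    rw [← hK₁]
    exact h
  -- preservation of the forms
  have hy : ((P⁻¹ * (g⁻¹ * x * g) * P : GL (Fin d ⊕ Fin d) F) : Matrix (Fin d ⊕ Fin d) (Fin d ⊕ Fin d) F) =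
      ((A₁ : Matrix (Fin a) (Fin a) F) ⊗ₖ (B₁ : Matrix (Fin b) (Fin b) F)).submatrix e e := by
    have h3 : P⁻¹ * (g⁻¹ * x * g) * P = Q⁻¹ * x * Q := by
      rw [hQ]
      group
    rw [h3]
    exact hFix₁
  obtain ⟨c₀, hc₀, hform⟩ := form_tn e P id (fun a b => rfl) (gram_bil f₁ hf₁.bilinear) (gram_bil f₂ hf₂.bilinear) hS
  have hpres : ∀ u w u' w', f₁ ((A₁ : Matrix (Fin a) (Fin a) F) *ᵥ u) ((A₁ : Matrix (Fin a) (Fin a) F) *ᵥ u') *
      f₂ ((B₁ : Matrix (Fin b) (Fin b) F) *ᵥ w) ((B₁ : Matrix (Fin b) (Fin b) F) *ᵥ w') = f₁ u u' * f₂ w w' := by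
    intro u w u' w'
    have h3 := (Cfsg.Agent.S5980.mem_sp_iff _).mp hg (psi e P (tn u w)) (psi e P (tn u' w'))
    rw [mulVec_psi_of_conj e P _ _ hy, mulVec_psi_of_conj e P _ _ hy, kron_mulVec, kron_mulVec, hform, hform] at h3
    exact mul_left_cancel₀ hc₀ h3
  have hne₁ : ∃ u₀ u₀', f₁ u₀ u₀' ≠ 0 := by
    let i : Fin a := ⟨0, by omega⟩
    have hu : (Pi.single i 1 : Fin a → F) ≠ 0 := by
      intro h0
      have := congrFun h0 i
      simp at this
    obtain ⟨y, hy⟩ := (hf₁.nondegenerate _ hu).2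
    exact ⟨_, _, hy⟩
  have hne₂ : ∃ w₀ w₀', f₂ w₀ w₀' ≠ 0 := by
    let i : Fin b := ⟨0, by omega⟩
    have hu : (Pi.single i 1 : Fin b → F) ≠ 0 := by
      intro h0
      have := congrFun h0 i
      simp at this
    obtain ⟨y, hy⟩ := (hf₂.nondegenerate _ hu).2
    exact ⟨_, _, hy⟩
  obtain ⟨u₀, u₀', hu₀⟩ := hne₁
  obtain ⟨w₀, w₀', hw₀⟩ := hne₂
  set μ := f₁ ((A₁ : Matrix (Fin a) (Fin a) F) *ᵥ u₀) ((A₁ : Matrix (Fin a) (Fin a) F) *ᵥ u₀') with hμ
  have hμ0 : μ ≠ 0 := by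
    intro h0
    have h3 := hpres u₀ w₀ u₀' w₀'
    rw [← hμ, h0, zero_mul] at h3
    exact mul_ne_zero hu₀ hw₀ h3.symm
  set β₁ := f₁ u₀ u₀' / μ with hβ₁
  have hB₁β : ∀ w w', f₂ ((B₁ : Matrix (Fin b) (Fin b) F) *ᵥ w) ((B₁ : Matrix (Fin b) (Fin b) F) *ᵥ w') = β₁ * f₂ w w' := by
    intro w w'
    have h3 := hpres u₀ w u₀' w'
    rw [← hμ] at h3
    rw [hβ₁]
    field_simp
    linear_combination h3
  have hB₁k : ∀ (k : ℕ) w w', f₂ (((B₁ ^ k : GL (Fin b) F) : Matrix (Fin b) (Fin b) F) *ᵥ w) (((B₁ ^ k : GL (Fin b) F) : Matrix (Fin b) (Fin b) F) *ᵥ w') = β₁ ^ k * f₂ w w' := by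
    intro k
    induction k with
    | zero =>
      intro w w'
      simp
    | succ k ih =>
      intro w w'
      rw [pow_succ', Units.val_mul, ← Matrix.mulVec_mulVec, ← Matrix.mulVec_mulVec, hB₁β, ih, pow_succ']
      ring
  have hβ1 : β₁ = 1 := by
    apply eq_one_of_pow hq hr hrq1
    have h3 := hB₁k r w₀ w₀'
    rw [hB₁r, Units.val_one, Matrix.one_mulVec, Matrix.one_mulVec] at h3
    exact (mul_right_cancel₀ hw₀ (by rw [one_mul]; exact h3)).symm
  have hB₁f : ∀ w w', f₂ ((B₁ : Matrix (Fin b) (Fin b) F) *ᵥ w) ((B₁ : Matrix (Fin b) (Fin b) F) *ᵥ w') = f₂ w w' := by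
    intro w w'
    rw [hB₁β, hβ1, one_mul]
  have hodd : Odd r := hr.odd_of_ne_two hr2
  have hrk : ((x : Matrix (Fin d ⊕ Fin d) (Fin d ⊕ Fin d) F) - 1).rank =
      ((A₁ : Matrix (Fin a) (Fin a) F) ⊗ₖ (B₁ : Matrix (Fin b) (Fin b) F) - 1).rank := by
    have h3 := rank_fixI e x Q A₁ B₁ hFix₁ 1
    simpa only [one_smul] using h3
  have hscal : ∀ {n : ℕ} (C : GL (Fin n) F), 0 < n → C ^ r = 1 → C ≠ 1 → ∀ c : F, (C : Matrix (Fin n) (Fin n) F) ≠ c • (1 : Matrix (Fin n) (Fin n) F) := by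
    intro n C hn hC hC1 c hc
    apply hC1
    have h5 : c ^ r • (1 : Matrix (Fin n) (Fin n) F) = 1 := by
      have := congrArg Units.val hC
      rw [Units.val_pow_eq_pow_val, hc, _root_.smul_pow, one_pow] at this
      exact this
    have h6 : c ^ r = 1 := by
      have := congrFun (congrFun h5 ⟨0, hn⟩) ⟨0, hn⟩
      simpa using this
    have h7 := eq_one_of_pow hq hr hrq1 h6
    apply Units.ext
    rw [hc, h7, one_smul]
    rfl
  obtain ⟨t, ht⟩ := rank_even_of_orth f₂ hf₂ h2F hodd B₁ hB₁r hB₁f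
  by_cases hA1 : A₁ = 1
  · have hB1 : B₁ ≠ 1 := by
      intro hB1
      apply hx1
      have h5 : ((Q⁻¹ * x * Q : GL (Fin d ⊕ Fin d) F) : Matrix (Fin d ⊕ Fin d) (Fin d ⊕ Fin d) F) = (1 : F) • (1 : Matrix (Fin d ⊕ Fin d) (Fin d ⊕ Fin d) F) := by
        rw [hFix₁, hA1, hB1, one_smul]
        simp
      have h6 := scalar_of_conjI x Q 1 h5
      apply Units.ext
      simpa using h6
    have hd2 := le_rank hq hr hrq hrF hmin B₁ hB₁r hB1
    have h4 := rank_kron_scalarI (a := a) (1 : F) (B₁ : Matrix (Fin b) (Fin b) F) (1 : F)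
    simp only [one_smul] at h4
    rw [hA1, Units.val_one] at hrk
    rw [hrk, h4] at hrank
    rw [ht] at hrank hd2
    have h7 : 2 * (2 * t) ≤ a * (2 * t) := Nat.mul_le_mul_right _ ha
    rcases hc with ⟨_, rfl⟩ | ⟨⟨k, hk⟩, rfl⟩ <;> omega
  · have hd1 := le_rank hq hr hrq hrF hmin A₁ hA₁r hA1
    have hdwidth : ((A₁ : Matrix (Fin a) (Fin a) F) - 1).rank ≤ a := by
      simpa using Matrix.rank_le_width ((A₁ : Matrix (Fin a) (Fin a) F) - 1)
    by_cases hB1 : B₁ = 1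
    · have h4 := rank_kron_scalarI (a := b) (1 : F) (A₁ : Matrix (Fin a) (Fin a) F) (1 : F)
      simp only [one_smul] at h4
      have h5 := rank_swap (A₁ : Matrix (Fin a) (Fin a) F) (B₁ : Matrix (Fin b) (Fin b) F) 1
      simp only [one_smul] at h5
      rw [hB1, Units.val_one] at h5 hrk
      rw [hrk, h5, h4] at hrank
      have h7 : 3 * ((A₁ : Matrix (Fin a) (Fin a) F) - 1).rank ≤ b * ((A₁ : Matrix (Fin a) (Fin a) F) - 1).rank := Nat.mul_le_mul_right _ hb
      rcases hc with ⟨_, rfl⟩ | ⟨_, rfl⟩ <;> omega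
    · have hns := hscal B₁ (by omega) hB₁r hB1
      have h4 := two_mul_le_rank (A₁ : Matrix (Fin a) (Fin a) F) (det_ne_zero_GL A₁) (B₁ : Matrix (Fin b) (Fin b) F) hns hb
        (LinearMap.range ((A₁ : Matrix (Fin a) (Fin a) F) - 1).mulVecLin) (no_eig hq hr hrq1 hrF A₁ hA₁r)
      have h5 : finrank F (LinearMap.range ((A₁ : Matrix (Fin a) (Fin a) F) - 1).mulVecLin) = ((A₁ : Matrix (Fin a) (Fin a) F) - 1).rank := rfl
      rw [h5, ← hrk] at h4
      rcases hc with ⟨_, rfl⟩ | ⟨⟨k, hk⟩, rfl⟩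
      · omega
      · have ha3 : 3 ≤ a := by omega
        have hnsA := hscal A₁ (by omega) hA₁r hA1
        have h6 := two_mul_le_rank (B₁ : Matrix (Fin b) (Fin b) F) (det_ne_zero_GL B₁) (A₁ : Matrix (Fin a) (Fin a) F) hnsA ha3
          (LinearMap.range ((B₁ : Matrix (Fin b) (Fin b) F) - 1).mulVecLin) (no_eig hq hr hrq1 hrF B₁ hB₁r)
        have h7 : finrank F (LinearMap.range ((B₁ : Matrix (Fin b) (Fin b) F) - 1).mulVecLin) = ((B₁ : Matrix (Fin b) (Fin b) F) - 1).rank := rfl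
        have h8 := rank_swap (A₁ : Matrix (Fin a) (Fin a) F) (B₁ : Matrix (Fin b) (Fin b) F) 1
        simp only [one_smul] at h8
        rw [h7, ← h8, ← hrk, ht] at h6
        have hd2 := le_rank hq hr hrq hrF hmin B₁ hB₁r hB1
        rw [ht] at hd2
        omega

end main

section final

variable {q r d a b : ℕ}

theorem dvd_iff_orderOf (hr : r.Prime) (hq : 0 < q) (n : ℕ) :
    r ∣ q ^ n - 1 ↔ orderOf (q : ZMod r) ∣ n := by
  haveI : Fact r.Prime := ⟨hr⟩
  rw [orderOf_dvd_iff_pow_eq_one, ← ZMod.natCast_eq_zero_iff, Nat.cast_sub (Nat.one_le_pow _ _ hq)]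
  push_cast
  exact sub_eq_zero

/-- A diagonal function. -/
def dl (i₀ : Fin d) (l : F) : Fin d ⊕ Fin d → F :=
  Sum.elim (fun i => if i = i₀ then l else 1) (fun i => if i = i₀ then l⁻¹ else 1)

theorem dl_ne (i₀ : Fin d) {l : F} (hl : l ≠ 0) (i : Fin d ⊕ Fin d) : dl i₀ l i ≠ 0 := by
  rcases i with i | i <;> simp only [dl, Sum.elim_inl, Sum.elim_inr] <;> split_ifs <;> simp [hl]

theorem exists_diag_elt (i₀ : Fin d) {l : F} (hl : l ≠ 0) :
    ∃ x : GL (Fin d ⊕ Fin d) F, x ∈ Cfsg.spGL d F ∧ (x : Matrix (Fin d ⊕ Fin d) (Fin d ⊕ Fin d) F) = diagonal (dl i₀ l) := by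
  refine ⟨_, diag_mem (dl i₀ l) (fun i => ?_) (dl_ne i₀ hl), rfl⟩
  simp only [dl, Sum.elim_inl, Sum.elim_inr]
  split_ifs
  · exact mul_inv_cancel₀ hl
  · simp

theorem rank_dl_one (i₀ : Fin d) (l : F) : (diagonal (dl i₀ l) - 1 : Matrix (Fin d ⊕ Fin d) (Fin d ⊕ Fin d) F).rank ≤ 2 := by
  classical
  have h1 : (diagonal (dl i₀ l) - 1 : Matrix (Fin d ⊕ Fin d) (Fin d ⊕ Fin d) F) = diagonal (fun i => dl i₀ l i - 1) := by
    ext i j
    by_cases hij : i = j
    · subst hij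
      simp
    · simp [hij, Matrix.one_apply]
  rw [h1, Matrix.rank_diagonal]
  let S : Finset (Fin d ⊕ Fin d) := {Sum.inl i₀, Sum.inr i₀}
  have h2 : S.card ≤ 2 := Finset.card_le_two
  have h3 : Fintype.card {i // dl i₀ l i - 1 ≠ 0} ≤ Fintype.card {i // i ∈ S} := by
    apply Fintype.card_le_of_injective (fun i : {i // dl i₀ l i - 1 ≠ 0} => (⟨i.1, by
      obtain ⟨i, hi⟩ := i
      rcases i with i | i
      · by_cases h : i = i₀
        · subst h
          simp [S]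
        · simp [dl, h] at hi
      · by_cases h : i = i₀
        · subst h
          simp [S]
        · simp [dl, h] at hi⟩ : {i // i ∈ S}))
    intro i j hij
    have h4 := congrArg (fun s : {i // i ∈ S} => s.1) hij
    exact Subtype.ext h4
  rw [Fintype.card_coe] at h3
  omega

theorem rank_dl_l (i₀ : Fin d) {l : F} (hl0 : l ≠ 0) (hl1 : l ≠ 1) (hl2 : l * l ≠ 1) :
    (diagonal (dl i₀ l) - l • 1 : Matrix (Fin d ⊕ Fin d) (Fin d ⊕ Fin d) F).rank = 2 * d - 1 := by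
  classical
  have h1 : (diagonal (dl i₀ l) - l • 1 : Matrix (Fin d ⊕ Fin d) (Fin d ⊕ Fin d) F) = diagonal (fun i => dl i₀ l i - l) := by
    ext i j
    by_cases hij : i = j
    · subst hij
      simp
    · simp [hij, Matrix.one_apply]
  rw [h1, Matrix.rank_diagonal]
  have h3 : ∀ i, dl i₀ l i - l ≠ 0 ↔ i ≠ Sum.inl i₀ := by
    intro i
    rcases i with i | i
    · by_cases h : i = i₀
      · subst h
        simp [dl]
      · simp [dl, h]
        intro h4
        exact hl1 (sub_eq_zero.mp h4).symm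
    · by_cases h : i = i₀
      · subst h
        simp [dl]
        intro h4
        apply hl2
        have h5 : l⁻¹ = l := sub_eq_zero.mp h4
        nth_rewrite 1 [← h5]
        exact inv_mul_cancel₀ hl0
      · simp [dl, h]
        intro h4
        exact hl1 (sub_eq_zero.mp h4).symm
  rw [Fintype.card_congr (Equiv.subtypeEquivRight h3), Fintype.card_subtype_compl, Fintype.card_subtype_eq]
  simp
  omega

theorem dl_pow (i₀ : Fin d) {l : F} (hl0 : l ≠ 0) {n : ℕ} (hl : l ^ n = 1) :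
    (diagonal (dl i₀ l) : Matrix (Fin d ⊕ Fin d) (Fin d ⊕ Fin d) F) ^ n = 1 := by
  rw [Matrix.diagonal_pow, ← Matrix.diagonal_one]
  congr 1
  ext i
  rcases i with i | i
  · by_cases h : i = i₀
    · subst h
      simp [dl, hl]
    · simp [dl, h]
  · by_cases h : i = i₀
    · subst h
      simp [dl, hl]
    · simp [dl, h]

theorem dl_nonsc (i₀ i₁ : Fin d) (hi : i₁ ≠ i₀) {l : F} (hl1 : l ≠ 1) (z : F) :
    (diagonal (dl i₀ l) : Matrix (Fin d ⊕ Fin d) (Fin d ⊕ Fin d) F) ≠ z • (1 : Matrix (Fin d ⊕ Fin d) (Fin d ⊕ Fin d) F) := by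
  intro h
  have h1 := congrFun (congrFun h (Sum.inl i₀)) (Sum.inl i₀)
  have h2 := congrFun (congrFun h (Sum.inl i₁)) (Sum.inl i₁)
  simp [dl, hi] at h1 h2
  exact hl1 (h1.trans h2.symm)

theorem gram_of_pres {κ : Type} [Fintype κ] [DecidableEq κ] (f : (κ → F) → (κ → F) → F) (hf : IsBilinearForm f)
    (K : Matrix κ κ F) (hK : ∀ u v, f (K *ᵥ u) (K *ᵥ v) = f u v) : Kᵀ * gramMatrix f * K = gramMatrix f := by
  ext i j
  have h1 := hK (Pi.single i 1) (Pi.single j 1)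
  rw [gram_bil f hf, formOfGram_eq] at h1
  have h2 : gramMatrix f i j = f (Pi.single i 1) (Pi.single j 1) := rfl
  rw [h2, ← h1]
  rw [Matrix.mulVec_single_one, Matrix.mulVec_single_one]
  simp only [Matrix.mul_apply, dotProduct, Matrix.mulVec, Matrix.transpose_apply, Matrix.col_apply, Finset.sum_mul, Finset.mul_sum]
  rw [Finset.sum_comm]
  refine Finset.sum_congr rfl fun k _ => Finset.sum_congr rfl fun l _ => ?_
  ring

theorem kronGL_mul {ι : Type} (A A' : GL (Fin a) F) (B B' : GL (Fin b) F) : kronGL A B * kronGL A' B' = kronGL (A * A') (B * B') := by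
  apply Units.ext
  show (A : Matrix (Fin a) (Fin a) F) ⊗ₖ (B : Matrix (Fin b) (Fin b) F) * ((A' : Matrix (Fin a) (Fin a) F) ⊗ₖ (B' : Matrix (Fin b) (Fin b) F)) = ((A * A' : GL (Fin a) F) : Matrix (Fin a) (Fin a) F) ⊗ₖ ((B * B' : GL (Fin b) F) : Matrix (Fin b) (Fin b) F)
  rw [← Matrix.mul_kronecker_mul]
  rfl

theorem yOf_mul {ι : Type} [Fintype ι] [DecidableEq ι] (e : ι ≃ Fin a × Fin b) (P : GL ι F) (A A' : GL (Fin a) F) (B B' : GL (Fin b) F) :
    yOf e P A B * yOf e P A' B' = yOf e P (A * A') (B * B') := by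
  unfold yOf
  rw [← kronGL_mul (ι := ι), map_mul]
  group

end final

section finalmain

variable [Fintype F] {q r d a b : ℕ}

open Cfsg.Agent.Lib.SympForm in
/-- The order of `spGL`. -/
theorem card_spGL' : Nat.card (Cfsg.spGL d F) = Nat.card (symplecticGroup (Fin d) F) := by
  classical
  let f : symplecticGroup (Fin d) F → Cfsg.spGL d F := fun A =>
    ⟨⟨A.1, (A⁻¹ : symplecticGroup (Fin d) F).1, congrArg Subtype.val (mul_inv_cancel A),
      congrArg Subtype.val (inv_mul_cancel A)⟩, fun u v => (mem_symplecticGroup_iff_preserves _).1 A.2 u v⟩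
  have hf : Function.Bijective f := by
    constructor
    · intro A A' h
      apply Subtype.ext
      exact congrArg (fun x : Cfsg.spGL d F => (x.1 : Matrix (Fin d ⊕ Fin d) (Fin d ⊕ Fin d) F)) h
    · intro x
      refine ⟨⟨x.1.1, (mem_symplecticGroup_iff_preserves _).2 x.2⟩, ?_⟩
      apply Subtype.ext
      apply Units.ext
      rfl
  exact (Nat.card_congr (Equiv.ofBijective f hf)).symm

theorem forward {p : ℕ} [Fact p.Prime] [CharP F p] (hq : Fintype.card F = q) (hodd : Odd q) (hd : 2 ≤ d) (hab : 2 * d = a * b)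
    (ha : Even a) (ha2 : 2 ≤ a) (hb : 3 ≤ b)
    (e : (Fin d ⊕ Fin d) ≃ Fin a × Fin b) (P : GL (Fin d ⊕ Fin d) F)
    (f₁ : (Fin a → F) → (Fin a → F) → F) (f₂ : (Fin b → F) → (Fin b → F) → F)
    (hf₁ : IsSymplecticForm f₁) (hf₂ : IsSymmetricForm f₂) (hS : IsTensorFormStructure id (Cfsg.sympForm d F) f₁ f₂ e P)
    [hrf : Fact r.Prime] (hdvd : r ∣ Nat.card (Cfsg.spGL d F))
    (hfix : ∀ x ∈ Cfsg.spGL d F, (∃ z : F, ((x ^ r : GL (Fin d ⊕ Fin d) F) : Matrix (Fin d ⊕ Fin d) (Fin d ⊕ Fin d) F) = z • (1 : Matrix (Fin d ⊕ Fin d) (Fin d ⊕ Fin d) F)) →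
      (∀ z : F, (x : Matrix (Fin d ⊕ Fin d) (Fin d ⊕ Fin d) F) ≠ z • (1 : Matrix (Fin d ⊕ Fin d) (Fin d ⊕ Fin d) F)) →
      ∃ g ∈ Cfsg.spGL d F, g⁻¹ * x * g ∈ tensorProductSubgroup a b e P) : r = 2 ∧ a = 2 := by
  classical
  have hr : r.Prime := hrf.out
  have hp : p.Prime := Fact.out
  have h2F := Cfsg.Agent.Lib.InvolConj.two_ne_zero_of_odd hq hodd
  have hq0 : 0 < q := by
    have := Fintype.card_pos (α := F)
    omega
  have hfix' : ∀ x ∈ Cfsg.spGL d F, (∃ z : F, ((x ^ r : GL (Fin d ⊕ Fin d) F) : Matrix (Fin d ⊕ Fin d) (Fin d ⊕ Fin d) F) = z • (1 : Matrix (Fin d ⊕ Fin d) (Fin d ⊕ Fin d) F)) →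
      (∀ z : F, (x : Matrix (Fin d ⊕ Fin d) (Fin d ⊕ Fin d) F) ≠ z • (1 : Matrix (Fin d ⊕ Fin d) (Fin d ⊕ Fin d) F)) →
      ∃ g ∈ Cfsg.spGL d F, ∃ A B, FixI e x (g * P) A B := by
    intro x hx h1 h2
    obtain ⟨g, hg, h3⟩ := hfix x hx h1 h2
    obtain ⟨A, B, h4⟩ := fixI_of_mem e P g x h3
    exact ⟨g, hg, A, B, h4⟩
  have ha_eq : ∀ x ∈ Cfsg.spGL d F, (∃ z : F, ((x ^ r : GL (Fin d ⊕ Fin d) F) : Matrix (Fin d ⊕ Fin d) (Fin d ⊕ Fin d) F) = z • (1 : Matrix (Fin d ⊕ Fin d) (Fin d ⊕ Fin d) F)) →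
      (∀ z : F, (x : Matrix (Fin d ⊕ Fin d) (Fin d ⊕ Fin d) F) ≠ z • (1 : Matrix (Fin d ⊕ Fin d) (Fin d ⊕ Fin d) F)) →
      ((x : Matrix (Fin d ⊕ Fin d) (Fin d ⊕ Fin d) F) - 1).rank ≤ 2 → a = 2 := by
    intro x hx h1 h2 h3
    obtain ⟨g, hg, A, B, h4⟩ := hfix' x hx h1 h2
    have h5 := min_le_rank_of_fix e x _ A B h4 h2 1
    rw [one_smul] at h5
    obtain ⟨k, hk⟩ := ha
    by_contra hne
    have : min a b ≤ 2 := h5.trans h3
    omega
  have hrp : r ≠ p := by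
    rintro rfl
    obtain ⟨x, hx, hxp, hns, hrk⟩ := exists_tv (F := F) r (by omega : 1 ≤ d)
    obtain ⟨g, hg, A, B, h4⟩ := hfix' x hx ⟨1, by rw [hxp, one_smul]; rfl⟩ hns
    have h5 := min_le_rank_of_fix e x _ A B h4 hns 1
    omega
  have hrF : (r : F) ≠ 0 := by
    intro h0
    have := (CharP.cast_eq_zero_iff F p r).mp h0
    exact hrp ((Nat.prime_dvd_prime_iff_eq hp hr).mp this).symm
  have hrq : ¬ r ∣ q := by
    intro h
    obtain ⟨n, _, hn⟩ := FiniteField.card F p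
    rw [← hq, hn] at h
    exact hrp ((Nat.prime_dvd_prime_iff_eq hr hp).mp (hr.dvd_of_dvd_pow h))
  have hcardpos : 0 < d := by omega
  let i₀ : Fin d := ⟨0, by omega⟩
  let i₁ : Fin d := ⟨1, by omega⟩
  have hi : i₁ ≠ i₀ := by simp [i₀, i₁, Fin.ext_iff]
  by_cases hr2 : r = 2
  · subst hr2
    refine ⟨rfl, ?_⟩
    have hl1 : (-1 : F) ≠ 1 := by
      intro h
      apply h2F
      linear_combination -h
    obtain ⟨x, hx, hxv⟩ := exists_diag_elt i₀ (neg_ne_zero.mpr (one_ne_zero (α := F)))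
    apply ha_eq x hx ⟨1, ?_⟩ ?_ ?_
    · rw [Units.val_pow_eq_pow_val, hxv, dl_pow i₀ (neg_ne_zero.mpr (one_ne_zero (α := F))) (by simp), one_smul]
    · intro z
      rw [hxv]
      exact dl_nonsc i₀ i₁ hi hl1 z
    · rw [hxv]
      exact rank_dl_one i₀ _
  · exfalso
    by_cases hrq1 : r ∣ q - 1
    · have hcardU : r ∣ Nat.card Fˣ := by
        rw [Nat.card_eq_fintype_card, Fintype.card_units, hq]
        exact hrq1
      obtain ⟨u, hu⟩ := exists_prime_orderOf_dvd_card' r hcardU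
      have hur : u ^ r = 1 := by
        rw [← hu]
        exact pow_orderOf_eq_one u
      have hlr : (u : F) ^ r = 1 := by
        rw [← Units.val_pow_eq_pow_val, hur]
        rfl
      have hl0 : (u : F) ≠ 0 := u.ne_zero
      have hl1 : (u : F) ≠ 1 := by
        intro h
        have h1 : u = 1 := Units.ext h
        rw [h1, orderOf_one] at hu
        exact hr.one_lt.ne hu
      have hl2 : (u : F) * u ≠ 1 := by
        intro h
        have h1 : u ^ 2 = 1 := by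
          apply Units.ext
          rw [Units.val_pow_eq_pow_val, pow_two, h]
          rfl
        have h3 := orderOf_dvd_of_pow_eq_one h1
        rw [hu] at h3
        exact hr2 ((Nat.prime_dvd_prime_iff_eq hr Nat.prime_two).mp h3)
      obtain ⟨x, hx, hxv⟩ := exists_diag_elt i₀ hl0
      have hxr : ((x ^ r : GL (Fin d ⊕ Fin d) F) : Matrix (Fin d ⊕ Fin d) (Fin d ⊕ Fin d) F) = (1 : F) • 1 := by
        rw [Units.val_pow_eq_pow_val, hxv, dl_pow i₀ hl0 hlr, one_smul]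
      have hns : ∀ z : F, (x : Matrix (Fin d ⊕ Fin d) (Fin d ⊕ Fin d) F) ≠ z • (1 : Matrix (Fin d ⊕ Fin d) (Fin d ⊕ Fin d) F) := by
        intro z
        rw [hxv]
        exact dl_nonsc i₀ i₁ hi hl1 z
      have hrk : ((x : Matrix (Fin d ⊕ Fin d) (Fin d ⊕ Fin d) F) - 1).rank ≤ 2 := by
        rw [hxv]
        exact rank_dl_one i₀ _
      have ha22 : a = 2 := ha_eq x hx ⟨1, hxr⟩ hns hrk
      subst ha22
      have hbd : b = d := by omega
      subst hbd
      obtain ⟨g, hg, A, B, h4⟩ := hfix' x hx ⟨1, hxr⟩ hns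
      have h5 := dvd_rank_of_fixI e x _ A B h4 1 (by rw [one_smul]; omega) (u : F)
      rw [hxv, rank_dl_l i₀ hl0 hl1 hl2] at h5
      omega
    · -- the generic case
      have hd1 : r ∣ Nat.card (symplecticGroup (Fin d) F) := by
        rwa [← card_spGL']
      rw [show Nat.card (symplecticGroup (Fin d) F) = _ from Cfsg.Agent.Lib.SpOrder.card_Sp (F := F) d, hq] at hd1
      have hprime : Prime r := hr.prime
      rcases hprime.dvd_or_dvd hd1 with h | h
      · exact hrq (hr.dvd_of_dvd_pow h)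
      · obtain ⟨i, hi', hdv⟩ := hprime.exists_mem_finset_dvd h
        have hi2 := Finset.mem_range.mp hi'
        set o := orderOf (q : ZMod r) with ho
        have hoi : o ∣ 2 * (i + 1) := (dvd_iff_orderOf hr hq0 _).mp hdv
        have ho1 : o ≠ 1 := by
          intro h1
          apply hrq1
          have := (dvd_iff_orderOf hr hq0 1).mpr (by rw [← ho, h1])
          simpa using this
        have ho0 : o ≠ 0 := by
          intro h0
          rw [h0, zero_dvd_iff] at hoi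
          omega
        have ho2 : 2 ≤ o := by omega
        have hmin : ∀ j, 0 < j → r ∣ q ^ j - 1 → o ≤ j := by
          intro j hj hjd
          exact Nat.le_of_dvd hj ((dvd_iff_orderOf hr hq0 _).mp hjd)
        obtain ⟨c, hc, hci, f₀, hf₀⟩ : ∃ c, ((Even o ∧ c = o) ∨ (Odd o ∧ c = 2 * o)) ∧ c ∣ 2 * (i + 1) ∧ ∃ f₀, c = 2 * f₀ := by
          rcases Nat.even_or_odd o with h1 | h1
          · obtain ⟨k, hk⟩ := h1
            exact ⟨o, Or.inl ⟨⟨k, hk⟩, rfl⟩, hoi, k, by omega⟩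
          · refine ⟨2 * o, Or.inr ⟨h1, rfl⟩, ?_, o, rfl⟩
            have hco : Nat.Coprime 2 o := Nat.coprime_two_left.mpr h1
            exact hco.mul_dvd_of_dvd_of_dvd (Dvd.intro _ rfl) hoi
        have hf₀0 : 0 < f₀ := by omega
        have hcle : c ≤ 2 * (i + 1) := Nat.le_of_dvd (by omega) hci
        have hf₀d : f₀ ≤ d := by omega
        have hoc : o ∣ 2 * f₀ := by
          rw [← hf₀]
          rcases hc with ⟨_, rfl⟩ | ⟨_, rfl⟩
          · exact dvd_rfl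
          · exact Dvd.intro_left _ rfl
        have hdvf : r ∣ Fintype.card F ^ (2 * f₀) - 1 := by
          rw [hq]
          exact (dvd_iff_orderOf hr hq0 _).mpr hoc
        obtain ⟨x, hx, hxr, hx1, hrk⟩ := exists_small hf₀0 hf₀d hdvf
        have hns : ∀ z : F, (x : Matrix (Fin d ⊕ Fin d) (Fin d ⊕ Fin d) F) ≠ z • (1 : Matrix (Fin d ⊕ Fin d) (Fin d ⊕ Fin d) F) := by
          intro z hz
          apply hx1
          have h5 : z ^ r • (1 : Matrix (Fin d ⊕ Fin d) (Fin d ⊕ Fin d) F) = 1 := by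
            have := congrArg Units.val hxr
            rw [Units.val_pow_eq_pow_val, hz, _root_.smul_pow, one_pow] at this
            exact this
          have h6 : z ^ r = 1 := by
            have := congrFun (congrFun h5 (Sum.inl i₀)) (Sum.inl i₀)
            simpa using this
          have h7 := eq_one_of_pow hq hr hrq1 h6
          apply Units.ext
          rw [hz, h7, one_smul]
          rfl
        obtain ⟨g, hg, A, B, h4⟩ := hfix' x hx ⟨1, by rw [hxr, one_smul]; rfl⟩ hns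
        exact no_fix_odd hq hr hr2 hrq hrq1 hrF h2F ho2 hmin hc ha2 hb e P f₁ f₂ hf₁ hf₂ hS x hxr hx1 (by rw [hf₀]; exact hrk) g
          (Subgroup.mul_mem _ (Subgroup.mul_mem _ (Subgroup.inv_mem _ hg) hx) hg) A B h4

theorem backward (hq : Fintype.card F = q) (hodd : Odd q) (hd : 2 ≤ d) (hab : 2 * d = 2 * b)
    (e : (Fin d ⊕ Fin d) ≃ Fin 2 × Fin b) (P : GL (Fin d ⊕ Fin d) F)
    (f₁ : (Fin 2 → F) → (Fin 2 → F) → F) (f₂ : (Fin b → F) → (Fin b → F) → F)
    (hf₁ : IsSymplecticForm f₁) (hf₂ : IsSymmetricForm f₂) (hS : IsTensorFormStructure id (Cfsg.sympForm d F) f₁ f₂ e P)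
    (x : GL (Fin d ⊕ Fin d) F) (hx : x ∈ Cfsg.spGL d F)
    (z : F) (hxz : ((x ^ 2 : GL (Fin d ⊕ Fin d) F) : Matrix (Fin d ⊕ Fin d) (Fin d ⊕ Fin d) F) = z • (1 : Matrix (Fin d ⊕ Fin d) (Fin d ⊕ Fin d) F)) :
    ∃ g ∈ Cfsg.spGL d F, g⁻¹ * x * g ∈ tensorProductSubgroup 2 b e P := by
  classical
  have h2F := Cfsg.Agent.Lib.InvolConj.two_ne_zero_of_odd hq hodd
  have hxx : (x : Matrix (Fin d ⊕ Fin d) (Fin d ⊕ Fin d) F) * x = z • 1 := by
    rw [← hxz, pow_two]
    rfl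
  have hmem : ∀ (A : GL (Fin 2) F) (B : GL (Fin b) F), (A : Matrix (Fin 2) (Fin 2) F)ᵀ * gramMatrix f₁ * A = gramMatrix f₁ →
      (B : Matrix (Fin b) (Fin b) F)ᵀ * gramMatrix f₂ * B = gramMatrix f₂ → yOf e P A B ∈ Cfsg.spGL d F := by
    intro A B hA hB
    rw [mem_sp_iff]
    exact yOf_pres e P _ f₁ f₂ hS A B hA hB
  rcases Cfsg.Agent.Lib.SpInvol.sq_eq_one_or (by omega) x hx z hxx with rfl | rfl
  · rw [one_smul] at hxx
    obtain ⟨t, ht⟩ := Cfsg.Agent.Lib.SpInvol.rank_even h2F x hx hxx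
    have htb : t ≤ b := by
      have h3 : Fintype.card (Fin d ⊕ Fin d) = 2 * d := by simp; omega
      have h4 := Matrix.rank_le_card_width ((x : Matrix (Fin d ⊕ Fin d) (Fin d ⊕ Fin d) F) - 1)
      rw [ht, h3] at h4
      omega
    obtain ⟨B, hB2, hBf, hBr⟩ := exists_B_t f₂ hf₂ h2F htb
    have hy := hmem 1 B (by simp) (gram_of_pres f₂ hf₂.bilinear _ hBf)
    have hBB : B * B = 1 := Units.ext hB2
    have hyy : yOf e P 1 B * yOf e P 1 B = 1 := by
      rw [yOf_mul, hBB, mul_one]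
      unfold yOf
      have : kronGL (1 : GL (Fin 2) F) (1 : GL (Fin b) F) = 1 := by
        apply Units.ext
        show (1 : Matrix (Fin 2) (Fin 2) F) ⊗ₖ (1 : Matrix (Fin b) (Fin b) F) = 1
        simp
      rw [this, map_one, mul_one, mul_inv_cancel]
    have hyr : ((yOf e P 1 B : Matrix (Fin d ⊕ Fin d) (Fin d ⊕ Fin d) F) - 1).rank = 2 * t := by
      have h3 := rank_fixI e _ P 1 B (yOf_fix e P 1 B) 1
      simp only [one_smul] at h3
      rw [h3]
      have h4 := rank_kron_scalarI (a := 2) (1 : F) (B : Matrix (Fin b) (Fin b) F) (1 : F)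
      simp only [one_smul] at h4
      rw [Units.val_one, h4, hBr]
    obtain ⟨g, hg, hgy⟩ := Cfsg.Agent.Lib.SpInvol.sp_invol_conj h2F x _ hx hy hxx (by
      rw [← Units.val_mul, hyy]
      rfl) (by rw [ht, hyr])
    exact ⟨g, hg, by rw [hgy]; exact yOf_mem e P 1 B⟩
  · let A : GL (Fin 2) F := Matrix.GeneralLinearGroup.mkOfDetNeZero (!![0, 1; -1, 0]) (by
      rw [Matrix.det_fin_two_of]
      simp)
    have hAv : (A : Matrix (Fin 2) (Fin 2) F) = !![0, 1; -1, 0] := rfl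
    have hA : (A : Matrix (Fin 2) (Fin 2) F)ᵀ * gramMatrix f₁ * A = gramMatrix f₁ := by
      have h0 : gramMatrix f₁ 0 0 = 0 := hf₁.alternating _
      have h1 : gramMatrix f₁ 1 1 = 0 := hf₁.alternating _
      have h01 : gramMatrix f₁ 1 0 = - gramMatrix f₁ 0 1 := hf₁.skew _ _
      rw [hAv]
      ext i j
      fin_cases i <;> fin_cases j <;>
        simp [Matrix.mul_apply, Fin.sum_univ_two, h0, h1, h01]
    have hy := hmem A 1 hA (by simp)
    have hAA : ((A * A : GL (Fin 2) F) : Matrix (Fin 2) (Fin 2) F) = (-1 : F) • 1 := by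
      show (A : Matrix (Fin 2) (Fin 2) F) * A = (-1 : F) • 1
      rw [hAv]
      ext i j
      fin_cases i <;> fin_cases j <;> simp [Matrix.mul_apply, Fin.sum_univ_two]
    have h7 : ∀ M : GL (Fin 2) F, (M : Matrix (Fin 2) (Fin 2) F) = (-1 : F) • 1 →
        ((yOf e P M 1 : GL (Fin d ⊕ Fin d) F) : Matrix (Fin d ⊕ Fin d) (Fin d ⊕ Fin d) F) = (-1 : F) • 1 := by
      intro M hM
      apply scalar_of_conjI _ P
      rw [yOf_fix e P, hM, smul_kronecker, Units.val_one, Matrix.one_kronecker_one]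
      ext i j
      by_cases hij : i = j
      · subst hij
        simp
      · simp [Matrix.one_apply, hij]
    have hyy : ((yOf e P A 1 : Matrix (Fin d ⊕ Fin d) (Fin d ⊕ Fin d) F)) * (yOf e P A 1 : Matrix (Fin d ⊕ Fin d) (Fin d ⊕ Fin d) F) = (-1 : F) • 1 := by
      rw [← Units.val_mul, yOf_mul, mul_one]
      exact h7 _ hAA
    obtain ⟨g, hg, hgy⟩ := Cfsg.Agent.Lib.SpInvol.sp_J_conj h2F x _ hx hy hxx hyy
    exact ⟨g, hg, by rw [hgy]; exact yOf_mem e P A 1⟩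

end finalmain



/-- Elements of prime order of PSp_n(q), q odd, and the stabilizers of tensor decompositions Sp_a(q) ⊗ O_b(q). Here `T = PSp_{2d}(F)` for a field `F` with `q` elements, `q` odd, `d ≥ 2`, realised through the matrices preserving the standard alternating form `f`; `2d = a·b` with `a` even, `b ≥ 3`, and the bijection `e` and change of basis `P` exhibit `f` as a non-zero scalar multiple of the tensor product of a non-degenerate alternating form `f₁` on `F^a` and a non-degenerate symmetric bilinear form `f₂` on `F^b`; `H` is the subgroup of `T` stabilizing this tensor decomposition (the elements of `T` in the conjugate by `P` of the group of Kronecker products) — a subgroup of type Sp_a(q) ⊗ O^ε_b(q) (maximality is not assumed). Ω is the set of cosets of `H` in `T`, so an element of `T` of prime order `r` (`x ∈ T` with `x^r` scalar, `x` not scalar) fixes a point of Ω exactly when some `T`-conjugate of `x`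 lies in `H`. Let `r` be a prime dividing the index of `H`. Then every element of `T` of order `r` fixes a point of Ω if and only if `r = 2` and `a = 2`. -/
theorem result {F : Type*} [Field F] [Fintype F] {p : ℕ} [Fact p.Prime] [CharP F p] {q : ℕ} (hq : Fintype.card F = q)
    (hodd : Odd q) (d : ℕ) (hd : 2 ≤ d) (a b : ℕ) (hab : 2 * d = a * b) (ha : Even a) (ha2 : 2 ≤ a) (hb : 3 ≤ b)
    (e : (Fin d ⊕ Fin d) ≃ Fin a × Fin b) (P : GL (Fin d ⊕ Fin d) F)
    (f₁ : (Fin a → F) → (Fin a → F) → F) (f₂ : (Fin b → F) → (Fin b → F) → F)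
    (hf₁ : Cfsg.Geo.IsSymplecticForm f₁) (hf₂ : Cfsg.Geo.IsSymmetricForm f₂)
    (hS : Cfsg.Geo.IsTensorFormStructure id (Cfsg.sympForm d F) f₁ f₂ e P)
    (r : ℕ) [Fact r.Prime]
    (hΩ : r ∣ (Cfsg.Geo.tensorProductSubgroup a b e P).relIndex (Cfsg.spGL d F)) :
    (∀ x ∈ Cfsg.spGL d F, (∃ z : F, ((x ^ r : GL (Fin d ⊕ Fin d) F) : Matrix (Fin d ⊕ Fin d) (Fin d ⊕ Fin d) F) = z • (1 : Matrix (Fin d ⊕ Fin d) (Fin d ⊕ Fin d) F)) →
      (∀ z : F, (x : Matrix (Fin d ⊕ Fin d) (Fin d ⊕ Fin d) F) ≠ z • (1 : Matrix (Fin d ⊕ Fin d) (Fin d ⊕ Fin d) F)) →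
      ∃ g ∈ Cfsg.spGL d F, g⁻¹ * x * g ∈ Cfsg.Geo.tensorProductSubgroup a b e P) ↔ (r = 2 ∧ a = 2) := by
  classical
  constructor
  · intro hfix
    have hdvd : r ∣ Nat.card (Cfsg.spGL d F) := by
      refine hΩ.trans ?_
      rw [Subgroup.relIndex]
      exact Subgroup.index_dvd_card _
    exact forward hq hodd hd hab ha ha2 hb e P f₁ f₂ hf₁ hf₂ hS hdvd hfix
  · rintro ⟨rfl, rfl⟩ x hx ⟨z, hz⟩ _
    exact backward hq hodd hd hab e P f₁ f₂ hf₁ hf₂ hS x hx z hz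

end Cfsg.Agent.S5980
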