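import Mathlib
import Cfsg.Agent.S5980
import Cfsg.Agent.Lib.OmCalc
import Cfsg.Agent.Lib.QuadFF2
import Cfsg.Agent.Lib.QuadClass
import Cfsg.Agent.Lib.QuadClass2
import Cfsg.Agent.Lib.OrthoDihedral
import Cfsg.Agent.Lib.InvolConj
import Cfsg.Agent.Lib.EigenSq
import Cfsg.Agent.Lib.MatConj
import Cfsg.Agent.Lib.ClassicalCore
import Cfsg.Agent.Lib.Singer
import Cfsg.Agent.Lib.EigenThree
import Cfsg.Agent.Lib.SqScalar
import Cfsg.Agent.S5971
import Cfsg.Statements.S5981
-- import your own Cfsg.Agent.* helpers here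

set_option autoImplicit false
open scoped MatrixGroups
open Cfsg

namespace Cfsg.Agent.S5981

open Matrix Module Cfsg.Geo QuadraticMap
open Cfsg.Agent.S5980 (gram_bil formOfGram_eq rank_even_of_orth)

set_option linter.unusedSimpArgs false
set_option linter.unusedVariables false
set_option linter.unusedSectionVars false

variable {F : Type*} [Field F] {n : ℕ}

local notation "Mt" => Matrix (Fin n) (Fin n) F

section form

theorem isSymm_polar (Q : (Fin n → F) → F) (hQ : IsNondegenerateQuadraticForm Q) : IsSymmetricForm (polar Q) :=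
  ⟨hQ.polar_bilinear, fun u v => polar_comm Q u v, hQ.nondegenerate⟩

theorem polar_of_sim (Q : (Fin n → F) → F) (y : Mt) (μ : F) (hy : ∀ v, Q (y *ᵥ v) = μ * Q v) (u v : Fin n → F) :
    polar Q (y *ᵥ u) (y *ᵥ v) = μ * polar Q u v := by
  simp only [polar, ← Matrix.mulVec_add, hy]
  ring

theorem gram_of_sim (f : (Fin n → F) → (Fin n → F) → F) (hf : IsBilinearForm f)
    (K : Mt) (μ : F) (hK : ∀ u v, f (K *ᵥ u) (K *ᵥ v) = μ * f u v) : Kᵀ * gramMatrix f * K = μ • gramMatrix f := by
  ext i j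
  have h1 := hK (Pi.single i 1) (Pi.single j 1)
  rw [gram_bil f hf, formOfGram_eq] at h1
  have h2 : (μ • gramMatrix f) i j = μ * f (Pi.single i 1) (Pi.single j 1) := rfl
  rw [h2, ← h1]
  rw [Matrix.mulVec_single_one, Matrix.mulVec_single_one]
  simp only [Matrix.mul_apply, dotProduct, Matrix.mulVec, Matrix.transpose_apply, Matrix.col_apply, Finset.sum_mul, Finset.mul_sum]
  rw [Finset.sum_comm]
  refine Finset.sum_congr rfl fun k _ => Finset.sum_congr rfl fun l _ => ?_
  ring

theorem gram_det_ne (f : (Fin n → F) → (Fin n → F) → F) (hf : IsBilinearForm f) (hnd : IsNondegenerateForm f) :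
    (gramMatrix f).det ≠ 0 := by
  intro h0
  obtain ⟨v, hv0, hv⟩ := Matrix.exists_mulVec_eq_zero_iff.mpr h0
  obtain ⟨⟨x, hx⟩, -⟩ := hnd v hv0
  apply hx
  rw [gram_bil f hf, formOfGram_eq, hv, dotProduct_zero]

/-- Ranks are symmetric under `α ↦ μ / α`. -/
theorem rank_sim (Q : (Fin n → F) → F) (hQ : IsNondegenerateQuadraticForm Q) (y : GL (Fin n) F) (μ : F)
    (hy : ∀ v, Q ((y : Mt) *ᵥ v) = μ * Q v) (α : F) (hα : α ≠ 0) :
    ((y : Mt) - α • 1).rank = ((y : Mt) - (μ / α) • 1).rank := by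
  set G := gramMatrix (polar Q) with hG
  have hGd := gram_det_ne (polar Q) hQ.polar_bilinear hQ.nondegenerate
  have h1 := gram_of_sim (polar Q) hQ.polar_bilinear (y : Mt) μ (polar_of_sim Q _ μ hy)
  rw [← hG] at h1 hGd
  have hU : IsUnit (G * (y : Mt)).det := by
    rw [Matrix.det_mul]
    exact (mul_ne_zero hGd (Cfsg.Agent.S5979.det_ne_zero_GL y)).isUnit
  have hU2 : IsUnit ((-α) • G).det := by
    rw [Matrix.det_smul]
    exact (mul_ne_zero (pow_ne_zero _ (neg_ne_zero.mpr hα)) hGd).isUnit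
  have h2 : ((y : Mt) - α • 1)ᵀ * (G * (y : Mt)) = ((-α) • G) * ((y : Mt) - (μ / α) • 1) := by
    have e1 : ((y : Mt) - α • 1)ᵀ = (y : Mt)ᵀ - α • 1 := by
      rw [Matrix.transpose_sub, Matrix.transpose_smul, Matrix.transpose_one]
    rw [e1, Matrix.sub_mul, ← Matrix.mul_assoc, h1, Matrix.smul_mul, Matrix.one_mul, Matrix.mul_sub, Matrix.smul_mul,
      Matrix.mul_smul, Matrix.mul_one, neg_smul, neg_smul, sub_eq_add_neg, add_comm]
    have : (μ / α) * α = μ := by field_simp
    rw [smul_neg, smul_smul, this, sub_neg_eq_add]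
  rw [← Matrix.rank_transpose, ← Matrix.rank_mul_eq_left_of_isUnit_det _ _ hU, h2,
    Matrix.rank_mul_eq_right_of_isUnit_det _ _ hU2]

/-- Ranks are invariant under conjugation. -/
theorem rank_conj (g x : GL (Fin n) F) (α : F) :
    (((g⁻¹ * x * g : GL (Fin n) F) : Mt) - α • 1).rank = ((x : Mt) - α • 1).rank := by
  have h1 : ((g⁻¹ * x * g : GL (Fin n) F) : Mt) - α • 1 = ((g⁻¹ : GL (Fin n) F) : Mt) * ((x : Mt) - α • 1) * (g : Mt) := by
    have h3 : ((g⁻¹ : GL (Fin n) F) : Mt) * (g : Mt) = 1 := by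
      rw [← Units.val_mul, inv_mul_cancel]
      rfl
    rw [Matrix.mul_sub, Matrix.sub_mul, Matrix.mul_smul, Matrix.mul_one, Matrix.smul_mul, h3]
    rfl
  rw [h1, Matrix.rank_mul_eq_left_of_isUnit_det _ _ (Matrix.isUnits_det_units g),
    Matrix.rank_mul_eq_right_of_isUnit_det _ _ (Matrix.isUnits_det_units g⁻¹)]

/-- Similarities with `y ^ r = 1` have multiplier one when `r ∤ q - 1`. -/
theorem mult_one [Fintype F] (Q : (Fin n → F) → F) (hQ : IsNondegenerateQuadraticForm Q) (h2 : (2 : F) ≠ 0) (hn : 0 < n)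
    (y : GL (Fin n) F) (μ : F) (hy : ∀ v, Q ((y : Mt) *ᵥ v) = μ * Q v) {r : ℕ} (hyr : y ^ r = 1) : μ ^ r = 1 := by
  classical
  have hpow : ∀ (k : ℕ) v, Q (((y ^ k : GL (Fin n) F) : Mt) *ᵥ v) = μ ^ k * Q v := by
    intro k
    induction k with
    | zero =>
      intro v
      simp
    | succ k ih =>
      intro v
      rw [pow_succ', Units.val_mul, ← Matrix.mulVec_mulVec, hy, ih, pow_succ']
      ring
  obtain ⟨v, hv⟩ : ∃ v, Q v ≠ 0 := by
    by_contra hall
    have h0 : ∀ v, Q v = 0 := fun v => by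
      by_contra h
      exact hall ⟨v, h⟩
    let i : Fin n := ⟨0, hn⟩
    have hu : (Pi.single i 1 : Fin n → F) ≠ 0 := by
      intro h
      have := congrFun h i
      simp at this
    obtain ⟨⟨x, hx⟩, -⟩ := hQ.nondegenerate _ hu
    apply hx
    simp [polar, h0]
  have h3 := hpow r v
  rw [hyr, Units.val_one, Matrix.one_mulVec] at h3
  have h4 : (μ ^ r - 1) * Q v = 0 := by linear_combination -h3
  exact sub_eq_zero.mp ((mul_eq_zero.mp h4).resolve_right hv)

/-- An element of odd prime order with `y` in the similarity group has even rank. -/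
theorem even_rank_of_sim [Fintype F] {q r : ℕ} (hq : Fintype.card F = q) (hodd : Odd q) (hn : 0 < n) (Q : (Fin n → F) → F)
    (hQ : IsNondegenerateQuadraticForm Q) (hr : r.Prime) (hr2 : r ≠ 2) (hq1 : ¬ r ∣ q - 1) (y : GL (Fin n) F) (μ : F)
    (hy : ∀ v, Q ((y : Mt) *ᵥ v) = μ * Q v) (hyr : y ^ r = 1) :
    Q = Q ∘ (fun v => (y : Mt) *ᵥ v) ∧ ∃ t, ((y : Mt) - 1).rank = 2 * t := by
  have h2 := Cfsg.Agent.Lib.InvolConj.two_ne_zero_of_odd hq hodd
  have hμ : μ = 1 := Cfsg.Agent.S5979.eq_one_of_pow hq hr hq1 (mult_one Q hQ h2 hn y μ hy hyr)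
  subst hμ
  refine ⟨funext fun v => by simp [hy], ?_⟩
  refine rank_even_of_orth (polar Q) (isSymm_polar Q hQ) h2 (hr.odd_of_ne_two hr2) y hyr fun u v => ?_
  rw [polar_of_sim Q _ 1 hy, one_mul]

end form

section diag3

variable {s t : ℕ} {a b c : F}

/-- A diagonal with three values. -/
def lam3 (n s t : ℕ) (a b c : F) : Fin n → F := fun i => if (i : ℕ) < s then a else if (i : ℕ) < s + t then b else c

theorem sum_lam3 [DecidableEq F] (hst : s + t ≤ n) {M : Type*} [AddCommMonoid M] (f : F → M) :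
    ∑ i : Fin n, f (lam3 n s t a b c i) = s • f a + t • f b + (n - s - t) • f c := by
  have h1 : ∑ i : Fin n, f (lam3 n s t a b c i) = ∑ i ∈ Finset.range n, f (if i < s then a else if i < s + t then b else c) :=
    Fin.sum_univ_eq_sum_range (fun i => f (if i < s then a else if i < s + t then b else c)) n
  rw [h1, Finset.range_eq_Ico, ← Finset.sum_Ico_consecutive _ (Nat.zero_le (s + t)) hst,
    ← Finset.sum_Ico_consecutive _ (Nat.zero_le s) (Nat.le_add_right s t)]
  have e1 : ∑ i ∈ Finset.Ico 0 s, f (if i < s then a else if i < s + t then b else c) = s • f a := by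
    rw [Finset.sum_congr rfl (fun i hi => by rw [if_pos (Finset.mem_Ico.mp hi).2]), Finset.sum_const, Nat.card_Ico]
    simp
  have e2 : ∑ i ∈ Finset.Ico s (s + t), f (if i < s then a else if i < s + t then b else c) = t • f b := by
    rw [Finset.sum_congr rfl (fun i hi => by
      rw [if_neg (not_lt.mpr (Finset.mem_Ico.mp hi).1), if_pos (Finset.mem_Ico.mp hi).2]), Finset.sum_const, Nat.card_Ico]
    simp
  have e3 : ∑ i ∈ Finset.Ico (s + t) n, f (if i < s then a else if i < s + t then b else c) = (n - s - t) • f c := by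
    rw [Finset.sum_congr rfl (fun i hi => by
      have := (Finset.mem_Ico.mp hi).1
      rw [if_neg (by omega), if_neg (by omega)]), Finset.sum_const, Nat.card_Ico]
    congr 1
    omega
  rw [e1, e2, e3]

/-- Count of a value. -/
noncomputable def cnt [DecidableEq F] (lam : Fin n → F) (α : F) : ℕ := (Finset.univ.filter (fun i => lam i = α)).card

theorem cnt_lam3 [DecidableEq F] (hst : s + t ≤ n) (α : F) :
    cnt (lam3 n s t a b c) α = (if a = α then s else 0) + (if b = α then t else 0) + (if c = α then n - s - t else 0) := by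
  unfold cnt
  rw [Finset.card_filter, sum_lam3 hst (fun x => if x = α then 1 else 0)]
  simp only [smul_eq_mul]
  split_ifs <;> omega

theorem det_lam3 [DecidableEq F] (hst : s + t ≤ n) :
    ∏ i : Fin n, lam3 n s t a b c i = a ^ s * b ^ t * c ^ (n - s - t) := by
  have := sum_lam3 (n := n) (s := s) (t := t) (a := a) (b := b) (c := c) hst (fun x => Multiplicative.toAdd (Multiplicative.ofAdd (Additive.ofMul x)))
  have h1 := sum_lam3 (n := n) (s := s) (t := t) (a := a) (b := b) (c := c) hst (M := Additive F) (fun x => Additive.ofMul x)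
  have h2 := congrArg Additive.toMul h1
  simpa [toMul_sum] using h2

theorem rank_diag_sub [DecidableEq F] (lam : Fin n → F) (α : F) :
    (diagonal lam - α • 1 : Mt).rank = n - cnt lam α := by
  classical
  have h1 : (diagonal lam - α • 1 : Mt) = diagonal (fun i => lam i - α) := by
    ext i j
    by_cases hij : i = j
    · subst hij
      simp
    · simp [hij, Matrix.one_apply]
  rw [h1, Matrix.rank_diagonal]
  have h3 : ∀ i, lam i - α ≠ 0 ↔ ¬ (lam i = α) := fun i => by rw [sub_ne_zero]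
  rw [Fintype.card_congr (Equiv.subtypeEquivRight h3), Fintype.card_subtype_compl, Fintype.card_subtype]
  simp [cnt]

theorem cnt_le [DecidableEq F] (lam : Fin n → F) (α : F) : cnt lam α ≤ n := by
  have := Finset.card_filter_le (Finset.univ : Finset (Fin n)) (fun i => lam i = α)
  simpa [cnt] using this

/-- Symmetry of the counts. -/
theorem cnt_sym [DecidableEq F] (Q : (Fin n → F) → F) (hQ : IsNondegenerateQuadraticForm Q) (lam : Fin n → F) (x g : GL (Fin n) F)
    (hx : (x : Mt) = diagonal lam) (hg : g⁻¹ * x * g ∈ quadSimilarityGroup Q) :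
    ∃ μ : F, μ ≠ 0 ∧ ∀ α : F, α ≠ 0 → cnt lam α = cnt lam (μ / α) := by
  obtain ⟨μ, hμ⟩ := hg
  refine ⟨μ, μ.ne_zero, fun α hα => ?_⟩
  have h1 := rank_sim Q hQ (g⁻¹ * x * g) μ hμ α hα
  rw [rank_conj, rank_conj, hx, rank_diag_sub, rank_diag_sub] at h1
  have := cnt_le lam α
  have := cnt_le lam ((μ : F) / α)
  omega

theorem eq_mul_of_div {a μ : F} (ha : a ≠ 0) (h : a = μ / a) : μ = a * a := by
  rw [eq_div_iff ha] at h
  exact h.symm

/-- Two-valued patterns. -/
theorem pat2 [DecidableEq F] {k : ℕ} (hsn : s + k = n) (hs : 0 < s) (hk : 0 < k) (hsk : s ≠ k) (ha : a ≠ 0) (hc : c ≠ 0) (hac : a ≠ c)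
    (μ : F) (h : ∀ α : F, α ≠ 0 → cnt (lam3 n s 0 a a c) α = cnt (lam3 n s 0 a a c) (μ / α)) : a ^ 2 = c ^ 2 := by
  have hst : s + 0 ≤ n := by omega
  have hval : n - s - 0 = k := by omega
  have C : ∀ β, cnt (lam3 n s 0 a a c) β = (if a = β then s else 0) + (if c = β then k else 0) := by
    intro β
    rw [cnt_lam3 hst, hval]
    split_ifs <;> omega
  have h1 := h a ha
  have h2 := h c hc
  rw [C, C, if_pos rfl, if_neg hac.symm] at h1
  rw [C, C, if_pos rfl, if_neg hac] at h2
  have e1 : a = μ / a := by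
    by_contra hne
    rw [if_neg hne] at h1
    split_ifs at h1 <;> omega
  have e2 : c = μ / c := by
    by_contra hne
    rw [if_neg hne] at h2
    split_ifs at h2 <;> omega
  have e3 : μ = a * a := eq_mul_of_div (by assumption) e1
  have e4 : μ = c * c := eq_mul_of_div (by assumption) e2
  rw [pow_two, pow_two, ← e3, e4]

/-- The three-valued pattern. -/
theorem pat1 [DecidableEq F] (hn : 3 ≤ n) (ζ : F) (h0 : ζ ≠ 0) (h1' : ζ ≠ 1) (h2' : ζ ^ 2 ≠ 1) (h3' : ζ ^ 3 ≠ 1) (h4' : ζ ^ 4 ≠ 1) (h6' : ζ ^ 6 ≠ 1)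
    (h5' : n = 5 → ζ ^ 5 ≠ 1)
    (μ : F) (h : ∀ α : F, α ≠ 0 → cnt (lam3 n 2 1 ζ ((ζ⁻¹) ^ 2) 1) α = cnt (lam3 n 2 1 ζ ((ζ⁻¹) ^ 2) 1) (μ / α)) : False := by
  set b := (ζ⁻¹) ^ 2 with hb
  have hbz : b * ζ ^ 2 = 1 := by
    rw [hb]
    field_simp
  have hb0 : b ≠ 0 := pow_ne_zero _ (inv_ne_zero h0)
  have hab : ζ ≠ b := by
    intro e
    apply h3'
    have : ζ ^ 3 = b * ζ ^ 2 := by rw [← e]; ring
    rw [this, hbz]
  have hac : ζ ≠ 1 := h1'
  have hbc : b ≠ 1 := by
    intro e
    apply h2'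
    rw [e, one_mul] at hbz
    exact hbz
  have hst : 2 + 1 ≤ n := by omega
  have C : ∀ β, cnt (lam3 n 2 1 ζ b 1) β = (if ζ = β then 2 else 0) + (if b = β then 1 else 0) + (if (1 : F) = β then n - 3 else 0) := by
    intro β
    rw [cnt_lam3 hst, show n - 2 - 1 = n - 3 by omega]
  have Cv : ∀ β, (ζ = β ∧ cnt (lam3 n 2 1 ζ b 1) β = 2) ∨ (b = β ∧ cnt (lam3 n 2 1 ζ b 1) β = 1) ∨
      ((1 : F) = β ∧ cnt (lam3 n 2 1 ζ b 1) β = n - 3) ∨ (cnt (lam3 n 2 1 ζ b 1) β = 0) := by
    intro β
    rw [C]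
    by_cases h8 : ζ = β
    · subst h8
      left
      exact ⟨rfl, by rw [if_pos rfl, if_neg hab.symm, if_neg hac.symm]⟩
    by_cases h9 : b = β
    · subst h9
      right; left
      exact ⟨rfl, by rw [if_neg hab, if_pos rfl, if_neg hbc.symm]⟩
    by_cases h10 : (1 : F) = β
    · subst h10
      right; right; left
      exact ⟨rfl, by rw [if_neg hac, if_neg hbc, if_pos rfl]; omega⟩
    · right; right; right
      rw [if_neg h8, if_neg h9, if_neg h10]
  have Ca : cnt (lam3 n 2 1 ζ b 1) ζ = 2 := by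
    rw [C, if_pos rfl, if_neg hab.symm, if_neg hac.symm]
  have Cb : cnt (lam3 n 2 1 ζ b 1) b = 1 := by
    rw [C, if_neg hab, if_pos rfl, if_neg hbc.symm]
  have Cc : cnt (lam3 n 2 1 ζ b 1) 1 = n - 3 := by
    rw [C, if_neg hac, if_neg hbc, if_pos rfl]
    omega
  have Ea := h ζ h0
  have Eb := h b hb0
  have Ec := h 1 one_ne_zero
  rw [Ca] at Ea
  rw [Cb] at Eb
  rw [Cc, div_one] at Ec
  have hz4 : b * b * ζ ^ 4 = 1 := by
    have : b * b * ζ ^ 4 = (b * ζ ^ 2) * (b * ζ ^ 2) := by ring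
    rw [this, hbz, one_mul]
  have key1 : n ≠ 5 → ζ = μ / ζ := by
    intro hn5
    rcases Cv (μ / ζ) with ⟨e, v⟩ | ⟨e, v⟩ | ⟨e, v⟩ | v
    · exact e
    · omega
    · omega
    · omega
  have key2 : n ≠ 4 → b = μ / b := by
    intro hn4
    rcases Cv (μ / b) with ⟨e, v⟩ | ⟨e, v⟩ | ⟨e, v⟩ | v
    · omega
    · exact e
    · omega
    · omega
  by_cases hn3 : n = 3
  · have e3 : μ = ζ * ζ := eq_mul_of_div h0 (key1 (by omega))
    have e4 : μ = b * b := eq_mul_of_div hb0 (key2 (by omega))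
    apply h6'
    have : ζ ^ 6 = (ζ * ζ) * ζ ^ 4 := by ring
    rw [this, ← e3, e4, hz4]
  by_cases hn4 : n = 4
  · have e3 : μ = ζ * ζ := eq_mul_of_div h0 (key1 (by omega))
    rcases Cv μ with ⟨e, v⟩ | ⟨e, v⟩ | ⟨e, v⟩ | v
    · omega
    · apply h4'
      have : ζ ^ 4 = (ζ * ζ) * ζ ^ 2 := by ring
      rw [this, ← e3, ← e, hbz]
    · apply h2'
      rw [pow_two, ← e3, e]
    · omega
  by_cases hn5 : n = 5
  · have e4 : μ = b * b := eq_mul_of_div hb0 (key2 (by omega))
    rcases Cv μ with ⟨e, v⟩ | ⟨e, v⟩ | ⟨e, v⟩ | v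
    · apply h5' hn5
      calc ζ ^ 5 = ζ * ζ ^ 4 := by ring
        _ = b * b * ζ ^ 4 := congrArg (· * ζ ^ 4) (e.trans e4)
        _ = 1 := hz4
    · omega
    · apply h4'
      calc ζ ^ 4 = 1 * ζ ^ 4 := by ring
        _ = b * b * ζ ^ 4 := congrArg (· * ζ ^ 4) (e.trans e4)
        _ = 1 := hz4
    · omega
  · have e5 : (1 : F) = μ := by
      rcases Cv μ with ⟨e, v⟩ | ⟨e, v⟩ | ⟨e, v⟩ | v
      · omega
      · omega
      · exact e
      · omega
    have e6 : μ = ζ * ζ := eq_mul_of_div h0 (key1 hn5)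
    apply h2'
    rw [pow_two, ← e6, e5]

end diag3


section blocks

variable [Fintype F] {r : ℕ}

theorem pow_blocks {j k : ℕ} (B : Matrix (Fin j) (Fin j) F) (t : ℕ) :
    (fromBlocks B 0 0 1 : Matrix (Fin j ⊕ Fin k) (Fin j ⊕ Fin k) F) ^ t = fromBlocks (B ^ t) 0 0 1 := by
  induction t with
  | zero => simp
  | succ t ih =>
    rw [pow_succ, ih, Matrix.fromBlocks_multiply, pow_succ]
    simp

theorem rank_blocks {j k : ℕ} (C : Matrix (Fin j) (Fin j) F) (hC : C.det ≠ 0) :
    (fromBlocks C 0 0 0 : Matrix (Fin j ⊕ Fin k) (Fin j ⊕ Fin k) F).rank = j := by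
  classical
  have h1 : (fromBlocks C 0 0 0 : Matrix (Fin j ⊕ Fin k) (Fin j ⊕ Fin k) F) =
      (fromBlocks C 0 0 1) * diagonal (Sum.elim (fun _ => (1 : F)) (fun _ => 0)) := by
    have : (diagonal (Sum.elim (fun _ => (1 : F)) (fun _ => 0)) : Matrix (Fin j ⊕ Fin k) (Fin j ⊕ Fin k) F) = fromBlocks 1 0 0 0 := by
      rw [← Matrix.fromBlocks_diagonal]
      simp
    rw [this, Matrix.fromBlocks_multiply]
    simp
  have hU : IsUnit (fromBlocks C 0 0 1 : Matrix (Fin j ⊕ Fin k) (Fin j ⊕ Fin k) F).det := by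
    rw [Matrix.det_fromBlocks_zero₂₁, Matrix.det_one, mul_one]
    exact hC.isUnit
  rw [h1, Matrix.rank_mul_eq_right_of_isUnit_det _ _ hU, Matrix.rank_diagonal]
  have e : {i : Fin j ⊕ Fin k // (Sum.elim (fun _ => (1 : F)) (fun _ => 0) : Fin j ⊕ Fin k → F) i ≠ 0} ≃ Fin j :=
    { toFun := fun i => match i with
        | ⟨Sum.inl a, _⟩ => a
        | ⟨Sum.inr a, h⟩ => absurd rfl h
      invFun := fun a => ⟨Sum.inl a, by simp⟩
      left_inv := by
        rintro ⟨a | a, h⟩
        · rfl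
        · exact absurd rfl h
      right_inv := fun a => rfl }
  rw [Fintype.card_congr e]
  simp

/-- The block element. -/
theorem exists_block_elt (p : ℕ) [Fact p.Prime] [CharP F p] [hr : Fact r.Prime] {j : ℕ} (hj : j ≠ 0) (hjn : j ≤ n)
    (hd : r ∣ Fintype.card F ^ j - 1) (hq1 : ¬ r ∣ Fintype.card F - 1) :
    ∃ x : GL (Fin n) F, x ^ r = 1 ∧ (x : Mt).det = 1 ∧ ((x : Mt) - 1).rank = j := by
  classical
  have hrp : r.Prime := hr.out
  obtain ⟨B, hBr, hB1, hBf⟩ := Cfsg.Agent.Lib.Singer.exists_singer (F := F) p (r := r) hj hd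
  let τ : Fin j ⊕ Fin (n - j) ≃ Fin n := finSumFinEquiv.trans (finCongr (by omega))
  let M : Matrix (Fin j ⊕ Fin (n - j)) (Fin j ⊕ Fin (n - j)) F := fromBlocks B 0 0 1
  let x₀ : Mt := Matrix.reindexAlgEquiv F F τ M
  have hxr : x₀ ^ r = 1 := by
    simp only [x₀]
    rw [← map_pow, pow_blocks, hBr, Matrix.fromBlocks_one, map_one]
  have hxd : x₀.det = B.det := by
    show (Matrix.reindex τ τ M).det = _
    rw [Matrix.det_reindex_self, Matrix.det_fromBlocks_zero₂₁, Matrix.det_one, mul_one]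
  have hBd : B.det = 1 := by
    apply Cfsg.Agent.S5979.eq_one_of_pow rfl hrp hq1
    rw [← Matrix.det_pow, hBr, Matrix.det_one]
  have hC : (B - 1).det ≠ 0 := by
    intro h0
    obtain ⟨v, hv0, hv⟩ := Matrix.exists_mulVec_eq_zero_iff.mpr h0
    apply hv0
    apply hBf
    rw [Matrix.sub_mulVec, Matrix.one_mulVec] at hv
    exact sub_eq_zero.mp hv
  let x : GL (Fin n) F := Units.ofPowEqOne x₀ r hxr hrp.ne_zero
  have hxv : (x : Mt) = x₀ := rfl
  refine ⟨x, Units.ext (by rw [Units.val_pow_eq_pow_val, hxv, hxr]; rfl), by rw [hxv, hxd, hBd], ?_⟩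
  rw [hxv]
  have h1 : x₀ - 1 = Matrix.reindex τ τ (fromBlocks (B - 1) 0 0 0 : Matrix (Fin j ⊕ Fin (n - j)) (Fin j ⊕ Fin (n - j)) F) := by
    have h2 : x₀ - 1 = Matrix.reindexAlgEquiv F F τ (M - 1) := by
      rw [map_sub, map_one]
    have h3 : M - 1 = fromBlocks (B - 1) 0 0 0 := by
      simp only [M]
      rw [← Matrix.fromBlocks_one, sub_eq_add_neg, Matrix.fromBlocks_neg, Matrix.fromBlocks_add]
      simp [sub_eq_add_neg]
    rw [h2, h3]
    rfl
  rw [h1, Matrix.rank_reindex, rank_blocks _ hC]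

end blocks


section index

open Cfsg.Agent.Lib.OrthoBasic Cfsg.Agent.Lib.OrthoCount

variable [Fintype F]

/-- Determinants of isometries. -/
theorem det_sq_of_iso (Q : (Fin n → F) → F) (hQ : IsNondegenerateQuadraticForm Q) (g : GL (Fin n) F)
    (hg : g ∈ Cfsg.isometryGroup F Q) : (g : Mt).det * (g : Mt).det = 1 := by
  have hg' : ∀ v, Q ((g : Mt) *ᵥ v) = 1 * Q v := by
    intro v
    have := hg v v
    rw [one_mul]
    exact this
  have h1 := gram_of_sim (polar Q) hQ.polar_bilinear (g : Mt) 1 (polar_of_sim Q _ 1 hg')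
  rw [one_smul] at h1
  have h2 := congrArg Matrix.det h1
  rw [Matrix.det_mul, Matrix.det_mul, Matrix.det_transpose] at h2
  have h3 := gram_det_ne (polar Q) hQ.polar_bilinear hQ.nondegenerate
  have h4 : ((g : Mt).det * (g : Mt).det - 1) * (gramMatrix (polar Q)).det = 0 := by linear_combination h2
  exact sub_eq_zero.mp ((mul_eq_zero.mp h4).resolve_right h3)

theorem card_GL_spec (hn : 0 < n) : Nat.card (GL (Fin n) F) = Nat.card (specialLinear (Fin n) F) * (Fintype.card F - 1) := by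
  classical
  haveI : Nonempty (Fin n) := ⟨⟨0, hn⟩⟩
  have h1 : Nat.card (GL (Fin n) F) =
      Nat.card (GL (Fin n) F ⧸ (Matrix.GeneralLinearGroup.det : GL (Fin n) F →* Fˣ).ker) *
        Nat.card (Matrix.GeneralLinearGroup.det : GL (Fin n) F →* Fˣ).ker :=
    Subgroup.card_eq_card_quotient_mul_card_subgroup _
  have h2 : Nat.card (GL (Fin n) F ⧸ (Matrix.GeneralLinearGroup.det : GL (Fin n) F →* Fˣ).ker) = Nat.card Fˣ :=
    Nat.card_congr (QuotientGroup.quotientKerEquivOfSurjective _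
      Matrix.GeneralLinearGroup.det_surjective).toEquiv
  have h3 : Nat.card Fˣ = Fintype.card F - 1 := by
    rw [Nat.card_eq_fintype_card, Fintype.card_units]
  rw [h1, h2, h3, mul_comm]
  rfl

/-- The divisibility from the index. -/
theorem index_O_dvd (Q : (Fin n → F) → F) (hQ : IsNondegenerateQuadraticForm Q) {r : ℕ}
    (hΩ : r ∣ (quadSimilarityGroup Q).relIndex (specialLinear (Fin n) F)) :
    r * Nat.card (Cfsg.isometryGroup F Q) ∣ 2 * Nat.card (specialLinear (Fin n) F) := by
  classical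
  set S := specialLinear (Fin n) F with hS
  set O := Cfsg.isometryGroup F Q with hO
  set H := quadSimilarityGroup Q with hH
  set A : Subgroup (GL (Fin n) F) := O ⊓ S with hA
  have hAS : A ≤ S := inf_le_right
  have hAH : A.subgroupOf S ≤ H.subgroupOf S := by
    intro g hg
    rw [Subgroup.mem_subgroupOf] at hg ⊢
    refine ⟨1, fun v => ?_⟩
    have := hg.1 v v
    rw [Units.val_one, one_mul]
    exact this
  have h1 : Nat.card A ∣ Nat.card (H.subgroupOf S) := by
    have h2 := Subgroup.card_dvd_of_le hAH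
    rwa [Nat.card_congr (Subgroup.subgroupOfEquivOfLe hAS).toEquiv] at h2
  have h3 : Nat.card (H.subgroupOf S) * H.relIndex S = Nat.card S := Subgroup.card_mul_index _
  have h4 : r * Nat.card A ∣ Nat.card S := by
    rw [← h3, mul_comm r]
    exact Nat.mul_dvd_mul h1 hΩ
  -- `A` has index at most two in `O`
  let φ : O →* Fˣ := (Matrix.GeneralLinearGroup.det : GL (Fin n) F →* Fˣ).comp O.subtype
  have hker : Nat.card φ.ker = Nat.card A := by
    refine Nat.card_congr ⟨fun g => ⟨g.1.1, g.1.2, ?_⟩, fun g => ⟨⟨g.1, g.2.1⟩, ?_⟩, fun g => rfl, fun g => rfl⟩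
    · have := g.2
      rw [MonoidHom.mem_ker] at this
      exact this
    · rw [MonoidHom.mem_ker]
      exact g.2.2
  have hind : Nat.card φ.range ∣ 2 := by
    have hle : Nat.card φ.range ≤ 2 := by
      have hinj : Function.Injective (fun u : φ.range => (⟨u.1, by
        obtain ⟨g, hg⟩ := u.2
        have h5 := det_sq_of_iso Q hQ g.1 g.2
        have h6 : ((u.1 : Fˣ) : F) * u.1 = 1 := by
          rw [← hg]
          exact h5
        have h7 : ((u.1 : Fˣ) : F) = 1 ∨ ((u.1 : Fˣ) : F) = -1 := mul_self_eq_one_iff.mp h6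
        simp only [Finset.mem_insert, Finset.mem_singleton]
        rcases h7 with h7 | h7
        · exact Or.inl (Units.ext h7)
        · exact Or.inr (Units.ext h7)⟩ : ↥({1, -1} : Finset Fˣ))) := by
        intro a b hab
        apply Subtype.ext
        exact congrArg (fun s : ↥({1, -1} : Finset Fˣ) => s.1) hab
      have h5 := Nat.card_le_card_of_injective _ hinj
      have e : Nat.card ↥({1, -1} : Finset Fˣ) = ({1, -1} : Finset Fˣ).card := by
        rw [Nat.card_eq_fintype_card, Fintype.card_coe]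
      rw [e] at h5
      exact h5.trans Finset.card_le_two
    have hpos : 0 < Nat.card φ.range := Nat.card_pos
    have : Nat.card φ.range = 1 ∨ Nat.card φ.range = 2 := by omega
    rcases this with h | h <;> rw [h] <;> norm_num
  have h5 : Nat.card O = Nat.card φ.ker * Nat.card φ.range := by
    have h6 := Subgroup.card_mul_index φ.ker
    rw [Subgroup.index_ker] at h6
    exact h6.symm
  rw [h5, hker]
  have h7 : r * (Nat.card A * Nat.card φ.range) = (r * Nat.card A) * Nat.card φ.range := by ring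
  rw [h7, mul_comm 2]
  exact Nat.mul_dvd_mul h4 hind

/-- The order of the orthogonal group in odd dimension. -/
theorem card_OG_gen_odd (hodd : Odd (Fintype.card F)) {m : ℕ} (hn : n = 2 * m + 1) (Qq : QuadraticForm F (Fin n → F))
    (hQq : Cfsg.Agent.Lib.QuadFF.ND Qq) :
    Nat.card (OG Qq) = 2 * Fintype.card F ^ (m ^ 2) * ∏ i ∈ Finset.range m, (Fintype.card F ^ (2 * (i + 1)) - 1) := by
  classical
  obtain ⟨b, h0, h1, h2, h3, h4⟩ := Cfsg.Agent.Lib.QuadFF.exists_standard_odd (V := Fin n → F) (m := m) (by simpa using hn) Qq hQq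
  set c := Qq (b (Sum.inl ())) with hc
  let w : Unit ⊕ (Fin m ⊕ Fin m) → F := Sum.elim (fun _ => 1) (Sum.elim (fun _ => c⁻¹) (fun _ => 1))
  have hw : ∀ i, IsUnit (w i) := by
    rintro (i | i | i)
    · exact isUnit_one
    · exact (inv_ne_zero h0).isUnit
    · exact isUnit_one
  let β := (Pi.basisFun F (Unit ⊕ (Fin m ⊕ Fin m))).isUnitSMul hw
  have hβ : ∀ i, β i = w i • Pi.single i 1 := by
    intro i
    simp [β, Basis.isUnitSMul_apply]
  let E : (Fin n → F) ≃ₗ[F] (Unit ⊕ (Fin m ⊕ Fin m) → F) := b.equiv β (Equiv.refl _)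
  have hE : ∀ i, E (b i) = w i • Pi.single i 1 := by
    intro i
    rw [← hβ]
    simp [E]
  have hqv : ∀ v, qOdd m F v = v (Sum.inl ()) ^ 2 + ∑ i, v (Sum.inr (Sum.inl i)) * v (Sum.inr (Sum.inr i)) := by
    intro v
    rw [qOdd_apply]
    rfl
  have hpol : ∀ u v, polar (qOdd m F) u v = 2 * (u (Sum.inl ()) * v (Sum.inl ())) +
      ∑ i, (u (Sum.inr (Sum.inl i)) * v (Sum.inr (Sum.inr i)) + v (Sum.inr (Sum.inl i)) * u (Sum.inr (Sum.inr i))) := by
    intro u v
    simp only [polar, hqv, Pi.add_apply]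
    have e : ∀ i : Fin m, (u (.inr (.inl i)) + v (.inr (.inl i))) * (u (.inr (.inr i)) + v (.inr (.inr i))) =
        u (.inr (.inl i)) * u (.inr (.inr i)) + v (.inr (.inl i)) * v (.inr (.inr i)) +
          (u (.inr (.inl i)) * v (.inr (.inr i)) + v (.inr (.inl i)) * u (.inr (.inr i))) := fun i => by ring
    simp only [e, Finset.sum_add_distrib]
    ring
  have key : ∀ v, qOdd m F (E v) = (c⁻¹ • Qq) v := by
    intro v
    have h5 := Cfsg.Agent.Lib.QuadFF.eq_on_basis b ((qOdd m F).comp (E : (Fin n → F) →ₗ[F] (Unit ⊕ (Fin m ⊕ Fin m) → F))) (c⁻¹ • Qq) ?_ ?_ v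
    · simpa using h5
    · rintro (⟨⟩ | i | i)
      · show qOdd m F (E _) = c⁻¹ * Qq _
        rw [hE, hqv, ← hc]
        have : ∀ i : Fin m, (Sum.inl () : Unit ⊕ (Fin m ⊕ Fin m)) ≠ Sum.inr (Sum.inl i) := by simp
        simp [w, Pi.single_apply, inv_mul_cancel₀ h0]
      · show qOdd m F (E _) = c⁻¹ * Qq _
        rw [hE, hqv, (h2 i).1]
        simp [w, Pi.single_apply]
      · show qOdd m F (E _) = c⁻¹ * Qq _
        rw [hE, hqv, (h2 i).2]
        simp [w, Pi.single_apply]
    · have e1 : ∀ x y, polar ((qOdd m F).comp (E : (Fin n → F) →ₗ[F] (Unit ⊕ (Fin m ⊕ Fin m) → F))) x y = polar (qOdd m F) (E x) (E y) := by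
        intro x y
        simp [polar, map_add]
      have e2 : ∀ x y, polar (c⁻¹ • Qq) x y = c⁻¹ * polar Qq x y := by
        intro x y
        simp [polar]
        ring
      have e3 := fun i j => polar_comm Qq (b i) (b j)
      rintro (⟨⟩ | i | i) (⟨⟩ | j | j) <;> simp only [e1, e2, hE] <;> rw [hpol]
      · rw [Cfsg.Agent.Lib.QuadFF.polar_self_eq, ← hc]
        simp [w, Pi.single_apply]
        field_simp
      · rw [(h1 j).1]
        simp [w, Pi.single_apply]
      · rw [(h1 j).2]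
        simp [w, Pi.single_apply]
      · rw [e3, (h1 i).1]
        simp [w, Pi.single_apply]
      · rw [(h4 i j).1]
        simp [w, Pi.single_apply]
      · rw [h3 i j]
        simp [w, Pi.single_apply]
        first | exact if_congr eq_comm rfl rfl | rfl
      · rw [e3, (h1 i).2]
        simp [w, Pi.single_apply]
      · rw [e3, h3 j i]
        simp [w, Pi.single_apply]
        first | exact if_congr eq_comm rfl rfl | rfl
      · rw [(h4 i j).2]
        simp [w, Pi.single_apply]
  have hOG : OG (c⁻¹ • Qq) = OG Qq := by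
    ext g
    simp only [mem_OG, QuadraticMap.smul_apply, smul_eq_mul]
    constructor
    · intro h x
      exact mul_left_cancel₀ (inv_ne_zero h0) (h x)
    · intro h x
      rw [h]
  rw [← hOG, Nat.card_congr (OG.congr E key).toEquiv, Cfsg.Agent.Lib.OrthoOrder.card_OG_odd hodd]

/-- Values of the even-dimensional forms. -/
theorem even_cases {m : ℕ} (hn : n = 2 * (m + 1)) (Qq : QuadraticForm F (Fin n → F)) (hQq : Cfsg.Agent.Lib.QuadFF.ND Qq) :
    ((Nat.card {v // Qq v = 0} : ℤ) = (Fintype.card F : ℤ) ^ (2 * m + 1) + (Fintype.card F : ℤ) ^ (m + 1) - (Fintype.card F : ℤ) ^ m ∧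
      Nat.card (OG Qq) = 2 * Fintype.card F ^ ((m + 1) * m) * (Fintype.card F ^ (m + 1) - 1)
        * ∏ i ∈ Finset.range m, (Fintype.card F ^ (2 * (i + 1)) - 1)) ∨
    ((Nat.card {v // Qq v = 0} : ℤ) = (Fintype.card F : ℤ) ^ (2 * m + 1) + (Fintype.card F : ℤ) ^ m - (Fintype.card F : ℤ) ^ (m + 1) ∧
      Nat.card (OG Qq) = 2 * Fintype.card F ^ ((m + 1) * m) * (Fintype.card F ^ (m + 1) + 1)
        * ∏ i ∈ Finset.range m, (Fintype.card F ^ (2 * (i + 1)) - 1)) := by
  rcases Cfsg.Agent.Lib.QuadClass.std_cases (V := Fin n → F) (m := m + 1) (by simpa using hn) Qq hQq with ⟨b, hb⟩ | ⟨k, hk, b, ζ, hb⟩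
  · left
    refine ⟨Cfsg.Agent.Lib.QuadClass.card_zeros_of_hyp hb, ?_⟩
    obtain ⟨e, he⟩ := Cfsg.Agent.Lib.QuadClass.iso_qPlus_of_hyp hb
    rw [Nat.card_congr (OG.congr e he).toEquiv, Cfsg.Agent.Lib.OrthoOrder.card_OG_plus]
  · obtain rfl : m = k := by omega
    right
    refine ⟨Cfsg.Agent.Lib.QuadClass2.card_zeros_of_minus hQq hb, ?_⟩
    obtain ⟨e, he⟩ := Cfsg.Agent.Lib.QuadClass2.iso_of_minus_basis hQq hb
    rw [Nat.card_congr (OG.congr e he).toEquiv, Cfsg.Agent.Lib.OrthoDihedral.card_OG_minus 1 ζ (Cfsg.Agent.Lib.QuadClass2.ani_of_zeta hb.1)]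

theorem prod_gl (q n : ℕ) (hq : 1 ≤ q) :
    ∏ i : Fin n, (q ^ n - q ^ (i : ℕ)) = q ^ (∑ i ∈ Finset.range n, i) * ∏ k ∈ Finset.range n, (q ^ (k + 1) - 1) := by
  rw [Fin.prod_univ_eq_prod_range (fun i => q ^ n - q ^ i) n, ← Finset.prod_pow_eq_pow_sum, ← Finset.prod_range_reflect (fun k => q ^ (k + 1) - 1),
    ← Finset.prod_mul_distrib]
  apply Finset.prod_congr rfl
  intro i hi
  have hi' : i < n := Finset.mem_range.mp hi
  have e1 : n - 1 - i + 1 = n - i := by omega
  rw [e1, Nat.mul_sub, mul_one, ← pow_add]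
  congr 2
  omega

theorem prod_split (q m : ℕ) :
    ∏ k ∈ Finset.range (2 * m), (q ^ (k + 1) - 1) = (∏ k ∈ Finset.range m, (q ^ (2 * k + 1) - 1)) * ∏ k ∈ Finset.range m, (q ^ (2 * (k + 1)) - 1) := by
  induction m with
  | zero => simp
  | succ m ih =>
    rw [show 2 * (m + 1) = 2 * m + 1 + 1 by ring, Finset.prod_range_succ, Finset.prod_range_succ, ih, Finset.prod_range_succ,
      Finset.prod_range_succ]
    rw [show 2 * m + 1 + 1 = 2 * (m + 1) by ring]
    ring

/-- `SL_n` in the odd case: the order of the group. -/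
theorem card_spec_odd {m : ℕ} (hn : n = 2 * m + 1) :
    Nat.card (specialLinear (Fin n) F) = Fintype.card F ^ (∑ i ∈ Finset.range n, i) *
      ((∏ k ∈ Finset.range m, (Fintype.card F ^ (2 * k + 3) - 1)) * ∏ k ∈ Finset.range m, (Fintype.card F ^ (2 * (k + 1)) - 1)) := by
  have h1 := card_GL_spec (F := F) (n := n) (by omega)
  rw [Matrix.card_GL_field, prod_gl _ _ Fintype.card_pos] at h1
  have h2 : ∏ k ∈ Finset.range n, (Fintype.card F ^ (k + 1) - 1) = (Fintype.card F - 1) *
      ((∏ k ∈ Finset.range m, (Fintype.card F ^ (2 * k + 3) - 1)) * ∏ k ∈ Finset.range m, (Fintype.card F ^ (2 * (k + 1)) - 1)) := by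
    rw [hn, Finset.prod_range_succ, prod_split, show 2 * m + 1 = 2 * m + 1 from rfl]
    have h3 : (∏ k ∈ Finset.range m, (Fintype.card F ^ (2 * k + 1) - 1)) * (Fintype.card F ^ (2 * m + 1) - 1) =
        (Fintype.card F - 1) * ∏ k ∈ Finset.range m, (Fintype.card F ^ (2 * k + 3) - 1) := by
      rw [← Finset.prod_range_succ (fun k => Fintype.card F ^ (2 * k + 1) - 1), Finset.prod_range_succ']
      simp only [show ∀ k, 2 * (k + 1) + 1 = 2 * k + 3 from fun k => by ring]
      simp [mul_comm]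
    calc _ = ((∏ k ∈ Finset.range m, (Fintype.card F ^ (2 * k + 1) - 1)) * (Fintype.card F ^ (2 * m + 1) - 1)) *
        ∏ k ∈ Finset.range m, (Fintype.card F ^ (2 * (k + 1)) - 1) := by ring
      _ = _ := by rw [h3]; ring
  rw [h2] at h1
  have hq1 : 0 < Fintype.card F - 1 := by
    have := Fintype.one_lt_card (α := F)
    omega
  apply Nat.eq_of_mul_eq_mul_right hq1
  rw [← h1]
  ring

theorem card_spec_even {m : ℕ} (hn : n = 2 * (m + 1)) :
    Nat.card (specialLinear (Fin n) F) = Fintype.card F ^ (∑ i ∈ Finset.range n, i) *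
      ((∏ k ∈ Finset.range m, (Fintype.card F ^ (2 * k + 3) - 1)) * (Fintype.card F ^ (2 * (m + 1)) - 1) * ∏ k ∈ Finset.range m, (Fintype.card F ^ (2 * (k + 1)) - 1)) := by
  have h1 := card_GL_spec (F := F) (n := n) (by omega)
  rw [Matrix.card_GL_field, prod_gl _ _ Fintype.card_pos] at h1
  have h2 : ∏ k ∈ Finset.range n, (Fintype.card F ^ (k + 1) - 1) = (Fintype.card F - 1) *
      ((∏ k ∈ Finset.range m, (Fintype.card F ^ (2 * k + 3) - 1)) * (Fintype.card F ^ (2 * (m + 1)) - 1) * ∏ k ∈ Finset.range m, (Fintype.card F ^ (2 * (k + 1)) - 1)) := by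
    rw [hn, prod_split, Finset.prod_range_succ', Finset.prod_range_succ (fun k => Fintype.card F ^ (2 * (k + 1)) - 1)]
    simp only [show ∀ k, 2 * (k + 1) + 1 = 2 * k + 3 from fun k => by ring]
    simp
    ring
  rw [h2] at h1
  have hq1 : 0 < Fintype.card F - 1 := by
    have := Fintype.one_lt_card (α := F)
    omega
  apply Nat.eq_of_mul_eq_mul_right hq1
  rw [← h1]
  ring

theorem prod_pos' (e : ℕ) : 0 < ∏ i ∈ Finset.range e, (Fintype.card F ^ (2 * (i + 1)) - 1) := by
  apply Finset.prod_pos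
  intro i _
  have hq : 1 < Fintype.card F := Fintype.one_lt_card
  have : 1 < Fintype.card F ^ (2 * (i + 1)) := Nat.one_lt_pow (by omega) hq
  omega

theorem arith_key {r e D q Od a b P : ℕ} (ha : 0 < a) (hP : 0 < P) (hr : r.Prime) (hrq : ¬ r ∣ q)
    (h : r * (2 * q ^ e * a * P) ∣ 2 * (q ^ D * (Od * (a * b) * P))) : r ∣ Od ∨ r ∣ b := by
  have h1 : (2 * a * P) * (r * q ^ e) ∣ (2 * a * P) * (q ^ D * (Od * b)) := by
    convert h using 1 <;> ring
  have h2 := Nat.dvd_of_mul_dvd_mul_left (by positivity) h1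
  have h3 : r ∣ q ^ D * (Od * b) := (Dvd.intro _ rfl).trans h2
  rcases (Nat.Prime.dvd_mul hr).mp h3 with h4 | h4
  · exact absurd (hr.dvd_of_dvd_pow h4) hrq
  · exact (Nat.Prime.dvd_mul hr).mp h4

/-- The consequence of the index hypothesis. -/
theorem index_cases (hodd : Odd (Fintype.card F)) (Q : (Fin n → F) → F) (hQ : IsNondegenerateQuadraticForm Q) (hn : 3 ≤ n) {r : ℕ} (hr : r.Prime)
    (hrq : ¬ r ∣ Fintype.card F)
    (hΩ : r ∣ (quadSimilarityGroup Q).relIndex (specialLinear (Fin n) F)) :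
    (∃ k, 2 * k + 3 ≤ n ∧ r ∣ Fintype.card F ^ (2 * k + 3) - 1) ∨
    (∃ (m : ℕ) (Qq : QuadraticForm F (Fin n → F)), n = 2 * (m + 1) ∧ ⇑Qq = Q ∧
      (((r : ℤ) ∣ (Fintype.card F : ℤ) ^ (m + 1) + 1 ∧ (Nat.card {v // Qq v = 0} : ℤ) = (Fintype.card F : ℤ) ^ (2 * m + 1) + (Fintype.card F : ℤ) ^ (m + 1) - (Fintype.card F : ℤ) ^ m) ∨
       ((r : ℤ) ∣ (Fintype.card F : ℤ) ^ (m + 1) - 1 ∧ (Nat.card {v // Qq v = 0} : ℤ) = (Fintype.card F : ℤ) ^ (2 * m + 1) + (Fintype.card F : ℤ) ^ m - (Fintype.card F : ℤ) ^ (m + 1)))) := by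
  classical
  set Qq := Cfsg.Agent.Lib.OmCalc.toQF Q hQ with hQq
  have hND : Cfsg.Agent.Lib.QuadFF.ND Qq := Cfsg.Agent.Lib.OmCalc.nd_of (Cfsg.Agent.Lib.OmCalc.nondeg_of hQ)
  have hOG : Nat.card (Cfsg.isometryGroup F Q) = Nat.card (OG Qq) := Nat.card_congr (isoOG Q Qq (fun v => rfl)).toEquiv
  have hdvd := index_O_dvd Q hQ hΩ
  rw [hOG] at hdvd
  set q := Fintype.card F with hq
  have hq1 : 1 < q := Fintype.one_lt_card
  have hleft : ∀ m, 2 * m + 1 ≤ n → r ∣ ∏ k ∈ Finset.range m, (q ^ (2 * k + 3) - 1) → ∃ k, 2 * k + 3 ≤ n ∧ r ∣ q ^ (2 * k + 3) - 1 := by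
    intro m hm h
    obtain ⟨k, hk, h7⟩ := (Prime.dvd_finset_prod_iff hr.prime _).mp h
    have := Finset.mem_range.mp hk
    exact ⟨k, by omega, h7⟩
  rcases Nat.even_or_odd' n with ⟨m', hm' | hm'⟩
  · -- even
    obtain ⟨m, rfl⟩ : ∃ m, m' = m + 1 := ⟨m' - 1, by omega⟩
    have hP0 : 0 < ∏ i ∈ Finset.range m, (q ^ (2 * (i + 1)) - 1) := prod_pos' m
    have hcard := card_spec_even (F := F) hm'
    rw [← hq] at hcard
    rw [hcard] at hdvd
    have ha1 : 1 < q ^ (m + 1) := Nat.one_lt_pow (by omega) hq1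
    have hfac1 : q ^ (2 * (m + 1)) - 1 = (q ^ (m + 1) - 1) * (q ^ (m + 1) + 1) := by
      have h5 : q ^ (2 * (m + 1)) = (q ^ (m + 1)) ^ 2 := by rw [← pow_mul]; congr 1; ring
      rw [h5]
      zify [ha1.le, Nat.one_le_pow 2 (q ^ (m + 1)) (by omega)]
      ring
    have hfac2 : q ^ (2 * (m + 1)) - 1 = (q ^ (m + 1) + 1) * (q ^ (m + 1) - 1) := by
      rw [hfac1, mul_comm]
    rcases even_cases hm' Qq hND with ⟨hz, hO⟩ | ⟨hz, hO⟩
    · rw [hO, ← hq, hfac1] at hdvd
      rcases arith_key (by omega) hP0 hr hrq hdvd with h | h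
      · exact Or.inl (hleft m (by omega) h)
      · right
        refine ⟨m, Qq, hm', rfl, Or.inl ⟨?_, hz⟩⟩
        exact_mod_cast h
    · rw [hO, ← hq, hfac2] at hdvd
      rcases arith_key (by omega) hP0 hr hrq hdvd with h | h
      · exact Or.inl (hleft m (by omega) h)
      · right
        refine ⟨m, Qq, hm', rfl, Or.inr ⟨?_, hz⟩⟩
        have := Int.natCast_dvd_natCast.mpr h
        rwa [Nat.cast_sub ha1.le, Nat.cast_pow, Nat.cast_one] at this
  · -- odd
    have hP0 : 0 < ∏ i ∈ Finset.range m', (q ^ (2 * (i + 1)) - 1) := prod_pos' m'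
    have hcard := card_spec_odd (F := F) hm'
    rw [← hq] at hcard
    rw [hcard, card_OG_gen_odd hodd hm' Qq hND, ← hq] at hdvd
    have h1 : (2 * ∏ i ∈ Finset.range m', (q ^ (2 * (i + 1)) - 1)) * (r * q ^ (m' ^ 2)) ∣
        (2 * ∏ i ∈ Finset.range m', (q ^ (2 * (i + 1)) - 1)) * (q ^ (∑ i ∈ Finset.range n, i) * ∏ k ∈ Finset.range m', (q ^ (2 * k + 3) - 1)) := by
      convert hdvd using 1 <;> ring
    have h2 := Nat.dvd_of_mul_dvd_mul_left (by positivity) h1
    have h3 : r ∣ q ^ (∑ i ∈ Finset.range n, i) * ∏ k ∈ Finset.range m', (q ^ (2 * k + 3) - 1) := (Dvd.intro _ rfl).trans h2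
    rcases (Nat.Prime.dvd_mul hr).mp h3 with h4 | h4
    · exact absurd (hr.dvd_of_dvd_pow h4) hrq
    · exact Or.inl (hleft m' (by omega) h4)

end index


section forward

variable [Fintype F]

theorem card_modEq_fpf {V : Type*} (Q : V → F) (T : V → V) {r : ℕ} [hr : Fact r.Prime] (z : V)
    (hQz : Q z = 0) (hTz : T z = z) (hQT : ∀ v, Q (T v) = Q v) (hTr : ∀ v, T^[r] v = v)
    (hfix : ∀ v, T v = v → v = z) [Finite V] : Nat.card {v // Q v = 0} ≡ 1 [MOD r] := by
  classical
  haveI : Fintype V := Fintype.ofFinite V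
  let f : Function.End {v // Q v = 0} := fun v => ⟨T v.1, by rw [hQT]; exact v.2⟩
  have hfk : ∀ k (v : {v // Q v = 0}), ((f ^ k) v).1 = T^[k] v.1 := by
    intro k v
    induction k with
    | zero =>
      rw [pow_zero]
      rfl
    | succ k ih =>
      rw [pow_succ', Function.iterate_succ_apply']
      change T ((f ^ k) v).1 = _
      rw [ih]
  have hfr : f ^ r ^ 1 = 1 := by
    rw [pow_one]
    funext v
    apply Subtype.ext
    rw [hfk, hTr]
    rfl
  have hcong := Equiv.Perm.card_fixedPoints_modEq (f := f) hfr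
  have hfixc : Fintype.card (Function.fixedPoints f) = 1 := by
    rw [Fintype.card_eq_one_iff]
    refine ⟨⟨⟨z, hQz⟩, ?_⟩, ?_⟩
    · apply Subtype.ext
      exact hTz
    · rintro ⟨⟨v, hv⟩, hv2⟩
      apply Subtype.ext
      apply Subtype.ext
      exact hfix v (congrArg Subtype.val hv2)
  rw [hfixc, ← Nat.card_eq_fintype_card] at hcong
  exact hcong

theorem plus_arith {Q0 : ℤ} {r e : ℕ} [hr : Fact r.Prime] (hr2 : r ≠ 2) (hd0 : (r : ℤ) ∣ Q0 ^ (e + 1) + 1)
    (hd : (r : ℤ) ∣ Q0 ^ (2 * e + 1) + Q0 ^ (e + 1) - Q0 ^ e - 1) : False := by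
  have hpr : Prime (r : ℤ) := Nat.prime_iff_prime_int.1 hr.out
  have h2 : (r : ℤ) ∣ 2 * (Q0 ^ e + 1) := by
    have : 2 * (Q0 ^ e + 1) = (Q0 ^ e + 1) * (Q0 ^ (e + 1) + 1) - (Q0 ^ (2 * e + 1) + Q0 ^ (e + 1) - Q0 ^ e - 1) := by ring
    rw [this]
    exact dvd_sub (Dvd.dvd.mul_left hd0 _) hd
  have h3 : ¬ (r : ℤ) ∣ 2 := by
    intro h
    have : r ∣ 2 := by exact_mod_cast h
    exact hr2 ((Nat.prime_dvd_prime_iff_eq hr.out Nat.prime_two).1 this)
  have h4 : (r : ℤ) ∣ Q0 ^ e + 1 := (hpr.dvd_or_dvd h2).resolve_left h3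
  have h5 : (r : ℤ) ∣ Q0 - 1 := by
    have : Q0 - 1 = Q0 * (Q0 ^ e + 1) - (Q0 ^ (e + 1) + 1) := by ring
    rw [this]
    exact dvd_sub (Dvd.dvd.mul_left h4 _) hd0
  have h6 : (r : ℤ) ∣ Q0 ^ (e + 1) - 1 := by
    have := sub_dvd_pow_sub_pow Q0 1 (e + 1)
    rw [one_pow] at this
    exact h5.trans this
  apply h3
  have : (2 : ℤ) = (Q0 ^ (e + 1) + 1) - (Q0 ^ (e + 1) - 1) := by ring
  rw [this]
  exact dvd_sub hd0 h6

theorem minus_arith {Q0 : ℤ} {r e : ℕ} [hr : Fact r.Prime] (hr2 : r ≠ 2) (hd0 : (r : ℤ) ∣ Q0 ^ (e + 1) - 1)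
    (hd : (r : ℤ) ∣ Q0 ^ (2 * e + 1) + Q0 ^ e - Q0 ^ (e + 1) - 1) : (r : ℤ) ∣ Q0 - 1 := by
  have hpr : Prime (r : ℤ) := Nat.prime_iff_prime_int.1 hr.out
  have h2 : (r : ℤ) ∣ 2 * (Q0 ^ e - 1) := by
    have : 2 * (Q0 ^ e - 1) = (Q0 ^ (2 * e + 1) + Q0 ^ e - Q0 ^ (e + 1) - 1) - (Q0 ^ e - 1) * (Q0 ^ (e + 1) - 1) := by ring
    rw [this]
    exact dvd_sub hd (Dvd.dvd.mul_left hd0 _)
  have h3 : ¬ (r : ℤ) ∣ 2 := by
    intro h
    have : r ∣ 2 := by exact_mod_cast h
    exact hr2 ((Nat.prime_dvd_prime_iff_eq hr.out Nat.prime_two).1 this)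
  have h4 : (r : ℤ) ∣ Q0 ^ e - 1 := (hpr.dvd_or_dvd h2).resolve_left h3
  have : Q0 - 1 = (Q0 ^ (e + 1) - 1) - Q0 * (Q0 ^ e - 1) := by ring
  rw [this]
  exact dvd_sub hd0 (Dvd.dvd.mul_left h4 _)

/-- The zero count modulo `r` for an isometry without fixed points. -/
theorem count_of_fpf (Qq : QuadraticForm F (Fin n → F)) {r : ℕ} [Fact r.Prime] (y : GL (Fin n) F)
    (hy : ∀ v, Qq ((y : Mt) *ᵥ v) = Qq v) (hyr : y ^ r = 1)
    (hfix : ∀ v, (y : Mt) *ᵥ v = v → v = 0) :
    Nat.card {v // Qq v = 0} ≡ 1 [MOD r] := by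
  have hk : ∀ k v, (fun v => (y : Mt) *ᵥ v)^[k] v = ((y ^ k : GL (Fin n) F) : Mt) *ᵥ v := by
    intro k v
    induction k with
    | zero => simp
    | succ k ih =>
      rw [Function.iterate_succ_apply', ih, pow_succ', Units.val_mul, Matrix.mulVec_mulVec]
  exact card_modEq_fpf (fun v => Qq v) (fun v => (y : Mt) *ᵥ v) 0
    (QuadraticMap.map_zero _) (Matrix.mulVec_zero _) hy (fun v => by rw [hk, hyr]; simp) hfix

theorem fpf_of_rank (y : GL (Fin n) F) (h : ((y : Mt) - 1).rank = n) (v : Fin n → F) (hv : (y : Mt) *ᵥ v = v) : v = 0 := by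
  have h1 := LinearMap.finrank_range_add_finrank_ker ((y : Mt) - 1).mulVecLin
  have h2 : finrank F (LinearMap.range ((y : Mt) - 1).mulVecLin) = n := h
  simp only [Module.finrank_fin_fun] at h1
  have h3 : finrank F (LinearMap.ker ((y : Mt) - 1).mulVecLin) = 0 := by omega
  rw [Submodule.finrank_eq_zero] at h3
  have h4 : v ∈ LinearMap.ker ((y : Mt) - 1).mulVecLin := by
    rw [LinearMap.mem_ker, Matrix.mulVecLin_apply, Matrix.sub_mulVec, Matrix.one_mulVec, hv, sub_self]
  rw [h3] at h4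
  exact h4

theorem exists_order (d : ℕ) (hd : d ∣ Fintype.card F - 1) : ∃ w : F, orderOf w = d := by
  classical
  obtain ⟨γ, hγ⟩ := IsCyclic.exists_generator (α := Fˣ)
  have h1 : orderOf γ = Fintype.card F - 1 := by
    rw [orderOf_eq_card_of_forall_mem_zpowers hγ, Nat.card_eq_fintype_card, Fintype.card_units]
  refine ⟨((γ ^ ((Fintype.card F - 1) / d) : Fˣ) : F), ?_⟩
  rw [orderOf_units, orderOf_pow_of_dvd, h1]
  · exact Nat.div_div_self hd (by
      have := Fintype.one_lt_card (α := F)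
      omega)
  · intro h0
    have hq := Fintype.one_lt_card (α := F)
    have hd0 : d ≠ 0 := by
      rintro rfl
      rw [zero_dvd_iff] at hd
      omega
    have := Nat.div_eq_zero_iff.mp h0
    have h2 := Nat.le_of_dvd (by omega) hd
    omega
  · rw [h1]
    exact Nat.div_dvd_of_dvd hd

theorem diag_elt (lam : Fin n → F) (hne : ∀ i, lam i ≠ 0) (hdet : ∏ i, lam i = 1) :
    ∃ x : GL (Fin n) F, x ∈ specialLinear (Fin n) F ∧ (x : Mt) = diagonal lam := by
  refine ⟨Matrix.GeneralLinearGroup.mkOfDetNeZero (diagonal lam) (by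
    rw [det_diagonal]
    exact Finset.prod_ne_zero_iff.mpr fun i _ => hne i), ?_, rfl⟩
  show Matrix.GeneralLinearGroup.det _ = 1
  apply Units.ext
  show (diagonal lam).det = 1
  rw [det_diagonal, hdet]

theorem lam3_ne (s t : ℕ) {a b c : F} (ha : a ≠ 0) (hb : b ≠ 0) (hc : c ≠ 0) (i : Fin n) : lam3 n s t a b c i ≠ 0 := by
  unfold lam3
  split_ifs <;> assumption

theorem lam3_pow (s t : ℕ) {a b c z : F} {r : ℕ} (ha : a ^ r = z) (hb : b ^ r = z) (hc : c ^ r = z) (i : Fin n) : (lam3 n s t a b c i) ^ r = z := by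
  unfold lam3
  split_ifs <;> assumption

theorem lam3_a {s t : ℕ} {a b c : F} (i : Fin n) (h : (i : ℕ) < s) : lam3 n s t a b c i = a := by
  simp [lam3, h]

theorem lam3_b {s t : ℕ} {a b c : F} (i : Fin n) (h : s ≤ (i : ℕ)) (h2 : (i : ℕ) < s + t) : lam3 n s t a b c i = b := by
  simp only [lam3]
  rw [if_neg (by omega), if_pos h2]

theorem lam3_c {s t : ℕ} {a b c : F} (i : Fin n) (h2 : s + t ≤ (i : ℕ)) : lam3 n s t a b c i = c := by
  simp only [lam3]
  rw [if_neg (by omega), if_neg (by omega)]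

theorem eq_zero_of_rank (A : Mt) (h : A.rank = 0) : A = 0 := by
  have h1 : LinearMap.range A.mulVecLin = ⊥ := Submodule.finrank_eq_zero.mp h
  have h2 : A.mulVecLin = 0 := LinearMap.range_eq_bot.mp h1
  ext i j
  have := congrFun (LinearMap.congr_fun h2 (Pi.single j 1)) i
  simpa using this

/-- The main forward direction. -/
theorem forward {q r p : ℕ} [Fact p.Prime] [CharP F p] (hq : Fintype.card F = q) (hodd : Odd q) (hn : 3 ≤ n)
    (Q : (Fin n → F) → F) (hQ : IsNondegenerateQuadraticForm Q) [hrf : Fact r.Prime] (hgap : ¬ (n = 6 ∧ r = 3))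
    (hΩ : r ∣ (quadSimilarityGroup Q).relIndex (specialLinear (Fin n) F))
    (hfix : ∀ x ∈ specialLinear (Fin n) F, (∃ z : F, ((x ^ r : GL (Fin n) F) : Mt) = z • (1 : Mt)) →
      (∀ z : F, (x : Mt) ≠ z • (1 : Mt)) → ∃ g ∈ specialLinear (Fin n) F, g⁻¹ * x * g ∈ quadSimilarityGroup Q)
    (hr2 : r ≠ 2) : (r = 3 ∨ r = 5) ∧ n = r ∧ padicValNat r (q - 1) = 1 := by
  classical
  have hr : r.Prime := hrf.out
  have hp : p.Prime := Fact.out
  have h2F := Cfsg.Agent.Lib.InvolConj.two_ne_zero_of_odd hq hodd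
  have hq2 : 2 ≤ q := by
    have := Fintype.one_lt_card (α := F)
    omega
  have hn0 : 0 < n := by omega
  by_contra hnot
  -- the engine for diagonal elements
  have engine : ∀ lam : Fin n → F, (∀ i, lam i ≠ 0) → ∏ i, lam i = 1 → (∃ z, ∀ i, lam i ^ r = z) → (∃ i j, lam i ≠ lam j) →
      ∃ μ : F, μ ≠ 0 ∧ ∀ α : F, α ≠ 0 → cnt lam α = cnt lam (μ / α) := by
    intro lam hne hdet ⟨z, hz⟩ ⟨i, j, hij⟩
    obtain ⟨x, hx, hxv⟩ := diag_elt lam hne hdet
    obtain ⟨g, -, hg⟩ := hfix x hx ⟨z, by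
      rw [Units.val_pow_eq_pow_val, hxv, Matrix.diagonal_pow, ← Matrix.diagonal_one, ← Matrix.diagonal_smul]
      congr 1
      funext a
      simp [hz]⟩ (by
      intro t ht
      rw [hxv] at ht
      have h1 := congrFun (congrFun ht i) i
      have h2 := congrFun (congrFun ht j) j
      simp at h1 h2
      exact hij (h1.trans h2.symm))
    exact cnt_sym Q hQ lam x g hxv hg
  by_cases hrp : r = p
  · -- unipotent elements
    subst hrp
    let i₀ : Fin n := ⟨0, by omega⟩
    let i₁ : Fin n := ⟨1, by omega⟩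
    have hi : i₀ ≠ i₁ := by simp [i₀, i₁, Fin.ext_iff]
    let N : Mt := Matrix.single i₀ i₁ (1 : F)
    have hN : N * N = 0 := Matrix.single_mul_single_of_ne _ _ _ _ hi.symm _
    have hdet : (1 + N).det = 1 := Matrix.det_transvection_of_ne _ _ hi 1
    let x : GL (Fin n) F := Matrix.GeneralLinearGroup.mkOfDetNeZero (1 + N) (by rw [hdet]; exact one_ne_zero)
    have hxv : (x : Mt) = 1 + N := rfl
    have hxr : x ^ r = 1 := by
      apply Units.ext
      rw [Units.val_pow_eq_pow_val, hxv, Cfsg.Agent.S5979.pow_one_add N hN, CharP.cast_eq_zero, zero_smul, add_zero]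
      rfl
    have hmem : x ∈ specialLinear (Fin n) F := by
      show Matrix.GeneralLinearGroup.det _ = 1
      apply Units.ext
      show (1 + N).det = 1
      exact hdet
    have hns : ∀ z : F, (x : Mt) ≠ z • (1 : Mt) := by
      intro z hz
      have h1 := congrFun (congrFun hz i₀) i₁
      simp [hxv, N, Matrix.one_apply, Matrix.single_apply, hi] at h1
    obtain ⟨g, -, hg⟩ := hfix x hmem ⟨1, by rw [hxr, one_smul]; rfl⟩ hns
    obtain ⟨μ, hμ⟩ := hg
    have hq1 : ¬ r ∣ q - 1 := by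
      intro h
      have h1 : r ∣ q := by
        obtain ⟨e, -, he⟩ := FiniteField.card F r
        rw [← hq, he]
        exact dvd_pow_self _ (by exact_mod_cast e.pos.ne')
      have h3 : r ∣ 1 := by
        have := Nat.dvd_sub h1 h
        rwa [show q - (q - 1) = 1 by omega] at this
      exact hr.one_lt.ne' (Nat.dvd_one.mp h3)
    obtain ⟨-, t, ht⟩ := even_rank_of_sim hq hodd hn0 Q hQ hr hr2 hq1 _ μ hμ (by
      have h3 : g⁻¹ * x * g = g⁻¹ * x * (g⁻¹)⁻¹ := by rw [inv_inv]
      rw [h3, conj_pow, hxr]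
      group)
    have h5 := rank_conj g x 1
    simp only [one_smul] at h5
    rw [ht] at h5
    have h6 : ((x : Mt) - 1).rank ≤ 1 := by
      rw [hxv, add_sub_cancel_left]
      have : N = Matrix.vecMulVec (Pi.single i₀ 1) (Pi.single i₁ 1) := by
        ext k l
        by_cases h1 : k = i₀ <;> by_cases h2 : l = i₁ <;>
          simp [N, Matrix.vecMulVec_apply, Matrix.single_apply, Pi.single_apply, h1, h2, eq_comm]
      rw [this]
      exact Matrix.rank_vecMulVec_le _ _
    have h7 : ((x : Mt) - 1).rank = 0 := by omega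
    have h8 : (x : Mt) - 1 = 0 := eq_zero_of_rank _ h7
    apply hns 1
    rw [one_smul]
    exact sub_eq_zero.mp h8
  have hrF : (r : F) ≠ 0 := by
    intro h0
    have := (CharP.cast_eq_zero_iff F p r).mp h0
    exact hrp ((Nat.prime_dvd_prime_iff_eq hp hr).mp this).symm
  have hrq : ¬ r ∣ q := by
    intro h
    obtain ⟨e, _, he⟩ := FiniteField.card F p
    rw [← hq, he] at h
    exact hrp ((Nat.prime_dvd_prime_iff_eq hr hp).mp (hr.dvd_of_dvd_pow h))
  by_cases hq1 : r ∣ q - 1
  · obtain ⟨ζ, hζ⟩ := exists_order (F := F) r (by rw [hq]; exact hq1)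
    have hζr : ζ ^ r = 1 := by rw [← hζ]; exact pow_orderOf_eq_one ζ
    have hζ0 : ζ ≠ 0 := by
      rintro rfl
      rw [zero_pow hr.ne_zero] at hζr
      exact zero_ne_one hζr
    have hsm : ∀ k, 0 < k → k < r → ζ ^ k ≠ 1 := fun k h1 h2 =>
      pow_ne_one_of_lt_orderOf h1.ne' (by rw [hζ]; exact h2)
    have hr3' : 3 ≤ r := by
      have := hr.two_le
      omega
    have hz1 : ζ ≠ 1 := by
      have := hsm 1 one_pos (by omega)
      simpa using this
    have hz2 : ζ ^ 2 ≠ 1 := hsm 2 two_pos (by omega)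
    have hdvd2 : ∀ m : ℕ, ¬ (r ^ 2 ∣ q - 1) → padicValNat r (q - 1) = 1 := by
      intro _ h
      haveI : Fact r.Prime := ⟨hr⟩
      have h0 : q - 1 ≠ 0 := by omega
      have h1 := (padicValNat_dvd_iff_le (p := r) h0 (n := 1)).mp (by simpa using hq1)
      by_contra hne
      apply h
      exact (padicValNat_dvd_iff_le (p := r) h0 (n := 2)).mpr (by omega)
    by_cases hr3 : r = 3
    · subst hr3
      by_cases hn3 : n = 3
      · subst hn3
        have hcube : (3 : ℕ) ^ 2 ∣ q - 1 := by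
          by_contra h
          exact hnot ⟨Or.inl rfl, rfl, hdvd2 0 h⟩
        obtain ⟨w, hw⟩ := exists_order (F := F) (3 ^ 2) (by rw [hq]; exact hcube)
        have hw9 : w ^ 9 = 1 := by
          have := pow_orderOf_eq_one w
          rw [hw] at this
          simpa using this
        have hw0 : w ≠ 0 := by
          rintro rfl
          simp at hw9
        set ω := w ^ 3 with hω
        have hω3 : ω ^ 3 = 1 := by
          rw [hω, ← pow_mul]
          exact hw9
        have hω1 : ω ≠ 1 := by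
          intro h
          have := orderOf_dvd_of_pow_eq_one (show w ^ 3 = 1 from h)
          rw [hw] at this
          norm_num at this
        have hω2 : ω ^ 2 ≠ 1 := by
          intro h
          have := orderOf_dvd_of_pow_eq_one (show w ^ 6 = 1 by
            rw [show 6 = 3 * 2 by norm_num, pow_mul]
            exact h)
          rw [hw] at this
          norm_num at this
        have hω0 : ω ≠ 0 := pow_ne_zero _ hw0
        have ha0 : w * ω ≠ 0 := mul_ne_zero hw0 hω0
        have hac : w * ω ≠ w := by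
          intro h
          apply hω1
          exact mul_left_cancel₀ hw0 (by rw [h, mul_one])
        obtain ⟨μ, hμ, hsym⟩ := engine (lam3 3 2 0 (w * ω) (w * ω) w) (lam3_ne _ _ ha0 ha0 hw0) (by
            rw [det_lam3 (by norm_num)]
            have : w ^ 3 = ω := rfl
            simp only [pow_zero, mul_one, show 3 - 2 - 0 = 1 by norm_num, pow_one]
            calc (w * ω) ^ 2 * w = w ^ 3 * ω ^ 2 := by ring
              _ = ω ^ 3 := by rw [this]; ring
              _ = 1 := hω3)
          ⟨ω, lam3_pow _ _ (by rw [mul_pow, hω3, mul_one]) (by rw [mul_pow, hω3, mul_one]) rfl⟩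
          ⟨⟨0, by norm_num⟩, ⟨2, by norm_num⟩, by
            rw [lam3_a _ (by simp), lam3_c _ (by simp)]
            exact hac⟩
        have h3 := pat2 (k := 1) (by norm_num) (by norm_num) (by norm_num) (by norm_num) ha0 hw0 hac μ hsym
        apply hω2
        have h4 : w ^ 2 * ω ^ 2 = w ^ 2 * 1 := by
          have e9 : w ^ 2 * ω ^ 2 = (w * ω) ^ 2 := by ring
          rw [e9, h3, mul_one]
        exact mul_left_cancel₀ (pow_ne_zero _ hw0) h4
      · have hn4 : 4 ≤ n := by omega
        have hn6 : n ≠ 6 := fun h => hgap ⟨h, rfl⟩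
        obtain ⟨μ, hμ, hsym⟩ := engine (lam3 n 3 0 ζ ζ 1) (lam3_ne _ _ hζ0 hζ0 one_ne_zero) (by
            rw [det_lam3 (by omega)]
            simp [hζr])
          ⟨1, lam3_pow _ _ hζr hζr (one_pow _)⟩
          ⟨⟨0, by omega⟩, ⟨3, by omega⟩, by
            rw [lam3_a _ (by simp), lam3_c _ (by simp)]
            exact hz1⟩
        have h3 := pat2 (k := n - 3) (by omega) (by norm_num) (by omega) (by omega) hζ0 one_ne_zero hz1 μ hsym
        rw [one_pow] at h3
        exact hz2 h3
    · have hr5 : 5 ≤ r := by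
        by_contra hlt
        have : r = 4 := by omega
        rw [this] at hr
        norm_num at hr
      by_cases h55 : n = 5 ∧ r = 5
      · obtain ⟨rfl, rfl⟩ := h55
        have hcube : (5 : ℕ) ^ 2 ∣ q - 1 := by
          by_contra h
          exact hnot ⟨Or.inr rfl, rfl, hdvd2 0 h⟩
        obtain ⟨w, hw⟩ := exists_order (F := F) (5 ^ 2) (by rw [hq]; exact hcube)
        have hw25 : w ^ 25 = 1 := by
          have := pow_orderOf_eq_one w
          rw [hw] at this
          simpa using this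
        have hw0 : w ≠ 0 := by
          rintro rfl
          simp at hw25
        set ω := w ^ 5 with hω
        have hω5 : ω ^ 5 = 1 := by
          rw [hω, ← pow_mul]
          exact hw25
        have hω1 : ω ≠ 1 := by
          intro h
          have := orderOf_dvd_of_pow_eq_one (show w ^ 5 = 1 from h)
          rw [hw] at this
          norm_num at this
        have hω8 : ω ^ 8 ≠ 1 := by
          intro h
          have := orderOf_dvd_of_pow_eq_one (show w ^ 40 = 1 by
            rw [show 40 = 5 * 8 by norm_num, pow_mul]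
            exact h)
          rw [hw] at this
          norm_num at this
        have hω0 : ω ≠ 0 := pow_ne_zero _ hw0
        have hc0 : w * ω ^ 4 ≠ 0 := mul_ne_zero hw0 (pow_ne_zero _ hω0)
        have hac : w ≠ w * ω ^ 4 := by
          intro h
          apply hω8
          have h4 : ω ^ 4 = 1 := mul_left_cancel₀ hw0 (by rw [← h, mul_one])
          rw [show 8 = 4 * 2 by norm_num, pow_mul, h4, one_pow]
        obtain ⟨μ, hμ, hsym⟩ := engine (lam3 5 4 0 w w (w * ω ^ 4)) (lam3_ne _ _ hw0 hw0 hc0) (by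
            rw [det_lam3 (by norm_num)]
            have : w ^ 5 = ω := rfl
            simp only [pow_zero, mul_one, show 5 - 4 - 0 = 1 by norm_num, pow_one]
            calc w ^ 4 * (w * ω ^ 4) = w ^ 5 * ω ^ 4 := by ring
              _ = ω ^ 5 := by rw [this]; ring
              _ = 1 := hω5)
          ⟨ω, lam3_pow _ _ rfl rfl (by
            rw [mul_pow, ← pow_mul, show 4 * 5 = 5 * 4 by norm_num, pow_mul, hω5, one_pow, mul_one])⟩
          ⟨⟨0, by norm_num⟩, ⟨4, by norm_num⟩, by
            rw [lam3_a _ (by simp), lam3_c _ (by simp)]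
            exact hac⟩
        have h3 := pat2 (k := 1) (by norm_num) (by norm_num) (by norm_num) (by norm_num) hw0 hc0 hac μ hsym
        apply hω8
        have h4 : w ^ 2 * ω ^ 8 = w ^ 2 * 1 := by
          have e9 : w ^ 2 * ω ^ 8 = (w * ω ^ 4) ^ 2 := by ring
          rw [e9, ← h3, mul_one]
        exact mul_left_cancel₀ (pow_ne_zero _ hw0) h4
      · have hz3 : ζ ^ 3 ≠ 1 := hsm 3 (by norm_num) (by omega)
        have hz4 : ζ ^ 4 ≠ 1 := hsm 4 (by norm_num) (by omega)
        have hz6 : ζ ^ 6 ≠ 1 := by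
          intro h
          have h1 := orderOf_dvd_of_pow_eq_one h
          rw [hζ] at h1
          have h3 : r ∣ 2 * 3 := h1
          rcases (Nat.Prime.dvd_mul hr).mp h3 with h4 | h4
          · have := Nat.le_of_dvd (by norm_num) h4
            omega
          · have := Nat.le_of_dvd (by norm_num) h4
            omega
        have hz5 : n = 5 → ζ ^ 5 ≠ 1 := by
          intro hn5 h
          have h1 := orderOf_dvd_of_pow_eq_one h
          rw [hζ] at h1
          exact h55 ⟨hn5, (Nat.prime_dvd_prime_iff_eq hr (by norm_num)).mp h1⟩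
        have hbz : ((ζ⁻¹) ^ 2) * ζ ^ 2 = 1 := by
          field_simp
        have hb0 : (ζ⁻¹) ^ 2 ≠ 0 := pow_ne_zero _ (inv_ne_zero hζ0)
        obtain ⟨μ, hμ, hsym⟩ := engine (lam3 n 2 1 ζ ((ζ⁻¹) ^ 2) 1) (lam3_ne _ _ hζ0 hb0 one_ne_zero) (by
            rw [det_lam3 (by omega)]
            simp only [pow_one, one_pow, mul_one]
            rw [mul_comm]
            exact hbz)
          ⟨1, lam3_pow _ _ hζr (by rw [← pow_mul, mul_comm, pow_mul, inv_pow, hζr, inv_one, one_pow]) (one_pow _)⟩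
          ⟨⟨0, by omega⟩, ⟨2, by omega⟩, by
            rw [lam3_a _ (by simp), lam3_b _ (by simp) (by simp)]
            intro h
            apply hz3
            have : ζ ^ 3 = ((ζ⁻¹) ^ 2) * ζ ^ 2 := by
              rw [← h]
              ring
            rw [this, hbz]⟩
        exact pat1 hn ζ hζ0 hz1 hz2 hz3 hz4 hz6 hz5 μ hsym
  · -- `r ∤ q - 1`
    have hnoth : ∀ x : GL (Fin n) F, x ∈ specialLinear (Fin n) F → x ^ r = 1 → x ≠ 1 → ∃ g : GL (Fin n) F, ∃ μ : F,
        (∀ v, Q (((g⁻¹ * x * g : GL (Fin n) F) : Mt) *ᵥ v) = μ * Q v) ∧ (g⁻¹ * x * g) ^ r = 1 := by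
      intro x hx hxr hx1
      obtain ⟨g, -, μ, hμ⟩ := hfix x hx ⟨1, by rw [hxr, one_smul]; rfl⟩ (by
        intro z hz
        apply hx1
        have h5 : z ^ r • (1 : Mt) = 1 := by
          have := congrArg Units.val hxr
          rw [Units.val_pow_eq_pow_val, hz, _root_.smul_pow, one_pow] at this
          exact this
        have h6 : z ^ r = 1 := by
          have := congrFun (congrFun h5 ⟨0, hn0⟩) ⟨0, hn0⟩
          simpa using this
        have h7 := Cfsg.Agent.S5979.eq_one_of_pow hq hr hq1 h6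
        apply Units.ext
        rw [hz, h7, one_smul]
        rfl)
      refine ⟨g, μ, hμ, ?_⟩
      have h3 : g⁻¹ * x * g = g⁻¹ * x * (g⁻¹)⁻¹ := by rw [inv_inv]
      rw [h3, conj_pow, hxr]
      group
    have hmem : ∀ x : GL (Fin n) F, (x : Mt).det = 1 → x ∈ specialLinear (Fin n) F := by
      intro x hx
      show Matrix.GeneralLinearGroup.det _ = 1
      apply Units.ext
      exact hx
    have hodd' := hodd
    rw [← hq] at hodd'
    rcases index_cases hodd' Q hQ hn hr (by rwa [hq]) hΩ with ⟨k, hk, hd⟩ | ⟨m, Qq, hm, hQq, hcases⟩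
    · obtain ⟨x, hxr, hxd, hxrk⟩ := exists_block_elt (F := F) (n := n) (r := r) p (j := 2 * k + 3) (by omega) hk hd (by rwa [hq])
      have hx1 : x ≠ 1 := by
        rintro rfl
        simp at hxrk <;> omega
      obtain ⟨g, μ, hμ, hy⟩ := hnoth x (hmem x hxd) hxr hx1
      obtain ⟨-, t, ht⟩ := even_rank_of_sim hq hodd hn0 Q hQ hr hr2 hq1 _ μ hμ hy
      have h5 := rank_conj g x 1
      simp only [one_smul] at h5
      rw [ht, hxrk] at h5
      omega
    · have hfac : r ∣ Fintype.card F ^ n - 1 := by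
        have h1 : (r : ℤ) ∣ (Fintype.card F : ℤ) ^ n - 1 := by
          have h2 : (Fintype.card F : ℤ) ^ n - 1 = ((Fintype.card F : ℤ) ^ (m + 1) - 1) * ((Fintype.card F : ℤ) ^ (m + 1) + 1) := by
            rw [hm, pow_mul']
            ring
          rw [h2]
          rcases hcases with ⟨h3, -⟩ | ⟨h3, -⟩
          · exact Dvd.dvd.mul_left h3 _
          · exact Dvd.dvd.mul_right h3 _
        have h3 : 1 ≤ Fintype.card F ^ n := Nat.one_le_pow _ _ Fintype.card_pos
        have h4 : ((Fintype.card F ^ n - 1 : ℕ) : ℤ) = (Fintype.card F : ℤ) ^ n - 1 := by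
          push_cast [h3]
          rfl
        rw [← h4] at h1
        exact_mod_cast h1
      obtain ⟨x, hxr, hxd, hxrk⟩ := exists_block_elt (F := F) (n := n) (r := r) p (j := n) (by omega) le_rfl hfac (by rwa [hq])
      have hx1 : x ≠ 1 := by
        rintro rfl
        simp at hxrk <;> omega
      obtain ⟨g, μ, hμ, hy⟩ := hnoth x (hmem x hxd) hxr hx1
      obtain ⟨hμ1, -⟩ := even_rank_of_sim hq hodd hn0 Q hQ hr hr2 hq1 _ μ hμ hy
      have h5 := rank_conj g x 1
      simp only [one_smul] at h5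
      rw [hxrk] at h5
      have hcount := count_of_fpf Qq (r := r) (g⁻¹ * x * g) (by
        intro v
        have := congrFun hμ1 v
        rw [hQq]
        exact this.symm) hy (fpf_of_rank _ h5)
      have hz1 : (r : ℤ) ∣ (Nat.card {v // Qq v = 0} : ℤ) - 1 := by
        have := (Nat.modEq_iff_dvd.mp hcount.symm)
        simpa using this
      rcases hcases with ⟨h3, hz⟩ | ⟨h3, hz⟩
      · rw [hz] at hz1
        exact plus_arith hr2 h3 hz1
      · rw [hz] at hz1
        have h6 := minus_arith hr2 h3 hz1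
        apply hq1
        have h7 : ((q - 1 : ℕ) : ℤ) = (Fintype.card F : ℤ) - 1 := by
          push_cast [show 1 ≤ q by omega]
          rw [hq]
        rw [← h7] at h6
        exact_mod_cast h6


end forward


section eigbasis

open Polynomial Cfsg.Agent.Lib.EigenThree

universe u

/-- A linear map annihilated by a product of distinct linear factors has a basis of eigenvectors. -/
theorem exists_eig_basis_of_split {F : Type*} [Field F] (S : Finset F) :
    ∀ (V : Type u) [AddCommGroup V] [Module F V] [FiniteDimensional F V] (T : Module.End F V),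
      aeval T (∏ a ∈ S, (X - C a) : F[X]) = 0 →
      ∃ (m : ℕ) (lam : Fin m → F) (e : Basis (Fin m) F V), (∀ i, T (e i) = lam i • e i) ∧ ∀ i, lam i ∈ S := by
  classical
  induction S using Finset.induction_on with
  | empty =>
    intro V _ _ _ T h0
    rw [Finset.prod_empty, map_one] at h0
    haveI : Subsingleton V := by
      constructor
      intro a b
      have ha := LinearMap.congr_fun h0 a
      have hb := LinearMap.congr_fun h0 b
      simp only [Module.End.one_apply, LinearMap.zero_apply] at ha hb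
      rw [ha, hb]
    refine ⟨0, fun i => i.elim0, Basis.empty _, fun i => i.elim0, fun i => i.elim0⟩
  | insert a S' ha ih =>
    intro V _ _ _ T h0
    rw [Finset.prod_insert ha] at h0
    set g : F[X] := ∏ a ∈ S', (X - C a) with hg
    set W := LinearMap.ker (aeval T g) with hWdef
    have hcomm : ∀ v, aeval T g (T v) = T (aeval T g v) := by
      intro v
      have : aeval T g * aeval T (X : F[X]) = aeval T (X : F[X]) * aeval T g := by
        rw [← map_mul, ← map_mul, mul_comm]
      rw [aeval_X] at this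
      have := LinearMap.congr_fun this v
      simpa using this
    have hTW : ∀ v ∈ W, T v ∈ W := by
      intro v hv
      rw [hWdef, LinearMap.mem_ker] at hv ⊢
      rw [hcomm, hv, map_zero]
    let R : Module.End F W := T.restrict hTW
    have hR0 : aeval R g = 0 := by
      apply LinearMap.ext
      intro v
      apply Subtype.ext
      rw [aeval_restrict_apply]
      exact LinearMap.mem_ker.mp v.2
    obtain ⟨m, lam, eW, heW, hlam⟩ := ih W R hR0
    have hcop : IsCoprime (X - C a : F[X]) g := by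
      rw [hg]
      apply IsCoprime.prod_right
      intro b hb
      exact coprime_of_ne (by
        rintro rfl
        exact ha hb)
    obtain ⟨r, e, he⟩ := step T a g (fun _ _ => Or.inr trivial) hcop h0 (lam := lam) (by
      intro W' hW' h
      subst hW'
      exact ⟨eW, heW⟩)
    let τ : Fin r ⊕ Fin m ≃ Fin (r + m) := finSumFinEquiv
    refine ⟨r + m, Sum.elim (fun _ : Fin r => a) lam ∘ τ.symm, e.reindex τ, ?_, ?_⟩
    · intro i
      simpa using he (τ.symm i)
    · intro i
      simp only [Function.comp]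
      rcases τ.symm i with j | j
      · simp
      · simp [hlam j]

end eigbasis

section pairing

variable {ι Z : Type*} [DecidableEq ι] [DecidableEq Z]

/-- Matching up indices with an involution on the values. -/
theorem exists_pairing (e : ι → Z) (τ : Z → Z) (hτ : ∀ j, τ (τ j) = j) :
    ∀ S : Finset ι, (∀ j, (S.filter (fun i => e i = j)).card = (S.filter (fun i => e i = τ j)).card) →
      ∃ π : ι → ι, ∀ i ∈ S, π i ∈ S ∧ π (π i) = i ∧ e (π i) = τ (e i) := by
  intro S
  induction S using Finset.strongInduction with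
  | H S ih =>
    intro hc
    by_cases hS : S = ∅
    · subst hS
      exact ⟨id, by simp⟩
    obtain ⟨i, hi⟩ := Finset.nonempty_iff_ne_empty.mpr hS
    have herase : ∀ (T : Finset ι) (k : ι) (j : Z), k ∈ T → ((T.erase k).filter (fun i => e i = j)).card + (if e k = j then 1 else 0) = (T.filter (fun i => e i = j)).card := by
      intro T k j hk
      rw [Finset.filter_erase]
      split_ifs with h
      · rw [Finset.card_erase_of_mem (by simp [hk, h])]
        have : 0 < (T.filter (fun i => e i = j)).card := Finset.card_pos.mpr ⟨k, by simp [hk, h]⟩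
        omega
      · rw [Finset.erase_eq_of_notMem (by simp [h])]
        rfl
    by_cases hfix : e i = τ (e i)
    · obtain ⟨π', hπ'⟩ := ih (S.erase i) (Finset.erase_ssubset hi) (by
        intro j
        have h1 := herase S i j hi
        have h2 := herase S i (τ j) hi
        have h3 := hc j
        have h4 : (e i = j) ↔ (e i = τ j) := by
          constructor
          · rintro rfl
            exact hfix
          · intro h
            have := congrArg τ h
            rw [hτ, ← hfix] at this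
            exact this
        by_cases h5 : e i = j
        · rw [if_pos h5] at h1
          rw [if_pos (h4.mp h5)] at h2
          omega
        · rw [if_neg h5] at h1
          rw [if_neg (fun h => h5 (h4.mpr h))] at h2
          omega)
      refine ⟨fun k => if k = i then i else π' k, fun k hk => ?_⟩
      by_cases hki : k = i
      · subst hki
        simp [hk, hfix.symm]
      · have hk' : k ∈ S.erase k ∪ S.erase i := by simp [hk, hki]
        have hmem : k ∈ S.erase i := Finset.mem_erase.mpr ⟨hki, hk⟩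
        obtain ⟨h1, h2, h3⟩ := hπ' k hmem
        have h1' := Finset.mem_erase.mp h1
        simp only [if_neg hki, if_neg h1'.1]
        exact ⟨h1'.2, h2, h3⟩
    · -- the partner
      have hpos : 0 < (S.filter (fun k => e k = τ (e i))).card := by
        rw [← hc (e i)]
        exact Finset.card_pos.mpr ⟨i, by simp [hi]⟩
      obtain ⟨i', hi'⟩ := Finset.card_pos.mp hpos
      have hi'S : i' ∈ S := (Finset.mem_filter.mp hi').1
      have hei' : e i' = τ (e i) := (Finset.mem_filter.mp hi').2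
      have hne : i' ≠ i := by
        rintro rfl
        exact hfix hei'
      have hmem2 : i' ∈ S.erase i := Finset.mem_erase.mpr ⟨hne, hi'S⟩
      obtain ⟨π', hπ'⟩ := ih ((S.erase i).erase i') ((Finset.erase_ssubset hmem2).trans (Finset.erase_ssubset hi)) (by
        intro j
        have h1 := herase S i j hi
        have h2 := herase S i (τ j) hi
        have h1' := herase (S.erase i) i' j hmem2
        have h2' := herase (S.erase i) i' (τ j) hmem2
        have h3 := hc j
        have h4 : (e i = j) ↔ (e i' = τ j) := by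
          rw [hei']
          constructor
          · rintro rfl
            rfl
          · intro h
            have := congrArg τ h
            rw [hτ, hτ] at this
            exact this
        have h5 : (e i' = j) ↔ (e i = τ j) := by
          rw [hei']
          constructor
          · rintro rfl
            rw [hτ]
          · intro h
            rw [h, hτ]
        by_cases h6 : e i = j
        · rw [if_pos h6] at h1
          rw [if_pos (h4.mp h6)] at h2'
          by_cases h7 : e i' = j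
          · rw [if_pos h7] at h1'
            rw [if_pos (h5.mp h7)] at h2
            omega
          · rw [if_neg h7] at h1'
            rw [if_neg (fun h => h7 (h5.mpr h))] at h2
            omega
        · rw [if_neg h6] at h1
          rw [if_neg (fun h => h6 (h4.mpr h))] at h2'
          by_cases h7 : e i' = j
          · rw [if_pos h7] at h1'
            rw [if_pos (h5.mp h7)] at h2
            omega
          · rw [if_neg h7] at h1'
            rw [if_neg (fun h => h7 (h5.mpr h))] at h2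
            omega)
      refine ⟨fun k => if k = i then i' else if k = i' then i else π' k, fun k hk => ?_⟩
      by_cases hki : k = i
      · subst hki
        simp [hne, hi'S, hei']
      by_cases hki' : k = i'
      · subst hki'
        simp [hki, hi, hei', hτ]
      · have hmem : k ∈ (S.erase i).erase i' := by
          simp [hk, hki, hki']
        obtain ⟨h1, h2, h3⟩ := hπ' k hmem
        have h1' := Finset.mem_erase.mp h1
        have h1'' := Finset.mem_erase.mp h1'.2
        simp only [if_neg hki, if_neg hki', if_neg h1'.1, if_neg h1''.1]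
        exact ⟨h1''.2, h2, h3⟩

end pairing


section model

open Polynomial

variable [Fintype F]

/-- The model form attached to an involution. -/
noncomputable def pairQ (d : Fin n → F) (π : Fin n → Fin n) : QuadraticForm F (Fin n → F) :=
  ∑ i, (d i / 2) • QuadraticMap.linMulLin (LinearMap.proj i) (LinearMap.proj (π i))

theorem pairQ_apply (d : Fin n → F) (π : Fin n → Fin n) (u : Fin n → F) :
    pairQ d π u = ∑ i, d i / 2 * (u i * u (π i)) := by
  simp [pairQ, QuadraticMap.sum_apply]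

theorem pairQ_polar (h2 : (2 : F) ≠ 0) (d : Fin n → F) (π : Fin n → Fin n) (hπ : ∀ i, π (π i) = i) (hd : ∀ i, d (π i) = d i)
    (u v : Fin n → F) : polar (pairQ d π) u v = ∑ i, d i * (u i * v (π i)) := by
  classical
  let πe : Equiv.Perm (Fin n) := Function.Involutive.toPerm π hπ
  have h1 : ∑ i, d i / 2 * (v i * u (π i)) = ∑ i, d i / 2 * (u i * v (π i)) := by
    rw [← Equiv.sum_comp πe]
    refine Finset.sum_congr rfl fun i _ => ?_
    show d (π i) / 2 * (v (π i) * u (π (π i))) = _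
    rw [hπ, hd]
    ring
  simp only [polar, pairQ_apply, Pi.add_apply]
  have h3 : ∀ i, d i * (u i * v (π i)) = d i / 2 * (u i * v (π i)) + d i / 2 * (u i * v (π i)) := by
    intro i
    field_simp
    ring
  simp only [h3, Finset.sum_add_distrib]
  nth_rewrite 2 [← h1]
  rw [← Finset.sum_add_distrib, ← Finset.sum_sub_distrib, ← Finset.sum_sub_distrib]
  refine Finset.sum_congr rfl fun i _ => ?_
  ring

theorem pairQ_ND (h2 : (2 : F) ≠ 0) (d : Fin n → F) (π : Fin n → Fin n) (hπ : ∀ i, π (π i) = i) (hd : ∀ i, d (π i) = d i) (hd0 : ∀ i, d i ≠ 0) :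
    Cfsg.Agent.Lib.QuadFF.ND (pairQ d π) := by
  classical
  intro x hx
  ext a
  have h1 := hx (Pi.single (π a) 1)
  rw [pairQ_polar h2 d π hπ hd] at h1
  rw [Finset.sum_eq_single a] at h1
  · simpa [hd0 a] using h1
  · intro b _ hb
    have : π b ≠ π a := by
      intro h
      apply hb
      have := congrArg π h
      rwa [hπ, hπ] at this
    simp [Pi.single_apply, this]
  · simp

theorem isSymm_toQF_ND (Q : (Fin n → F) → F) (hQ : IsNondegenerateQuadraticForm Q) :
    Cfsg.Agent.Lib.QuadFF.ND (Cfsg.Agent.Lib.OmCalc.toQF Q hQ) :=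
  Cfsg.Agent.Lib.OmCalc.nd_of (Cfsg.Agent.Lib.OmCalc.nondeg_of hQ)

/-- Quadratic forms admitting a diagonal similarity with the prescribed pairing. -/
theorem sim_of_pairing (h2 : (2 : F) ≠ 0) (Q : (Fin n → F) → F) (hQ : IsNondegenerateQuadraticForm Q) (lam : Fin n → F)
    (π : Fin n → Fin n) (hπ : ∀ i, π (π i) = i) (μ : F) (hlam : ∀ i, lam i * lam (π i) = μ) (i₀ : Fin n) (hi₀ : π i₀ = i₀) :
    ∃ g : (Fin n → F) ≃ₗ[F] (Fin n → F), ∀ v, Q (g (diagonal lam *ᵥ v)) = μ * Q (g v) := by
  classical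
  set Qq := Cfsg.Agent.Lib.OmCalc.toQF Q hQ with hQq
  have hND := isSymm_toQF_ND Q hQ
  let G : Mt := Matrix.of (fun i j : Fin n => polar ⇑Qq (Pi.single i 1) (Pi.single j 1))
  let G₀ : Mt := Matrix.of (fun a b => if π a = b then 1 else 0)
  have hG₀ : G₀ * G₀ = 1 := by
    ext a b
    rw [Matrix.mul_apply, Finset.sum_eq_single (π a)]
    · simp [G₀, hπ, Matrix.one_apply]
    · intro c _ hc
      simp [G₀, hc.symm]
    · simp
  have hs : G₀.det * G₀.det = 1 := by
    rw [← Matrix.det_mul, hG₀, Matrix.det_one]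
  have hs0 : G₀.det ≠ 0 := left_ne_zero_of_mul_eq_one hs
  have hδ : G.det ≠ 0 := gram_det_ne (polar Q) hQ.polar_bilinear hQ.nondegenerate
  set ε := G.det * G₀.det with hε
  have hε0 : ε ≠ 0 := mul_ne_zero hδ hs0
  let d : Fin n → F := fun i => if i = i₀ then ε else 1
  have hd0 : ∀ i, d i ≠ 0 := by
    intro i
    simp only [d]
    split_ifs
    · exact hε0
    · exact one_ne_zero
  have hd : ∀ i, d (π i) = d i := by
    intro i
    have h3 : π i = i₀ ↔ i = i₀ := by
      constructor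
      · intro h
        have := congrArg π h
        rwa [hπ, hi₀] at this
      · rintro rfl
        exact hi₀
    simp only [d, h3]
  have hG₁ : (Matrix.of (fun i j : Fin n => polar ⇑(pairQ d π) (Pi.single i 1) (Pi.single j 1)) : Mt) = diagonal d * G₀ := by
    ext a b
    rw [Matrix.of_apply, pairQ_polar h2 d π hπ hd, Finset.sum_eq_single a]
    · simp [G₀, Matrix.diagonal_mul, Pi.single_apply, eq_comm]
    · intro c _ hc
      simp [Pi.single_apply, hc]
    · simp
  have hprod : ∏ i, d i = ε := by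
    simp only [d]
    rw [Finset.prod_ite_eq']
    simp
  have hdisc : IsSquare ((Matrix.of (fun i j : Fin n => polar ⇑(pairQ d π) (Pi.single i 1) (Pi.single j 1)) : Mt).det * G.det) := by
    rw [hG₁, Matrix.det_mul, Matrix.det_diagonal, hprod]
    exact ⟨ε, by rw [hε]; ring⟩
  obtain ⟨g, hg⟩ := (Cfsg.Agent.Lib.QuadFF2.isometry_iff_disc h2 (pairQ d π) Qq (pairQ_ND h2 d π hπ hd hd0) hND).mpr hdisc
  refine ⟨g, fun v => ?_⟩
  have e1 : ∀ w, Q (g w) = pairQ d π w := hg
  rw [e1, e1, pairQ_apply, pairQ_apply, Finset.mul_sum]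
  refine Finset.sum_congr rfl fun i _ => ?_
  rw [Matrix.mulVec_diagonal, Matrix.mulVec_diagonal, ← hlam i]
  ring

/-- Eigenbases for matrices killed by a split polynomial. -/
theorem eig_basis_fin (x : Mt) (S : Finset F) (h0 : aeval x (∏ a ∈ S, (X - C a) : F[X]) = 0) :
    ∃ (lam : Fin n → F) (e : Basis (Fin n) F (Fin n → F)), (∀ i, x *ᵥ e i = lam i • e i) ∧ ∀ i, lam i ∈ S := by
  classical
  let T : Module.End F (Fin n → F) := Matrix.toLinAlgEquiv' x
  have hT : ∀ v, T v = x *ᵥ v := fun v => Matrix.toLinAlgEquiv'_apply x v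
  have h1 : aeval T (∏ a ∈ S, (X - C a) : F[X]) = 0 := by
    rw [Polynomial.aeval_algEquiv]
    show Matrix.toLinAlgEquiv' (aeval x _) = 0
    rw [h0, map_zero]
  obtain ⟨m, lam, e, he, hlam⟩ := exists_eig_basis_of_split S _ T h1
  have hm : m = n := by
    have := Module.finrank_eq_card_basis e
    simp at this
    omega
  subst hm
  exact ⟨lam, e, fun i => by rw [← hT]; exact he i, hlam⟩

/-- The final conjugation for diagonalizable elements. -/
theorem conj_of_pairing (h2 : (2 : F) ≠ 0) (Q : (Fin n → F) → F) (hQ : IsNondegenerateQuadraticForm Q) (x : GL (Fin n) F)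
    (e : Basis (Fin n) F (Fin n → F)) (lam : Fin n → F) (hlam0 : ∀ i, lam i ≠ 0) (he : ∀ i, (x : Mt) *ᵥ e i = lam i • e i)
    (π : Fin n → Fin n) (hπ : ∀ i, π (π i) = i) (μ : F) (hμ : μ ≠ 0) (hlam : ∀ i, lam i * lam (π i) = μ) (i₀ : Fin n) (hi₀ : π i₀ = i₀) :
    ∃ g ∈ specialLinear (Fin n) F, g⁻¹ * x * g ∈ quadSimilarityGroup Q := by
  classical
  obtain ⟨g, hg⟩ := sim_of_pairing h2 Q hQ lam π hπ μ hlam i₀ hi₀
  let D : GL (Fin n) F := Matrix.GeneralLinearGroup.mkOfDetNeZero (diagonal lam) (by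
    rw [det_diagonal]
    exact Finset.prod_ne_zero_iff.mpr fun i _ => hlam0 i)
  have hD : (D : Mt) = diagonal lam := rfl
  let E : GL (Fin n) F := Cfsg.Agent.Lib.MatConj.glOfEquiv g
  have hE : ∀ v, (E : Mt) *ᵥ v = g v := Cfsg.Agent.Lib.MatConj.glOfEquiv_mulVec g
  let y : GL (Fin n) F := E * D * E⁻¹
  have hEi : ∀ v, (E : Mt) *ᵥ (((E⁻¹ : GL (Fin n) F) : Mt) *ᵥ v) = v := by
    intro v
    rw [Matrix.mulVec_mulVec, ← Units.val_mul, mul_inv_cancel]
    simp
  have hEi' : ∀ v, ((E⁻¹ : GL (Fin n) F) : Mt) *ᵥ ((E : Mt) *ᵥ v) = v := by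
    intro v
    rw [Matrix.mulVec_mulVec, ← Units.val_mul, inv_mul_cancel]
    simp
  have hyv : ∀ v, (y : Mt) *ᵥ v = g (diagonal lam *ᵥ (((E⁻¹ : GL (Fin n) F) : Mt) *ᵥ v)) := by
    intro v
    show (((E * D * E⁻¹ : GL (Fin n) F) : GL (Fin n) F) : Mt) *ᵥ v = _
    rw [Units.val_mul, Units.val_mul, ← Matrix.mulVec_mulVec, ← Matrix.mulVec_mulVec, hD, hE]
  have hy : y ∈ quadSimilarityGroup Q := by
    refine ⟨Units.mk0 μ hμ, fun v => ?_⟩
    rw [hyv, hg, ← hE, hEi]
    rfl
  let e' : Basis (Fin n) F (Fin n → F) := (Pi.basisFun F (Fin n)).map g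
  have he' : ∀ i, (y : Mt) *ᵥ e' i = lam i • e' i := by
    intro i
    have h3 : e' i = g (Pi.single i 1) := by simp [e']
    have h4 : ((E⁻¹ : GL (Fin n) F) : Mt) *ᵥ g (Pi.single i 1) = Pi.single i 1 := by
      rw [← hE, hEi']
    have h5 : diagonal lam *ᵥ (Pi.single i (1 : F) : Fin n → F) = lam i • Pi.single i 1 := by
      ext j
      by_cases hj : j = i
      · subst hj
        simp [Matrix.mulVec_diagonal]
      · simp [Matrix.mulVec_diagonal, Pi.single_apply, hj]
    rw [h3, hyv, h4, h5, map_smul]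
  obtain ⟨P, hPd, hP⟩ := Cfsg.Agent.S5971.exists_conj_diag x y e e' lam he he' i₀
  refine ⟨P, ?_, by rw [hP]; exact hy⟩
  show Matrix.GeneralLinearGroup.det _ = 1
  apply Units.ext
  exact hPd

end model


section backward

open Polynomial

variable [Fintype F]

/-- Universal binary forms. -/
theorem exists_binary {q : ℕ} (hq : Fintype.card F = q) (hodd : Odd q) (c z : F) (hc : c ≠ 0) : ∃ α β : F, α ^ 2 + c * β ^ 2 = z := by
  classical
  have h2 := Cfsg.Agent.Lib.InvolConj.two_ne_zero_of_odd hq hodd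
  have hchar : ringChar F ≠ 2 := Cfsg.Agent.Lib.InvolConj.ringChar_ne_two_of_odd hq hodd
  have hodd' : Fintype.card F % 2 = 1 := by
    rw [hq]
    exact Nat.odd_iff.mp hodd
  obtain ⟨a, b, h⟩ := FiniteField.exists_root_sum_quadratic (R := F) (f := X ^ 2 - C z) (g := C c * X ^ 2)
    (by
      rw [degree_X_pow_sub_C (by norm_num)]
      rfl)
    (by
      rw [degree_C_mul_X_pow 2 hc]
      rfl) hodd'
  refine ⟨a, b, ?_⟩
  simp only [eval_sub, eval_pow, eval_X, eval_C, eval_mul] at h
  linear_combination h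

/-- A similarity squaring to `z`, of multiplier `z`. -/
theorem exists_model_nonsq {q m : ℕ} (hq : Fintype.card F = q) (hodd : Odd q) (hm : n = 2 * m) (hm0 : 0 < m)
    (Q : (Fin n → F) → F) (hQ : IsNondegenerateQuadraticForm Q) (z : F) (hz : z ≠ 0) :
    ∃ y : GL (Fin n) F, y ∈ quadSimilarityGroup Q ∧ (y : Mt) * y = z • 1 := by
  classical
  have h2 := Cfsg.Agent.Lib.InvolConj.two_ne_zero_of_odd hq hodd
  set Qq := Cfsg.Agent.Lib.OmCalc.toQF Q hQ with hQq
  have hND := isSymm_toQF_ND Q hQ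
  let G : Mt := Matrix.of (fun i j : Fin n => polar ⇑Qq (Pi.single i 1) (Pi.single j 1))
  have hδ : G.det ≠ 0 := gram_det_ne (polar Q) hQ.polar_bilinear hQ.nondegenerate
  let j₀ : Fin m := ⟨0, hm0⟩
  let b : Fin 2 × Fin m → F := fun p => if p = (1, j₀) then G.det else 1
  have hb0 : ∀ p, b p ≠ 0 := by
    intro p
    simp only [b]
    split_ifs
    · exact hδ
    · exact one_ne_zero
  let τ : Fin n ≃ Fin 2 × Fin m := Fintype.equivOfCardEq (by simp [hm])
  let a : Fin n → F := fun i => b (τ i)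
  have ha0 : ∀ i, a i ≠ 0 := fun i => hb0 _
  let Q₃ : QuadraticForm F (Fin n → F) := QuadraticMap.weightedSumSquares F a
  have hQ₃ : ∀ u, Q₃ u = ∑ i, a i * (u i * u i) := fun u => by
    simp [Q₃, QuadraticMap.weightedSumSquares_apply]
  have hpol : ∀ u v, polar Q₃ u v = ∑ i, 2 * a i * (u i * v i) := by
    intro u v
    simp only [polar, hQ₃, Pi.add_apply]
    rw [← Finset.sum_sub_distrib, ← Finset.sum_sub_distrib]
    refine Finset.sum_congr rfl fun i _ => ?_
    ring
  have hND₃ : Cfsg.Agent.Lib.QuadFF.ND Q₃ := by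
    intro x hx
    ext i
    have h1 := hx (Pi.single i 1)
    rw [hpol, Finset.sum_eq_single i] at h1
    · simpa [h2, ha0 i] using h1
    · intro k _ hk
      simp [Pi.single_apply, hk]
    · simp
  have hG₃ : (Matrix.of (fun i j : Fin n => polar ⇑Q₃ (Pi.single i 1) (Pi.single j 1)) : Mt) = diagonal (fun i => 2 * a i) := by
    ext i k
    rw [Matrix.of_apply, hpol, Finset.sum_eq_single i]
    · by_cases hik : i = k
      · subst hik
        simp
      · simp [Pi.single_apply, hik, Ne.symm hik]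
    · intro c _ hc
      simp [Pi.single_apply, hc]
    · simp
  have hprod : ∏ i, a i = G.det := by
    rw [Equiv.prod_comp τ b]
    simp only [b]
    rw [Finset.prod_ite_eq']
    simp
  have hdisc : IsSquare ((Matrix.of (fun i j : Fin n => polar ⇑Q₃ (Pi.single i 1) (Pi.single j 1)) : Mt).det * G.det) := by
    have e9 : (2 : F) ^ n = (2 ^ m) ^ 2 := by
      rw [← pow_mul, hm]
      congr 1
      ring
    rw [hG₃, Matrix.det_diagonal, Finset.prod_mul_distrib, hprod, Finset.prod_const, Finset.card_univ, Fintype.card_fin, e9]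
    exact ⟨2 ^ m * G.det, by ring⟩
  obtain ⟨g, hg⟩ := (Cfsg.Agent.Lib.QuadFF2.isometry_iff_disc h2 Q₃ Qq hND₃ hND).mpr hdisc
  -- the local blocks
  have hαβ : ∀ j : Fin m, ∃ α β : F, α ^ 2 + b (1, j) * β ^ 2 = z := fun j => exists_binary hq hodd _ _ (hb0 _)
  choose α β hab using hαβ
  let A : Fin m → Matrix (Fin 2) (Fin 2) F := fun j => !![α j, b (1, j) * β j; β j, - α j]
  have hAA : ∀ j, A j * A j = z • 1 := by
    intro j
    have := hab j
    ext i k
    fin_cases i <;> fin_cases k <;> simp [A, Matrix.mul_apply, Fin.sum_univ_two] <;> first | ring1 | linear_combination this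
  let Y : Matrix (Fin 2 × Fin m) (Fin 2 × Fin m) F := Matrix.blockDiagonal A
  have hYY : Y * Y = z • 1 := by
    simp only [Y]
    rw [← Matrix.blockDiagonal_mul]
    simp only [hAA]
    ext p p'
    rcases p with ⟨c, j⟩
    rcases p' with ⟨c', j'⟩
    by_cases hj : j = j'
    · subst hj
      simp [Matrix.blockDiagonal_apply, Matrix.one_apply]
    · simp [Matrix.blockDiagonal_apply, Matrix.one_apply, hj]
  have hYv : ∀ (w : Fin 2 × Fin m → F) (c : Fin 2) (j : Fin m), (Y *ᵥ w) (c, j) = ∑ c', A j c c' * w (c', j) := by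
    intro w c j
    simp only [Y, Matrix.mulVec, dotProduct, Fintype.sum_prod_type, Matrix.blockDiagonal_apply]
    rw [Finset.sum_congr rfl (fun c' _ => Finset.sum_eq_single j (fun j' _ hj' => by simp [Ne.symm hj']) (by simp))]
    simp
  let y₃ : Mt := Y.submatrix τ τ
  have hy₃v : ∀ v, y₃ *ᵥ v = (Y *ᵥ (v ∘ τ.symm)) ∘ τ := fun v => Matrix.submatrix_mulVec_equiv _ _ _ _
  have hy₃y₃ : y₃ * y₃ = z • 1 := by
    simp only [y₃]
    rw [Matrix.submatrix_mul_equiv, hYY]
    ext i k
    simp [Matrix.one_apply]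
  have hQ₃' : ∀ u, Q₃ u = ∑ p, b p * (u (τ.symm p) * u (τ.symm p)) := by
    intro u
    rw [hQ₃, ← Equiv.sum_comp τ.symm]
    refine Finset.sum_congr rfl fun p _ => ?_
    simp [a]
  have hsim : ∀ v, Q₃ (y₃ *ᵥ v) = z * Q₃ v := by
    intro v
    rw [hQ₃', hQ₃', Finset.mul_sum, Fintype.sum_prod_type, Fintype.sum_prod_type, Finset.sum_comm,
      Finset.sum_comm (γ := Fin 2) (s := Finset.univ) (t := Finset.univ)]
    refine Finset.sum_congr rfl fun j _ => ?_
    rw [Fin.sum_univ_two, Fin.sum_univ_two]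
    have hyc : ∀ c, (y₃ *ᵥ v) (τ.symm (c, j)) = ∑ c', A j c c' * v (τ.symm (c', j)) := by
      intro c
      rw [hy₃v]
      simp only [Function.comp, Equiv.apply_symm_apply]
      rw [hYv]
      rfl
    rw [hyc, hyc, Fin.sum_univ_two, Fin.sum_univ_two]
    have hb00 : b (0, j) = 1 := by
      simp [b]
    have e00 : A j 0 0 = α j := rfl
    have e01 : A j 0 1 = b (1, j) * β j := rfl
    have e10 : A j 1 0 = β j := rfl
    have e11 : A j 1 1 = - α j := rfl
    rw [e00, e01, e10, e11, hb00]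
    linear_combination (v (τ.symm (0, j)) * v (τ.symm (0, j)) + b (1, j) * (v (τ.symm (1, j)) * v (τ.symm (1, j)))) * hab j
  have hdet : y₃.det ≠ 0 := by
    intro h0
    have h1 := congrArg Matrix.det hy₃y₃
    rw [Matrix.det_mul, h0, zero_mul, Matrix.det_smul, Matrix.det_one, mul_one] at h1
    exact pow_ne_zero _ hz h1.symm
  let Y₃ : GL (Fin n) F := Matrix.GeneralLinearGroup.mkOfDetNeZero y₃ hdet
  have hY₃ : (Y₃ : Mt) = y₃ := rfl
  let E : GL (Fin n) F := Cfsg.Agent.Lib.MatConj.glOfEquiv g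
  have hE : ∀ v, (E : Mt) *ᵥ v = g v := Cfsg.Agent.Lib.MatConj.glOfEquiv_mulVec g
  have hEi : ∀ v, (E : Mt) *ᵥ (((E⁻¹ : GL (Fin n) F) : Mt) *ᵥ v) = v := by
    intro v
    rw [Matrix.mulVec_mulVec, ← Units.val_mul, mul_inv_cancel]
    simp
  have hEEi : ((E⁻¹ : GL (Fin n) F) : Mt) * (E : Mt) = 1 := by
    rw [← Units.val_mul, inv_mul_cancel]
    rfl
  have hEiE : (E : Mt) * ((E⁻¹ : GL (Fin n) F) : Mt) = 1 := by
    rw [← Units.val_mul, mul_inv_cancel]
    rfl
  refine ⟨E * Y₃ * E⁻¹, ⟨Units.mk0 z hz, fun v => ?_⟩, ?_⟩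
  · have e1 : ∀ w, Q (g w) = Q₃ w := hg
    have e2 : Q v = Q₃ (((E⁻¹ : GL (Fin n) F) : Mt) *ᵥ v) := by
      rw [← e1, ← hE, hEi]
    rw [Units.val_mul, Units.val_mul, ← Matrix.mulVec_mulVec, ← Matrix.mulVec_mulVec, hE, e1, hY₃, hsim, e2]
    rfl
  · rw [Units.val_mul, Units.val_mul, hY₃]
    calc (E : Mt) * y₃ * ((E⁻¹ : GL (Fin n) F) : Mt) * ((E : Mt) * y₃ * ((E⁻¹ : GL (Fin n) F) : Mt))
        = (E : Mt) * (y₃ * (((E⁻¹ : GL (Fin n) F) : Mt) * (E : Mt)) * y₃) * ((E⁻¹ : GL (Fin n) F) : Mt) := by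
          simp only [Matrix.mul_assoc]
      _ = z • 1 := by
          rw [hEEi, Matrix.mul_one, hy₃y₃, Matrix.mul_smul, Matrix.smul_mul, Matrix.mul_one, hEiE]

/-- The case `r = 2`. -/
theorem backward2 {q : ℕ} (hq : Fintype.card F = q) (hodd : Odd q) (hn : 0 < n) (Q : (Fin n → F) → F) (hQ : IsNondegenerateQuadraticForm Q)
    (x : GL (Fin n) F) (hx : x ∈ specialLinear (Fin n) F) (z : F) (hxz : (x : Mt) * x = z • 1)
    (hns : ∀ z : F, (x : Mt) ≠ z • (1 : Mt)) : ∃ g ∈ specialLinear (Fin n) F, g⁻¹ * x * g ∈ quadSimilarityGroup Q := by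
  classical
  have h2 := Cfsg.Agent.Lib.InvolConj.two_ne_zero_of_odd hq hodd
  have hdet1 : (x : Mt).det = 1 := by
    have := congrArg Units.val (show Matrix.GeneralLinearGroup.det x = 1 from hx)
    exact this
  have hzn : z ^ n = 1 := by
    have h1 := congrArg Matrix.det hxz
    rw [Matrix.det_mul, hdet1, Matrix.det_smul, Matrix.det_one, mul_one, mul_one, Fintype.card_fin] at h1
    exact h1.symm
  have hz0 : z ≠ 0 := by
    rintro rfl
    rw [zero_pow hn.ne'] at hzn
    exact zero_ne_one hzn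
  by_cases hsq : IsSquare z
  · obtain ⟨w, rfl⟩ := hsq
    have hw0 : w ≠ 0 := fun h => hz0 (by rw [h, mul_zero])
    have h2w : w ≠ -w := by
      intro h
      apply mul_ne_zero h2 hw0
      linear_combination h
    have haeval : aeval (x : Mt) (∏ a ∈ ({w, -w} : Finset F), (X - C a) : F[X]) = 0 := by
      rw [Finset.prod_pair h2w, map_mul, map_sub, map_sub, aeval_X, aeval_C, aeval_C]
      simp only [Algebra.algebraMap_eq_smul_one]
      rw [sub_mul, mul_sub, mul_sub, hxz]
      simp only [Matrix.smul_mul, Matrix.mul_smul, Matrix.one_mul, Matrix.mul_one, smul_smul, neg_smul, smul_neg, mul_neg, smul_sub]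
      abel
    obtain ⟨lam, e, he, hlam⟩ := eig_basis_fin (x : Mt) _ haeval
    have hlam' : ∀ i, lam i * lam i = w * w := by
      intro i
      have := hlam i
      simp only [Finset.mem_insert, Finset.mem_singleton] at this
      rcases this with h | h <;> rw [h]
      ring
    have hlam0 : ∀ i, lam i ≠ 0 := by
      intro i h
      have := hlam' i
      rw [h, mul_zero] at this
      exact hz0 this.symm
    exact conj_of_pairing h2 Q hQ x e lam hlam0 he id (fun _ => rfl) (w * w) hz0 hlam' ⟨0, hn⟩ rfl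
  · -- non-square
    have hne : Even n := by
      by_contra hodd'
      obtain ⟨k, hk⟩ := Nat.not_even_iff_odd.mp hodd'
      apply hsq
      have h1 : z * (z ^ k * z ^ k) = 1 := by
        rw [← hzn, hk]
        ring
      have h3 : z = (z ^ k)⁻¹ * (z ^ k)⁻¹ := by
        field_simp
        linear_combination h1
      exact ⟨_, h3⟩
    obtain ⟨m, hm⟩ := hne
    obtain ⟨y, hy, hyy⟩ := exists_model_nonsq hq hodd (m := m) (by omega) (by omega) Q hQ z hz0
    have hirr : Irreducible (X ^ 2 - C z : F[X]) := X_pow_sub_C_irreducible_of_prime Nat.prime_two (fun b hb => hsq ⟨b, by rw [← hb]; ring⟩)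
    have hm' : (X ^ 2 - C z : F[X]).Monic := monic_X_pow_sub_C z (by norm_num)
    have hae : ∀ M : Mt, M * M = z • 1 → aeval M (X ^ 2 - C z : F[X]) = 0 := by
      intro M hM
      rw [map_sub, map_pow, aeval_X, aeval_C, pow_two, hM, Algebra.algebraMap_eq_smul_one, sub_self]
    obtain ⟨P, hP⟩ := Cfsg.Agent.Lib.MatConj.exists_conj_of_poly x (y : Mt) _ hirr hm' (hae _ hxz) (hae _ hyy)
    have hP' : P⁻¹ * x * P = y := Units.ext hP
    obtain ⟨P', hdet, he⟩ := Cfsg.Agent.Lib.SqScalar.exists_conj_fix x P z hxz hns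
    refine ⟨P', ?_, by rw [he, hP']; exact hy⟩
    show Matrix.GeneralLinearGroup.det _ = 1
    apply Units.ext
    exact hdet

theorem sym5 (c0 c1 c2 c3 c4 : ℕ) (h : c0 + c1 + c2 + c3 + c4 = 5) (hm : (c1 + 2 * c2 + 3 * c3 + 4 * c4) % 5 = 0) :
    (c1 = c4 ∧ c2 = c3) ∨ (c0 = c1 ∧ c2 = c4) ∨ (c0 = c2 ∧ c3 = c4) ∨ (c0 = c3 ∧ c1 = c2) ∨ (c0 = c4 ∧ c1 = c3) := by
  have h0 : c1 ≤ 5 := by omega
  have h1 : c2 ≤ 5 := by omega
  have h2 : c3 ≤ 5 := by omega
  have h3 : c4 ≤ 5 := by omega
  interval_cases c1 <;> interval_cases c2 <;> interval_cases c3 <;> interval_cases c4 <;> omega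

theorem sym3 (c0 c1 c2 : ℕ) (h : c0 + c1 + c2 = 3) (hm : (c1 + 2 * c2) % 3 = 0) :
    (c1 = c2) ∨ (c0 = c1) ∨ (c0 = c2) := by
  omega

/-- The reflection `j ↦ s - j` on `ℤ / r`. -/
def tauR (r : ℕ) (hr : 0 < r) (s j : Fin r) : Fin r := ⟨(s.val + r - j.val) % r, Nat.mod_lt _ hr⟩

theorem tauR_invol (r : ℕ) (hr : 0 < r) (s j : Fin r) : tauR r hr s (tauR r hr s j) = j := by
  apply Fin.ext
  simp only [tauR]
  have hj := j.isLt
  have hs := s.isLt
  by_cases h : j.val ≤ s.val
  · have e1 : (s.val + r - j.val) % r = s.val - j.val := by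
      have : s.val + r - j.val = (s.val - j.val) + r := by omega
      rw [this, Nat.add_mod_right, Nat.mod_eq_of_lt (by omega)]
    rw [e1]
    have e2 : s.val + r - (s.val - j.val) = j.val + r := by omega
    rw [e2, Nat.add_mod_right, Nat.mod_eq_of_lt hj]
  · have e1 : (s.val + r - j.val) % r = s.val + r - j.val := Nat.mod_eq_of_lt (by omega)
    rw [e1]
    have e2 : s.val + r - (s.val + r - j.val) = j.val := by omega
    rw [e2, Nat.mod_eq_of_lt hj]

/-- The symmetry of an exponent pattern of total exponent zero. -/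
theorem exists_reflection (r : ℕ) (hr : r = 3 ∨ r = 5) (e : Fin r → Fin r) (hsum : r ∣ ∑ i, (e i).val) :
    ∃ (h0 : 0 < r) (s : Fin r), ∀ j, (Finset.univ.filter (fun i => e i = j)).card = (Finset.univ.filter (fun i => e i = tauR r h0 s j)).card := by
  classical
  have hcard : ∑ j, (Finset.univ.filter (fun i => e i = j)).card = r := by
    have := Finset.card_eq_sum_card_fiberwise (s := (Finset.univ : Finset (Fin r))) (t := (Finset.univ : Finset (Fin r))) (f := e) (fun _ _ => Finset.mem_coe.mpr (Finset.mem_univ _))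
    simpa using this.symm
  have hw : ∑ j : Fin r, j.val * (Finset.univ.filter (fun i => e i = j)).card = ∑ i, (e i).val := by
    rw [← Finset.sum_fiberwise (s := (Finset.univ : Finset (Fin r))) (g := e) (f := fun i => (e i).val)]
    refine Finset.sum_congr rfl fun j _ => ?_
    rw [Finset.sum_congr rfl (g := fun _ => j.val)]
    · simp [mul_comm]
    · intro i hi
      rw [(Finset.mem_filter.mp hi).2]
  rcases hr with rfl | rfl
  · refine ⟨by norm_num, ?_⟩
    rw [Fin.sum_univ_three] at hcard hw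
    simp only [Fin.val_zero, Fin.val_one, Fin.val_two, zero_mul, one_mul, zero_add] at hw
    set c0 := (Finset.univ.filter (fun i => e i = 0)).card with h0
    set c1 := (Finset.univ.filter (fun i => e i = 1)).card with h1
    set c2 := (Finset.univ.filter (fun i => e i = 2)).card with h2
    have hd : (c1 + 2 * c2) % 3 = 0 := by
      rw [hw]
      exact Nat.mod_eq_zero_of_dvd hsum
    rcases sym3 c0 c1 c2 hcard hd with h | h | h
    · refine ⟨0, fun j => ?_⟩
      fin_cases j
      · rfl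
      · exact h
      · exact h.symm
    · refine ⟨1, fun j => ?_⟩
      fin_cases j
      · exact h
      · exact h.symm
      · rfl
    · refine ⟨2, fun j => ?_⟩
      fin_cases j
      · exact h
      · rfl
      · exact h.symm
  · refine ⟨by norm_num, ?_⟩
    rw [Fin.sum_univ_five] at hcard hw
    set c0 := (Finset.univ.filter (fun i => e i = 0)).card with h0
    set c1 := (Finset.univ.filter (fun i => e i = 1)).card with h1
    set c2 := (Finset.univ.filter (fun i => e i = 2)).card with h2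
    set c3 := (Finset.univ.filter (fun i => e i = 3)).card with h3
    set c4 := (Finset.univ.filter (fun i => e i = 4)).card with h4
    have hd : (c1 + 2 * c2 + 3 * c3 + 4 * c4) % 5 = 0 := by
      have e1 : c1 + 2 * c2 + 3 * c3 + 4 * c4 = ∑ i, (e i).val := by
        rw [← hw]
        show c1 + 2 * c2 + 3 * c3 + 4 * c4 = 0 * c0 + 1 * c1 + 2 * c2 + 3 * c3 + 4 * c4
        ring
      rw [e1]
      exact Nat.mod_eq_zero_of_dvd hsum
    rcases sym5 c0 c1 c2 c3 c4 hcard hd with ⟨h, h'⟩ | ⟨h, h'⟩ | ⟨h, h'⟩ | ⟨h, h'⟩ | ⟨h, h'⟩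
    · refine ⟨0, fun j => ?_⟩
      fin_cases j
      · rfl
      · exact h
      · exact h'
      · exact h'.symm
      · exact h.symm
    · refine ⟨1, fun j => ?_⟩
      fin_cases j
      · exact h
      · exact h.symm
      · exact h'
      · rfl
      · exact h'.symm
    · refine ⟨2, fun j => ?_⟩
      fin_cases j
      · exact h
      · rfl
      · exact h.symm
      · exact h'
      · exact h'.symm
    · refine ⟨3, fun j => ?_⟩
      fin_cases j
      · exact h
      · exact h'
      · exact h'.symm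
      · exact h.symm
      · rfl
    · refine ⟨4, fun j => ?_⟩
      fin_cases j
      · exact h
      · exact h'
      · rfl
      · exact h'.symm
      · exact h.symm

theorem exists_fixed_of_odd (m : ℕ) (hm : Odd m) (π : Fin m → Fin m) (hπ : ∀ i, π (π i) = i) : ∃ i, π i = i := by
  classical
  let f : Function.End (Fin m) := π
  have hf : f ^ 2 ^ 1 = 1 := by
    funext i
    exact hπ i
  have h1 := Equiv.Perm.card_fixedPoints_modEq (p := 2) (n := 1) (f := f) hf
  have h2 : Fintype.card (Function.fixedPoints f) % 2 = 1 := by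
    have h3 := h1.symm
    simp only [Nat.ModEq, Fintype.card_fin] at h3
    rw [h3]
    exact Nat.odd_iff.mp hm
  have h3 : 0 < Fintype.card (Function.fixedPoints f) := by omega
  obtain ⟨⟨i, hi⟩⟩ := Fintype.card_pos_iff.mp h3
  exact ⟨i, hi⟩

/-- Scalars among prime powers: here the scalar must be one. -/
theorem scalar_one_of_det {q r : ℕ} (hq : Fintype.card F = q) (hodd : Odd q) [hrf : Fact r.Prime] (hr2 : r ≠ 2) (hnr : n = r)
    (hv : padicValNat r (q - 1) = 1) (x : GL (Fin n) F) (hx : x ∈ specialLinear (Fin n) F) (z : F)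
    (hxz : ((x ^ r : GL (Fin n) F) : Mt) = z • (1 : Mt)) : z = 1 := by
  classical
  have hr : r.Prime := hrf.out
  have hdet1 : (x : Mt).det = 1 := by
    have := congrArg Units.val (show Matrix.GeneralLinearGroup.det x = 1 from hx)
    exact this
  have hq1 : 0 < q - 1 := by
    have := Fintype.one_lt_card (α := F)
    omega
  have hzr : z ^ r = 1 := by
    have h1 := congrArg Matrix.det hxz
    rw [Units.val_pow_eq_pow_val, Matrix.det_pow, hdet1, one_pow, Matrix.det_smul, Matrix.det_one, mul_one, Fintype.card_fin, hnr] at h1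
    exact h1.symm
  have hz0 : z ≠ 0 := by
    rintro rfl
    rw [zero_pow hr.ne_zero] at hzr
    exact zero_ne_one hzr
  by_cases hb : ∃ w : F, w ^ r = z
  · obtain ⟨w, rfl⟩ := hb
    have hw0 : w ≠ 0 := fun h => hz0 (by rw [h, zero_pow hr.ne_zero])
    have h1 : orderOf w ∣ q - 1 := by
      apply orderOf_dvd_of_pow_eq_one
      rw [← hq]
      exact FiniteField.pow_card_sub_one_eq_one w hw0
    have h2 : orderOf w ∣ r ^ 2 := by
      apply orderOf_dvd_of_pow_eq_one
      rw [pow_two, pow_mul]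
      exact hzr
    obtain ⟨k, hk, hk'⟩ := (Nat.dvd_prime_pow hr).mp h2
    have h3 : k ≤ 1 := by
      by_contra hcon
      have h4 : r ^ 2 ∣ q - 1 := (pow_dvd_pow r (by omega)).trans (hk' ▸ h1)
      have h5 := (padicValNat_dvd_iff_le (hp := hrf) hq1.ne').mp h4
      omega
    have h6 : orderOf w ∣ r := by
      rw [hk']
      calc r ^ k ∣ r ^ 1 := pow_dvd_pow r h3
        _ = r := pow_one r
    obtain ⟨c, hc⟩ := h6
    rw [hc, pow_mul, pow_orderOf_eq_one, one_pow]
  · exfalso
    haveI : Nonempty (Fin n) := ⟨⟨0, by have := hr.pos; omega⟩⟩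
    have hirr : Irreducible (Polynomial.X ^ r - Polynomial.C z : Polynomial F) := X_pow_sub_C_irreducible_of_prime hr (fun b h => hb ⟨b, h⟩)
    have hmon : (Polynomial.X ^ r - Polynomial.C z : Polynomial F).Monic := Polynomial.monic_X_pow_sub_C z hr.ne_zero
    have hae : Polynomial.aeval (x : Mt) (Polynomial.X ^ r - Polynomial.C z : Polynomial F) = 0 := by
      rw [map_sub, map_pow, Polynomial.aeval_X, Polynomial.aeval_C, ← Units.val_pow_eq_pow_val, hxz, Algebra.algebraMap_eq_smul_one, sub_self]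
    have h1 : minpoly F (x : Mt) = (Polynomial.X ^ r - Polynomial.C z : Polynomial F) :=
      (minpoly.eq_of_irreducible_of_monic hirr hae hmon).symm
    have h2 : minpoly F (x : Mt) ∣ Matrix.charpoly (x : Mt) := Matrix.minpoly_dvd_charpoly _
    have hdeg : (Matrix.charpoly (x : Mt)).natDegree = r := by
      rw [Matrix.charpoly_natDegree_eq_dim, Fintype.card_fin, hnr]
    have h3 : Matrix.charpoly (x : Mt) = (Polynomial.X ^ r - Polynomial.C z : Polynomial F) := by
      rw [h1] at h2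
      refine Polynomial.eq_of_monic_of_dvd_of_natDegree_le hmon (Matrix.charpoly_monic _) h2 ?_
      rw [hdeg, Polynomial.natDegree_X_pow_sub_C]
    have h4 := Matrix.det_eq_sign_charpoly_coeff (x : Mt)
    rw [h3, hdet1, Fintype.card_fin, hnr] at h4
    have hoddr : Odd r := hr.odd_of_ne_two hr2
    have h5 : (Polynomial.X ^ r - Polynomial.C z : Polynomial F).coeff 0 = - z := by
      rw [Polynomial.coeff_sub, Polynomial.coeff_X_pow, Polynomial.coeff_C_zero]
      simp [hr.ne_zero.symm]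
    rw [h5, hoddr.neg_one_pow] at h4
    have h6 : z = 1 := by linear_combination -h4
    exact hb ⟨1, by rw [one_pow, h6]⟩

/-- The case `r ∈ {3, 5}`. -/
theorem backward_odd {q r : ℕ} (hq : Fintype.card F = q) (hodd : Odd q) [hrf : Fact r.Prime] (hr35 : r = 3 ∨ r = 5) (hnr : n = r)
    (hv : padicValNat r (q - 1) = 1) (Q : (Fin n → F) → F) (hQ : IsNondegenerateQuadraticForm Q)
    (x : GL (Fin n) F) (hx : x ∈ specialLinear (Fin n) F) (z : F)
    (hxz : ((x ^ r : GL (Fin n) F) : Mt) = z • (1 : Mt)) :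
    ∃ g ∈ specialLinear (Fin n) F, g⁻¹ * x * g ∈ quadSimilarityGroup Q := by
  classical
  have hr : r.Prime := hrf.out
  have h2F := Cfsg.Agent.Lib.InvolConj.two_ne_zero_of_odd hq hodd
  have hr2 : r ≠ 2 := by
    rcases hr35 with rfl | rfl <;> norm_num
  have hz1 := scalar_one_of_det hq hodd hr2 hnr hv x hx z hxz
  subst hz1
  rw [one_smul] at hxz
  have hq1 : 0 < q - 1 := by
    have := Fintype.one_lt_card (α := F)
    omega
  have hrdvd : r ∣ q - 1 := by
    apply dvd_of_one_le_padicValNat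
    omega
  obtain ⟨ζ, hζ⟩ := exists_order (F := F) r (hq ▸ hrdvd)
  have hprim : IsPrimitiveRoot ζ r := by
    rw [← hζ]
    exact IsPrimitiveRoot.orderOf ζ
  have hpos : 0 < r := hr.pos
  have hae : Polynomial.aeval (x : Mt) (∏ a ∈ Polynomial.nthRootsFinset r (1 : F), (Polynomial.X - Polynomial.C a) : Polynomial F) = 0 := by
    rw [← X_pow_sub_one_eq_prod hpos hprim, map_sub, map_pow, Polynomial.aeval_X, map_one, ← Units.val_pow_eq_pow_val, hxz, sub_self]
  obtain ⟨lam, e, he, hlam⟩ := eig_basis_fin (x : Mt) _ hae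
  have hlamr : ∀ i, lam i ^ r = 1 := fun i => (Polynomial.mem_nthRootsFinset hpos _).mp (hlam i)
  have hlam0 : ∀ i, lam i ≠ 0 := by
    intro i h
    have := hlamr i
    rw [h, zero_pow hr.ne_zero] at this
    exact zero_ne_one this
  haveI : NeZero r := ⟨hr.ne_zero⟩
  have hexp : ∀ i, ∃ k : ℕ, k < r ∧ ζ ^ k = lam i := fun i => hprim.eq_pow_of_pow_eq_one (hlamr i)
  choose ε hεlt hε using hexp
  subst hnr
  let e' : Fin n → Fin n := fun i => ⟨ε i, hεlt i⟩
  have hdet : ∏ i, lam i = 1 := by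
    have h1 := Cfsg.Agent.S5971.det_of_basis (Matrix.toLin' (x : Mt)) e lam (fun i => by
      rw [Matrix.toLin'_apply]
      exact he i)
    rw [LinearMap.det_toLin'] at h1
    rw [← h1]
    have := congrArg Units.val (show Matrix.GeneralLinearGroup.det x = 1 from hx)
    exact this
  have hsum : n ∣ ∑ i, (e' i).val := by
    apply hprim.dvd_of_pow_eq_one
    rw [← Finset.prod_pow_eq_pow_sum, ← hdet]
    refine Finset.prod_congr rfl fun i _ => ?_
    exact hε i
  obtain ⟨h0, s, hs⟩ := exists_reflection n hr35 e' hsum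
  obtain ⟨π, hπ⟩ := exists_pairing e' (tauR n h0 s) (tauR_invol n h0 s) Finset.univ hs
  have hπ2 : ∀ i, π (π i) = i := fun i => (hπ i (Finset.mem_univ _)).2.1
  have hπ3 : ∀ i, (e' (π i)).val = (s.val + n - (e' i).val) % n := fun i => by
    have := (hπ i (Finset.mem_univ _)).2.2
    rw [this]
    rfl
  have hμ : ∀ i, lam i * lam (π i) = ζ ^ s.val := by
    intro i
    have h1 : lam (π i) = ζ ^ ((s.val + n - (e' i).val) % n) := by
      rw [← hπ3, ← hε]
    have h2 : ζ ^ ((s.val + n - (e' i).val) % n) = ζ ^ (s.val + n - (e' i).val) := by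
      conv_rhs => rw [← Nat.mod_add_div (s.val + n - (e' i).val) n, pow_add, pow_mul, hprim.pow_eq_one, one_pow, mul_one]
    have h3 : lam i = ζ ^ (e' i).val := (hε i).symm
    rw [h1, h2, h3, ← pow_add]
    have h4 : (e' i).val + (s.val + n - (e' i).val) = s.val + n := by
      have := (e' i).isLt
      omega
    rw [h4, pow_add, hprim.pow_eq_one, mul_one]
  have hoddn : Odd n := hr.odd_of_ne_two hr2
  obtain ⟨i₀, hi₀⟩ := exists_fixed_of_odd n hoddn π hπ2
  have hζ0 : ζ ≠ 0 := by
    rintro rfl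
    exact hprim.ne_zero hr.ne_zero rfl
  exact conj_of_pairing h2F Q hQ x e lam hlam0 he π hπ2 (ζ ^ s.val) (pow_ne_zero _ hζ0) hμ i₀ hi₀

end backward



/-- Elements of prime order of PSL_n(q), q odd, and the subgroups of orthogonal type. Here `T = PSL_n(F)` for a field `F` with `q` elements, `q` odd, `n ≥ 3`; `Q` is a non-degenerate quadratic form on `F^n` (of either type when `n` is even) and `H` is the subgroup of matrices of determinant 1 that preserve `Q` up to a scalar — a subgroup of type O^ε_n(q) (maximality is not assumed); Ω is the set of cosets of `H` in `T`, so an element of `T` of prime order `r` (a matrix `x` of determinant 1 with `x^r` scalar, `x` not scalar) fixes a point of Ω exactly when some conjugate of `x` by a matrix of determinant 1 preserves `Q` up to a scalar. Let `r` be a prime dividing the index of `H`, with `(n, r) ≠ (6, 3)`. Then every element of `T` of order `r` fixes a point of Ω if and only if `r = 2`, or `r ∈ {3, 5}`, `n = r` and `(q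 − 1)_r = r` (the `r`-part of `q − 1` is exactly `r`). The case `(n, r) = (6, 3)` is not covered by this statement. -/
theorem result {F : Type*} [Field F] [Fintype F] {p : ℕ} [Fact p.Prime] [CharP F p] {q : ℕ} (hq : Fintype.card F = q)
    (hodd : Odd q) (n : ℕ) (hn : 3 ≤ n) (Q : (Fin n → F) → F) (hQ : Cfsg.Geo.IsNondegenerateQuadraticForm Q)
    (r : ℕ) [Fact r.Prime] (hgap : ¬ (n = 6 ∧ r = 3))
    (hΩ : r ∣ (Cfsg.Geo.quadSimilarityGroup Q).relIndex (Cfsg.Geo.specialLinear (Fin n) F)) :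
    (∀ x ∈ Cfsg.Geo.specialLinear (Fin n) F, (∃ z : F, ((x ^ r : GL (Fin n) F) : Matrix (Fin n) (Fin n) F) = z • (1 : Matrix (Fin n) (Fin n) F)) →
      (∀ z : F, (x : Matrix (Fin n) (Fin n) F) ≠ z • (1 : Matrix (Fin n) (Fin n) F)) →
      ∃ g ∈ Cfsg.Geo.specialLinear (Fin n) F, g⁻¹ * x * g ∈ Cfsg.Geo.quadSimilarityGroup Q) ↔
    (r = 2 ∨ ((r = 3 ∨ r = 5) ∧ n = r ∧ padicValNat r (q - 1) = 1)) := by
  classical
  constructor
  · intro hfix
    by_contra hnot
    exact hnot (Or.inr (forward hq hodd hn Q hQ hgap hΩ hfix (fun h => hnot (Or.inl h))))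
  · rintro (hr2 | ⟨hr, hnr, hv⟩) x hx ⟨z, hz⟩ hns
    · subst hr2
      have hxz : (x : Matrix (Fin n) (Fin n) F) * x = z • 1 := by
        rw [← hz, pow_two, Units.val_mul]
      exact backward2 hq hodd (by omega) Q hQ x hx z hxz hns
    · exact backward_odd hq hodd hr hnr hv Q hQ x hx z hz

end Cfsg.Agent.S5981
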