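import Mathlib
import Cfsg.Agent.S5981
import Cfsg.Agent.S5984
import Cfsg.Agent.S5971
import Cfsg.Agent.Lib.UnitarySU
import Cfsg.Agent.Lib.InvolConj
import Cfsg.Agent.Lib.SqZero
import Cfsg.Agent.Lib.SqScalar
import Cfsg.Agent.Lib.MatConj
import Cfsg.Statements.S5982
-- import your own Cfsg.Agent.* helpers here

set_option autoImplicit false
open scoped MatrixGroups
open Cfsg

namespace Cfsg.Agent.S5982

open Matrix Module Cfsg.Geo
open Cfsg.Agent.Lib.UnitaryBasic Cfsg.Agent.Lib.HermCount Cfsg.Agent.Lib.UnitarySU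
open Cfsg.Agent.S5984 (exists_herm_equiv card_S)

set_option linter.unusedSimpArgs false
set_option linter.unusedVariables false
set_option linter.unusedSectionVars false

variable {F : Type*} [Field F] [Fintype F] {n q₀ : ℕ}

local notation "Mt" => Matrix (Fin n) (Fin n) F

section model

/-- The Hermitian form attached to an involution of the index set. -/
def pairH {ι : Type*} [Fintype ι] (q₀ : ℕ) (π : ι → ι) (u v : ι → F) : F := ∑ i, u i * (v (π i)) ^ q₀

theorem pairH_add {ι : Type*} [Fintype ι] (π : ι → ι) (x y v : ι → F) :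
    pairH q₀ π (x + y) v = pairH q₀ π x v + pairH q₀ π y v := by
  simp only [pairH, Pi.add_apply, add_mul, Finset.sum_add_distrib]

theorem pairH_smul {ι : Type*} [Fintype ι] (π : ι → ι) (c : F) (x v : ι → F) :
    pairH q₀ π (c • x) v = c * pairH q₀ π x v := by
  simp only [pairH, Pi.smul_apply, smul_eq_mul, Finset.mul_sum, mul_assoc]

theorem pairH_herm {ι : Type*} [Fintype ι] (hF : Fintype.card F = q₀ ^ 2) (π : ι → ι) (hπ : ∀ i, π (π i) = i) (v w : ι → F) :
    pairH q₀ π v w = (pairH q₀ π w v) ^ q₀ := by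
  unfold pairH
  have h1 : (∑ i, w i * v (π i) ^ q₀) ^ q₀ = ∑ i, w i ^ q₀ * v (π i) := by
    rw [← sigma_apply hF, map_sum]
    refine Finset.sum_congr rfl fun i _ => ?_
    rw [map_mul, sigma_apply, sigma_apply, pow_q_pow_q hF]
  rw [h1]
  let e : ι ≃ ι := ⟨π, π, hπ, hπ⟩
  rw [← Equiv.sum_comp e]
  refine Finset.sum_congr rfl fun i _ => ?_
  simp only [e, Equiv.coe_fn_mk, hπ]
  ring

theorem pairH_nd {ι : Type*} [Fintype ι] [DecidableEq ι] (hF : Fintype.card F = q₀ ^ 2) (π : ι → ι) (hπ : ∀ i, π (π i) = i) (v : ι → F)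
    (h : ∀ w, pairH q₀ π v w = 0) : v = 0 := by
  have hq0 : q₀ ≠ 0 := by
    have := two_le_q hF
    omega
  have hinj : Function.Injective π := fun a b hab => by
    rw [← hπ a, ← hπ b, hab]
  funext i
  have h1 := h (Pi.single (π i) 1)
  rw [pairH, Finset.sum_eq_single i] at h1
  · simpa [hq0] using h1
  · intro j _ hj
    have : π j ≠ π i := fun e => hj (hinj e)
    simp [Pi.single_apply, this, hq0]
  · simp

theorem exists_iso_pair {ι : Type} [Fintype ι] [DecidableEq ι] (hF : Fintype.card F = q₀ ^ 2) (f : (Fin n → F) → (Fin n → F) → F)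
    (hf : IsUnitaryFormPow q₀ f) (π : ι → ι) (hπ : ∀ i, π (π i) = i) (hc : Fintype.card ι = n) :
    ∃ G : (ι → F) ≃ₗ[F] (Fin n → F), ∀ u v, f (G u) (G v) = pairH q₀ π u v := by
  obtain ⟨E₁, hE₁⟩ := exists_herm_equiv f hf.add_left hf.smul_left hf.herm hF (fun v hv => by
      by_contra h
      obtain ⟨-, ⟨x, hx⟩⟩ := hf.nondegenerate v h
      exact hx (hv x)) (k := n) (by simp)
  obtain ⟨E₂, hE₂⟩ := exists_herm_equiv (pairH q₀ π) (pairH_add π) (pairH_smul π) (pairH_herm hF π hπ) hF (pairH_nd hF π hπ) (k := n) (by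
      rw [Module.finrank_fintype_fun_eq_card, hc])
  refine ⟨E₂.symm.trans E₁, fun u v => ?_⟩
  simp only [LinearEquiv.trans_apply]
  rw [hE₁, ← hE₂]
  simp

/-- The passage from a model to a conjugate in the similarity group. -/
theorem exists_conj_of_model {ι : Type} [Fintype ι] [DecidableEq ι] (hF : Fintype.card F = q₀ ^ 2) (f : (Fin n → F) → (Fin n → F) → F)
    (hf : IsUnitaryFormPow q₀ f) (π : ι → ι) (hπ : ∀ i, π (π i) = i) (x : GL (Fin n) F)
    (B : (ι → F) ≃ₗ[F] (Fin n → F)) (T : (ι → F) → (ι → F)) (hx : ∀ u, (x : Mt) *ᵥ B u = B (T u)) (μ : F) (hμ : μ ≠ 0)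
    (hT : ∀ u v, pairH q₀ π (T u) (T v) = μ * pairH q₀ π u v) :
    ∃ P : GL (Fin n) F, P⁻¹ * x * P ∈ similarityGroup f := by
  classical
  have hc : Fintype.card ι = n := by
    have := LinearEquiv.finrank_eq B
    simpa using this
  obtain ⟨G, hG⟩ := exists_iso_pair hF f hf π hπ hc
  let L : (Fin n → F) ≃ₗ[F] (Fin n → F) := G.symm.trans B
  let P : GL (Fin n) F := Cfsg.Agent.Lib.MatConj.glOfEquiv L
  have hP : ∀ v, (P : Mt) *ᵥ v = L v := Cfsg.Agent.Lib.MatConj.glOfEquiv_mulVec L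
  have hPi : ∀ w, ((P⁻¹ : GL (Fin n) F) : Mt) *ᵥ w = L.symm w := by
    intro w
    apply L.injective
    rw [← hP, Matrix.mulVec_mulVec, ← Units.val_mul, mul_inv_cancel]
    simp
  have hy : ∀ v, ((P⁻¹ * x * P : GL (Fin n) F) : Mt) *ᵥ v = G (T (G.symm v)) := by
    intro v
    rw [Units.val_mul, Units.val_mul, ← Matrix.mulVec_mulVec, ← Matrix.mulVec_mulVec, hP, hPi]
    show L.symm ((x : Mt) *ᵥ B (G.symm v)) = _
    rw [hx]
    simp [L]
  refine ⟨P, Units.mk0 μ hμ, fun u v => ?_⟩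
  rw [hy, hy, hG, hT, ← hG]
  simp

/-- Diagonal elements with a pairing of the eigenvalues. -/
theorem conj_of_pairing_u (hF : Fintype.card F = q₀ ^ 2) (f : (Fin n → F) → (Fin n → F) → F)
    (hf : IsUnitaryFormPow q₀ f) (x : GL (Fin n) F) (e : Basis (Fin n) F (Fin n → F)) (lam : Fin n → F)
    (he : ∀ i, (x : Mt) *ᵥ e i = lam i • e i) (π : Fin n → Fin n) (hπ : ∀ i, π (π i) = i) (μ : F) (hμ : μ ≠ 0)
    (hlam : ∀ i, lam i * (lam (π i)) ^ q₀ = μ) :
    ∃ P : GL (Fin n) F, P⁻¹ * x * P ∈ similarityGroup f := by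
  classical
  refine exists_conj_of_model hF f hf π hπ x e.equivFun.symm (fun u i => lam i * u i) (fun u => ?_) μ hμ (fun u v => ?_)
  · rw [Basis.equivFun_symm_apply, Basis.equivFun_symm_apply]
    have h1 : ∀ (s : Finset (Fin n)) (a : Fin n → Fin n → F), (x : Mt) *ᵥ (∑ i ∈ s, a i) = ∑ i ∈ s, (x : Mt) *ᵥ a i := by
      intro s a
      exact map_sum (Matrix.mulVecLin (x : Mt)) a s
    rw [h1]
    refine Finset.sum_congr rfl fun i _ => ?_
    rw [Matrix.mulVec_smul, he, smul_smul, mul_comm]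
  · simp only [pairH, Finset.mul_sum]
    refine Finset.sum_congr rfl fun i _ => ?_
    rw [mul_pow, ← hlam i]
    ring

/-- Adjusting the determinant for elements with an eigenbasis. -/
theorem conj_det_one (x P : GL (Fin n) F) (e : Basis (Fin n) F (Fin n → F)) (lam : Fin n → F)
    (he : ∀ i, (x : Mt) *ᵥ e i = lam i • e i) (i₀ : Fin n) :
    ∃ P' : GL (Fin n) F, (P' : Mt).det = 1 ∧ P'⁻¹ * x * P' = P⁻¹ * x * P := by
  classical
  let L : (Fin n → F) ≃ₗ[F] (Fin n → F) := LinearEquiv.ofBijective (Matrix.mulVecLin ((P⁻¹ : GL (Fin n) F) : Mt)) (by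
    constructor
    · intro a b hab
      have h1 : ((P⁻¹ : GL (Fin n) F) : Mt) *ᵥ a = ((P⁻¹ : GL (Fin n) F) : Mt) *ᵥ b := hab
      have h2 := congrArg (fun w => (P : Mt) *ᵥ w) h1
      simp only [Matrix.mulVec_mulVec, ← Units.val_mul, mul_inv_cancel] at h2
      simpa using h2
    · intro b
      refine ⟨(P : Mt) *ᵥ b, ?_⟩
      show ((P⁻¹ : GL (Fin n) F) : Mt) *ᵥ ((P : Mt) *ᵥ b) = b
      rw [Matrix.mulVec_mulVec, ← Units.val_mul, inv_mul_cancel]
      simp)
  have hL : ∀ v, L v = ((P⁻¹ : GL (Fin n) F) : Mt) *ᵥ v := fun v => rfl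
  let e' : Basis (Fin n) F (Fin n → F) := e.map L
  have he' : ∀ i, ((P⁻¹ * x * P : GL (Fin n) F) : Mt) *ᵥ e' i = lam i • e' i := by
    intro i
    have h1 : e' i = ((P⁻¹ : GL (Fin n) F) : Mt) *ᵥ e i := by
      simp [e', hL]
    rw [h1, Units.val_mul, Units.val_mul, ← Matrix.mulVec_mulVec, ← Matrix.mulVec_mulVec, Matrix.mulVec_mulVec (e i) (P : Mt), ← Units.val_mul,
      mul_inv_cancel]
    simp only [Units.val_one, Matrix.one_mulVec]
    rw [he, Matrix.mulVec_smul]
  exact Cfsg.Agent.S5971.exists_conj_diag x _ e e' lam he he' i₀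

end model

section backward

open Polynomial

/-- The determinant as a matrix statement. -/
theorem det_of_mem (x : GL (Fin n) F) (hx : x ∈ specialLinear (Fin n) F) : (x : Mt).det = 1 := by
  have := congrArg Units.val (show Matrix.GeneralLinearGroup.det x = 1 from hx)
  exact this

theorem mem_of_det (x : GL (Fin n) F) (hx : (x : Mt).det = 1) : x ∈ specialLinear (Fin n) F := by
  show Matrix.GeneralLinearGroup.det _ = 1
  apply Units.ext
  exact hx

/-- The case `r = 2`, `q` odd. -/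
theorem backward2_odd {q : ℕ} (hq : Fintype.card F = q) (hq₀ : q = q₀ ^ 2) (hodd : Odd q) (hn : 0 < n)
    (f : (Fin n → F) → (Fin n → F) → F) (hf : IsUnitaryFormPow q₀ f) (hv : padicValNat 2 n ≤ padicValNat 2 (q - 1))
    (x : GL (Fin n) F) (hx : x ∈ specialLinear (Fin n) F) (z : F) (hxz : (x : Mt) * x = z • 1)
    (hns : ∀ c : F, (x : Mt) ≠ c • (1 : Mt)) : ∃ g ∈ specialLinear (Fin n) F, g⁻¹ * x * g ∈ similarityGroup f := by
  classical
  have hF : Fintype.card F = q₀ ^ 2 := hq.trans hq₀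
  have h2 := Cfsg.Agent.Lib.InvolConj.two_ne_zero_of_odd hq hodd
  have hdet1 := det_of_mem x hx
  have hzn : z ^ n = 1 := by
    have h1 := congrArg Matrix.det hxz
    rw [Matrix.det_mul, hdet1, Matrix.det_smul, Matrix.det_one, mul_one, mul_one, Fintype.card_fin] at h1
    exact h1.symm
  have hz0 : z ≠ 0 := by
    rintro rfl
    rw [zero_pow hn.ne'] at hzn
    exact zero_ne_one hzn
  have hq₀odd : Odd q₀ := by
    rw [hq₀] at hodd
    exact (Nat.odd_pow_iff (by norm_num)).mp hodd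
  have hq2 : 2 ≤ q := by
    have := Fintype.one_lt_card (α := F)
    omega
  have hsq : IsSquare z := by
    by_contra hnot
    by_cases hlt : padicValNat 2 n < padicValNat 2 (q - 1)
    · exact hnot (Cfsg.Agent.Lib.InvolConj.isSquare_of_pow_eq_one hq hodd z n hn.ne' hzn hlt)
    have heq : padicValNat 2 n = padicValNat 2 (q - 1) := by omega
    have hq1even : 2 ∣ q - 1 := by
      obtain ⟨k, hk⟩ := hodd
      exact ⟨k, by omega⟩
    have hval : 1 ≤ padicValNat 2 n := by
      rw [heq]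
      exact one_le_padicValNat_of_dvd (by omega) hq1even
    have hne : 2 ∣ n := by
      apply dvd_of_one_le_padicValNat
      exact hval
    obtain ⟨m, hm⟩ := hne
    have hm0 : m ≠ 0 := by
      rintro rfl
      omega
    obtain ⟨X₀, hXX, hXd⟩ := Cfsg.Agent.Lib.InvolConj.exists_block (F := F) (n := n) m hm z
    have hirr : Irreducible (X ^ 2 - C z : F[X]) := X_pow_sub_C_irreducible_of_prime Nat.prime_two (fun b hb => hnot ⟨b, by rw [← hb]; ring⟩)
    have hm' : (X ^ 2 - C z : F[X]).Monic := monic_X_pow_sub_C z (by norm_num)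
    have hae : ∀ M : Mt, M * M = z • 1 → aeval M (X ^ 2 - C z : F[X]) = 0 := by
      intro M hM
      rw [map_sub, map_pow, aeval_X, aeval_C, pow_two, hM, Algebra.algebraMap_eq_smul_one, sub_self]
    obtain ⟨P, hP⟩ := Cfsg.Agent.Lib.MatConj.exists_conj_of_poly x X₀ _ hirr hm' (hae _ hxz) (hae _ hXX)
    have hdetX : X₀.det = 1 := by
      rw [← hP, Units.val_mul, Units.val_mul, Matrix.det_mul, Matrix.det_mul, hdet1, mul_one, ← Matrix.det_mul, ← Units.val_mul, inv_mul_cancel]
      simp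
    rw [hXd] at hdetX
    have hvm : padicValNat 2 m < padicValNat 2 (q - 1) := by
      have h5 : padicValNat 2 n = 1 + padicValNat 2 m := by
        rw [hm, padicValNat.mul (by norm_num) hm0]
        simp
      omega
    have h6 := Cfsg.Agent.Lib.InvolConj.isSquare_of_pow_eq_one hq hodd (-z) m hm0 hdetX hvm
    have h7 : IsSquare (-1 : F) := by
      rw [FiniteField.isSquare_neg_one_iff, hq, hq₀]
      obtain ⟨k, rfl⟩ := hq₀odd
      have : (2 * k + 1) ^ 2 % 4 = 1 := by
        have e : (2 * k + 1) ^ 2 = 4 * (k * k + k) + 1 := by ring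
        omega
      omega
    apply hnot
    have : z = (-1) * (-z) := by ring
    rw [this]
    exact h7.mul h6
  obtain ⟨w, rfl⟩ := hsq
  have hw0 : w ≠ 0 := fun h => hz0 (by rw [h, mul_zero])
  have h2w : w ≠ -w := by
    intro h
    apply mul_ne_zero h2 hw0
    linear_combination h
  have haeval : aeval (x : Mt) (∏ a ∈ ({w, -w} : Finset F), (X - C a) : F[X]) = 0 := by
    rw [Finset.prod_pair h2w, map_mul, map_sub, map_sub, aeval_X, aeval_C, aeval_C]
    simp only [Algebra.algebraMap_eq_smul_one]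
    rw [sub_mul, mul_sub, mul_sub, hxz]
    simp only [Matrix.smul_mul, Matrix.mul_smul, Matrix.one_mul, Matrix.mul_one, smul_smul, neg_smul, smul_neg, mul_neg, smul_sub]
    abel
  obtain ⟨lam, e, he, hlam⟩ := Cfsg.Agent.S5981.eig_basis_fin (x : Mt) _ haeval
  have hlam' : ∀ i, lam i * (lam (id i)) ^ q₀ = w * w ^ q₀ := by
    intro i
    have := hlam i
    simp only [Finset.mem_insert, Finset.mem_singleton] at this
    simp only [id]
    rcases this with h | h <;> rw [h]
    rw [hq₀odd.neg_pow]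
    ring
  obtain ⟨P, hP⟩ := conj_of_pairing_u hF f hf x e lam he id (fun _ => rfl) (w * w ^ q₀) (mul_ne_zero hw0 (pow_ne_zero _ hw0)) hlam'
  obtain ⟨P', hdet, he'⟩ := Cfsg.Agent.Lib.SqScalar.exists_conj_fix x P (w * w) hxz hns
  exact ⟨P', mem_of_det _ hdet, by rw [he']; exact hP⟩

/-- The swap of the model in characteristic two. -/
def swapπ (r s : ℕ) : Fin r ⊕ (Fin r ⊕ Fin s) → Fin r ⊕ (Fin r ⊕ Fin s)
  | .inl i => .inr (.inl i)
  | .inr (.inl i) => .inl i
  | .inr (.inr j) => .inr (.inr j)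

theorem swapπ_invol (r s : ℕ) (i : Fin r ⊕ (Fin r ⊕ Fin s)) : swapπ r s (swapπ r s i) = i := by
  rcases i with i | i | i <;> rfl

/-- The model involution in characteristic two. -/
def modelT (r s : ℕ) (u : Fin r ⊕ (Fin r ⊕ Fin s) → F) : Fin r ⊕ (Fin r ⊕ Fin s) → F
  | .inl i => u (.inl i)
  | .inr (.inl i) => u (.inr (.inl i)) + u (.inl i)
  | .inr (.inr j) => u (.inr (.inr j))

theorem modelT_pres (hF : Fintype.card F = q₀ ^ 2) (h2 : (2 : F) = 0) (r s : ℕ) (u v : Fin r ⊕ (Fin r ⊕ Fin s) → F) :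
    pairH q₀ (swapπ r s) (modelT r s u) (modelT r s v) = pairH q₀ (swapπ r s) u v := by
  simp only [pairH, Fintype.sum_sum_type, swapπ, modelT, add_pow_q hF]
  rw [← add_assoc, ← add_assoc]
  congr 1
  rw [← Finset.sum_add_distrib, ← Finset.sum_add_distrib]
  refine Finset.sum_congr rfl fun i _ => ?_
  linear_combination (u (Sum.inl i) * v (Sum.inl i) ^ q₀) * h2

/-- The case `r = 2`, `q` even. -/
theorem backward2_even (hF : Fintype.card F = q₀ ^ 2) (h2 : (2 : F) = 0) (hn : 0 < n)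
    (f : (Fin n → F) → (Fin n → F) → F) (hf : IsUnitaryFormPow q₀ f)
    (x : GL (Fin n) F) (z : F) (hxz : (x : Mt) * x = z • 1)
    (hns : ∀ c : F, (x : Mt) ≠ c • (1 : Mt)) : ∃ g ∈ specialLinear (Fin n) F, g⁻¹ * x * g ∈ similarityGroup f := by
  classical
  haveI : CharP F 2 := CharTwo.of_one_ne_zero_of_two_eq_zero one_ne_zero h2
  obtain ⟨w, rfl⟩ : IsSquare z := FiniteField.isSquare_of_char_two (ringChar.eq F 2) z
  have hw0 : w ≠ 0 := by
    rintro rfl
    rw [mul_zero, zero_smul] at hxz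
    have hd := congrArg Matrix.det hxz
    haveI : Nonempty (Fin n) := ⟨⟨0, hn⟩⟩
    rw [Matrix.det_mul, Matrix.det_zero] at hd
    have h3 : (x : Mt).det ≠ 0 := Cfsg.Agent.S5979.det_ne_zero_GL x
    exact (mul_ne_zero h3 h3) hd
  let A : Mt := w⁻¹ • (x : Mt) - 1
  have hAA : A * A = 0 := by
    simp only [A]
    rw [sub_mul, mul_sub, mul_sub, Matrix.smul_mul, Matrix.mul_smul, hxz]
    simp only [Matrix.one_mul, Matrix.mul_one, smul_smul]
    have e1 : w⁻¹ * (w⁻¹ * (w * w)) = 1 := by field_simp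
    rw [e1, one_smul]
    have e2 : ∀ M : Mt, M - M = 0 := fun M => sub_self M
    have e3 : (1 : Mt) + 1 = 0 := by
      rw [← two_smul F (1 : Mt), h2, zero_smul]
    have e4 : ∀ a b : Mt, (1 : Mt) - a - (a - b) = (1 + b) - 2 • a := by
      intro a b
      rw [two_smul]
      abel
    rw [e4, two_smul]
    have e5 : ∀ a : Mt, a + a = 0 := by
      intro a
      rw [← two_smul F a, h2, zero_smul]
    rw [e3, e5, sub_zero]
  let N : (Fin n → F) →ₗ[F] (Fin n → F) := A.mulVecLin
  have hN : ∀ v, N (N v) = 0 := by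
    intro v
    show A *ᵥ (A *ᵥ v) = 0
    rw [Matrix.mulVec_mulVec, hAA, Matrix.zero_mulVec]
  obtain ⟨r, s, e, he1, he2⟩ := Cfsg.Agent.Lib.SqZero.exists_sqzero_basis N hN
  have he3 : ∀ i, N (e (Sum.inr (Sum.inl i))) = 0 := by
    intro i
    rw [← he1, hN]
  have hxv : ∀ v, (x : Mt) *ᵥ v = w • (v + N v) := by
    intro v
    show _ = w • (v + A *ᵥ v)
    simp only [A]
    rw [Matrix.sub_mulVec, Matrix.one_mulVec, Matrix.smul_mulVec, add_sub_cancel, smul_smul, mul_inv_cancel₀ hw0, one_smul]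
  have hx1 : ∀ u, (x : Mt) *ᵥ e.equivFun.symm u = e.equivFun.symm (w • modelT r s u) := by
    intro u
    rw [hxv, map_smul]
    congr 1
    rw [Basis.equivFun_symm_apply, Basis.equivFun_symm_apply, map_sum]
    simp only [map_smul, Fintype.sum_sum_type, he1, he2, he3, smul_zero, Finset.sum_const_zero, add_zero, modelT, add_smul,
      Finset.sum_add_distrib]
    abel
  have hT1 : ∀ u v, pairH q₀ (swapπ r s) (w • modelT r s u) (w • modelT r s v) = (w * w ^ q₀) * pairH q₀ (swapπ r s) u v := by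
    intro u v
    have e1 : ∀ a b : Fin r ⊕ (Fin r ⊕ Fin s) → F, pairH q₀ (swapπ r s) (w • a) (w • b) = (w * w ^ q₀) * pairH q₀ (swapπ r s) a b := by
      intro a b
      simp only [pairH, Finset.mul_sum, Pi.smul_apply, smul_eq_mul, mul_pow]
      refine Finset.sum_congr rfl fun i _ => ?_
      ring
    rw [e1, modelT_pres hF h2]
  obtain ⟨P, hP⟩ := exists_conj_of_model hF f hf (swapπ r s) (swapπ_invol r s) x e.equivFun.symm (fun u => w • modelT r s u) hx1 (w * w ^ q₀)
    (mul_ne_zero hw0 (pow_ne_zero _ hw0)) hT1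
  obtain ⟨P', hdet, he'⟩ := Cfsg.Agent.Lib.SqScalar.exists_conj_fix x P (w * w) hxz hns
  exact ⟨P', mem_of_det _ hdet, by rw [he']; exact hP⟩

/-- Scalars among prime powers: here the scalar must be one. -/
theorem scalar_one_of_det {q r : ℕ} (hq : Fintype.card F = q) [hrf : Fact r.Prime] (hr2 : r ≠ 2) (hnr : n = r)
    (hv : padicValNat r (q - 1) = 1) (x : GL (Fin n) F) (hx : x ∈ specialLinear (Fin n) F) (z : F)
    (hxz : ((x ^ r : GL (Fin n) F) : Mt) = z • (1 : Mt)) : z = 1 := by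
  classical
  have hr : r.Prime := hrf.out
  have hdet1 : (x : Mt).det = 1 := by
    have := congrArg Units.val (show Matrix.GeneralLinearGroup.det x = 1 from hx)
    exact this
  have hq1 : 0 < q - 1 := by
    have := Fintype.one_lt_card (α := F)
    omega
  have hzr : z ^ r = 1 := by
    have h1 := congrArg Matrix.det hxz
    rw [Units.val_pow_eq_pow_val, Matrix.det_pow, hdet1, one_pow, Matrix.det_smul, Matrix.det_one, mul_one, Fintype.card_fin, hnr] at h1
    exact h1.symm
  have hz0 : z ≠ 0 := by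
    rintro rfl
    rw [zero_pow hr.ne_zero] at hzr
    exact zero_ne_one hzr
  by_cases hb : ∃ w : F, w ^ r = z
  · obtain ⟨w, rfl⟩ := hb
    have hw0 : w ≠ 0 := fun h => hz0 (by rw [h, zero_pow hr.ne_zero])
    have h1 : orderOf w ∣ q - 1 := by
      apply orderOf_dvd_of_pow_eq_one
      rw [← hq]
      exact FiniteField.pow_card_sub_one_eq_one w hw0
    have h2 : orderOf w ∣ r ^ 2 := by
      apply orderOf_dvd_of_pow_eq_one
      rw [pow_two, pow_mul]
      exact hzr
    obtain ⟨k, hk, hk'⟩ := (Nat.dvd_prime_pow hr).mp h2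
    have h3 : k ≤ 1 := by
      by_contra hcon
      have h4 : r ^ 2 ∣ q - 1 := (pow_dvd_pow r (by omega)).trans (hk' ▸ h1)
      have h5 := (padicValNat_dvd_iff_le (hp := hrf) hq1.ne').mp h4
      omega
    have h6 : orderOf w ∣ r := by
      rw [hk']
      calc r ^ k ∣ r ^ 1 := pow_dvd_pow r h3
        _ = r := pow_one r
    obtain ⟨c, hc⟩ := h6
    rw [hc, pow_mul, pow_orderOf_eq_one, one_pow]
  · exfalso
    haveI : Nonempty (Fin n) := ⟨⟨0, by have := hr.pos; omega⟩⟩
    have hirr : Irreducible (Polynomial.X ^ r - Polynomial.C z : Polynomial F) := X_pow_sub_C_irreducible_of_prime hr (fun b h => hb ⟨b, h⟩)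
    have hmon : (Polynomial.X ^ r - Polynomial.C z : Polynomial F).Monic := Polynomial.monic_X_pow_sub_C z hr.ne_zero
    have hae : Polynomial.aeval (x : Mt) (Polynomial.X ^ r - Polynomial.C z : Polynomial F) = 0 := by
      rw [map_sub, map_pow, Polynomial.aeval_X, Polynomial.aeval_C, ← Units.val_pow_eq_pow_val, hxz, Algebra.algebraMap_eq_smul_one, sub_self]
    have h1 : minpoly F (x : Mt) = (Polynomial.X ^ r - Polynomial.C z : Polynomial F) :=
      (minpoly.eq_of_irreducible_of_monic hirr hae hmon).symm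
    have h2 : minpoly F (x : Mt) ∣ Matrix.charpoly (x : Mt) := Matrix.minpoly_dvd_charpoly _
    have hdeg : (Matrix.charpoly (x : Mt)).natDegree = r := by
      rw [Matrix.charpoly_natDegree_eq_dim, Fintype.card_fin, hnr]
    have h3 : Matrix.charpoly (x : Mt) = (Polynomial.X ^ r - Polynomial.C z : Polynomial F) := by
      rw [h1] at h2
      refine Polynomial.eq_of_monic_of_dvd_of_natDegree_le hmon (Matrix.charpoly_monic _) h2 ?_
      rw [hdeg, Polynomial.natDegree_X_pow_sub_C]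
    have h4 := Matrix.det_eq_sign_charpoly_coeff (x : Mt)
    rw [h3, hdet1, Fintype.card_fin, hnr] at h4
    have hoddr : Odd r := hr.odd_of_ne_two hr2
    have h5 : (Polynomial.X ^ r - Polynomial.C z : Polynomial F).coeff 0 = - z := by
      rw [Polynomial.coeff_sub, Polynomial.coeff_X_pow, Polynomial.coeff_C_zero]
      simp [hr.ne_zero.symm]
    rw [h5, hoddr.neg_one_pow] at h4
    have h6 : z = 1 := by linear_combination -h4
    exact hb ⟨1, by rw [one_pow, h6]⟩

/-- The case `r ∈ {3, 5}`. -/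
theorem backward_odd {q r : ℕ} (hq : Fintype.card F = q) (hq₀ : q = q₀ ^ 2) [hrf : Fact r.Prime] (hr35 : r = 3 ∨ r = 5) (hnr : n = r)
    (hv : padicValNat r (q₀ - 1) = 1) (f : (Fin n → F) → (Fin n → F) → F) (hf : IsUnitaryFormPow q₀ f)
    (x : GL (Fin n) F) (hx : x ∈ specialLinear (Fin n) F) (z : F)
    (hxz : ((x ^ r : GL (Fin n) F) : Mt) = z • (1 : Mt)) :
    ∃ g ∈ specialLinear (Fin n) F, g⁻¹ * x * g ∈ similarityGroup f := by
  classical
  have hr : r.Prime := hrf.out
  have hF : Fintype.card F = q₀ ^ 2 := hq.trans hq₀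
  have hq₀2 := two_le_q hF
  have hr2 : r ≠ 2 := by
    rcases hr35 with rfl | rfl <;> norm_num
  have hrq₀ : r ∣ q₀ - 1 := by
    apply dvd_of_one_le_padicValNat
    omega
  have hnd : ¬ r ∣ q₀ + 1 := by
    intro h
    have h1 : r ∣ (q₀ + 1) - (q₀ - 1) := Nat.dvd_sub h hrq₀
    have h3 : (q₀ + 1) - (q₀ - 1) = 2 := by omega
    rw [h3] at h1
    exact hr2 ((Nat.prime_dvd_prime_iff_eq hr Nat.prime_two).mp h1)
  have hfac : q - 1 = (q₀ - 1) * (q₀ + 1) := by
    rw [hq₀]
    obtain ⟨k, rfl⟩ : ∃ k, q₀ = k + 1 := ⟨q₀ - 1, by omega⟩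
    simp only [Nat.add_sub_cancel]
    have : (k + 1) ^ 2 = k * (k + 1 + 1) + 1 := by ring
    omega
  have hv' : padicValNat r (q - 1) = 1 := by
    rw [hfac, padicValNat.mul (by omega) (by omega), hv, padicValNat.eq_zero_of_not_dvd hnd]
  have hz1 := scalar_one_of_det hq hr2 hnr hv' x hx z hxz
  subst hz1
  rw [one_smul] at hxz
  have hrdvd : r ∣ q - 1 := by
    rw [hfac]
    exact Dvd.dvd.mul_right hrq₀ _
  obtain ⟨ζ, hζ⟩ := Cfsg.Agent.S5981.exists_order (F := F) r (hq ▸ hrdvd)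
  have hprim : IsPrimitiveRoot ζ r := by
    rw [← hζ]
    exact IsPrimitiveRoot.orderOf ζ
  have hpos : 0 < r := hr.pos
  have hae : Polynomial.aeval (x : Mt) (∏ a ∈ Polynomial.nthRootsFinset r (1 : F), (Polynomial.X - Polynomial.C a) : Polynomial F) = 0 := by
    rw [← X_pow_sub_one_eq_prod hpos hprim, map_sub, map_pow, Polynomial.aeval_X, map_one, ← Units.val_pow_eq_pow_val, hxz, sub_self]
  obtain ⟨lam, e, he, hlam⟩ := Cfsg.Agent.S5981.eig_basis_fin (x : Mt) _ hae
  have hlamr : ∀ i, lam i ^ r = 1 := fun i => (Polynomial.mem_nthRootsFinset hpos _).mp (hlam i)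
  have hlamσ : ∀ i, lam i ^ q₀ = lam i := by
    intro i
    obtain ⟨c, hc⟩ := hrq₀
    have e1 : q₀ = r * c + 1 := by omega
    rw [e1, pow_succ, pow_mul, hlamr, one_pow, one_mul]
  haveI : NeZero r := ⟨hr.ne_zero⟩
  have hexp : ∀ i, ∃ k : ℕ, k < r ∧ ζ ^ k = lam i := fun i => hprim.eq_pow_of_pow_eq_one (hlamr i)
  choose ε hεlt hε using hexp
  subst hnr
  let e' : Fin n → Fin n := fun i => ⟨ε i, hεlt i⟩
  have hdet : ∏ i, lam i = 1 := by
    have h1 := Cfsg.Agent.S5971.det_of_basis (Matrix.toLin' (x : Mt)) e lam (fun i => by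
      rw [Matrix.toLin'_apply]
      exact he i)
    rw [LinearMap.det_toLin'] at h1
    rw [← h1]
    have := congrArg Units.val (show Matrix.GeneralLinearGroup.det x = 1 from hx)
    exact this
  have hsum : n ∣ ∑ i, (e' i).val := by
    apply hprim.dvd_of_pow_eq_one
    rw [← Finset.prod_pow_eq_pow_sum, ← hdet]
    refine Finset.prod_congr rfl fun i _ => ?_
    exact hε i
  obtain ⟨h0, s, hs⟩ := Cfsg.Agent.S5981.exists_reflection n hr35 e' hsum
  obtain ⟨π, hπ⟩ := Cfsg.Agent.S5981.exists_pairing e' (Cfsg.Agent.S5981.tauR n h0 s) (Cfsg.Agent.S5981.tauR_invol n h0 s) Finset.univ hs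
  have hπ2 : ∀ i, π (π i) = i := fun i => (hπ i (Finset.mem_univ _)).2.1
  have hπ3 : ∀ i, (e' (π i)).val = (s.val + n - (e' i).val) % n := fun i => by
    have := (hπ i (Finset.mem_univ _)).2.2
    rw [this]
    rfl
  have hμ : ∀ i, lam i * lam (π i) ^ q₀ = ζ ^ s.val := by
    intro i
    rw [hlamσ]
    have h1 : lam (π i) = ζ ^ ((s.val + n - (e' i).val) % n) := by
      rw [← hπ3, ← hε]
    have h2 : ζ ^ ((s.val + n - (e' i).val) % n) = ζ ^ (s.val + n - (e' i).val) := by
      conv_rhs => rw [← Nat.mod_add_div (s.val + n - (e' i).val) n, pow_add, pow_mul, hprim.pow_eq_one, one_pow, mul_one]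
    have h3 : lam i = ζ ^ (e' i).val := (hε i).symm
    rw [h1, h2, h3, ← pow_add]
    have h4 : (e' i).val + (s.val + n - (e' i).val) = s.val + n := by
      have := (e' i).isLt
      omega
    rw [h4, pow_add, hprim.pow_eq_one, mul_one]
  have hζ0 : ζ ≠ 0 := by
    rintro rfl
    exact hprim.ne_zero hr.ne_zero rfl
  obtain ⟨P, hP⟩ := conj_of_pairing_u hF f hf x e lam he π hπ2 (ζ ^ s.val) (pow_ne_zero _ hζ0) hμ
  obtain ⟨P', hdet', he'⟩ := conj_det_one x P e lam he ⟨0, hpos⟩
  exact ⟨P', mem_of_det _ hdet', by rw [he']; exact hP⟩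

end backward

section rank

open Cfsg.Agent.S5981 (cnt rank_diag_sub cnt_le rank_conj)

/-- Ranks do not change under the field automorphism. -/
theorem rank_map_sigma (hF : Fintype.card F = q₀ ^ 2) (M : Mt) : (M.map (sigma hF)).rank = M.rank := by
  classical
  have h1 := LinearMap.finrank_range_add_finrank_ker M.mulVecLin
  have h2 := LinearMap.finrank_range_add_finrank_ker (M.map (sigma hF)).mulVecLin
  have hσinj : Function.Injective (fun v : Fin n → F => (sigma hF) ∘ v) := by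
    intro a b hab
    funext i
    have := congrFun hab i
    exact (sigma hF).injective this
  have hkey : ∀ v : Fin n → F, (M.map (sigma hF)) *ᵥ ((sigma hF) ∘ v) = (sigma hF) ∘ (M *ᵥ v) := by
    intro v
    funext i
    exact (RingHom.map_mulVec (sigma hF) M v i).symm
  have hσσ : ∀ v : Fin n → F, (sigma hF) ∘ ((sigma hF) ∘ v) = v := by
    intro v
    funext i
    exact sigma_sigma hF (v i)
  let e : LinearMap.ker M.mulVecLin ≃ LinearMap.ker (M.map (sigma hF)).mulVecLin :=
    { toFun := fun v => ⟨(sigma hF) ∘ v.1, by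
        rw [LinearMap.mem_ker, Matrix.mulVecLin_apply, hkey]
        have : M *ᵥ v.1 = 0 := v.2
        rw [this]
        funext i
        show (sigma hF) 0 = 0
        exact map_zero _⟩
      invFun := fun v => ⟨(sigma hF) ∘ v.1, by
        rw [LinearMap.mem_ker, Matrix.mulVecLin_apply]
        have h3 : (M.map (sigma hF)) *ᵥ v.1 = 0 := v.2
        have h4 := hkey ((sigma hF) ∘ v.1)
        rw [hσσ, h3] at h4
        funext i
        have h5 := congrFun h4 i
        simp only [Function.comp, Pi.zero_apply] at h5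
        apply (sigma hF).injective
        show _ = (sigma hF) 0
        rw [map_zero]
        exact h5.symm⟩
      left_inv := fun v => Subtype.ext (hσσ v.1)
      right_inv := fun v => Subtype.ext (hσσ v.1) }
  have h3 : finrank F (LinearMap.ker M.mulVecLin) = finrank F (LinearMap.ker (M.map (sigma hF)).mulVecLin) := by
    have hc := Fintype.card_congr e
    rw [Module.card_eq_pow_finrank (K := F), Module.card_eq_pow_finrank (K := F) (V := LinearMap.ker (M.map (sigma hF)).mulVecLin)] at hc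
    exact Nat.pow_right_injective (Fintype.one_lt_card) hc
  show finrank F (LinearMap.range (M.map (sigma hF)).mulVecLin) = finrank F (LinearMap.range M.mulVecLin)
  omega

/-- Rank symmetry for the standard Hermitian form. -/
theorem rank_sim_std (hF : Fintype.card F = q₀ ^ 2) (y : Mt) (hdet : y.det ≠ 0) (c : F)
    (hc : ∀ u v, hermForm n F q₀ (y *ᵥ u) (y *ᵥ v) = c * hermForm n F q₀ u v) (hcσ : c ^ q₀ = c) (α : F) (hα : α ≠ 0) :
    (y - α • 1).rank = (y - (c / α ^ q₀) • 1).rank := by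
  classical
  have hq0 : q₀ ≠ 0 := by
    have := two_le_q hF
    omega
  set S : Mt := y.map (sigma hF) with hS
  have hm : yᵀ * S = c • 1 := by
    ext i j
    have h := hc (Pi.single i 1) (Pi.single j 1)
    have h1 : hermForm n F q₀ (y *ᵥ Pi.single i 1) (y *ᵥ Pi.single j 1) = ∑ k, y k i * y k j ^ q₀ := by
      simp [hermForm]
    have h3 : hermForm n F q₀ (Pi.single i (1 : F)) (Pi.single j 1) = if i = j then 1 else 0 := by
      simp only [hermForm]
      rw [Finset.sum_eq_single i]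
      · by_cases hij : i = j
        · subst hij
          simp [hq0]
        · simp [Pi.single_apply, hij, hq0, Ne.symm hij]
      · intro k _ hk
        simp [Pi.single_apply, hk]
      · simp
    rw [h1, h3] at h
    simp only [Matrix.mul_apply, Matrix.transpose_apply, hS, Matrix.map_apply, sigma_apply, Matrix.smul_apply, smul_eq_mul, Matrix.one_apply]
    exact h
  have hSdet : S.det ≠ 0 := by
    intro h0
    have h1 := congrArg Matrix.det hm
    rw [Matrix.det_mul, h0, mul_zero, Matrix.det_smul, Matrix.det_one, mul_one] at h1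
    have hc0 : c = 0 := by
      by_contra hne
      exact pow_ne_zero _ hne h1.symm
    have h4 : S.det = (sigma hF) y.det := by
      rw [hS, ← RingHom.mapMatrix_apply, ← RingHom.map_det]
    rw [h0] at h4
    apply hdet
    exact (sigma hF).injective (by rw [map_zero]; exact h4.symm)
  set β := c / α ^ q₀ with hβ
  have hσβ : (sigma hF) β = c / α := by
    rw [hβ, map_div₀, map_pow, sigma_apply, sigma_apply, hcσ, ← pow_mul, ← pow_two, ← hF, FiniteField.pow_card]
  have hmapS : (y - β • 1).map (sigma hF) = S - (c / α) • 1 := by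
    ext i j
    simp only [Matrix.map_apply, Matrix.sub_apply, Matrix.smul_apply, smul_eq_mul, map_sub, map_mul, hσβ, hS]
    by_cases hij : i = j
    · subst hij
      simp
    · simp [Matrix.one_apply, hij, hq0]
  have h2 : (y - α • 1)ᵀ * S = ((-α) • 1) * (S - (c / α) • 1) := by
    have e1 : (y - α • 1)ᵀ = yᵀ - α • 1 := by
      rw [Matrix.transpose_sub, Matrix.transpose_smul, Matrix.transpose_one]
    rw [e1, Matrix.sub_mul, hm, Matrix.smul_mul, Matrix.one_mul, Matrix.smul_mul, Matrix.one_mul, smul_sub, smul_smul]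
    have e3 : -α * (c / α) = -c := by
      field_simp
    rw [e3, neg_smul, neg_smul]
    abel
  have hU2 : IsUnit ((-α) • (1 : Mt)).det := by
    rw [Matrix.det_smul, Matrix.det_one, mul_one]
    exact (pow_ne_zero _ (neg_ne_zero.mpr hα)).isUnit
  rw [← Matrix.rank_transpose, ← Matrix.rank_mul_eq_left_of_isUnit_det S _ hSdet.isUnit, h2,
    Matrix.rank_mul_eq_right_of_isUnit_det _ _ hU2, ← hmapS, rank_map_sigma]

/-- Multipliers lie in the subfield. -/
theorem mult_fixed (hn : 0 < n) (f : (Fin n → F) → (Fin n → F) → F) (hf : IsUnitaryFormPow q₀ f)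
    (y : Mt) (c : F) (hc : ∀ u v, f (y *ᵥ u) (y *ᵥ v) = c * f u v) : c ^ q₀ = c := by
  have h0 : (Pi.single ⟨0, hn⟩ 1 : Fin n → F) ≠ 0 := by
    intro h
    have := congrFun h ⟨0, hn⟩
    simp at this
  obtain ⟨-, ⟨w, hw⟩⟩ := hf.nondegenerate _ h0
  set u : Fin n → F := Pi.single ⟨0, hn⟩ 1 with hu
  have h1 := hf.herm (y *ᵥ u) (y *ᵥ w)
  rw [hc, hc, mul_pow, ← hf.herm] at h1
  exact (mul_right_cancel₀ hw h1).symm

/-- Rank symmetry for a general Hermitian form. -/
theorem rank_sim_u (hF : Fintype.card F = q₀ ^ 2) (hn : 0 < n) (f : (Fin n → F) → (Fin n → F) → F) (hf : IsUnitaryFormPow q₀ f)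
    (y : GL (Fin n) F) (c : F) (hc : ∀ u v, f ((y : Mt) *ᵥ u) ((y : Mt) *ᵥ v) = c * f u v) (α : F) (hα : α ≠ 0) :
    ((y : Mt) - α • 1).rank = ((y : Mt) - (c / α ^ q₀) • 1).rank := by
  classical
  obtain ⟨E, hE⟩ := exists_herm_equiv f hf.add_left hf.smul_left hf.herm hF (fun v hv => by
      by_contra h
      obtain ⟨-, ⟨x, hx⟩⟩ := hf.nondegenerate v h
      exact hx (hv x)) (k := n) (by simp)
  let P : GL (Fin n) F := Cfsg.Agent.Lib.MatConj.glOfEquiv E
  have hP : ∀ v, (P : Mt) *ᵥ v = E v := Cfsg.Agent.Lib.MatConj.glOfEquiv_mulVec E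
  have hy0 : ∀ u v, hermForm n F q₀ (((P⁻¹ * y * P : GL (Fin n) F) : Mt) *ᵥ u) (((P⁻¹ * y * P : GL (Fin n) F) : Mt) *ᵥ v) = c * hermForm n F q₀ u v := by
    intro u v
    have hPP : ∀ w : Fin n → F, (P : Mt) *ᵥ (((P⁻¹ : GL (Fin n) F) : Mt) *ᵥ w) = w := by
      intro w
      rw [Matrix.mulVec_mulVec, ← Units.val_mul, mul_inv_cancel]
      simp
    rw [← hE, ← hE]
    simp only [← hP]
    rw [Units.val_mul, Units.val_mul, ← Matrix.mulVec_mulVec, ← Matrix.mulVec_mulVec, ← Matrix.mulVec_mulVec, ← Matrix.mulVec_mulVec, hPP, hPP, hc]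
  have h1 := rank_sim_std hF _ (Cfsg.Agent.S5979.det_ne_zero_GL (P⁻¹ * y * P)) c hy0 (mult_fixed hn f hf y c hc) α hα
  rw [rank_conj, rank_conj] at h1
  exact h1

/-- Symmetry of the eigenvalue counts, for eigenvalues in the subfield. -/
theorem cnt_sym_u [DecidableEq F] (hF : Fintype.card F = q₀ ^ 2) (hn : 0 < n) (f : (Fin n → F) → (Fin n → F) → F) (hf : IsUnitaryFormPow q₀ f)
    (lam : Fin n → F) (hlam : ∀ i, lam i ^ q₀ = lam i) (x g : GL (Fin n) F)
    (hx : (x : Mt) = diagonal lam) (hg : g⁻¹ * x * g ∈ similarityGroup f) :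
    ∃ μ : F, μ ≠ 0 ∧ ∀ α : F, α ≠ 0 → cnt lam α = cnt lam (μ / α) := by
  obtain ⟨c, hc⟩ := hg
  have hcσ := mult_fixed hn f hf _ _ hc
  have hc0 : (c : F) ≠ 0 := c.ne_zero
  refine ⟨c, hc0, fun α hα => ?_⟩
  by_cases hασ : α ^ q₀ = α
  · have h1 := rank_sim_u hF hn f hf (g⁻¹ * x * g) c hc α hα
    rw [rank_conj, rank_conj, hx, rank_diag_sub, rank_diag_sub, hασ] at h1
    have := cnt_le lam α
    have := cnt_le lam ((c : F) / α)
    omega
  · have h1 : cnt lam α = 0 := by
      unfold cnt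
      rw [Finset.card_eq_zero, Finset.filter_eq_empty_iff]
      intro i _ hi
      apply hασ
      rw [← hi, hlam]
    have h2 : cnt lam ((c : F) / α) = 0 := by
      unfold cnt
      rw [Finset.card_eq_zero, Finset.filter_eq_empty_iff]
      intro i _ hi
      apply hασ
      have h3 := hlam i
      rw [hi, div_pow, hcσ, div_eq_div_iff (pow_ne_zero _ hα) hα] at h3
      exact (mul_left_cancel₀ hc0 h3).symm
    rw [h1, h2]

end rank

section count

/-- A fixed point free isometry on the image of `y - 1` counts isotropic vectors. -/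
theorem count_isotropic {r : ℕ} [hrf : Fact r.Prime] (hF : Fintype.card F = q₀ ^ 2) (hrF : (r : F) ≠ 0)
    (f : (Fin n → F) → (Fin n → F) → F) (hf : IsUnitaryFormPow q₀ f) (y : GL (Fin n) F)
    (hy : ∀ u v, f ((y : Mt) *ᵥ u) ((y : Mt) *ᵥ v) = f u v) (hyr : y ^ r = 1) {D : ℕ} (hD : ((y : Mt) - 1).rank = D) :
    r ∣ (if Even D then (q₀ ^ D - 1) * (q₀ ^ (D - 1) + 1) else (q₀ ^ D + 1) * (q₀ ^ (D - 1) - 1)) := by
  classical
  set W : Submodule F (Fin n → F) := LinearMap.range ((y : Mt) - 1).mulVecLin with hW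
  have hWf : finrank F W = D := hD
  have hWm : ∀ u, u ∈ W ↔ ∃ v, (y : Mt) *ᵥ v - v = u := by
    intro u
    rw [hW, LinearMap.mem_range]
    simp only [Matrix.mulVecLin_apply, Matrix.sub_mulVec, Matrix.one_mulVec]
  have hyW : ∀ w ∈ W, (y : Mt) *ᵥ w ∈ W := by
    intro w hw
    obtain ⟨v, rfl⟩ := (hWm w).mp hw
    rw [hWm]
    exact ⟨(y : Mt) *ᵥ v, by rw [Matrix.mulVec_sub]⟩
  have fix0 : ∀ u ∈ W, (y : Mt) *ᵥ u = u → u = 0 := by
    intro u hu hyu
    obtain ⟨v, hv⟩ := (hWm u).mp hu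
    have hk : ∀ k : ℕ, ((y ^ k : GL (Fin n) F) : Mt) *ᵥ v = v + (k : F) • u := by
      intro k
      induction k with
      | zero => simp
      | succ k ih =>
        rw [pow_succ', Units.val_mul, ← Matrix.mulVec_mulVec, ih, Matrix.mulVec_add, Matrix.mulVec_smul, hyu, ← hv]
        push_cast
        rw [add_smul, one_smul]
        abel
    have h1 := hk r
    rw [hyr] at h1
    simp only [Units.val_one, Matrix.one_mulVec] at h1
    have h2 : (r : F) • u = 0 := by
      have h3 := congrArg (fun a => a - v) h1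
      simpa using h3.symm
    exact (smul_eq_zero.mp h2).resolve_left hrF
  have hr' := Cfsg.Agent.S5984.H_add_right f hf.add_left hf.smul_left hf.herm hF
  have hnd : ∀ u ∈ W, (∀ w ∈ W, f u w = 0) → u = 0 := by
    intro u hu hperp
    apply fix0 u hu
    set u' := ((y⁻¹ : GL (Fin n) F) : Mt) *ᵥ u with hu'
    have hyu' : (y : Mt) *ᵥ u' = u := by
      rw [hu', Matrix.mulVec_mulVec, ← Units.val_mul, mul_inv_cancel]
      simp
    have h1 : ∀ v, f u' v = f u v := by
      intro v
      have h2 := hperp ((y : Mt) *ᵥ v - v) ((hWm _).mpr ⟨v, rfl⟩)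
      have h3 : f u ((y : Mt) *ᵥ v) = f u v := by
        have h4 := hr' u ((y : Mt) *ᵥ v - v) v
        rw [sub_add_cancel, h2, zero_add] at h4
        exact h4
      rw [← hy u' v, hyu', h3]
    have h2 : u' = u := by
      by_contra hne
      obtain ⟨-, ⟨c, hc⟩⟩ := hf.nondegenerate (u' - u) (sub_ne_zero.mpr hne)
      apply hc
      rw [Cfsg.Agent.S5984.H_sub_left f hf.add_left hf.smul_left hf.herm, h1, sub_self]
    rw [← h2, hyu', h2]
  let H : W → W → F := fun a b => f a b
  obtain ⟨E, hE⟩ := exists_herm_equiv H (fun a b c => hf.add_left _ _ _) (fun c a b => hf.smul_left _ _ _) (fun a b => hf.herm _ _) hF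
    (fun v hv => Subtype.ext (hnd v v.2 (fun w hw => hv ⟨w, hw⟩))) hWf
  let T : W → W := fun w => ⟨(y : Mt) *ᵥ w, hyW w w.2⟩
  have hTk : ∀ (k : ℕ) (w : W), ((T^[k] w : W) : Fin n → F) = ((y ^ k : GL (Fin n) F) : Mt) *ᵥ w := by
    intro k w
    induction k with
    | zero => simp
    | succ k ih =>
      rw [Function.iterate_succ_apply']
      show (y : Mt) *ᵥ ((T^[k] w : W) : Fin n → F) = _
      rw [ih, pow_succ', Units.val_mul, Matrix.mulVec_mulVec]
  have hcong : Nat.card {w : W // H w w = 0} ≡ 1 [MOD r] := by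
    refine Cfsg.Agent.S5981.card_modEq_fpf (F := F) (fun w : W => H w w) T 0 ?_ ?_ ?_ ?_ ?_
    · exact Cfsg.Agent.S5984.H_zero_left H (fun a b c => hf.add_left _ _ _) (fun c a b => hf.smul_left _ _ _) (fun a b => hf.herm _ _) 0
    · apply Subtype.ext
      show (y : Mt) *ᵥ (0 : Fin n → F) = 0
      exact Matrix.mulVec_zero _
    · intro v
      exact hy _ _
    · intro v
      apply Subtype.ext
      rw [hTk, hyr]
      simp
    · intro v hv
      apply Subtype.ext
      exact fix0 v v.2 (congrArg Subtype.val hv)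
  have hcard : Nat.card {w : W // H w w = 0} = Nat.card {u : Fin D → F // hermForm D F q₀ u u = 0} := by
    symm
    refine Nat.card_congr ⟨fun u => ⟨E u.1, by rw [hE]; exact u.2⟩, fun w => ⟨E.symm w.1, ?_⟩, fun u => ?_, fun w => ?_⟩
    · rw [← hE]
      simpa using w.2
    · simp
    · simp
  rw [hcard, card_isotropic hF D] at hcong
  have h1 := Nat.ModEq.add_right_cancel' 1 (show _ + 1 ≡ 0 + 1 [MOD r] by simpa using hcong)
  exact (Nat.modEq_zero_iff_dvd).mp h1

end count

section index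

/-- The index hypothesis in terms of the order formulas. -/
theorem index_u {r : ℕ} (hr : r.Prime) (hF : Fintype.card F = q₀ ^ 2) (hn : 1 ≤ n) (f : (Fin n → F) → (Fin n → F) → F)
    (hf : IsUnitaryFormPow q₀ f) (hrq : ¬ r ∣ q₀)
    (hΩ : r ∣ (similarityGroup f).relIndex (specialLinear (Fin n) F)) :
    ∃ k, 1 ≤ k ∧ k < n ∧ r ∣ (if Even k then q₀ ^ (k + 1) - 1 else q₀ ^ (k + 1) + 1) := by
  classical
  have hq₀2 := two_le_q hF
  set S := specialLinear (Fin n) F with hS
  set H := similarityGroup f with hH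
  set G : Subgroup (GL (Fin n) F) := preserving (Units.coeHom Mt) f with hG
  set A : Subgroup (GL (Fin n) F) := G ⊓ S with hA
  have hAS : A ≤ S := inf_le_right
  have hAH : A.subgroupOf S ≤ H.subgroupOf S := by
    intro g hg
    rw [Subgroup.mem_subgroupOf] at hg ⊢
    refine ⟨1, fun u v => ?_⟩
    have := hg.1 u v
    rw [Units.val_one, one_mul]
    exact this
  have h1 : Nat.card A ∣ Nat.card (H.subgroupOf S) := by
    have h2 := Subgroup.card_dvd_of_le hAH
    rwa [Nat.card_congr (Subgroup.subgroupOfEquivOfLe hAS).toEquiv] at h2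
  have h3 : Nat.card (H.subgroupOf S) * H.relIndex S = Nat.card S := Subgroup.card_mul_index _
  have h4 : r * Nat.card A ∣ Nat.card S := by
    rw [← h3, mul_comm r]
    exact Nat.mul_dvd_mul h1 hΩ
  -- transport
  obtain ⟨E, hE⟩ := exists_herm_equiv f hf.add_left hf.smul_left hf.herm hF (fun v hv => by
      by_contra h
      obtain ⟨-, ⟨x, hx⟩⟩ := hf.nondegenerate v h
      exact hx (hv x)) (k := n) (by simp)
  let P : GL (Fin n) F := Cfsg.Agent.Lib.MatConj.glOfEquiv E
  have hP : ∀ v, (P : Mt) *ᵥ v = E v := Cfsg.Agent.Lib.MatConj.glOfEquiv_mulVec E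
  have hPP : ∀ w : Fin n → F, (P : Mt) *ᵥ (((P⁻¹ : GL (Fin n) F) : Mt) *ᵥ w) = w := by
    intro w
    rw [Matrix.mulVec_mulVec, ← Units.val_mul, mul_inv_cancel]
    simp
  have hPP' : ∀ w : Fin n → F, ((P⁻¹ : GL (Fin n) F) : Mt) *ᵥ ((P : Mt) *ᵥ w) = w := by
    intro w
    rw [Matrix.mulVec_mulVec, ← Units.val_mul, inv_mul_cancel]
    simp
  have hEf : ∀ u v, f ((P : Mt) *ᵥ u) ((P : Mt) *ᵥ v) = hermForm n F q₀ u v := by
    intro u v
    rw [hP, hP, hE]
  have hdetconj : ∀ g : GL (Fin n) F, (g ∈ S ↔ P * g * P⁻¹ ∈ S) := by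
    intro g
    show Matrix.GeneralLinearGroup.det _ = 1 ↔ Matrix.GeneralLinearGroup.det _ = 1
    rw [map_mul, map_mul, map_inv, mul_comm (Matrix.GeneralLinearGroup.det P), mul_inv_cancel_right]
  have hGconj : ∀ g : GL (Fin n) F, (g ∈ GU n F q₀ ↔ P * g * P⁻¹ ∈ G) := by
    intro g
    constructor
    · intro hg u v
      show f (((P * g * P⁻¹ : GL (Fin n) F) : Mt) *ᵥ u) (((P * g * P⁻¹ : GL (Fin n) F) : Mt) *ᵥ v) = f u v
      rw [Units.val_mul, Units.val_mul, ← Matrix.mulVec_mulVec, ← Matrix.mulVec_mulVec, ← Matrix.mulVec_mulVec, ← Matrix.mulVec_mulVec, hEf]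
      have h5 : hermForm n F q₀ ((g : Mt) *ᵥ (((P⁻¹ : GL (Fin n) F) : Mt) *ᵥ u)) ((g : Mt) *ᵥ (((P⁻¹ : GL (Fin n) F) : Mt) *ᵥ v)) =
          hermForm n F q₀ (((P⁻¹ : GL (Fin n) F) : Mt) *ᵥ u) (((P⁻¹ : GL (Fin n) F) : Mt) *ᵥ v) := hg _ _
      rw [h5, ← hEf, hPP, hPP]
    · intro hg u v
      have h5 : f (((P * g * P⁻¹ : GL (Fin n) F) : Mt) *ᵥ ((P : Mt) *ᵥ u)) (((P * g * P⁻¹ : GL (Fin n) F) : Mt) *ᵥ ((P : Mt) *ᵥ v)) = f ((P : Mt) *ᵥ u) ((P : Mt) *ᵥ v) := hg _ _
      rw [Units.val_mul, Units.val_mul, ← Matrix.mulVec_mulVec, ← Matrix.mulVec_mulVec, ← Matrix.mulVec_mulVec, ← Matrix.mulVec_mulVec, hPP', hPP', hEf, hEf] at h5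
      exact h5
  have hAcard : Nat.card A = Nat.card (SU n F q₀) := by
    rw [← card_S n q₀]
    symm
    refine Nat.card_congr ⟨fun g => ⟨P * g.1 * P⁻¹, (hGconj g.1).mp g.2.1, (hdetconj g.1).mp g.2.2⟩, fun g => ⟨P⁻¹ * g.1 * P, ?_, ?_⟩, fun g => ?_, fun g => ?_⟩
    · show P⁻¹ * g.1 * P ∈ GU n F q₀
      rw [hGconj]
      have : P * (P⁻¹ * g.1 * P) * P⁻¹ = g.1 := by group
      rw [this]
      exact g.2.1
    · show P⁻¹ * g.1 * P ∈ S
      rw [hdetconj]
      have : P * (P⁻¹ * g.1 * P) * P⁻¹ = g.1 := by group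
      rw [this]
      exact g.2.2
    · apply Subtype.ext
      show P⁻¹ * (P * g.1 * P⁻¹) * P = g.1
      group
    · apply Subtype.ext
      show P * (P⁻¹ * g.1 * P) * P⁻¹ = g.1
      group
  rw [hAcard] at h4
  have h5 := succ_mul_card_SU (n := n) hF hn
  rw [Cfsg.Agent.Lib.UnitaryOrder.card_GU hF] at h5
  have h6 := Cfsg.Agent.S5981.card_GL_spec (F := F) (n := n) (by omega)
  rw [Matrix.card_GL_field, Cfsg.Agent.S5981.prod_gl _ _ Fintype.card_pos, hF] at h6
  -- factor the products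
  set g₁ : ℕ → ℕ := fun i => if Even i then q₀ ^ (i + 1) + 1 else q₀ ^ (i + 1) - 1 with hg₁
  set h₁ : ℕ → ℕ := fun i => if Even i then q₀ ^ (i + 1) - 1 else q₀ ^ (i + 1) + 1 with hh₁
  have hpow1 : ∀ i : ℕ, 1 ≤ q₀ ^ (i + 1) := fun i => Nat.one_le_pow _ _ (by omega)
  have hfac : ∀ i, (q₀ ^ 2) ^ (i + 1) - 1 = g₁ i * h₁ i := by
    intro i
    have e1 : (q₀ ^ 2) ^ (i + 1) = q₀ ^ (i + 1) * q₀ ^ (i + 1) := by
      rw [← pow_mul, ← pow_add]
      congr 1
      ring
    rw [e1]
    have hp := hpow1 i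
    simp only [hg₁, hh₁]
    zify [Nat.one_le_iff_ne_zero.mpr (Nat.mul_ne_zero (by omega : q₀ ^ (i + 1) ≠ 0) (by omega : q₀ ^ (i + 1) ≠ 0))]
    split_ifs <;> (push_cast [hp]; ring)
  have hprod : ∏ k ∈ Finset.range n, ((q₀ ^ 2) ^ (k + 1) - 1) = (∏ i ∈ Finset.range n, g₁ i) * ∏ i ∈ Finset.range n, h₁ i := by
    rw [← Finset.prod_mul_distrib]
    exact Finset.prod_congr rfl fun i _ => hfac i
  rw [hprod] at h6
  have hg₀ : 0 < ∏ i ∈ Finset.range n, g₁ i := by
    apply Finset.prod_pos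
    intro i _
    simp only [hg₁]
    split_ifs with he
    · omega
    · have : 2 ≤ i + 1 := by
        by_contra hlt
        have : i = 0 := by omega
        subst this
        exact he (by simp)
      have h9 : 1 < q₀ ^ (i + 1) := Nat.one_lt_pow (by omega) (by omega)
      omega
  have hn' : n = (n - 1) + 1 := by omega
  have hh₀ : ∏ i ∈ Finset.range n, h₁ i = (q₀ - 1) * ∏ i ∈ Finset.range (n - 1), h₁ (i + 1) := by
    rw [hn', Finset.prod_range_succ', mul_comm]
    simp [hh₁]
  have hq1 : Fintype.card F - 1 = (q₀ + 1) * (q₀ - 1) := by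
    rw [hF]
    obtain ⟨k, rfl⟩ : ∃ k, q₀ = k + 1 := ⟨q₀ - 1, by omega⟩
    simp only [Nat.add_sub_cancel]
    have : (k + 1) ^ 2 = (k + 1 + 1) * k + 1 := by ring
    omega
  set R := ∏ i ∈ Finset.range (n - 1), h₁ (i + 1) with hR
  set N₁ := q₀ ^ (n * (n - 1) / 2) with hN₁
  set N₂ := (q₀ ^ 2) ^ (∑ i ∈ Finset.range n, i) with hN₂
  rw [hh₀] at h6
  have hq1' : (q₀ ^ 2 - 1) = (q₀ + 1) * (q₀ - 1) := by
    rw [← hF]
    exact hq1
  obtain ⟨c, hc⟩ := h4
  -- `|S| = r |SU| c`
  have h7 : (q₀ + 1) * (q₀ - 1) * (N₁ * (∏ i ∈ Finset.range n, g₁ i) * (r * c)) =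
      N₂ * ((∏ i ∈ Finset.range n, g₁ i) * ((q₀ - 1) * R)) * (q₀ + 1) := by
    have e1 : Nat.card S * (q₀ ^ 2 - 1) = (r * Nat.card (SU n F q₀) * c) * ((q₀ + 1) * (q₀ - 1)) := by
      rw [hc, hq1']
    have e2 : (q₀ + 1) * Nat.card (SU n F q₀) = N₁ * ∏ i ∈ Finset.range n, g₁ i := h5
    calc (q₀ + 1) * (q₀ - 1) * (N₁ * (∏ i ∈ Finset.range n, g₁ i) * (r * c))
        = (q₀ + 1) * (q₀ - 1) * (((q₀ + 1) * Nat.card (SU n F q₀)) * (r * c)) := by rw [e2]
      _ = (r * Nat.card (SU n F q₀) * c * ((q₀ + 1) * (q₀ - 1))) * (q₀ + 1) := by ring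
      _ = (Nat.card S * (q₀ ^ 2 - 1)) * (q₀ + 1) := by rw [e1]
      _ = _ := by
        rw [← h6]
  have hq₀1 : 0 < q₀ - 1 := by omega
  have h8 : N₁ * (r * c) = N₂ * R := by
    have hpos : 0 < (∏ i ∈ Finset.range n, g₁ i) * ((q₀ + 1) * (q₀ - 1)) := Nat.mul_pos hg₀ (Nat.mul_pos (by omega) hq₀1)
    apply Nat.eq_of_mul_eq_mul_left hpos
    calc (∏ i ∈ Finset.range n, g₁ i) * ((q₀ + 1) * (q₀ - 1)) * (N₁ * (r * c))
        = (q₀ + 1) * (q₀ - 1) * (N₁ * (∏ i ∈ Finset.range n, g₁ i) * (r * c)) := by ring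
      _ = _ := h7
      _ = _ := by ring
  have h9 : r ∣ N₂ * R := by
    rw [← h8]
    exact Dvd.dvd.mul_left (Dvd.intro _ rfl) _
  rcases (Nat.Prime.dvd_mul hr).mp h9 with h10 | h10
  · exact absurd (hr.dvd_of_dvd_pow (hr.dvd_of_dvd_pow h10)) hrq
  · obtain ⟨k, hk, hkd⟩ := (Prime.dvd_finset_prod_iff hr.prime _).mp h10
    have := Finset.mem_range.mp hk
    exact ⟨k + 1, by omega, by omega, hkd⟩

end index

section forward

open Cfsg.Agent.S5981 (lam3 cnt lam3_ne lam3_pow lam3_a lam3_b lam3_c det_lam3 pat1 pat2 diag_elt exists_order exists_block_elt rank_conj)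

/-- Counterexample for `r = 2`. -/
theorem forward2 {q : ℕ} (hq : Fintype.card F = q) (hq₀ : q = q₀ ^ 2) (hodd : Odd q) (hn : 3 ≤ n)
    (f : (Fin n → F) → (Fin n → F) → F) (hf : IsUnitaryFormPow q₀ f)
    (hfix : ∀ x ∈ specialLinear (Fin n) F, (∃ z : F, ((x ^ 2 : GL (Fin n) F) : Mt) = z • (1 : Mt)) →
      (∀ z : F, (x : Mt) ≠ z • (1 : Mt)) → ∃ g ∈ specialLinear (Fin n) F, g⁻¹ * x * g ∈ similarityGroup f) :
    padicValNat 2 n ≤ padicValNat 2 (q - 1) := by
  classical
  by_contra hnot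
  have hlt : padicValNat 2 (q - 1) + 1 ≤ padicValNat 2 n := by omega
  have hF : Fintype.card F = q₀ ^ 2 := hq.trans hq₀
  have hq₀2 := two_le_q hF
  have hn0 : 0 < n := by omega
  have hq₀odd : Odd q₀ := by
    rw [hq₀] at hodd
    exact (Nat.odd_pow_iff (by norm_num)).mp hodd
  have h2 := Cfsg.Agent.Lib.InvolConj.two_ne_zero_of_odd hq hodd
  have hne : 2 ∣ n := by
    apply dvd_of_one_le_padicValNat
    omega
  obtain ⟨m, hm⟩ := hne
  have hm0 : m ≠ 0 := by
    rintro rfl
    omega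
  have hvm : padicValNat 2 (q - 1) ≤ padicValNat 2 m := by
    have h5 : padicValNat 2 n = 1 + padicValNat 2 m := by
      rw [hm, padicValNat.mul (by norm_num) hm0]
      simp
    omega
  obtain ⟨g₀, hg₀, hgn, hgm⟩ := Cfsg.Agent.Lib.InvolConj.exists_nonsquare_pow_one hq hodd m hm0 hvm
  have hneg1 : IsSquare (-1 : F) := by
    rw [FiniteField.isSquare_neg_one_iff, hq, hq₀]
    obtain ⟨k, rfl⟩ := hq₀odd
    have : (2 * k + 1) ^ 2 % 4 = 1 := by
      have e : (2 * k + 1) ^ 2 = 4 * (k * k + k) + 1 := by ring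
      omega
    omega
  set z := -g₀ with hz
  have hznot : ¬ IsSquare z := by
    intro h
    apply hgn
    have : g₀ = (-1) * z := by rw [hz]; ring
    rw [this]
    exact hneg1.mul h
  have hz0 : z ≠ 0 := neg_ne_zero.mpr hg₀
  obtain ⟨X₀, hXX, hXd⟩ := Cfsg.Agent.Lib.InvolConj.exists_block (F := F) (n := n) m hm z
  have hXd' : X₀.det = 1 := by
    rw [hXd, hz, neg_neg, hgm]
  let x : GL (Fin n) F := Matrix.GeneralLinearGroup.mkOfDetNeZero X₀ (by rw [hXd']; exact one_ne_zero)
  have hxv : (x : Mt) = X₀ := rfl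
  have hmem : x ∈ specialLinear (Fin n) F := by
    show Matrix.GeneralLinearGroup.det _ = 1
    apply Units.ext
    exact hXd'
  have hx2 : ((x ^ 2 : GL (Fin n) F) : Mt) = z • (1 : Mt) := by
    rw [pow_two, Units.val_mul, hxv, hXX]
  have hns : ∀ c : F, (x : Mt) ≠ c • (1 : Mt) := by
    intro c hc
    apply hznot
    have h1 : c ^ 2 • (1 : Mt) = z • 1 := by
      rw [← hXX, ← hxv, hc, Matrix.smul_mul, Matrix.mul_smul, Matrix.one_mul, smul_smul, pow_two]
    have h3 := congrFun (congrFun h1 ⟨0, hn0⟩) ⟨0, hn0⟩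
    simp at h3
    exact ⟨c, by rw [← h3]; ring⟩
  obtain ⟨g, -, c, hc⟩ := hfix x hmem ⟨z, hx2⟩ hns
  set y := g⁻¹ * x * g with hy
  have hyy : (y : Mt) * y = z • 1 := by
    have h1 : y * y = g⁻¹ * (x * x) * g := by
      rw [hy]
      group
    rw [← Units.val_mul, h1, Units.val_mul, Units.val_mul, Units.val_mul, hxv, hXX, Matrix.mul_smul, Matrix.smul_mul, Matrix.mul_one,
      ← Units.val_mul, inv_mul_cancel]
    rfl
  have hcσ := mult_fixed hn0 f hf _ _ hc
  -- compute the square of the multiplier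
  have hs : ((c : F)) ^ 2 = z * z ^ q₀ := by
    have h0 : (Pi.single ⟨0, hn0⟩ 1 : Fin n → F) ≠ 0 := by
      intro h
      have := congrFun h ⟨0, hn0⟩
      simp at this
    obtain ⟨-, ⟨w, hw⟩⟩ := hf.nondegenerate _ h0
    set u : Fin n → F := Pi.single ⟨0, hn0⟩ 1 with hu
    have h1 := hc ((y : Mt) *ᵥ u) ((y : Mt) *ᵥ w)
    rw [Matrix.mulVec_mulVec, Matrix.mulVec_mulVec, hyy, Matrix.smul_mulVec, Matrix.smul_mulVec, Matrix.one_mulVec, Matrix.one_mulVec, hc,
      hf.smul_left, Cfsg.Agent.S5984.H_smul_right f hf.add_left hf.smul_left hf.herm] at h1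
    have h3 : (c : F) ^ 2 * f u w = (z * z ^ q₀) * f u w := by
      linear_combination -h1
    exact mul_right_cancel₀ hw h3
  have hc0 : (c : F) ≠ 0 := c.ne_zero
  have hcq : (c : F) ^ (q₀ - 1) = 1 := by
    have e1 : (c : F) ^ q₀ = (c : F) ^ (q₀ - 1) * c := by
      rw [← pow_succ]
      congr 1
      omega
    have h3 : (c : F) ^ (q₀ - 1) * c = 1 * c := by
      rw [← e1, hcσ, one_mul]
    exact mul_right_cancel₀ hc0 h3
  apply hznot
  rw [Cfsg.Agent.Lib.InvolConj.isSquare_iff_pow hq hodd hz0]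
  obtain ⟨k, hk⟩ := hq₀odd
  have e1 : (q - 1) / 2 = (q₀ + 1) * k := by
    rw [hq₀, hk]
    have : (2 * k + 1) ^ 2 - 1 = 2 * ((2 * k + 1 + 1) * k) := by
      have e : (2 * k + 1) ^ 2 = 2 * ((2 * k + 1 + 1) * k) + 1 := by ring
      omega
    rw [this]
    simp
  have e2 : q₀ - 1 = 2 * k := by omega
  rw [e1, pow_mul]
  have e3 : z ^ (q₀ + 1) = (c : F) ^ 2 := by
    rw [hs, pow_succ]
    ring
  rw [e3, ← pow_mul, ← e2, hcq]

/-- Elements of the subfield. -/
theorem lam3_fix (s t : ℕ) {a b c : F} (ha : a ^ q₀ = a) (hb : b ^ q₀ = b) (hc : c ^ q₀ = c) (i : Fin n) :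
    (lam3 n s t a b c i) ^ q₀ = lam3 n s t a b c i := by
  unfold lam3
  split_ifs <;> assumption

/-- Multipliers of elements of order `r` when `r ∤ q - 1`. -/
theorem mult_one_u (hn : 0 < n) (f : (Fin n → F) → (Fin n → F) → F) (hf : IsUnitaryFormPow q₀ f)
    (y : GL (Fin n) F) (c : F) (hc : ∀ u v, f ((y : Mt) *ᵥ u) ((y : Mt) *ᵥ v) = c * f u v) {r : ℕ} (hyr : y ^ r = 1) : c ^ r = 1 := by
  have hk : ∀ (k : ℕ) u v, f (((y ^ k : GL (Fin n) F) : Mt) *ᵥ u) (((y ^ k : GL (Fin n) F) : Mt) *ᵥ v) = c ^ k * f u v := by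
    intro k
    induction k with
    | zero =>
      intro u v
      simp
    | succ k ih =>
      intro u v
      rw [pow_succ', Units.val_mul, ← Matrix.mulVec_mulVec, ← Matrix.mulVec_mulVec, hc, ih, pow_succ']
      ring
  have h0 : (Pi.single ⟨0, hn⟩ 1 : Fin n → F) ≠ 0 := by
    intro h
    have := congrFun h ⟨0, hn⟩
    simp at this
  obtain ⟨-, ⟨w, hw⟩⟩ := hf.nondegenerate _ h0
  have h1 := hk r (Pi.single ⟨0, hn⟩ 1) w
  rw [hyr] at h1
  simp only [Units.val_one, Matrix.one_mulVec] at h1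
  have h3 : (c ^ r) * f (Pi.single ⟨0, hn⟩ 1) w = 1 * f (Pi.single ⟨0, hn⟩ 1) w := by
    rw [one_mul]
    exact h1.symm
  exact mul_right_cancel₀ hw h3

/-- The main forward direction for odd `r`. -/
theorem forward_odd {q r p : ℕ} [Fact p.Prime] [CharP F p] (hq : Fintype.card F = q) (hq₀ : q = q₀ ^ 2) (hn : 3 ≤ n)
    (f : (Fin n → F) → (Fin n → F) → F) (hf : IsUnitaryFormPow q₀ f) [hrf : Fact r.Prime] (hrp : r ≠ p) (hr2 : r ≠ 2) (hgap : ¬ (n = 6 ∧ r = 3))
    (hΩ : r ∣ (similarityGroup f).relIndex (specialLinear (Fin n) F))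
    (hfix : ∀ x ∈ specialLinear (Fin n) F, (∃ z : F, ((x ^ r : GL (Fin n) F) : Mt) = z • (1 : Mt)) →
      (∀ z : F, (x : Mt) ≠ z • (1 : Mt)) → ∃ g ∈ specialLinear (Fin n) F, g⁻¹ * x * g ∈ similarityGroup f) :
    (r = 3 ∨ r = 5) ∧ n = r ∧ padicValNat r (q₀ - 1) = 1 := by
  classical
  have hr : r.Prime := hrf.out
  have hp : p.Prime := Fact.out
  have hF : Fintype.card F = q₀ ^ 2 := hq.trans hq₀
  have hq₀2 := two_le_q hF
  have hn0 : 0 < n := by omega
  have hrF : (r : F) ≠ 0 := by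
    intro h0
    have := (CharP.cast_eq_zero_iff F p r).mp h0
    exact hrp ((Nat.prime_dvd_prime_iff_eq hp hr).mp this).symm
  have hrq : ¬ r ∣ q := by
    intro h
    obtain ⟨e, _, he⟩ := FiniteField.card F p
    rw [← hq, he] at h
    exact hrp ((Nat.prime_dvd_prime_iff_eq hr hp).mp (hr.dvd_of_dvd_pow h))
  have hrq₀ : ¬ r ∣ q₀ := fun h => hrq (by
    rw [hq₀]
    exact Dvd.dvd.trans h (dvd_pow_self q₀ two_ne_zero))
  have hfac : q - 1 = (q₀ - 1) * (q₀ + 1) := by
    rw [hq₀]
    obtain ⟨k, rfl⟩ : ∃ k, q₀ = k + 1 := ⟨q₀ - 1, by omega⟩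
    simp only [Nat.add_sub_cancel]
    have : (k + 1) ^ 2 = k * (k + 1 + 1) + 1 := by ring
    omega
  by_contra hnot
  by_cases hq1 : r ∣ q₀ - 1
  · -- the diagonal patterns
    have engine : ∀ lam : Fin n → F, (∀ i, lam i ≠ 0) → ∏ i, lam i = 1 → (∀ i, lam i ^ q₀ = lam i) → (∃ z, ∀ i, lam i ^ r = z) → (∃ i j, lam i ≠ lam j) →
        ∃ μ : F, μ ≠ 0 ∧ ∀ α : F, α ≠ 0 → cnt lam α = cnt lam (μ / α) := by
      intro lam hne hdet hσ ⟨z, hz⟩ ⟨i, j, hij⟩
      obtain ⟨x, hx, hxv⟩ := diag_elt lam hne hdet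
      obtain ⟨g, -, hg⟩ := hfix x hx ⟨z, by
        rw [Units.val_pow_eq_pow_val, hxv, Matrix.diagonal_pow, ← Matrix.diagonal_one, ← Matrix.diagonal_smul]
        congr 1
        funext a
        simp [hz]⟩ (by
        intro t ht
        rw [hxv] at ht
        have h1 := congrFun (congrFun ht i) i
        have h2 := congrFun (congrFun ht j) j
        simp at h1 h2
        exact hij (h1.trans h2.symm))
      exact cnt_sym_u hF hn0 f hf lam hσ x g hxv hg
    have hfixed : ∀ (w : F) (d : ℕ), w ^ d = 1 → d ∣ q₀ - 1 → w ^ q₀ = w := by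
      intro w d hw hd
      obtain ⟨c, hc⟩ := hd
      have e1 : q₀ = d * c + 1 := by omega
      rw [e1, pow_succ, pow_mul, hw, one_pow, one_mul]
    have hcard1 : ∀ d, d ∣ q₀ - 1 → d ∣ Fintype.card F - 1 := by
      intro d hd
      rw [hq, hfac]
      exact Dvd.dvd.mul_right hd _
    obtain ⟨ζ, hζ⟩ := exists_order (F := F) r (hcard1 r hq1)
    have hζr : ζ ^ r = 1 := by rw [← hζ]; exact pow_orderOf_eq_one ζ
    have hζ0 : ζ ≠ 0 := by
      rintro rfl
      rw [zero_pow hr.ne_zero] at hζr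
      exact zero_ne_one hζr
    have hζσ : ζ ^ q₀ = ζ := hfixed ζ r hζr hq1
    have hsm : ∀ k, 0 < k → k < r → ζ ^ k ≠ 1 := fun k h1 h2 =>
      pow_ne_one_of_lt_orderOf h1.ne' (by rw [hζ]; exact h2)
    have hr3' : 3 ≤ r := by
      have := hr.two_le
      omega
    have hz1 : ζ ≠ 1 := by
      have := hsm 1 one_pos (by omega)
      simpa using this
    have hz2 : ζ ^ 2 ≠ 1 := hsm 2 two_pos (by omega)
    have hdvd2 : ¬ (r ^ 2 ∣ q₀ - 1) → padicValNat r (q₀ - 1) = 1 := by
      intro h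
      haveI : Fact r.Prime := ⟨hr⟩
      have h0 : q₀ - 1 ≠ 0 := by omega
      have h1 := (padicValNat_dvd_iff_le (p := r) h0 (n := 1)).mp (by simpa using hq1)
      by_contra hne
      apply h
      exact (padicValNat_dvd_iff_le (p := r) h0 (n := 2)).mpr (by omega)
    have h1σ : (1 : F) ^ q₀ = 1 := one_pow _
    by_cases hr3 : r = 3
    · subst hr3
      by_cases hn3 : n = 3
      · subst hn3
        have hcube : (3 : ℕ) ^ 2 ∣ q₀ - 1 := by
          by_contra h
          exact hnot ⟨Or.inl rfl, rfl, hdvd2 h⟩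
        obtain ⟨w, hw⟩ := exists_order (F := F) (3 ^ 2) (hcard1 _ hcube)
        have hw9 : w ^ 9 = 1 := by
          have := pow_orderOf_eq_one w
          rw [hw] at this
          simpa using this
        have hw0 : w ≠ 0 := by
          rintro rfl
          simp at hw9
        have hwσ : w ^ q₀ = w := hfixed w (3 ^ 2) (by simpa using hw9) hcube
        set ω := w ^ 3 with hω
        have hω3 : ω ^ 3 = 1 := by
          rw [hω, ← pow_mul]
          exact hw9
        have hω1 : ω ≠ 1 := by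
          intro h
          have := orderOf_dvd_of_pow_eq_one (show w ^ 3 = 1 from h)
          rw [hw] at this
          norm_num at this
        have hω2 : ω ^ 2 ≠ 1 := by
          intro h
          have := orderOf_dvd_of_pow_eq_one (show w ^ 6 = 1 by
            rw [show 6 = 3 * 2 by norm_num, pow_mul]
            exact h)
          rw [hw] at this
          norm_num at this
        have hω0 : ω ≠ 0 := pow_ne_zero _ hw0
        have ha0 : w * ω ≠ 0 := mul_ne_zero hw0 hω0
        have hac : w * ω ≠ w := by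
          intro h
          apply hω1
          exact mul_left_cancel₀ hw0 (by rw [h, mul_one])
        have haσ : (w * ω) ^ q₀ = w * ω := by
          rw [hω, mul_pow, hwσ, ← pow_mul, mul_comm 3, pow_mul, hwσ]
        obtain ⟨μ, hμ, hsym⟩ := engine (lam3 3 2 0 (w * ω) (w * ω) w) (lam3_ne _ _ ha0 ha0 hw0) (by
            rw [det_lam3 (by norm_num)]
            have : w ^ 3 = ω := rfl
            simp only [pow_zero, mul_one, show 3 - 2 - 0 = 1 by norm_num, pow_one]
            calc (w * ω) ^ 2 * w = w ^ 3 * ω ^ 2 := by ring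
              _ = ω ^ 3 := by rw [this]; ring
              _ = 1 := hω3)
          (lam3_fix _ _ haσ haσ hwσ)
          ⟨ω, lam3_pow _ _ (by rw [mul_pow, hω3, mul_one]) (by rw [mul_pow, hω3, mul_one]) rfl⟩
          ⟨⟨0, by norm_num⟩, ⟨2, by norm_num⟩, by
            rw [lam3_a _ (by simp), lam3_c _ (by simp)]
            exact hac⟩
        have h3 := pat2 (k := 1) (by norm_num) (by norm_num) (by norm_num) (by norm_num) ha0 hw0 hac μ hsym
        apply hω2
        have h4 : w ^ 2 * ω ^ 2 = w ^ 2 * 1 := by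
          have e9 : w ^ 2 * ω ^ 2 = (w * ω) ^ 2 := by ring
          rw [e9, h3, mul_one]
        exact mul_left_cancel₀ (pow_ne_zero _ hw0) h4
      · have hn4 : 4 ≤ n := by omega
        have hn6 : n ≠ 6 := fun h => hgap ⟨h, rfl⟩
        obtain ⟨μ, hμ, hsym⟩ := engine (lam3 n 3 0 ζ ζ 1) (lam3_ne _ _ hζ0 hζ0 one_ne_zero) (by
            rw [det_lam3 (by omega)]
            simp [hζr])
          (lam3_fix _ _ hζσ hζσ h1σ)
          ⟨1, lam3_pow _ _ hζr hζr (one_pow _)⟩
          ⟨⟨0, by omega⟩, ⟨3, by omega⟩, by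
            rw [lam3_a _ (by simp), lam3_c _ (by simp)]
            exact hz1⟩
        have h3 := pat2 (k := n - 3) (by omega) (by norm_num) (by omega) (by omega) hζ0 one_ne_zero hz1 μ hsym
        rw [one_pow] at h3
        exact hz2 h3
    · have hr5 : 5 ≤ r := by
        by_contra hlt
        have : r = 4 := by omega
        rw [this] at hr
        norm_num at hr
      by_cases h55 : n = 5 ∧ r = 5
      · obtain ⟨rfl, rfl⟩ := h55
        have hcube : (5 : ℕ) ^ 2 ∣ q₀ - 1 := by
          by_contra h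
          exact hnot ⟨Or.inr rfl, rfl, hdvd2 h⟩
        obtain ⟨w, hw⟩ := exists_order (F := F) (5 ^ 2) (hcard1 _ hcube)
        have hw25 : w ^ 25 = 1 := by
          have := pow_orderOf_eq_one w
          rw [hw] at this
          simpa using this
        have hw0 : w ≠ 0 := by
          rintro rfl
          simp at hw25
        have hwσ : w ^ q₀ = w := hfixed w (5 ^ 2) (by simpa using hw25) hcube
        set ω := w ^ 5 with hω
        have hω5 : ω ^ 5 = 1 := by
          rw [hω, ← pow_mul]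
          exact hw25
        have hω1 : ω ≠ 1 := by
          intro h
          have := orderOf_dvd_of_pow_eq_one (show w ^ 5 = 1 from h)
          rw [hw] at this
          norm_num at this
        have hω8 : ω ^ 8 ≠ 1 := by
          intro h
          have := orderOf_dvd_of_pow_eq_one (show w ^ 40 = 1 by
            rw [show 40 = 5 * 8 by norm_num, pow_mul]
            exact h)
          rw [hw] at this
          norm_num at this
        have hω0 : ω ≠ 0 := pow_ne_zero _ hw0
        have hc0 : w * ω ^ 4 ≠ 0 := mul_ne_zero hw0 (pow_ne_zero _ hω0)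
        have hac : w ≠ w * ω ^ 4 := by
          intro h
          apply hω8
          have h4 : ω ^ 4 = 1 := mul_left_cancel₀ hw0 (by rw [← h, mul_one])
          rw [show 8 = 4 * 2 by norm_num, pow_mul, h4, one_pow]
        have hωσ : ω ^ q₀ = ω := by
          rw [hω, ← pow_mul, mul_comm, pow_mul, hwσ]
        have hcσ : (w * ω ^ 4) ^ q₀ = w * ω ^ 4 := by
          rw [mul_pow, hwσ, ← pow_mul, mul_comm 4, pow_mul, hωσ]
        obtain ⟨μ, hμ, hsym⟩ := engine (lam3 5 4 0 w w (w * ω ^ 4)) (lam3_ne _ _ hw0 hw0 hc0) (by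
            rw [det_lam3 (by norm_num)]
            have : w ^ 5 = ω := rfl
            simp only [pow_zero, mul_one, show 5 - 4 - 0 = 1 by norm_num, pow_one]
            calc w ^ 4 * (w * ω ^ 4) = w ^ 5 * ω ^ 4 := by ring
              _ = ω ^ 5 := by rw [this]; ring
              _ = 1 := hω5)
          (lam3_fix _ _ hwσ hwσ hcσ)
          ⟨ω, lam3_pow _ _ rfl rfl (by
            rw [mul_pow, ← pow_mul, show 4 * 5 = 5 * 4 by norm_num, pow_mul, hω5, one_pow, mul_one])⟩
          ⟨⟨0, by norm_num⟩, ⟨4, by norm_num⟩, by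
            rw [lam3_a _ (by simp), lam3_c _ (by simp)]
            exact hac⟩
        have h3 := pat2 (k := 1) (by norm_num) (by norm_num) (by norm_num) (by norm_num) hw0 hc0 hac μ hsym
        apply hω8
        have h4 : w ^ 2 * ω ^ 8 = w ^ 2 * 1 := by
          have e9 : w ^ 2 * ω ^ 8 = (w * ω ^ 4) ^ 2 := by ring
          rw [e9, ← h3, mul_one]
        exact mul_left_cancel₀ (pow_ne_zero _ hw0) h4
      · have hz3 : ζ ^ 3 ≠ 1 := hsm 3 (by norm_num) (by omega)
        have hz4 : ζ ^ 4 ≠ 1 := hsm 4 (by norm_num) (by omega)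
        have hz6 : ζ ^ 6 ≠ 1 := by
          intro h
          have h1 := orderOf_dvd_of_pow_eq_one h
          rw [hζ] at h1
          have h3 : r ∣ 2 * 3 := h1
          rcases (Nat.Prime.dvd_mul hr).mp h3 with h4 | h4
          · have := Nat.le_of_dvd (by norm_num) h4
            omega
          · have := Nat.le_of_dvd (by norm_num) h4
            omega
        have hz5 : n = 5 → ζ ^ 5 ≠ 1 := by
          intro hn5 h
          have h1 := orderOf_dvd_of_pow_eq_one h
          rw [hζ] at h1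
          exact h55 ⟨hn5, (Nat.prime_dvd_prime_iff_eq hr (by norm_num)).mp h1⟩
        have hbz : ((ζ⁻¹) ^ 2) * ζ ^ 2 = 1 := by
          field_simp
        have hb0 : (ζ⁻¹) ^ 2 ≠ 0 := pow_ne_zero _ (inv_ne_zero hζ0)
        have hbσ : ((ζ⁻¹) ^ 2) ^ q₀ = (ζ⁻¹) ^ 2 := by
          rw [← pow_mul, mul_comm, pow_mul, inv_pow, hζσ]
        obtain ⟨μ, hμ, hsym⟩ := engine (lam3 n 2 1 ζ ((ζ⁻¹) ^ 2) 1) (lam3_ne _ _ hζ0 hb0 one_ne_zero) (by
            rw [det_lam3 (by omega)]
            simp only [pow_one, one_pow, mul_one]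
            rw [mul_comm]
            exact hbz)
          (lam3_fix _ _ hζσ hbσ h1σ)
          ⟨1, lam3_pow _ _ hζr (by rw [← pow_mul, mul_comm, pow_mul, inv_pow, hζr, inv_one, one_pow]) (one_pow _)⟩
          ⟨⟨0, by omega⟩, ⟨2, by omega⟩, by
            rw [lam3_a _ (by simp), lam3_b _ (by simp) (by simp)]
            intro h
            apply hz3
            have : ζ ^ 3 = ((ζ⁻¹) ^ 2) * ζ ^ 2 := by
              rw [← h]
              ring
            rw [this, hbz]⟩
        exact pat1 hn ζ hζ0 hz1 hz2 hz3 hz4 hz6 hz5 μ hsym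
  · -- the block elements
    obtain ⟨k, hk1, hkn, hkd⟩ := index_u hr hF hn0 f hf hrq₀ hΩ
    haveI : Fact (2 < r) := ⟨by
      have := hr.two_le
      omega⟩
    have hneg : (-1 : ZMod r) ≠ 1 := ZMod.neg_one_ne_one
    set a : ZMod r := (q₀ : ZMod r) with ha
    set b : ZMod r := -a with hb
    have hcast1 : ∀ e : ℕ, r ∣ q₀ ^ e - 1 → a ^ e = 1 := by
      intro e h
      have h1 := (ZMod.natCast_eq_zero_iff _ r).mpr h
      rw [Nat.cast_sub (Nat.one_le_pow _ _ (by omega))] at h1
      push_cast at h1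
      exact sub_eq_zero.mp h1
    have hcast2 : ∀ e : ℕ, r ∣ q₀ ^ e + 1 → a ^ e = -1 := by
      intro e h
      have h1 := (ZMod.natCast_eq_zero_iff _ r).mpr h
      push_cast at h1
      exact eq_neg_of_add_eq_zero_left h1
    have hbk : b ^ (k + 1) = -1 := by
      by_cases he : Even k
      · rw [if_pos he] at hkd
        have hodd1 : Odd (k + 1) := he.add_one
        rw [hb, hodd1.neg_pow, hcast1 _ hkd]
      · rw [if_neg he] at hkd
        have hev1 : Even (k + 1) := (Nat.not_even_iff_odd.mp he).add_one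
        rw [hb, hev1.neg_pow, hcast2 _ hkd]
    have hb1 : b ≠ -1 := by
      intro h
      apply hq1
      have h1 : a = 1 := by
        have := congrArg Neg.neg h
        simpa [hb] using this
      apply (ZMod.natCast_eq_zero_iff _ r).mp
      rw [Nat.cast_sub (by omega)]
      push_cast
      rw [← ha, h1, sub_self]
    have hT1 : orderOf b ∣ 2 * (k + 1) := by
      apply orderOf_dvd_of_pow_eq_one
      rw [pow_mul', hbk]
      norm_num
    have hT2 : ¬ orderOf b ∣ k + 1 := by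
      intro h
      have := orderOf_dvd_iff_pow_eq_one.mp h
      rw [hbk] at this
      exact hneg this
    have hT0 : orderOf b ≠ 0 := by
      intro h
      rw [h, zero_dvd_iff] at hT1
      omega
    have hTeven : 2 ∣ orderOf b := by
      by_contra hodd
      have hc : Nat.Coprime (orderOf b) 2 := by
        rw [Nat.coprime_comm]
        exact (Nat.Prime.coprime_iff_not_dvd Nat.prime_two).mpr hodd
      exact hT2 (hc.dvd_of_dvd_mul_left hT1)
    obtain ⟨D, hD⟩ := hTeven
    have hD0 : D ≠ 0 := by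
      rintro rfl
      rw [mul_zero] at hD
      exact hT0 hD
    have hbD : b ^ D = -1 := by
      have h1 : (b ^ D) * (b ^ D) = 1 := by
        rw [← pow_add, ← two_mul, ← hD]
        exact pow_orderOf_eq_one b
      rcases mul_self_eq_one_iff.mp h1 with h | h
      · exfalso
        exact pow_ne_one_of_lt_orderOf hD0 (by omega) h
      · exact h
    have hD1 : D ≠ 1 := by
      rintro rfl
      rw [pow_one] at hbD
      exact hb1 hbD
    have hqz : (q : ZMod r) = b ^ 2 := by
      rw [hq₀, hb]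
      push_cast
      ring
    have hord : orderOf (q : ZMod r) = D := by
      rw [hqz, orderOf_pow' b two_ne_zero, hD, Nat.gcd_eq_right (dvd_mul_right 2 D)]
      exact Nat.mul_div_cancel_left D (by norm_num)
    have hDn : D ≤ n := by
      have h1 : orderOf (q : ZMod r) ∣ k + 1 := by
        apply orderOf_dvd_of_pow_eq_one
        rw [hqz, ← pow_mul, mul_comm, pow_mul, hbk]
        norm_num
      rw [hord] at h1
      have := Nat.le_of_dvd (by omega) h1
      omega
    have hq0pos : 0 < q := by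
      rw [← hq]
      exact Fintype.card_pos
    have hd : r ∣ Fintype.card F ^ D - 1 := by
      rw [hq, Cfsg.Agent.S5980.dvd_iff_orderOf hr hq0pos, hord]
    have hq1' : ¬ r ∣ Fintype.card F - 1 := by
      intro h
      have h1 : r ∣ q ^ 1 - 1 := by
        rw [pow_one, ← hq]
        exact h
      rw [Cfsg.Agent.S5980.dvd_iff_orderOf hr hq0pos, hord, Nat.dvd_one] at h1
      exact hD1 h1
    have hq1'' : ¬ r ∣ q - 1 := by
      rw [← hq]
      exact hq1'
    obtain ⟨x, hxr, hxd, hxrk⟩ := exists_block_elt (F := F) (n := n) (r := r) p (j := D) hD0 hDn hd hq1'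
    have hmemx : x ∈ specialLinear (Fin n) F := mem_of_det x hxd
    have hx1 : x ≠ 1 := by
      rintro rfl
      simp at hxrk
      omega
    obtain ⟨g, -, c, hc⟩ := hfix x hmemx ⟨1, by rw [hxr, one_smul]; rfl⟩ (by
      intro z hz
      apply hx1
      have h5 : z ^ r • (1 : Mt) = 1 := by
        have := congrArg Units.val hxr
        rw [Units.val_pow_eq_pow_val, hz, _root_.smul_pow, one_pow] at this
        exact this
      have h6 : z ^ r = 1 := by
        have := congrFun (congrFun h5 ⟨0, hn0⟩) ⟨0, hn0⟩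
        simpa using this
      have h7 := Cfsg.Agent.S5979.eq_one_of_pow hq hr hq1'' h6
      apply Units.ext
      rw [hz, h7, one_smul]
      rfl)
    have hyr : (g⁻¹ * x * g) ^ r = 1 := by
      have h3 : g⁻¹ * x * g = g⁻¹ * x * (g⁻¹)⁻¹ := by rw [inv_inv]
      rw [h3, conj_pow, hxr]
      group
    have hc1 : (c : F) = 1 := Cfsg.Agent.S5979.eq_one_of_pow hq hr hq1'' (mult_one_u hn0 f hf _ _ hc hyr)
    have hrk : (((g⁻¹ * x * g : GL (Fin n) F) : Mt) - 1).rank = D := by
      have h5 := rank_conj g x 1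
      simp only [one_smul] at h5
      rw [h5, hxrk]
    have hiso : ∀ u v, f (((g⁻¹ * x * g : GL (Fin n) F) : Mt) *ᵥ u) (((g⁻¹ * x * g : GL (Fin n) F) : Mt) *ᵥ v) = f u v := by
      intro u v
      rw [hc, hc1, one_mul]
    have hkey := count_isotropic (r := r) hF hrF f hf _ hiso hyr hrk
    have hfinal : b ^ (D - 1) = 1 := by
      by_cases he : Even D
      · rw [if_pos he] at hkey
        rcases (Nat.Prime.dvd_mul hr).mp hkey with h | h
        · exfalso
          have h1 := hcast1 D h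
          rw [hb, he.neg_pow, h1] at hbD
          exact hneg hbD.symm
        · have h1 := hcast2 (D - 1) h
          have hoddD : Odd (D - 1) := by
            obtain ⟨t, ht⟩ := he
            exact ⟨t - 1, by omega⟩
          rw [hb, hoddD.neg_pow, h1, neg_neg]
      · rw [if_neg he] at hkey
        obtain ⟨t, ht⟩ := Nat.not_even_iff_odd.mp he
        have hoddD : Odd D := ⟨t, ht⟩
        rcases (Nat.Prime.dvd_mul hr).mp hkey with h | h
        · exfalso
          have h1 := hcast2 D h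
          rw [hb, hoddD.neg_pow, h1, neg_neg] at hbD
          exact hneg hbD.symm
        · have h1 := hcast1 (D - 1) h
          have hevD : Even (D - 1) := ⟨t, by omega⟩
          rw [hb, hevD.neg_pow, h1]
    exact pow_ne_one_of_lt_orderOf (by omega) (by omega) hfinal

end forward



/-- Elements of prime order of PSL_n(q), q = q₀², and the subgroups of unitary type. Here `T = PSL_n(F)` for a field `F` with `q = q₀²` elements (`n ≥ 3`), `f` is a non-degenerate unitary form on `F^n` for the involutory automorphism `x ↦ x^{q₀}`, and `H` is the subgroup of matrices of determinant 1 that preserve `f` up to a scalar — a subgroup of type GU_n(q₀) (maximality is not assumed); Ω is the set of cosets of `H` in `T`, so an element of `T` of prime order `r` (a matrix `x` of determinant 1 with `x^r` scalar, `x` not scalar) fixes a point of Ω exactly when some conjugate of `x` by a matrix of determinant 1 preserves `f` up to a scalar. Let `r` be a prime dividing the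 index of `H`, with `r = 2` or `r` different from the characteristic `p`, and with `(n, r) ≠ (6, 3)`. Then every element of `T` of order `r` fixes a point of Ω if and only if either `r = 2` and (`p = 2` or `(n)_2 ≤ (q − 1)_2`), or `r ∈ {3, 5}`, `n = r` and `(q₀ − 1)_r = r`. (Odd `r = p` and the case `(n, r) = (6, 3)` are not covered by this statement.) -/
theorem result {F : Type*} [Field F] [Fintype F] {p : ℕ} [Fact p.Prime] [CharP F p] {q : ℕ} (hq : Fintype.card F = q)
    (q₀ : ℕ) (hq₀ : q = q₀ ^ 2) (n : ℕ) (hn : 3 ≤ n) (f : (Fin n → F) → (Fin n → F) → F) (hf : Cfsg.Geo.IsUnitaryFormPow q₀ f)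
    (r : ℕ) [Fact r.Prime] (hr : r = 2 ∨ r ≠ p) (hgap : ¬ (n = 6 ∧ r = 3))
    (hΩ : r ∣ (Cfsg.Geo.similarityGroup f).relIndex (Cfsg.Geo.specialLinear (Fin n) F)) :
    (∀ x ∈ Cfsg.Geo.specialLinear (Fin n) F, (∃ z : F, ((x ^ r : GL (Fin n) F) : Matrix (Fin n) (Fin n) F) = z • (1 : Matrix (Fin n) (Fin n) F)) →
      (∀ z : F, (x : Matrix (Fin n) (Fin n) F) ≠ z • (1 : Matrix (Fin n) (Fin n) F)) →
      ∃ g ∈ Cfsg.Geo.specialLinear (Fin n) F, g⁻¹ * x * g ∈ Cfsg.Geo.similarityGroup f) ↔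
    ((r = 2 ∧ (p = 2 ∨ padicValNat 2 n ≤ padicValNat 2 (q - 1))) ∨ ((r = 3 ∨ r = 5) ∧ n = r ∧ padicValNat r (q₀ - 1) = 1)) := by
  classical
  have hF : Fintype.card F = q₀ ^ 2 := hq.trans hq₀
  constructor
  · intro hfix
    by_cases hr2 : r = 2
    · subst hr2
      left
      refine ⟨rfl, ?_⟩
      by_cases hp : p = 2
      · exact Or.inl hp
      · right
        have hodd : Odd q := by
          obtain ⟨e, -, he⟩ := FiniteField.card F p
          rw [← hq, he]
          exact ((Fact.out : p.Prime).odd_of_ne_two hp).pow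
        exact forward2 hq hq₀ hodd hn f hf hfix
    · right
      have hrp : r ≠ p := hr.resolve_left hr2
      exact forward_odd hq hq₀ hn f hf hrp hr2 hgap hΩ hfix
  · rintro (⟨hr2, hp⟩ | ⟨hr35, hnr, hv⟩) x hx ⟨z, hz⟩ hns
    · subst hr2
      have hxz : (x : Matrix (Fin n) (Fin n) F) * x = z • 1 := by
        rw [← hz, pow_two, Units.val_mul]
      by_cases hp2 : p = 2
      · subst hp2
        have h2 : (2 : F) = 0 := by
          have := CharP.cast_eq_zero F 2
          exact_mod_cast this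
        exact backward2_even hF h2 (by omega) f hf x z hxz hns
      · have hodd : Odd q := by
          obtain ⟨e, -, he⟩ := FiniteField.card F p
          rw [← hq, he]
          exact ((Fact.out : p.Prime).odd_of_ne_two hp2).pow
        exact backward2_odd hq hq₀ hodd (by omega) f hf (hp.resolve_left hp2) x hx z hxz hns
    · exact backward_odd hq hq₀ hr35 hnr hv f hf x hx z hz

end Cfsg.Agent.S5982
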