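import Mathlib
import Cfsg.Agent.S5981
import Cfsg.Agent.S5982
import Cfsg.Agent.S5979
import Cfsg.Agent.S5980
import Cfsg.Agent.S5971
import Cfsg.Agent.Lib.H97Sub
import Cfsg.Agent.Lib.MatConj
import Cfsg.Agent.Lib.PolyBasis
import Cfsg.Agent.Lib.ClassicalCore
import Cfsg.Agent.Lib.EigenThree
import Cfsg.Statements.S5965
-- import your own Cfsg.Agent.* helpers here

set_option autoImplicit false
open scoped MatrixGroups
open Cfsg

namespace Cfsg.Agent.S5965

open Matrix Module Cfsg.Geo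
open Cfsg.Agent.H97.Asch (mem_range_sup_scalars pow_card_subfield mem_subfield_of_pow_card)

set_option linter.unusedSimpArgs false
set_option linter.unusedVariables false
set_option linter.unusedSectionVars false

variable {F : Type*} [Field F] [Fintype F] {n : ℕ}

local notation "Mt" => Matrix (Fin n) (Fin n) F

section tools

/-- The Frobenius of the subfield. -/
theorem exists_tau (F₀ : Subfield F) : ∃ τ : F →+* F, (∀ x, τ x = x ^ Nat.card F₀) ∧ ∀ x, τ x = x ↔ x ∈ F₀ := by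
  classical
  have : Fintype F₀ := Fintype.ofFinite F₀
  have hτ : ∀ x, (FiniteField.frobeniusAlgHom F₀ F).toRingHom x = x ^ Nat.card F₀ := by
    intro x
    rw [Nat.card_eq_fintype_card]
    rfl
  refine ⟨(FiniteField.frobeniusAlgHom F₀ F).toRingHom, hτ, fun x => ?_⟩
  rw [hτ]
  exact ⟨fun h => mem_subfield_of_pow_card F₀ h, fun h => pow_card_subfield F₀ h⟩

/-- Ranks do not change under a field automorphism. -/
theorem rank_map_hom (σ : F →+* F) (M : Mt) : (M.map σ).rank = M.rank := by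
  classical
  have h1 := LinearMap.finrank_range_add_finrank_ker M.mulVecLin
  have h2 := LinearMap.finrank_range_add_finrank_ker (M.map σ).mulVecLin
  have hinj : Function.Injective σ := σ.injective
  have hsurj : Function.Surjective σ := Finite.injective_iff_surjective.mp hinj
  have hkey : ∀ v : Fin n → F, (M.map σ) *ᵥ (σ ∘ v) = σ ∘ (M *ᵥ v) := by
    intro v
    funext i
    exact (RingHom.map_mulVec σ M v i).symm
  have hb : Function.Bijective (fun v : LinearMap.ker M.mulVecLin => (⟨σ ∘ v.1, by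
      rw [LinearMap.mem_ker, Matrix.mulVecLin_apply, hkey]
      have : M *ᵥ v.1 = 0 := v.2
      rw [this]
      funext i
      show σ 0 = 0
      exact map_zero _⟩ : LinearMap.ker (M.map σ).mulVecLin)) := by
    constructor
    · intro a b hab
      apply Subtype.ext
      funext i
      have := congrFun (congrArg Subtype.val hab) i
      exact hinj this
    · rintro ⟨w, hw⟩
      choose s hs using hsurj
      have hw' : w = σ ∘ (fun i => s (w i)) := by
        funext i
        exact (hs (w i)).symm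
      refine ⟨⟨fun i => s (w i), ?_⟩, Subtype.ext hw'.symm⟩
      rw [LinearMap.mem_ker, Matrix.mulVecLin_apply]
      have h3 : (M.map σ) *ᵥ w = 0 := hw
      rw [hw', hkey] at h3
      funext i
      apply hinj
      have := congrFun h3 i
      simpa using this
  have h3 : finrank F (LinearMap.ker M.mulVecLin) = finrank F (LinearMap.ker (M.map σ).mulVecLin) := by
    have hc := Fintype.card_of_bijective hb
    rw [Module.card_eq_pow_finrank (K := F), Module.card_eq_pow_finrank (K := F) (V := LinearMap.ker (M.map σ).mulVecLin)] at hc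
    exact Nat.pow_right_injective (Fintype.one_lt_card) hc
  show finrank F (LinearMap.range (M.map σ).mulVecLin) = finrank F (LinearMap.range M.mulVecLin)
  omega

theorem rank_smul_ne (ρ : F) (hρ : ρ ≠ 0) (M : Mt) : (ρ • M).rank = M.rank := by
  have h1 : ρ • M = (ρ • (1 : Mt)) * M := by
    rw [Matrix.smul_mul, Matrix.one_mul]
  have hU : IsUnit (ρ • (1 : Mt)).det := by
    rw [Matrix.det_smul, Matrix.det_one, mul_one]
    exact (pow_ne_zero _ hρ).isUnit
  rw [h1, Matrix.rank_mul_eq_right_of_isUnit_det _ _ hU]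

/-- Decomposition of the elements of the subfield group. -/
theorem mem_H_decomp (F₀ : Subfield F) (y : GL (Fin n) F) (hy : y ∈ subfieldSubgroup F₀ 1) :
    ∃ (d : F) (G : Matrix (Fin n) (Fin n) F₀), d ≠ 0 ∧ ∀ k l, (y : Mt) k l = d * (G k l : F) := by
  classical
  obtain ⟨y₀, hy₀, hyt⟩ := hy
  have hy2 : y₀ = y := by
    have : (1 : GL (Fin n) F) * y₀ * 1⁻¹ = y := hyt
    simpa using this
  subst hy2
  have hy' : y₀ ∈ (((Matrix.GeneralLinearGroup.map (F₀.subtype : F₀ →+* F)).range ⊔ scalars (Fin n) F : Subgroup (GL (Fin n) F)) : Set (GL (Fin n) F)) := hy₀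
  rw [Subgroup.mul_normal] at hy'
  obtain ⟨r, hr, s, hs, hrs⟩ := Set.mem_mul.mp hy'
  obtain ⟨G₀, rfl⟩ := hr
  obtain ⟨d, hd⟩ := (mem_scalars_iff s).mp hs
  refine ⟨d, (G₀ : Matrix (Fin n) (Fin n) F₀), d.ne_zero, fun k l => ?_⟩
  have h1 := congrArg Units.val hrs
  rw [Units.val_mul, hd, Matrix.mul_smul, Matrix.mul_one] at h1
  rw [← h1]
  simp

theorem mem_H_of (F₀ : Subfield F) (y : GL (Fin n) F) (d : F) (hd : d ≠ 0) (h : ∀ k l, (d • (y : Mt)) k l ∈ F₀) :
    y ∈ subfieldSubgroup F₀ 1 := by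
  refine ⟨y, mem_range_sup_scalars hd h, ?_⟩
  show (1 : GL (Fin n) F) * y * 1⁻¹ = y
  simp

/-- Rank symmetry for the elements of the subfield group. -/
theorem rank_tau (F₀ : Subfield F) (τ : F →+* F) (hτ : ∀ x, τ x = x ↔ x ∈ F₀) (y : Mt) (d : F) (G : Matrix (Fin n) (Fin n) F₀)
    (hd : d ≠ 0) (hy : ∀ k l, y k l = d * (G k l : F)) (α : F) :
    (y - α • 1).rank = (y - (d / τ d * τ α) • 1).rank := by
  classical
  have hτd : τ d ≠ 0 := fun h => hd (τ.injective (by rw [h, map_zero]))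
  set ρ := τ d / d with hρ
  have hρ0 : ρ ≠ 0 := div_ne_zero hτd hd
  have hmap : (y - α • 1).map τ = ρ • (y - (d / τ d * τ α) • 1) := by
    ext k l
    simp only [Matrix.map_apply, Matrix.sub_apply, Matrix.smul_apply, smul_eq_mul, map_sub, map_mul]
    rw [hy, map_mul, (hτ _).mpr (SetLike.coe_mem _)]
    by_cases hkl : k = l
    · subst hkl
      simp only [Matrix.one_apply_eq, map_one, mul_one, hρ]
      field_simp
    · simp only [Matrix.one_apply, hkl, if_false, map_zero, mul_zero, sub_zero, hρ]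
      field_simp
  rw [← rank_map_hom τ, hmap, rank_smul_ne _ hρ0]

end tools

section index

/-- The order of `SL_n`. -/
theorem card_SL_formula (K : Type*) [Field K] [Fintype K] (m : ℕ) (hm : 1 ≤ m) :
    Nat.card (Matrix.SpecialLinearGroup (Fin m) K) = Fintype.card K ^ (∑ i ∈ Finset.range m, i) *
      ∏ j ∈ Finset.range (m - 1), (Fintype.card K ^ (j + 2) - 1) := by
  haveI : Nonempty (Fin m) := ⟨⟨0, hm⟩⟩
  have h1 := Cfsg.Agent.Lib.ClassicalCore.card_GL_eq_mul_card_SL (n := Fin m) (F := K)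
  rw [Matrix.card_GL_field, Cfsg.Agent.S5981.prod_gl _ _ Fintype.card_pos] at h1
  obtain ⟨m', rfl⟩ : ∃ m', m = m' + 1 := ⟨m - 1, by omega⟩
  simp only [Nat.add_sub_cancel] at h1 ⊢
  rw [Finset.prod_range_succ'] at h1
  simp only [zero_add, pow_one] at h1
  have hq1 : 0 < Fintype.card K - 1 := by
    have := Fintype.one_lt_card (α := K)
    omega
  apply Nat.eq_of_mul_eq_mul_left hq1
  rw [← h1]
  simp only [show ∀ j, j + 1 + 1 = j + 2 from fun j => rfl]
  ring

theorem geom_nat (a k : ℕ) (ha : 1 ≤ a) : a ^ k - 1 = (a - 1) * ∑ s ∈ Finset.range k, a ^ s := by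
  zify [ha, Nat.one_le_pow k a ha]
  have := geom_sum_mul (a : ℤ) k
  rw [← this]
  ring

/-- The index hypothesis. -/
theorem index_k {r q₀ k : ℕ} (hr : r.Prime) (F₀ : Subfield F) (hF₀ : Nat.card F₀ = q₀) (hqk : Fintype.card F = q₀ ^ k) (hn : 2 ≤ n)
    (hrq₀ : ¬ r ∣ q₀)
    (hΩ : r ∣ ((subfieldSubgroup F₀ 1).comap (Matrix.SpecialLinearGroup.toGL : Matrix.SpecialLinearGroup (Fin n) F →* GL (Fin n) F)).index) :
    ∃ i, 2 ≤ i ∧ i ≤ n ∧ r ∣ ∑ s ∈ Finset.range k, (q₀ ^ i) ^ s := by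
  classical
  haveI : Fintype F₀ := Fintype.ofFinite F₀
  have hF₀' : Fintype.card F₀ = q₀ := by rw [← Nat.card_eq_fintype_card, hF₀]
  have hq₀2 : 2 ≤ q₀ := by
    rw [← hF₀']
    exact Fintype.one_lt_card
  set H := (subfieldSubgroup F₀ 1).comap (Matrix.SpecialLinearGroup.toGL : Matrix.SpecialLinearGroup (Fin n) F →* GL (Fin n) F) with hH
  let φ₀ : Matrix.SpecialLinearGroup (Fin n) F₀ →* Matrix.SpecialLinearGroup (Fin n) F := Matrix.SpecialLinearGroup.map (F₀.subtype : F₀ →+* F)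
  have hφ₀ : ∀ A (k l), ((φ₀ A : Matrix.SpecialLinearGroup (Fin n) F) : Mt) k l = (((A : Matrix (Fin n) (Fin n) F₀) k l : F₀) : F) := fun A k l => rfl
  have hmem : ∀ A, φ₀ A ∈ H := by
    intro A
    show Matrix.SpecialLinearGroup.toGL (φ₀ A) ∈ subfieldSubgroup F₀ 1
    apply mem_H_of F₀ _ 1 one_ne_zero
    intro k l
    rw [one_smul, Matrix.SpecialLinearGroup.coe_GL_coe_matrix, hφ₀]
    exact SetLike.coe_mem _
  let f : Matrix.SpecialLinearGroup (Fin n) F₀ →* H := φ₀.codRestrict H hmem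
  have hfinj : Function.Injective f := by
    intro A B h
    have h1 := congrArg (fun x : H => ((x : Matrix.SpecialLinearGroup (Fin n) F) : Mt)) h
    apply Subtype.ext
    ext k l
    have h2 := congrFun (congrFun h1 k) l
    exact h2
  obtain ⟨c, hc⟩ := Subgroup.card_dvd_of_injective f hfinj
  have h3 := Subgroup.card_mul_index H
  obtain ⟨I, hI⟩ := hΩ
  rw [hI, hc, card_SL_formula F n (by omega), card_SL_formula F₀ n (by omega), hqk, hF₀'] at h3
  set N := ∑ i ∈ Finset.range n, i with hN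
  have hfac : ∀ j, (q₀ ^ k) ^ (j + 2) - 1 = (q₀ ^ (j + 2) - 1) * ∑ s ∈ Finset.range k, (q₀ ^ (j + 2)) ^ s := by
    intro j
    rw [← geom_nat _ _ (Nat.one_le_pow _ _ (by omega)), ← pow_mul, ← pow_mul, mul_comm]
  simp only [hfac] at h3
  rw [Finset.prod_mul_distrib] at h3
  set A := ∏ j ∈ Finset.range (n - 1), (q₀ ^ (j + 2) - 1) with hA
  set B := ∏ j ∈ Finset.range (n - 1), ∑ s ∈ Finset.range k, (q₀ ^ (j + 2)) ^ s with hB
  have hA0 : 0 < A := by
    apply Finset.prod_pos
    intro j _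
    have : 1 < q₀ ^ (j + 2) := Nat.one_lt_pow (by omega) (by omega)
    omega
  have h4 : (q₀ ^ N * c * (r * I)) = (q₀ ^ k) ^ N * B := by
    apply Nat.eq_of_mul_eq_mul_right hA0
    calc (q₀ ^ N * c * (r * I)) * A = q₀ ^ N * A * c * (r * I) := by ring
      _ = (q₀ ^ k) ^ N * (A * B) := h3
      _ = _ := by ring
  have h5 : r ∣ (q₀ ^ k) ^ N * B := by
    rw [← h4]
    exact Dvd.dvd.mul_left (Dvd.intro _ rfl) _
  rcases (Nat.Prime.dvd_mul hr).mp h5 with h6 | h6
  · exact absurd (hr.dvd_of_dvd_pow (hr.dvd_of_dvd_pow h6)) hrq₀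
  · obtain ⟨j, hj, hjd⟩ := (Prime.dvd_finset_prod_iff hr.prime _).mp h6
    have := Finset.mem_range.mp hj
    exact ⟨j + 2, by omega, by omega, hjd⟩

end index

section forward

open Cfsg.Agent.S5981 (lam3 cnt cnt_lam3 cnt_le rank_diag_sub lam3_ne lam3_pow lam3_a lam3_b lam3_c det_lam3 pat1 pat2 diag_elt exists_order exists_block_elt rank_conj)

/-- Symmetry of the eigenvalue counts. -/
theorem cnt_tau [DecidableEq F] (F₀ : Subfield F) (τ : F →+* F) (hτ : ∀ x, τ x = x ↔ x ∈ F₀) (lam : Fin n → F) (x g : GL (Fin n) F)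
    (hx : (x : Mt) = diagonal lam) (hg : g⁻¹ * x * g ∈ subfieldSubgroup F₀ 1) :
    ∃ d : F, d ≠ 0 ∧ ∀ α, cnt lam α = cnt lam (d / τ d * τ α) := by
  obtain ⟨d, G, hd, hy⟩ := mem_H_decomp F₀ _ hg
  refine ⟨d, hd, fun α => ?_⟩
  have h1 := rank_tau F₀ τ hτ _ d G hd hy α
  rw [rank_conj, rank_conj, hx, rank_diag_sub, rank_diag_sub] at h1
  have := cnt_le lam α
  have := cnt_le lam (d / τ d * τ α)
  omega

/-- The quadratic case: the diagonal patterns. -/
theorem forward_k2 {q r q₀ : ℕ} (hq : Fintype.card F = q) (hqk : q = q₀ ^ 2) (hn : 3 ≤ n) (F₀ : Subfield F) (hF₀ : Nat.card F₀ = q₀)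
    [hrf : Fact r.Prime] (hr2 : r ≠ 2) (hgap : ¬ (n = 6 ∧ r = 3)) (hq1 : r ∣ q₀ + 1)
    (hfix : ∀ x : GL (Fin n) F, (x : Mt).det = 1 → (∃ z : F, ((x ^ r : GL (Fin n) F) : Mt) = z • (1 : Mt)) →
      (∀ z : F, (x : Mt) ≠ z • (1 : Mt)) → ∃ g : GL (Fin n) F, g⁻¹ * x * g ∈ subfieldSubgroup F₀ 1) :
    (r = 3 ∨ r = 5) ∧ n = r ∧ padicValNat r (q₀ + 1) = 1 := by
  classical
  have hr : r.Prime := hrf.out
  have hF : Fintype.card F = q₀ ^ 2 := hq.trans hqk
  have hq₀2 := Cfsg.Agent.Lib.HermCount.two_le_q hF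
  have hn0 : 0 < n := by omega
  obtain ⟨τ, hτ1, hτ⟩ := exists_tau F₀
  rw [hF₀] at hτ1
  have hfac : q - 1 = (q₀ - 1) * (q₀ + 1) := by
    rw [hqk]
    obtain ⟨k, rfl⟩ : ∃ k, q₀ = k + 1 := ⟨q₀ - 1, by omega⟩
    simp only [Nat.add_sub_cancel]
    have : (k + 1) ^ 2 = k * (k + 1 + 1) + 1 := by ring
    omega
  by_contra hnot
  have engine : ∀ lam : Fin n → F, (∀ i, lam i ≠ 0) → ∏ i, lam i = 1 → (∀ i, lam i ^ (q₀ + 1) = 1) → (∃ z, ∀ i, lam i ^ r = z) → (∃ i j, lam i ≠ lam j) →
      ∃ μ : F, μ ≠ 0 ∧ ∀ α : F, α ≠ 0 → cnt lam α = cnt lam (μ / α) := by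
    intro lam hne hdet hσ ⟨z, hz⟩ ⟨i, j, hij⟩
    obtain ⟨x, hx, hxv⟩ := diag_elt lam hne hdet
    obtain ⟨g, hg⟩ := hfix x (by rw [hxv, Matrix.det_diagonal, hdet]) ⟨z, by
      rw [Units.val_pow_eq_pow_val, hxv, Matrix.diagonal_pow, ← Matrix.diagonal_one, ← Matrix.diagonal_smul]
      congr 1
      funext a
      simp [hz]⟩ (by
      intro t ht
      rw [hxv] at ht
      have h1 := congrFun (congrFun ht i) i
      have h2 := congrFun (congrFun ht j) j
      simp at h1 h2
      exact hij (h1.trans h2.symm))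
    obtain ⟨d, hd, hc⟩ := cnt_tau F₀ τ hτ lam x g hxv hg
    have hτd : τ d ≠ 0 := fun h => hd (τ.injective (by rw [h, map_zero]))
    have hc0 : d / τ d ≠ 0 := div_ne_zero hd hτd
    have hcn : (d / τ d) ^ (q₀ + 1) = 1 := by
      have hd1 : d ^ (q₀ ^ 2) = d := by
        rw [← hF]
        exact FiniteField.pow_card d
      have hd2 : (τ d) ^ (q₀ + 1) = d ^ (q₀ + 1) := by
        rw [hτ1, ← pow_mul, mul_add, mul_one, ← pow_two, pow_add, hd1, pow_add, pow_one, mul_comm]
      rw [div_pow, hd2, div_self (pow_ne_zero _ hd)]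
    refine ⟨d / τ d, hc0, fun α hα => ?_⟩
    by_cases hαn : α ^ (q₀ + 1) = 1
    · have h1 : τ α = α⁻¹ := by
        rw [hτ1]
        apply mul_left_cancel₀ hα
        rw [mul_inv_cancel₀ hα, ← pow_succ', hαn]
      have h2 : d / τ d * α⁻¹ = d / τ d / α := (div_eq_mul_inv _ _).symm
      rw [hc α, h1, h2]
    · have h1 : cnt lam α = 0 := by
        unfold cnt
        rw [Finset.card_eq_zero, Finset.filter_eq_empty_iff]
        intro i _ hi
        apply hαn
        rw [← hi]
        exact hσ i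
      have h2 : cnt lam (d / τ d / α) = 0 := by
        unfold cnt
        rw [Finset.card_eq_zero, Finset.filter_eq_empty_iff]
        intro i _ hi
        apply hαn
        have h3 := hσ i
        rw [hi, div_pow, hcn, div_eq_iff (pow_ne_zero _ hα), one_mul] at h3
        exact h3.symm
      rw [h1, h2]
  have hnorm : ∀ (w : F) (d : ℕ), w ^ d = 1 → d ∣ q₀ + 1 → w ^ (q₀ + 1) = 1 := by
    intro w d hw hd
    obtain ⟨c, hc⟩ := hd
    rw [hc, pow_mul, hw, one_pow]
  have hcard1 : ∀ d, d ∣ q₀ + 1 → d ∣ Fintype.card F - 1 := by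
    intro d hd
    rw [hq, hfac]
    exact Dvd.dvd.mul_left hd _
  obtain ⟨ζ, hζ⟩ := exists_order (F := F) r (hcard1 r hq1)
  have hζr : ζ ^ r = 1 := by rw [← hζ]; exact pow_orderOf_eq_one ζ
  have hζ0 : ζ ≠ 0 := by
    rintro rfl
    rw [zero_pow hr.ne_zero] at hζr
    exact zero_ne_one hζr
  have hζσ : ζ ^ (q₀ + 1) = 1 := hnorm ζ r hζr hq1
  have hsm : ∀ k, 0 < k → k < r → ζ ^ k ≠ 1 := fun k h1 h2 =>
    pow_ne_one_of_lt_orderOf h1.ne' (by rw [hζ]; exact h2)
  have hr3' : 3 ≤ r := by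
    have := hr.two_le
    omega
  have hz1 : ζ ≠ 1 := by
    have := hsm 1 one_pos (by omega)
    simpa using this
  have hz2 : ζ ^ 2 ≠ 1 := hsm 2 two_pos (by omega)
  have hdvd2 : ¬ (r ^ 2 ∣ q₀ + 1) → padicValNat r (q₀ + 1) = 1 := by
    intro h
    haveI : Fact r.Prime := ⟨hr⟩
    have h0 : q₀ + 1 ≠ 0 := by omega
    have h1 := (padicValNat_dvd_iff_le (p := r) h0 (n := 1)).mp (by simpa using hq1)
    by_contra hne
    apply h
    exact (padicValNat_dvd_iff_le (p := r) h0 (n := 2)).mpr (by omega)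
  have h1σ : (1 : F) ^ (q₀ + 1) = 1 := one_pow _
  by_cases hr3 : r = 3
  · subst hr3
    by_cases hn3 : n = 3
    · subst hn3
      have hcube : (3 : ℕ) ^ 2 ∣ q₀ + 1 := by
        by_contra h
        exact hnot ⟨Or.inl rfl, rfl, hdvd2 h⟩
      obtain ⟨w, hw⟩ := exists_order (F := F) (3 ^ 2) (hcard1 _ hcube)
      have hw9 : w ^ 9 = 1 := by
        have := pow_orderOf_eq_one w
        rw [hw] at this
        simpa using this
      have hw0 : w ≠ 0 := by
        rintro rfl
        simp at hw9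
      have hwσ : w ^ (q₀ + 1) = 1 := hnorm w (3 ^ 2) (by simpa using hw9) hcube
      set ω := w ^ 3 with hω
      have hω3 : ω ^ 3 = 1 := by
        rw [hω, ← pow_mul]
        exact hw9
      have hω1 : ω ≠ 1 := by
        intro h
        have := orderOf_dvd_of_pow_eq_one (show w ^ 3 = 1 from h)
        rw [hw] at this
        norm_num at this
      have hω2 : ω ^ 2 ≠ 1 := by
        intro h
        have := orderOf_dvd_of_pow_eq_one (show w ^ 6 = 1 by
          rw [show 6 = 3 * 2 by norm_num, pow_mul]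
          exact h)
        rw [hw] at this
        norm_num at this
      have hω0 : ω ≠ 0 := pow_ne_zero _ hw0
      have ha0 : w * ω ≠ 0 := mul_ne_zero hw0 hω0
      have hac : w * ω ≠ w := by
        intro h
        apply hω1
        exact mul_left_cancel₀ hw0 (by rw [h, mul_one])
      have haσ : (w * ω) ^ (q₀ + 1) = 1 := by
        rw [hω, mul_pow, hwσ, ← pow_mul, mul_comm 3, pow_mul, hwσ, one_pow, one_mul]
      obtain ⟨μ, hμ, hsym⟩ := engine (lam3 3 2 0 (w * ω) (w * ω) w) (lam3_ne _ _ ha0 ha0 hw0) (by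
          rw [det_lam3 (by norm_num)]
          have : w ^ 3 = ω := rfl
          simp only [pow_zero, mul_one, show 3 - 2 - 0 = 1 by norm_num, pow_one]
          calc (w * ω) ^ 2 * w = w ^ 3 * ω ^ 2 := by ring
            _ = ω ^ 3 := by rw [this]; ring
            _ = 1 := hω3)
        (lam3_pow _ _ haσ haσ hwσ)
        ⟨ω, lam3_pow _ _ (by rw [mul_pow, hω3, mul_one]) (by rw [mul_pow, hω3, mul_one]) rfl⟩
        ⟨⟨0, by norm_num⟩, ⟨2, by norm_num⟩, by
          rw [lam3_a _ (by simp), lam3_c _ (by simp)]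
          exact hac⟩
      have h3 := pat2 (k := 1) (by norm_num) (by norm_num) (by norm_num) (by norm_num) ha0 hw0 hac μ hsym
      apply hω2
      have h4 : w ^ 2 * ω ^ 2 = w ^ 2 * 1 := by
        have e9 : w ^ 2 * ω ^ 2 = (w * ω) ^ 2 := by ring
        rw [e9, h3, mul_one]
      exact mul_left_cancel₀ (pow_ne_zero _ hw0) h4
    · have hn4 : 4 ≤ n := by omega
      have hn6 : n ≠ 6 := fun h => hgap ⟨h, rfl⟩
      obtain ⟨μ, hμ, hsym⟩ := engine (lam3 n 3 0 ζ ζ 1) (lam3_ne _ _ hζ0 hζ0 one_ne_zero) (by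
          rw [det_lam3 (by omega)]
          simp [hζr])
        (lam3_pow _ _ hζσ hζσ h1σ)
        ⟨1, lam3_pow _ _ hζr hζr (one_pow _)⟩
        ⟨⟨0, by omega⟩, ⟨3, by omega⟩, by
          rw [lam3_a _ (by simp), lam3_c _ (by simp)]
          exact hz1⟩
      have h3 := pat2 (k := n - 3) (by omega) (by norm_num) (by omega) (by omega) hζ0 one_ne_zero hz1 μ hsym
      rw [one_pow] at h3
      exact hz2 h3
  · have hr5 : 5 ≤ r := by
      by_contra hlt
      have : r = 4 := by omega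
      rw [this] at hr
      norm_num at hr
    by_cases h55 : n = 5 ∧ r = 5
    · obtain ⟨rfl, rfl⟩ := h55
      have hcube : (5 : ℕ) ^ 2 ∣ q₀ + 1 := by
        by_contra h
        exact hnot ⟨Or.inr rfl, rfl, hdvd2 h⟩
      obtain ⟨w, hw⟩ := exists_order (F := F) (5 ^ 2) (hcard1 _ hcube)
      have hw25 : w ^ 25 = 1 := by
        have := pow_orderOf_eq_one w
        rw [hw] at this
        simpa using this
      have hw0 : w ≠ 0 := by
        rintro rfl
        simp at hw25
      have hwσ : w ^ (q₀ + 1) = 1 := hnorm w (5 ^ 2) (by simpa using hw25) hcube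
      set ω := w ^ 5 with hω
      have hω5 : ω ^ 5 = 1 := by
        rw [hω, ← pow_mul]
        exact hw25
      have hω1 : ω ≠ 1 := by
        intro h
        have := orderOf_dvd_of_pow_eq_one (show w ^ 5 = 1 from h)
        rw [hw] at this
        norm_num at this
      have hω8 : ω ^ 8 ≠ 1 := by
        intro h
        have := orderOf_dvd_of_pow_eq_one (show w ^ 40 = 1 by
          rw [show 40 = 5 * 8 by norm_num, pow_mul]
          exact h)
        rw [hw] at this
        norm_num at this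
      have hω0 : ω ≠ 0 := pow_ne_zero _ hw0
      have hc0 : w * ω ^ 4 ≠ 0 := mul_ne_zero hw0 (pow_ne_zero _ hω0)
      have hac : w ≠ w * ω ^ 4 := by
        intro h
        apply hω8
        have h4 : ω ^ 4 = 1 := mul_left_cancel₀ hw0 (by rw [← h, mul_one])
        rw [show 8 = 4 * 2 by norm_num, pow_mul, h4, one_pow]
      have hωσ : ω ^ (q₀ + 1) = 1 := by
        rw [hω, ← pow_mul, mul_comm, pow_mul, hwσ, one_pow]
      have hcσ : (w * ω ^ 4) ^ (q₀ + 1) = 1 := by
        rw [mul_pow, hwσ, ← pow_mul, mul_comm 4, pow_mul, hωσ, one_pow, one_mul]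
      obtain ⟨μ, hμ, hsym⟩ := engine (lam3 5 4 0 w w (w * ω ^ 4)) (lam3_ne _ _ hw0 hw0 hc0) (by
          rw [det_lam3 (by norm_num)]
          have : w ^ 5 = ω := rfl
          simp only [pow_zero, mul_one, show 5 - 4 - 0 = 1 by norm_num, pow_one]
          calc w ^ 4 * (w * ω ^ 4) = w ^ 5 * ω ^ 4 := by ring
            _ = ω ^ 5 := by rw [this]; ring
            _ = 1 := hω5)
        (lam3_pow _ _ hwσ hwσ hcσ)
        ⟨ω, lam3_pow _ _ rfl rfl (by
          rw [mul_pow, ← pow_mul, show 4 * 5 = 5 * 4 by norm_num, pow_mul, hω5, one_pow, mul_one])⟩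
        ⟨⟨0, by norm_num⟩, ⟨4, by norm_num⟩, by
          rw [lam3_a _ (by simp), lam3_c _ (by simp)]
          exact hac⟩
      have h3 := pat2 (k := 1) (by norm_num) (by norm_num) (by norm_num) (by norm_num) hw0 hc0 hac μ hsym
      apply hω8
      have h4 : w ^ 2 * ω ^ 8 = w ^ 2 * 1 := by
        have e9 : w ^ 2 * ω ^ 8 = (w * ω ^ 4) ^ 2 := by ring
        rw [e9, ← h3, mul_one]
      exact mul_left_cancel₀ (pow_ne_zero _ hw0) h4
    · have hz3 : ζ ^ 3 ≠ 1 := hsm 3 (by norm_num) (by omega)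
      have hz4 : ζ ^ 4 ≠ 1 := hsm 4 (by norm_num) (by omega)
      have hz6 : ζ ^ 6 ≠ 1 := by
        intro h
        have h1 := orderOf_dvd_of_pow_eq_one h
        rw [hζ] at h1
        have h3 : r ∣ 2 * 3 := h1
        rcases (Nat.Prime.dvd_mul hr).mp h3 with h4 | h4
        · have := Nat.le_of_dvd (by norm_num) h4
          omega
        · have := Nat.le_of_dvd (by norm_num) h4
          omega
      have hz5 : n = 5 → ζ ^ 5 ≠ 1 := by
        intro hn5 h
        have h1 := orderOf_dvd_of_pow_eq_one h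
        rw [hζ] at h1
        exact h55 ⟨hn5, (Nat.prime_dvd_prime_iff_eq hr (by norm_num)).mp h1⟩
      have hbz : ((ζ⁻¹) ^ 2) * ζ ^ 2 = 1 := by
        field_simp
      have hb0 : (ζ⁻¹) ^ 2 ≠ 0 := pow_ne_zero _ (inv_ne_zero hζ0)
      have hbσ : ((ζ⁻¹) ^ 2) ^ (q₀ + 1) = 1 := by
        rw [← pow_mul, mul_comm, pow_mul, inv_pow, hζσ, inv_one, one_pow]
      obtain ⟨μ, hμ, hsym⟩ := engine (lam3 n 2 1 ζ ((ζ⁻¹) ^ 2) 1) (lam3_ne _ _ hζ0 hb0 one_ne_zero) (by
          rw [det_lam3 (by omega)]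
          simp only [pow_one, one_pow, mul_one]
          rw [mul_comm]
          exact hbz)
        (lam3_pow _ _ hζσ hbσ h1σ)
        ⟨1, lam3_pow _ _ hζr (by rw [← pow_mul, mul_comm, pow_mul, inv_pow, hζr, inv_one, one_pow]) (one_pow _)⟩
        ⟨⟨0, by omega⟩, ⟨2, by omega⟩, by
          rw [lam3_a _ (by simp), lam3_b _ (by simp) (by simp)]
          intro h
          apply hz3
          have : ζ ^ 3 = ((ζ⁻¹) ^ 2) * ζ ^ 2 := by
            rw [← h]
            ring
          rw [this, hbz]⟩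
      exact pat1 hn ζ hζ0 hz1 hz2 hz3 hz4 hz6 hz5 μ hsym

/-- Independence over a subfield passes to the field. -/
theorem linInd_map (F₀ : Subfield F) {m : ℕ} (v : Fin m → (Fin n → F₀)) (hv : LinearIndependent F₀ v) :
    LinearIndependent F (fun i => (fun j => ((v i j : F₀) : F))) := by
  classical
  let Φ : (Fin m → F₀) →ₗ[F₀] (Fin n → F₀) := Fintype.linearCombination F₀ v
  have hΦ : ∀ c, Φ c = ∑ i, c i • v i := fun c => Fintype.linearCombination_apply F₀ v c
  have hinj : LinearMap.ker Φ = ⊥ := by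
    rw [LinearMap.ker_eq_bot']
    intro c hc
    rw [hΦ] at hc
    funext i
    exact Fintype.linearIndependent_iff.mp hv c hc i
  obtain ⟨L, hL⟩ := LinearMap.exists_leftInverse_of_injective Φ hinj
  let R := LinearMap.toMatrix' L
  have hR : ∀ i j, (R *ᵥ v i) j = if j = i then 1 else 0 := by
    intro i j
    have h1 : L (v i) = Pi.single i 1 := by
      have h2 := LinearMap.congr_fun hL (Pi.single i 1)
      simp only [LinearMap.comp_apply, LinearMap.id_apply] at h2
      rw [hΦ] at h2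
      rw [← h2]
      congr 1
      rw [Finset.sum_eq_single i]
      · simp
      · intro b _ hb
        simp [Pi.single_apply, hb]
      · simp
    have h3 : R *ᵥ v i = L (v i) := LinearMap.toMatrix'_mulVec L (v i)
    rw [h3, h1]
    simp [Pi.single_apply]
  rw [Fintype.linearIndependent_iff]
  intro c hc j
  have h1 : ∑ l, ((R j l : F₀) : F) * ∑ i, c i * ((v i l : F₀) : F) = 0 := by
    apply Finset.sum_eq_zero
    intro l _
    have := congrFun hc l
    simp only [Finset.sum_apply, Pi.smul_apply, smul_eq_mul, Pi.zero_apply] at this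
    rw [this, mul_zero]
  have key : ∀ i, (((R *ᵥ v i) j : F₀) : F) = ∑ l, ((R j l : F₀) : F) * ((v i l : F₀) : F) := fun i => by
    have := RingHom.map_mulVec (F₀.subtype : F₀ →+* F) R (v i) j
    simpa [Matrix.mulVec, dotProduct] using this
  have h2 : ∑ l, ((R j l : F₀) : F) * ∑ i, c i * ((v i l : F₀) : F) = ∑ i, c i * (((R *ᵥ v i) j : F₀) : F) := by
    simp only [Finset.mul_sum, key]
    rw [Finset.sum_comm]
    refine Finset.sum_congr rfl fun i _ => Finset.sum_congr rfl fun l _ => ?_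
    ring
  rw [h2] at h1
  simp only [hR] at h1
  rw [Finset.sum_eq_single j] at h1
  · simpa using h1
  · intro b _ hb
    simp [Ne.symm hb]
  · simp

/-- Ranks can only go up when passing to the field. -/
theorem rank_le_map (F₀ : Subfield F) (M : Matrix (Fin n) (Fin n) F₀) :
    M.rank ≤ (M.map (F₀.subtype : F₀ →+* F)).rank := by
  classical
  set ρ := M.rank with hρ
  have hfr : finrank F₀ (LinearMap.range M.mulVecLin) = ρ := rfl
  let b : Basis (Fin ρ) F₀ (LinearMap.range M.mulVecLin) := Module.finBasisOfFinrankEq F₀ _ hfr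
  have hu : ∀ i, ∃ u, M *ᵥ u = (b i : Fin n → F₀) := fun i => by
    obtain ⟨u, hu⟩ := (b i).2
    exact ⟨u, hu⟩
  choose u hu using hu
  let v : Fin ρ → (Fin n → F₀) := fun i => (b i : Fin n → F₀)
  have hv : LinearIndependent F₀ v := b.linearIndependent.map' (LinearMap.range M.mulVecLin).subtype (Submodule.ker_subtype _)
  have hw := linInd_map F₀ v hv
  set M' := M.map (F₀.subtype : F₀ →+* F) with hM'
  have hmem : ∀ i, (fun j => ((v i j : F₀) : F)) ∈ LinearMap.range M'.mulVecLin := by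
    intro i
    refine ⟨fun j => (u i j : F), ?_⟩
    funext j
    have h1 := RingHom.map_mulVec (F₀.subtype : F₀ →+* F) M (u i) j
    rw [hu i] at h1
    exact h1.symm
  let w' : Fin ρ → LinearMap.range M'.mulVecLin := fun i => ⟨_, hmem i⟩
  have hw' : LinearIndependent F w' := LinearIndependent.of_comp (LinearMap.range M'.mulVecLin).subtype hw
  have h := hw'.fintype_card_le_finrank
  rw [Fintype.card_fin] at h
  exact h

/-- Block elements. -/
theorem forward_block {q r q₀ p e d : ℕ} [Fact p.Prime] [CharP F p] (hq : Fintype.card F = q) (hn0 : 0 < n) (F₀ : Subfield F) (hF₀ : Nat.card F₀ = q₀)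
    [hrf : Fact r.Prime] (hrp : r ≠ p) (hq1 : ¬ r ∣ q - 1) (he : r ∣ q ^ e - 1) (he0 : e ≠ 0) (hen : e ≤ n)
    (hrq₀ : ¬ r ∣ q₀) (hmin : ∀ i, 0 < i → r ∣ q₀ ^ i - 1 → d ≤ i)
    (hfix : ∀ x : GL (Fin n) F, (x : Mt).det = 1 → (∃ z : F, ((x ^ r : GL (Fin n) F) : Mt) = z • (1 : Mt)) →
      (∀ z : F, (x : Mt) ≠ z • (1 : Mt)) → ∃ g : GL (Fin n) F, g⁻¹ * x * g ∈ subfieldSubgroup F₀ 1) : d ≤ e := by
  classical
  have hr : r.Prime := hrf.out
  have hp : p.Prime := Fact.out
  obtain ⟨τ, hτ1, hτ⟩ := exists_tau F₀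
  rw [hF₀] at hτ1
  obtain ⟨x, hxr, hxd, hxrk⟩ := exists_block_elt (F := F) (n := n) (r := r) p (j := e) he0 hen (by rwa [hq]) (by rwa [hq])
  have hx1 : x ≠ 1 := by
    rintro rfl
    simp at hxrk
    omega
  obtain ⟨g, hg⟩ := hfix x hxd ⟨1, by rw [hxr, one_smul]; rfl⟩ (by
    intro z hz
    apply hx1
    have h5 : z ^ r • (1 : Mt) = 1 := by
      have := congrArg Units.val hxr
      rw [Units.val_pow_eq_pow_val, hz, _root_.smul_pow, one_pow] at this
      exact this
    have h6 : z ^ r = 1 := by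
      have := congrFun (congrFun h5 ⟨0, hn0⟩) ⟨0, hn0⟩
      simpa using this
    have h7 := Cfsg.Agent.S5979.eq_one_of_pow hq hr hq1 h6
    apply Units.ext
    rw [hz, h7, one_smul]
    rfl)
  set y := g⁻¹ * x * g with hy
  have hyr : y ^ r = 1 := by
    have h3 : g⁻¹ * x * g = g⁻¹ * x * (g⁻¹)⁻¹ := by rw [inv_inv]
    rw [hy, h3, conj_pow, hxr]
    group
  have hy1 : y ≠ 1 := by
    intro h
    apply hx1
    have : x = g * y * g⁻¹ := by rw [hy]; group
    rw [this, h]
    group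
  obtain ⟨d', G, hd', hyG⟩ := mem_H_decomp F₀ y hg
  have hτd : τ d' ≠ 0 := fun h => hd' (τ.injective (by rw [h, map_zero]))
  set ρ := τ d' / d' with hρ
  have hρ0 : ρ ≠ 0 := div_ne_zero hτd hd'
  have hmap : (y : Mt).map τ = ρ • (y : Mt) := by
    ext k l
    simp only [Matrix.map_apply, Matrix.smul_apply, smul_eq_mul]
    rw [hyG, map_mul, (hτ _).mpr (SetLike.coe_mem _), hρ]
    field_simp
  have hρr : ρ ^ r = 1 := by
    have h1 : ((y : Mt).map τ) ^ r = 1 := by
      have h2 : ((y : Mt).map τ) ^ r = (τ.mapMatrix (y : Mt)) ^ r := rfl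
      rw [h2, ← map_pow, ← Units.val_pow_eq_pow_val, hyr]
      simp
    rw [hmap, _root_.smul_pow, ← Units.val_pow_eq_pow_val, hyr] at h1
    have := congrFun (congrFun h1 ⟨0, hn0⟩) ⟨0, hn0⟩
    simpa using this
  have hρ1 : ρ = 1 := Cfsg.Agent.S5979.eq_one_of_pow hq hr hq1 hρr
  have hmem : ∀ k l, (y : Mt) k l ∈ F₀ := by
    intro k l
    rw [← hτ]
    have := congrFun (congrFun hmap k) l
    rw [hρ1, one_smul] at this
    exact this
  let A : Matrix (Fin n) (Fin n) F₀ := fun k l => ⟨(y : Mt) k l, hmem k l⟩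
  have hAmap : A.map (F₀.subtype : F₀ →+* F) = (y : Mt) := by
    ext k l
    rfl
  have hAdet : A.det ≠ 0 := by
    intro h0
    have h1 : (A.map (F₀.subtype : F₀ →+* F)).det = 0 := by
      have := RingHom.map_det (F₀.subtype : F₀ →+* F) A
      rw [h0, map_zero] at this
      exact this.symm
    rw [hAmap] at h1
    exact Cfsg.Agent.S5979.det_ne_zero_GL y h1
  let A₀ : GL (Fin n) F₀ := Matrix.GeneralLinearGroup.mkOfDetNeZero A hAdet
  have hA₀ : (A₀ : Matrix (Fin n) (Fin n) F₀) = A := rfl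
  have hinj : Function.Injective (fun M : Matrix (Fin n) (Fin n) F₀ => M.map (F₀.subtype : F₀ →+* F)) :=
    Matrix.map_injective (F₀.subtype : F₀ →+* F).injective
  have hAr : A₀ ^ r = 1 := by
    apply Units.ext
    apply hinj
    rw [Units.val_pow_eq_pow_val, hA₀]
    show (F₀.subtype : F₀ →+* F).mapMatrix (A ^ r) = (F₀.subtype : F₀ →+* F).mapMatrix 1
    rw [map_pow, map_one]
    show (A.map (F₀.subtype : F₀ →+* F)) ^ r = 1
    rw [hAmap, ← Units.val_pow_eq_pow_val, hyr]
    rfl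
  have hA1 : A₀ ≠ 1 := by
    intro h
    apply hy1
    apply Units.ext
    rw [← hAmap, ← hA₀, h]
    show (F₀.subtype : F₀ →+* F).mapMatrix 1 = 1
    rw [map_one]
  haveI : Fintype F₀ := Fintype.ofFinite F₀
  have hF₀' : Fintype.card F₀ = q₀ := by rw [← Nat.card_eq_fintype_card, hF₀]
  have hrF₀ : (r : F₀) ≠ 0 := by
    intro h0
    have h1 : (r : F) = 0 := by
      have := congrArg (fun t : F₀ => (t : F)) h0
      simpa using this
    have := (CharP.cast_eq_zero_iff F p r).mp h1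
    exact hrp ((Nat.prime_dvd_prime_iff_eq hp hr).mp this).symm
  have h1 := Cfsg.Agent.S5979.le_rank hF₀' hr hrq₀ hrF₀ hmin A₀ hAr hA1
  have h2 := rank_le_map F₀ ((A₀ : Matrix (Fin n) (Fin n) F₀) - 1)
  have h3 : ((A₀ : Matrix (Fin n) (Fin n) F₀) - 1).map (F₀.subtype : F₀ →+* F) = (y : Mt) - 1 := by
    rw [hA₀, ← hAmap]
    show (F₀.subtype : F₀ →+* F).mapMatrix (A - 1) = (F₀.subtype : F₀ →+* F).mapMatrix A - 1
    rw [map_sub, map_one]
  rw [h3] at h2
  have h5 := rank_conj g x 1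
  simp only [one_smul] at h5
  rw [hy] at h2
  rw [h5, hxrk] at h2
  omega

theorem zmod3 : ∀ t : ZMod 3, t ≠ 0 → t ^ 2 = 1 := by
  decide

/-- Split elements for `k ≥ 3`. -/
theorem forward_split {q r q₀ : ℕ} (hq : Fintype.card F = q) (hn : 2 ≤ n) (F₀ : Subfield F) (hF₀ : Nat.card F₀ = q₀)
    [hrf : Fact r.Prime] (hr2 : r ≠ 2) (hq1 : r ∣ q - 1) (hrq₀ : ¬ r ∣ q₀) (ha : ((q₀ : ZMod r)) ^ 2 ≠ 1)
    (hfix : ∀ x : GL (Fin n) F, (x : Mt).det = 1 → (∃ z : F, ((x ^ r : GL (Fin n) F) : Mt) = z • (1 : Mt)) →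
      (∀ z : F, (x : Mt) ≠ z • (1 : Mt)) → ∃ g : GL (Fin n) F, g⁻¹ * x * g ∈ subfieldSubgroup F₀ 1) : False := by
  classical
  have hr : r.Prime := hrf.out
  have hr3' : 3 ≤ r := by
    have := hr.two_le
    omega
  obtain ⟨τ, hτ1, hτ⟩ := exists_tau F₀
  rw [hF₀] at hτ1
  obtain ⟨ζ, hζ⟩ := exists_order (F := F) r (hq ▸ hq1)
  have hζr : ζ ^ r = 1 := by rw [← hζ]; exact pow_orderOf_eq_one ζ
  have hζ0 : ζ ≠ 0 := by
    rintro rfl
    rw [zero_pow hr.ne_zero] at hζr
    exact zero_ne_one hζr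
  have hz1 : ζ ≠ 1 := by
    intro h
    rw [h, orderOf_one] at hζ
    exact hr.one_lt.ne hζ
  have hz2 : ζ ^ 2 ≠ 1 := pow_ne_one_of_lt_orderOf two_ne_zero (by rw [hζ]; omega)
  have hzz : ζ ≠ ζ⁻¹ := by
    intro h
    apply hz2
    rw [pow_two]
    nth_rw 2 [h]
    exact mul_inv_cancel₀ hζ0
  have hzi1 : ζ⁻¹ ≠ 1 := by
    intro h
    apply hz1
    rw [← inv_inv ζ, h, inv_one]
  set lam : Fin n → F := lam3 n 1 1 ζ ζ⁻¹ 1 with hlam
  obtain ⟨x, hx, hxv⟩ := diag_elt lam (lam3_ne _ _ hζ0 (inv_ne_zero hζ0) one_ne_zero) (by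
    rw [hlam, det_lam3 (by omega)]
    simp only [pow_one, one_pow, mul_one]
    exact mul_inv_cancel₀ hζ0)
  obtain ⟨g, hg⟩ := hfix x (by
    rw [hxv, Matrix.det_diagonal, hlam, det_lam3 (by omega)]
    simp only [pow_one, one_pow, mul_one]
    exact mul_inv_cancel₀ hζ0) ⟨1, by
    rw [Units.val_pow_eq_pow_val, hxv, Matrix.diagonal_pow, ← Matrix.diagonal_one, ← Matrix.diagonal_smul]
    congr 1
    funext a
    have := lam3_pow (n := n) 1 1 hζr (show (ζ⁻¹) ^ r = 1 by rw [inv_pow, hζr, inv_one]) (one_pow r) a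
    simpa using this⟩ (by
    intro t ht
    rw [hxv] at ht
    have h1 := congrFun (congrFun ht ⟨0, by omega⟩) ⟨0, by omega⟩
    have h2 := congrFun (congrFun ht ⟨1, by omega⟩) ⟨1, by omega⟩
    simp only [Matrix.diagonal_apply_eq, Matrix.smul_apply, Matrix.one_apply_eq, smul_eq_mul, mul_one] at h1 h2
    rw [hlam, lam3_a _ (by simp)] at h1
    rw [hlam, lam3_b _ (by simp) (by simp)] at h2
    exact hzz (h1.trans h2.symm))
  obtain ⟨d, hd, hc⟩ := cnt_tau F₀ τ hτ lam x g hxv hg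
  have hτd : τ d ≠ 0 := fun h => hd (τ.injective (by rw [h, map_zero]))
  set c := d / τ d with hcdef
  have hc0 : c ≠ 0 := div_ne_zero hd hτd
  have C : ∀ β, cnt lam β = (if ζ = β then 1 else 0) + (if ζ⁻¹ = β then 1 else 0) + (if (1 : F) = β then n - 2 else 0) := by
    intro β
    rw [hlam, cnt_lam3 (by omega), show n - 1 - 1 = n - 2 by omega]
  have Cz : cnt lam ζ = 1 := by
    rw [C, if_pos rfl, if_neg hzz.symm, if_neg hz1.symm]
  have Czi : cnt lam ζ⁻¹ = 1 := by
    rw [C, if_neg hzz, if_pos rfl, if_neg hzi1.symm]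
  have C1 : cnt lam 1 = n - 2 := by
    rw [C, if_neg hz1, if_neg hzi1, if_pos rfl]
    omega
  have hmem : ∀ β, cnt lam β ≠ 0 → β = ζ ∨ β = ζ⁻¹ ∨ (β = 1 ∧ 3 ≤ n) := by
    intro β hβ
    rw [C] at hβ
    by_cases h1 : ζ = β
    · exact Or.inl h1.symm
    by_cases h2 : ζ⁻¹ = β
    · exact Or.inr (Or.inl h2.symm)
    by_cases h3 : (1 : F) = β
    · rw [if_neg h1, if_neg h2, if_pos h3] at hβ
      exact Or.inr (Or.inr ⟨h3.symm, by omega⟩)
    · rw [if_neg h1, if_neg h2, if_neg h3] at hβ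
      exact absurd rfl hβ
  set w₁ := ζ ^ q₀ with hw₁
  have hτz : τ ζ = w₁ := hτ1 ζ
  have hτzi : τ ζ⁻¹ = w₁⁻¹ := by rw [map_inv₀, hτz]
  have hw₁0 : w₁ ≠ 0 := pow_ne_zero _ hζ0
  have hw₁r : w₁ ^ r = 1 := by
    rw [hw₁, ← pow_mul, mul_comm, pow_mul, hζr, one_pow]
  have hw₁2 : w₁ ^ 2 ≠ 1 := by
    intro h
    have h1 : ζ ^ (q₀ * 2) = 1 := by
      rw [pow_mul]
      exact h
    have h2 := orderOf_dvd_of_pow_eq_one h1
    rw [hζ] at h2
    rcases (Nat.Prime.dvd_mul hr).mp h2 with h3 | h3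
    · exact hrq₀ h3
    · exact hr2 ((Nat.prime_dvd_prime_iff_eq hr Nat.prime_two).mp h3)
  have hw₁1 : w₁ ≠ 1 := by
    intro h
    apply hw₁2
    rw [h, one_pow]
  have hww : w₁ ≠ w₁⁻¹ := by
    intro h
    apply hw₁2
    rw [pow_two]
    nth_rw 2 [h]
    exact mul_inv_cancel₀ hw₁0
  have hlem : (w₁ = ζ ∨ w₁ = ζ⁻¹) → False := by
    intro h
    apply ha
    have h1 : ζ ^ (q₀ * q₀) = ζ := by
      rw [pow_mul, ← hw₁]
      rcases h with h | h
      · calc w₁ ^ q₀ = ζ ^ q₀ := by rw [h]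
          _ = w₁ := rfl
          _ = ζ := h
      · calc w₁ ^ q₀ = (ζ⁻¹) ^ q₀ := by rw [h]
          _ = (ζ ^ q₀)⁻¹ := inv_pow _ _
          _ = w₁⁻¹ := rfl
          _ = ζ := by rw [h, inv_inv]
    have hqq : 1 ≤ q₀ * q₀ := by
      have hq₀0 : q₀ ≠ 0 := by
        rintro rfl
        exact hrq₀ (dvd_zero r)
      exact Nat.one_le_iff_ne_zero.mpr (Nat.mul_ne_zero hq₀0 hq₀0)
    have h2 : ζ ^ (q₀ * q₀ - 1) = 1 := by
      apply mul_right_cancel₀ hζ0
      rw [← pow_succ, one_mul, Nat.sub_add_cancel hqq, h1]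
    have h3 := orderOf_dvd_of_pow_eq_one h2
    rw [hζ] at h3
    have h4 := (ZMod.natCast_eq_zero_iff _ r).mpr h3
    rw [Nat.cast_sub hqq] at h4
    push_cast at h4
    rw [pow_two]
    exact sub_eq_zero.mp h4
  have hu : cnt lam (c * w₁) = 1 := by
    rw [← Cz, hc ζ, hτz]
  have hv : cnt lam (c * w₁⁻¹) = 1 := by
    rw [← Czi, hc ζ⁻¹, hτzi]
  have hcw : cnt lam c = n - 2 := by
    rw [← C1, hc 1, map_one, mul_one]
  have huv : c * w₁ ≠ c * w₁⁻¹ := fun h => hww (mul_left_cancel₀ hc0 h)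
  have hpow : ∀ β, β = ζ ∨ β = ζ⁻¹ ∨ (β = 1 ∧ 3 ≤ n) → β ^ r = 1 := by
    rintro β (rfl | rfl | ⟨rfl, -⟩)
    · exact hζr
    · rw [inv_pow, hζr, inv_one]
    · exact one_pow _
  have hu' := hmem _ (by rw [hu]; exact one_ne_zero)
  have hv' := hmem _ (by rw [hv]; exact one_ne_zero)
  have hcr : c ^ r = 1 := by
    have h1 := hpow _ hu'
    rw [mul_pow, hw₁r, mul_one] at h1
    exact h1
  have hr3zeta : ζ ^ 3 = 1 → False := by
    intro h
    have h1 := orderOf_dvd_of_pow_eq_one h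
    rw [hζ] at h1
    have h2 : r = 3 := (Nat.prime_dvd_prime_iff_eq hr Nat.prime_three).mp h1
    subst h2
    apply ha
    have h3 : ((q₀ : ZMod 3)) ≠ 0 := by
      intro h0
      exact hrq₀ ((ZMod.natCast_eq_zero_iff _ 3).mp h0)
    exact zmod3 _ h3
  by_cases hn3 : 3 ≤ n
  · -- `c` is one of the eigenvalues
    have hc' := hmem c (by rw [hcw]; omega)
    rcases hc' with hcz | hcz | ⟨hc1, -⟩
    · have hn' : n - 2 = 1 := by
        rw [← hcw, hcz, Cz]
      rw [hcz] at hu' hv' huv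
      have hu1 : ζ * w₁ ≠ ζ := fun h => hw₁1 (mul_left_cancel₀ hζ0 (by rw [h, mul_one]))
      have hv1 : ζ * w₁⁻¹ ≠ ζ := fun h => hw₁1 (by
        have := mul_left_cancel₀ hζ0 (h.trans (mul_one ζ).symm)
        rw [← inv_inv w₁, this, inv_one])
      apply hr3zeta
      have hprod : (ζ * w₁) * (ζ * w₁⁻¹) = ζ ^ 2 := by
        field_simp
      rcases hu' with h1 | h1 | ⟨h1, -⟩
      · exact absurd h1 hu1
      · rcases hv' with h2 | h2 | ⟨h2, -⟩
        · exact absurd h2 hv1
        · exact absurd (h1.trans h2.symm) huv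
        · rw [h1, h2, mul_one] at hprod
          have : ζ ^ 3 = ζ ^ 2 * ζ := by ring
          rw [this, ← hprod]
          exact inv_mul_cancel₀ hζ0
      · rcases hv' with h2 | h2 | ⟨h2, -⟩
        · exact absurd h2 hv1
        · rw [h1, h2, one_mul] at hprod
          have : ζ ^ 3 = ζ ^ 2 * ζ := by ring
          rw [this, ← hprod]
          exact inv_mul_cancel₀ hζ0
        · exact absurd (h1.trans h2.symm) huv
    · have hn' : n - 2 = 1 := by
        rw [← hcw, hcz, Czi]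
      rw [hcz] at hu' hv' huv
      have hu1 : ζ⁻¹ * w₁ ≠ ζ⁻¹ := fun h => hw₁1 (mul_left_cancel₀ (inv_ne_zero hζ0) (by rw [h, mul_one]))
      have hv1 : ζ⁻¹ * w₁⁻¹ ≠ ζ⁻¹ := fun h => hw₁1 (by
        have := mul_left_cancel₀ (inv_ne_zero hζ0) (h.trans (mul_one ζ⁻¹).symm)
        rw [← inv_inv w₁, this, inv_one])
      apply hr3zeta
      have hprod : (ζ⁻¹ * w₁) * (ζ⁻¹ * w₁⁻¹) = (ζ⁻¹) ^ 2 := by
        field_simp
      rcases hu' with h1 | h1 | ⟨h1, -⟩
      · rcases hv' with h2 | h2 | ⟨h2, -⟩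
        · exact absurd (h1.trans h2.symm) huv
        · exact absurd h2 hv1
        · rw [h1, h2, mul_one] at hprod
          have h5 : ζ ^ 2 * ζ = ζ ^ 3 := by ring
          have h6 : ζ * ζ ^ 2 = 1 := by
            nth_rw 1 [hprod]
            field_simp
          rw [← h5, mul_comm]
          exact h6
      · exact absurd h1 hu1
      · rcases hv' with h2 | h2 | ⟨h2, -⟩
        · rw [h1, h2, one_mul] at hprod
          have h5 : ζ ^ 2 * ζ = ζ ^ 3 := by ring
          have h6 : ζ * ζ ^ 2 = 1 := by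
            nth_rw 1 [hprod]
            field_simp
          rw [← h5, mul_comm]
          exact h6
        · exact absurd h2 hv1
        · exact absurd (h1.trans h2.symm) huv
    · rw [hc1, one_mul] at hu'
      rcases hu' with h1 | h1 | ⟨h1, -⟩
      · exact hlem (Or.inl h1)
      · exact hlem (Or.inr h1)
      · exact hw₁1 h1
  · -- `n = 2`
    have hcc : c ^ 2 = 1 := by
      have hprod : (c * w₁) * (c * w₁⁻¹) = c ^ 2 := by
        field_simp
      rw [← hprod]
      rcases hu' with h1 | h1 | ⟨h1, h1'⟩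
      · rcases hv' with h2 | h2 | ⟨h2, h2'⟩
        · exact absurd (h1.trans h2.symm) huv
        · rw [h1, h2]
          exact mul_inv_cancel₀ hζ0
        · exact absurd h2' hn3
      · rcases hv' with h2 | h2 | ⟨h2, h2'⟩
        · rw [h1, h2]
          exact inv_mul_cancel₀ hζ0
        · exact absurd (h1.trans h2.symm) huv
        · exact absurd h2' hn3
      · exact absurd h1' hn3
    have hc1 : c = 1 := by
      obtain ⟨t, ht⟩ := hr.odd_of_ne_two hr2
      rw [ht, pow_succ, pow_mul, hcc, one_pow, one_mul] at hcr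
      exact hcr
    rw [hc1, one_mul] at hu'
    rcases hu' with h1 | h1 | ⟨h1, -⟩
    · exact hlem (Or.inl h1)
    · exact hlem (Or.inr h1)
    · exact hw₁1 h1

/-- The main forward direction. -/
theorem forward {q r p k q₀ : ℕ} [Fact p.Prime] [CharP F p] (hq : Fintype.card F = q) (hn : 2 ≤ n) (F₀ : Subfield F) (hk : k.Prime)
    (hF₀ : Nat.card F₀ = q₀) (hqk : q = q₀ ^ k) [hrf : Fact r.Prime] (hr2 : r ≠ 2) (hrp : r ≠ p) (hgap : ¬ (n = 6 ∧ r = 3)) (hrk : r ≠ k)
    (hΩ : r ∣ ((subfieldSubgroup F₀ 1).comap (Matrix.SpecialLinearGroup.toGL : Matrix.SpecialLinearGroup (Fin n) F →* GL (Fin n) F)).index)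
    (hfix : ∀ x : GL (Fin n) F, (x : Mt).det = 1 → (∃ z : F, ((x ^ r : GL (Fin n) F) : Mt) = z • (1 : Mt)) →
      (∀ z : F, (x : Mt) ≠ z • (1 : Mt)) → ∃ g : GL (Fin n) F, g⁻¹ * x * g ∈ subfieldSubgroup F₀ 1) :
    k = 2 ∧ r = n ∧ (n = 3 ∨ n = 5) ∧ padicValNat r (q₀ + 1) = 1 := by
  classical
  have hr : r.Prime := hrf.out
  have hp : p.Prime := Fact.out
  have hrq : ¬ r ∣ q := by
    intro h
    obtain ⟨e, _, he⟩ := FiniteField.card F p
    rw [← hq, he] at h
    exact hrp ((Nat.prime_dvd_prime_iff_eq hr hp).mp (hr.dvd_of_dvd_pow h))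
  have hrq₀ : ¬ r ∣ q₀ := fun h => hrq (by
    rw [hqk]
    exact Dvd.dvd.trans h (dvd_pow_self q₀ hk.ne_zero))
  have hq₀2 : 2 ≤ q₀ := by
    rw [← hF₀]
    exact Finite.one_lt_card
  have hq0pos : 0 < q := by
    rw [← hq]
    exact Fintype.card_pos
  obtain ⟨i, hi2, hin, hG⟩ := index_k hr F₀ hF₀ (hq.trans hqk) hn hrq₀ hΩ
  set a : ZMod r := (q₀ : ZMod r) with ha
  have hGz : ∑ s ∈ Finset.range k, (a ^ i) ^ s = 0 := by
    have := (ZMod.natCast_eq_zero_iff _ r).mpr hG
    push_cast at this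
    exact this
  have hai : a ^ i ≠ 1 := by
    intro h
    rw [h] at hGz
    simp only [one_pow, Finset.sum_const, Finset.card_range, nsmul_eq_mul, mul_one] at hGz
    have h1 := (ZMod.natCast_eq_zero_iff _ r).mp hGz
    exact hrk ((Nat.prime_dvd_prime_iff_eq hr hk).mp h1)
  have haik : (a ^ i) ^ k = 1 := by
    have h1 := mul_geom_sum (a ^ i) k
    rw [hGz, mul_zero] at h1
    exact (sub_eq_zero.mp h1.symm)
  have hd1 : orderOf a ∣ i * k := by
    apply orderOf_dvd_of_pow_eq_one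
    rw [pow_mul]
    exact haik
  have hd2 : ¬ orderOf a ∣ i := fun h => hai (orderOf_dvd_iff_pow_eq_one.mp h)
  have hkd : k ∣ orderOf a := by
    by_contra hcon
    have hc : Nat.Coprime (orderOf a) k := by
      rw [Nat.coprime_comm]
      exact (Nat.Prime.coprime_iff_not_dvd hk).mpr hcon
    exact hd2 (hc.dvd_of_dvd_mul_right hd1)
  obtain ⟨e, he⟩ := hkd
  have hd0 : orderOf a ≠ 0 := by
    intro h
    rw [h, zero_dvd_iff] at hd1
    have := hk.pos
    have h3 : i * k ≠ 0 := Nat.mul_ne_zero (by omega) (by omega)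
    exact h3 hd1
  have he0 : e ≠ 0 := by
    rintro rfl
    rw [mul_zero] at he
    exact hd0 he
  have hqz : (q : ZMod r) = a ^ k := by
    rw [hqk]
    push_cast
    rfl
  have hord : orderOf (q : ZMod r) = e := by
    rw [hqz, orderOf_pow' a hk.ne_zero, he, Nat.gcd_eq_right (dvd_mul_right k e)]
    exact Nat.mul_div_cancel_left e hk.pos
  have hei : e ∣ i := by
    rw [he] at hd1
    rw [mul_comm i k] at hd1
    exact Nat.dvd_of_mul_dvd_mul_left hk.pos hd1
  have hen : e ≤ n := (Nat.le_of_dvd (by omega) hei).trans hin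
  by_cases he1 : e = 1
  · subst he1
    rw [mul_one] at he
    have hq1 : r ∣ q - 1 := by
      have := (Cfsg.Agent.S5980.dvd_iff_orderOf hr hq0pos 1).mpr (by rw [hord])
      rwa [pow_one] at this
    by_cases hk2 : k = 2
    · subst hk2
      -- `a = -1`
      have ha2 : a ^ 2 = 1 := by
        rw [← he]
        exact pow_orderOf_eq_one a
      have ha1 : a ≠ 1 := by
        intro h
        rw [h, orderOf_one] at he
        omega
      have ham : a = -1 := by
        have : a * a = 1 := by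
          rw [← pow_two]
          exact ha2
        exact (mul_self_eq_one_iff.mp this).resolve_left ha1
      have hq₀1 : r ∣ q₀ + 1 := by
        apply (ZMod.natCast_eq_zero_iff _ r).mp
        push_cast
        rw [← ha, ham]
        ring
      have hn3 : 3 ≤ n := by
        by_contra hlt
        have hi2' : i = 2 := by omega
        rw [hi2', ha2] at hai
        exact hai rfl
      obtain ⟨h1, h2, h3⟩ := forward_k2 hq hqk hn3 F₀ hF₀ hr2 hgap hq₀1 hfix
      refine ⟨rfl, h2.symm, ?_, h3⟩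
      rw [h2]
      exact h1
    · exfalso
      refine forward_split hq hn F₀ hF₀ hr2 hq1 hrq₀ ?_ hfix
      intro h
      have h1 : orderOf a ∣ 2 := orderOf_dvd_of_pow_eq_one h
      rw [he] at h1
      exact hk2 ((Nat.prime_dvd_prime_iff_eq hk Nat.prime_two).mp h1)
  · exfalso
    have hq1 : ¬ r ∣ q - 1 := by
      intro h
      have h1 : r ∣ q ^ 1 - 1 := by rwa [pow_one]
      have h2 := (Cfsg.Agent.S5980.dvd_iff_orderOf hr hq0pos 1).mp h1
      rw [hord, Nat.dvd_one] at h2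
      exact he1 h2
    have hedvd : r ∣ q ^ e - 1 := (Cfsg.Agent.S5980.dvd_iff_orderOf hr hq0pos e).mpr (by rw [hord])
    have h5 := forward_block (d := orderOf a) hq (by omega) F₀ hF₀ hrp hq1 hedvd he0 hen hrq₀ (by
      intro i' hi' hdv
      have h6 := (Cfsg.Agent.S5980.dvd_iff_orderOf hr (by omega : 0 < q₀) i').mp hdv
      exact Nat.le_of_dvd hi' h6) hfix
    rw [he] at h5
    have h6 : 2 * e ≤ k * e := Nat.mul_le_mul_right _ hk.two_le
    omega

end forward

section rational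

open Polynomial

universe u

/-- Structure constants in the subfield give a conjugate in the subfield group. -/
theorem conj_of_rat_basis (F₀ : Subfield F) (x : GL (Fin n) F) (e : Basis (Fin n) F (Fin n → F)) (a : Fin n → Fin n → F)
    (ha : ∀ i j, a i j ∈ F₀) (w : F) (hw : w ≠ 0) (he : ∀ j, (x : Mt) *ᵥ e j = w • ∑ i, a i j • e i) :
    ∃ P : GL (Fin n) F, P⁻¹ * x * P ∈ subfieldSubgroup F₀ 1 := by
  classical
  let L : (Fin n → F) ≃ₗ[F] (Fin n → F) := e.equivFun.symm
  have hLe : ∀ j, L (Pi.single j 1) = e j := by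
    intro j
    simp only [L]
    rw [Basis.equivFun_symm_apply, Finset.sum_eq_single j]
    · simp
    · intro b _ hb
      simp [Pi.single_apply, hb]
    · simp
  let P : GL (Fin n) F := Cfsg.Agent.Lib.MatConj.glOfEquiv L
  have hP : ∀ v, (P : Mt) *ᵥ v = L v := Cfsg.Agent.Lib.MatConj.glOfEquiv_mulVec L
  have hPi : ∀ w, ((P⁻¹ : GL (Fin n) F) : Mt) *ᵥ w = L.symm w := by
    intro w
    apply L.injective
    rw [← hP, Matrix.mulVec_mulVec, ← Units.val_mul, mul_inv_cancel]
    simp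
  refine ⟨P, mem_H_of F₀ _ w⁻¹ (inv_ne_zero hw) fun k l => ?_⟩
  have h1 : ((P⁻¹ * x * P : GL (Fin n) F) : Mt) *ᵥ Pi.single l 1 = w • (fun i => a i l) := by
    rw [Units.val_mul, Units.val_mul, ← Matrix.mulVec_mulVec, ← Matrix.mulVec_mulVec, hP, hPi, hLe, he, map_smul]
    congr 1
    apply L.injective
    rw [LinearEquiv.apply_symm_apply]
    simp only [L]
    rw [Basis.equivFun_symm_apply]
  have h2 : ((P⁻¹ * x * P : GL (Fin n) F) : Mt) k l = w * a k l := by
    have h3 := congrFun h1 k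
    rw [Matrix.mulVec_single_one] at h3
    simpa using h3
  rw [Matrix.smul_apply, h2, smul_eq_mul, inv_mul_cancel_left₀ hw]
  exact ha k l

/-- `T` has a basis with structure constants in the subfield. -/
def RatRep (F₀ : Subfield F) {V : Type u} [AddCommGroup V] [Module F V] (T : Module.End F V) : Prop :=
  ∃ (m : ℕ) (e : Basis (Fin m) F V), ∀ j, ∃ c : Fin m → F, (∀ i, c i ∈ F₀) ∧ T (e j) = ∑ i, c i • e i

/-- One irreducible factor. -/
theorem ratRep_irr (F₀ : Subfield F) {V : Type u} [AddCommGroup V] [Module F V] [FiniteDimensional F V] (T : Module.End F V)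
    (f : F[X]) (hf : Irreducible f) (hm : f.Monic) (hc : ∀ i, f.coeff i ∈ F₀) (hT : aeval T f = 0) : RatRep F₀ T := by
  classical
  obtain ⟨d, hd⟩ : ∃ d, d = f.natDegree := ⟨_, rfl⟩
  obtain ⟨m, v, b, hb⟩ := Cfsg.Agent.Lib.MatConj.exists_poly_basis' T f hf hT d hd.symm
  have hTd : ∀ v : V, (T ^ d) v = - ∑ l ∈ Finset.range d, f.coeff l • (T ^ l) v := by
    intro v
    have h1 := hm.as_sum
    rw [← hd] at h1
    have h2 : aeval T f = T ^ d + ∑ l ∈ Finset.range d, f.coeff l • T ^ l := by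
      conv_lhs => rw [h1]
      rw [map_add, map_pow, aeval_X, map_sum]
      congr 1
      refine Finset.sum_congr rfl fun l _ => ?_
      rw [map_mul, map_pow, aeval_X, aeval_C, Algebra.algebraMap_eq_smul_one, smul_mul_assoc, one_mul]
    rw [h2] at hT
    have h3 := LinearMap.congr_fun hT v
    simp only [LinearMap.add_apply, LinearMap.sum_apply, LinearMap.smul_apply, LinearMap.zero_apply] at h3
    exact eq_neg_of_add_eq_zero_left h3
  let τ : Fin d × Fin m ≃ Fin (d * m) := finProdFinEquiv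
  refine ⟨d * m, b.reindex τ, fun j => ?_⟩
  obtain ⟨⟨i, j'⟩, rfl⟩ := τ.surjective j
  have hbr : ∀ t, (b.reindex τ) (τ t) = b t := fun t => by simp
  rw [hbr]
  have hTb : T (b (i, j')) = (T ^ ((i : ℕ) + 1)) (v j') := by
    rw [hb, pow_succ']
    rfl
  by_cases hi : (i : ℕ) + 1 < d
  · refine ⟨Pi.single (τ (⟨(i : ℕ) + 1, hi⟩, j')) 1, fun t => ?_, ?_⟩
    · rw [Pi.single_apply]
      split_ifs
      · exact F₀.one_mem
      · exact F₀.zero_mem
    · rw [Finset.sum_eq_single (τ (⟨(i : ℕ) + 1, hi⟩, j'))]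
      · rw [Pi.single_eq_same, one_smul, hbr, hTb, hb]
      · intro t _ ht
        rw [Pi.single_eq_of_ne ht, zero_smul]
      · simp
  · have hid : (i : ℕ) + 1 = d := by
      have := i.2
      omega
    refine ⟨fun t => if (τ.symm t).2 = j' then - f.coeff (τ.symm t).1 else 0, fun t => ?_, ?_⟩
    · show (if (τ.symm t).2 = j' then - f.coeff (τ.symm t).1 else 0) ∈ F₀
      split_ifs
      · exact F₀.neg_mem (hc _)
      · exact F₀.zero_mem
    · rw [hTb, hid, hTd, ← Equiv.sum_comp τ]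
      simp only [Equiv.symm_apply_apply, hbr]
      rw [Fintype.sum_prod_type, ← Finset.sum_neg_distrib ..]
      rw [Finset.sum_range]
      refine Finset.sum_congr rfl fun l _ => ?_
      rw [Finset.sum_eq_single j']
      · simp [hb]
      · intro c _ hc'
        simp [hc']
      · simp

/-- Splitting along a coprime factorization. -/
theorem ratRep_step (F₀ : Subfield F) {V : Type u} [AddCommGroup V] [Module F V] [FiniteDimensional F V] (T : Module.End F V)
    (f g : F[X]) (hf : Irreducible f) (hm : f.Monic) (hc : ∀ i, f.coeff i ∈ F₀) (hcop : IsCoprime f g) (h0 : aeval T (f * g) = 0)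
    (hW : ∀ (W : Submodule F V) (_ : W = LinearMap.ker (aeval T g)) (h : ∀ v ∈ W, T v ∈ W), RatRep F₀ (T.restrict h : Module.End F W)) :
    RatRep F₀ T := by
  classical
  set A := LinearMap.ker (aeval T f) with hA
  set W := LinearMap.ker (aeval T g) with hWdef
  have hdisj : Disjoint A W := Polynomial.disjoint_ker_aeval_of_isCoprime T hcop
  have hsup : A ⊔ W = ⊤ := by
    rw [hA, hWdef, Polynomial.sup_ker_aeval_eq_ker_aeval_mul_of_coprime T hcop, h0, LinearMap.ker_zero]
  have hcompl : IsCompl A W := ⟨hdisj, codisjoint_iff.mpr hsup⟩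
  have hcomm : ∀ (p : F[X]) v, aeval T p (T v) = T (aeval T p v) := by
    intro p v
    have : aeval T p * aeval T (X : F[X]) = aeval T (X : F[X]) * aeval T p := by
      rw [← map_mul, ← map_mul, mul_comm]
    rw [aeval_X] at this
    have := LinearMap.congr_fun this v
    simpa using this
  have hTW : ∀ v ∈ W, T v ∈ W := by
    intro v hv
    rw [hWdef, LinearMap.mem_ker] at hv ⊢
    rw [hcomm, hv, map_zero]
  have hTA : ∀ v ∈ A, T v ∈ A := by
    intro v hv
    rw [hA, LinearMap.mem_ker] at hv ⊢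
    rw [hcomm, hv, map_zero]
  let RA : Module.End F A := T.restrict hTA
  have hRA : aeval RA f = 0 := by
    apply LinearMap.ext
    intro v
    apply Subtype.ext
    rw [Cfsg.Agent.Lib.EigenThree.aeval_restrict_apply]
    exact LinearMap.mem_ker.mp v.2
  obtain ⟨mA, bA, hbA⟩ := ratRep_irr F₀ RA f hf hm hc hRA
  obtain ⟨mW, bW, hbW⟩ := hW W rfl hTW
  let τ : Fin mA ⊕ Fin mW ≃ Fin (mA + mW) := finSumFinEquiv
  let e₀ : Basis (Fin mA ⊕ Fin mW) F V := (bA.prod bW).map (Submodule.prodEquivOfIsCompl A W hcompl)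
  have he₁ : ∀ i, e₀ (Sum.inl i) = (bA i : V) := fun i => by simp [e₀, Basis.prod_apply]
  have he₂ : ∀ i, e₀ (Sum.inr i) = (bW i : V) := fun i => by simp [e₀, Basis.prod_apply]
  refine ⟨mA + mW, e₀.reindex τ, fun j => ?_⟩
  obtain ⟨t, rfl⟩ := τ.surjective j
  have her : ∀ t, (e₀.reindex τ) (τ t) = e₀ t := fun t => by simp
  rw [her]
  rcases t with a | a
  · obtain ⟨c, hc1, hc2⟩ := hbA a
    refine ⟨Sum.elim c (fun _ => 0) ∘ τ.symm, fun t => ?_, ?_⟩
    · simp only [Function.comp]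
      rcases τ.symm t with i | i
      · exact hc1 i
      · exact F₀.zero_mem
    · rw [← Equiv.sum_comp τ]
      simp only [Function.comp, Equiv.symm_apply_apply, her, Fintype.sum_sum_type, Sum.elim_inl, Sum.elim_inr, zero_smul, Finset.sum_const_zero, add_zero, he₁]
      have h3 := congrArg (Subtype.val) hc2
      simp only [AddSubmonoidClass.coe_finset_sum, SetLike.val_smul] at h3
      exact h3
  · obtain ⟨c, hc1, hc2⟩ := hbW a
    refine ⟨Sum.elim (fun _ => 0) c ∘ τ.symm, fun t => ?_, ?_⟩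
    · simp only [Function.comp]
      rcases τ.symm t with i | i
      · exact F₀.zero_mem
      · exact hc1 i
    · rw [← Equiv.sum_comp τ]
      simp only [Function.comp, Equiv.symm_apply_apply, her, Fintype.sum_sum_type, Sum.elim_inl, Sum.elim_inr, zero_smul, Finset.sum_const_zero, zero_add, he₂]
      have h3 := congrArg (Subtype.val) hc2
      simp only [AddSubmonoidClass.coe_finset_sum, SetLike.val_smul] at h3
      exact h3

/-- A product of distinct irreducible factors. -/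
theorem ratRep_prod (F₀ : Subfield F) (S : Finset F[X]) : (∀ f ∈ S, Irreducible f ∧ f.Monic ∧ ∀ i, f.coeff i ∈ F₀) →
    ∀ (V : Type u) [AddCommGroup V] [Module F V] [FiniteDimensional F V] (T : Module.End F V),
      aeval T (∏ f ∈ S, f) = 0 → RatRep F₀ T := by
  classical
  induction S using Finset.induction_on with
  | empty =>
    intro _ V _ _ _ T h0
    simp only [Finset.prod_empty, map_one] at h0
    haveI : Subsingleton V := by
      constructor
      intro a b
      have ha := LinearMap.congr_fun h0 a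
      have hb := LinearMap.congr_fun h0 b
      simp only [Module.End.one_apply, LinearMap.zero_apply] at ha hb
      rw [ha, hb]
    exact ⟨0, Basis.empty _, fun i => i.elim0⟩
  | insert f S' hf ih =>
    intro hS V _ _ _ T h0
    rw [Finset.prod_insert hf] at h0
    obtain ⟨h1, h2, h3⟩ := hS f (Finset.mem_insert_self _ _)
    have hS' : ∀ g ∈ S', Irreducible g ∧ g.Monic ∧ ∀ i, g.coeff i ∈ F₀ := fun g hg => hS g (Finset.mem_insert_of_mem hg)
    have hcop : IsCoprime f (∏ g ∈ S', g) := by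
      apply IsCoprime.prod_right
      intro g hg
      obtain ⟨h4, h5, -⟩ := hS' g hg
      rw [h1.coprime_iff_not_dvd]
      intro hd
      have hass := (h1.associated_of_dvd h4 hd)
      have := Polynomial.eq_of_monic_of_associated h2 h5 hass
      exact hf (this ▸ hg)
    refine ratRep_step F₀ T f _ h1 h2 h3 hcop h0 ?_
    intro W hW h
    subst hW
    apply ih hS'
    apply LinearMap.ext
    intro v
    apply Subtype.ext
    rw [Cfsg.Agent.Lib.EigenThree.aeval_restrict_apply]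
    exact LinearMap.mem_ker.mp v.2

/-- Irreducible factors of `X ^ r - 1` have coefficients in the subfield when `r` is the degree of the extension. -/
theorem coeff_mem_of_dvd {r q₀ : ℕ} [hrf : Fact r.Prime] (F₀ : Subfield F) (hF₀ : Nat.card F₀ = q₀) (hq : Fintype.card F = q₀ ^ r)
    (f : F[X]) (hf : Irreducible f) (hm : f.Monic) (hd : f ∣ X ^ r - 1) (i : ℕ) : f.coeff i ∈ F₀ := by
  classical
  haveI : Fintype F₀ := Fintype.ofFinite F₀
  have hF₀' : Fintype.card F₀ = q₀ := by rw [← Nat.card_eq_fintype_card, hF₀]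
  obtain ⟨τ, hτ1, hτ⟩ := exists_tau F₀
  rw [hF₀] at hτ1
  haveI : Fact (Irreducible f) := ⟨hf⟩
  let K := AdjoinRoot f
  haveI : Module.Finite F K := (AdjoinRoot.powerBasis hf.ne_zero).finite
  haveI : Finite K := Module.finite_of_finite F
  haveI : Fintype K := Fintype.ofFinite K
  let α : K := AdjoinRoot.root f
  have hα : aeval α f = 0 := AdjoinRoot.aeval_eq f ▸ by simp [α]
  have hαr : α ^ r = 1 := by
    obtain ⟨g, hg⟩ := hd
    have h1 : aeval α (X ^ r - 1 : F[X]) = 0 := by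
      rw [hg, map_mul, hα, zero_mul]
    simpa [sub_eq_zero] using h1
  -- the two Frobenius maps
  let φ : K →ₐ[F₀] K := FiniteField.frobeniusAlgHom F₀ K
  have hφ : ∀ t, φ t = t ^ q₀ := by
    intro t
    rw [← hF₀']
    rfl
  let ψ : K →ₐ[F] K := FiniteField.frobeniusAlgHom F K
  have hψ : ∀ t, ψ t = t ^ (q₀ ^ r) := by
    intro t
    rw [← hq]
    rfl
  have hmod : ∃ c, q₀ ^ r = q₀ + r * c := by
    have h1 : ((q₀ : ZMod r)) ^ r = q₀ := ZMod.pow_card _
    have h2 : q₀ ^ r ≡ q₀ [MOD r] := by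
      apply (ZMod.natCast_eq_natCast_iff _ _ r).mp
      push_cast
      exact h1
    have hle : q₀ ≤ q₀ ^ r := Nat.le_self_pow hrf.out.ne_zero q₀
    obtain ⟨c, hc⟩ := (Nat.modEq_iff_dvd' hle).mp h2.symm
    exact ⟨c, by omega⟩
  obtain ⟨c, hc⟩ := hmod
  set β : K := α ^ q₀ with hβ
  have hβq : ψ α = β := by
    rw [hψ, hc, pow_add, pow_mul, hαr, one_pow, mul_one]
  have hβf : aeval β f = 0 := by
    rw [← hβq, Polynomial.aeval_algHom_apply, hα, map_zero]
  have hβτ : aeval β (f.map τ) = 0 := by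
    have h1 : φ (aeval α f) = 0 := by rw [hα, map_zero]
    rw [Polynomial.aeval_def, eval₂_map]
    rw [Polynomial.aeval_def] at h1
    have h2 := Polynomial.hom_eval₂ f (algebraMap F K) (φ : K →+* K) α
    have h3 : ((φ : K →+* K)).comp (algebraMap F K) = (algebraMap F K).comp τ := by
      ext t
      simp only [RingHom.comp_apply]
      show φ (algebraMap F K t) = algebraMap F K (τ t)
      rw [hφ, hτ1, map_pow]
    rw [h3] at h2
    have h4 : (φ : K →+* K) α = β := hφ α
    rw [h4] at h2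
    rw [← h2]
    exact h1
  have hmin : f = minpoly F β := minpoly.eq_of_irreducible_of_monic hf hβf hm
  have hdvd : f ∣ f.map τ := by
    rw [hmin]
    rw [← hmin]
    conv_lhs => rw [hmin]
    exact minpoly.dvd F β hβτ
  have heq : f.map τ = f := by
    apply Polynomial.eq_of_monic_of_dvd_of_natDegree_le hm (hm.map τ) hdvd
    rw [Polynomial.natDegree_map]
  rw [← hτ]
  have := congrArg (fun p => p.coeff i) heq
  simpa using this

/-- The representation of an element of order `r`. -/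
theorem ratRep_of_pow {r q₀ : ℕ} [hrf : Fact r.Prime] (F₀ : Subfield F) (hF₀ : Nat.card F₀ = q₀) (hq : Fintype.card F = q₀ ^ r) (hrF : (r : F) ≠ 0)
    {V : Type u} [AddCommGroup V] [Module F V] [FiniteDimensional F V] (T : Module.End F V) (hT : T ^ r = 1) : RatRep F₀ T := by
  classical
  have hr : r.Prime := hrf.out
  set P : F[X] := X ^ r - C 1 with hP
  have hP0 : P ≠ 0 := X_pow_sub_C_ne_zero hr.pos 1
  have hPm : P.Monic := monic_X_pow_sub_C 1 hr.ne_zero
  have hsep : P.Separable := separable_X_pow_sub_C 1 hrF one_ne_zero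
  have hnodup := (UniqueFactorizationMonoid.squarefree_iff_nodup_normalizedFactors hP0).mp hsep.squarefree
  have hprod : ∏ f ∈ (UniqueFactorizationMonoid.normalizedFactors P).toFinset, f = P := by
    rw [Finset.prod_eq_multiset_prod, Multiset.toFinset_val, hnodup.dedup, Multiset.map_id',
      UniqueFactorizationMonoid.prod_normalizedFactors_eq hP0, hPm.normalize_eq_self]
  have hS : ∀ f ∈ (UniqueFactorizationMonoid.normalizedFactors P).toFinset, Irreducible f ∧ f.Monic ∧ ∀ i, f.coeff i ∈ F₀ := by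
    intro f hf
    rw [Multiset.mem_toFinset] at hf
    have h1 := UniqueFactorizationMonoid.irreducible_of_normalized_factor f hf
    have h2 : f.Monic := by
      rw [← UniqueFactorizationMonoid.normalize_normalized_factor f hf]
      exact monic_normalize h1.ne_zero
    have h3 : f ∣ X ^ r - 1 := by
      have := UniqueFactorizationMonoid.dvd_of_mem_normalizedFactors hf
      rwa [hP, map_one] at this
    exact ⟨h1, h2, coeff_mem_of_dvd F₀ hF₀ hq f h1 h2 h3⟩
  refine ratRep_prod F₀ _ hS V T ?_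
  rw [hprod, hP, map_sub, map_pow, aeval_X, hT, map_one, map_one, sub_self]

/-- Structure of an endomorphism killed by an irreducible polynomial. -/
theorem irr_struct {V : Type u} [AddCommGroup V] [Module F V] [FiniteDimensional F V] (T : Module.End F V) (f : F[X])
    (hf : Irreducible f) (hm : f.Monic) (hT : aeval T f = 0) :
    ∃ m : ℕ, finrank F V = f.natDegree * m ∧ LinearMap.det T = ((-1) ^ f.natDegree * f.coeff 0) ^ m ∧
      (Nontrivial V → ∀ δ : F, δ ≠ 0 → ∃ c : Module.End F V, c * T = T * c ∧ LinearMap.det c = δ) := by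
  classical
  haveI : Fact (Irreducible f) := ⟨hf⟩
  let φ : AdjoinRoot f →ₐ[F] Module.End F V :=
    Ideal.Quotient.liftₐ (Ideal.span {f}) (aeval T) (by
      intro a ha
      obtain ⟨g, rfl⟩ := Ideal.mem_span_singleton'.mp ha
      rw [map_mul, hT, mul_zero])
  letI : Module (AdjoinRoot f) V := Module.compHom V φ.toRingHom
  have hsmul : ∀ (k : AdjoinRoot f) (v : V), k • v = φ k v := fun _ _ => rfl
  haveI : IsScalarTower F (AdjoinRoot f) V := by
    refine ⟨fun c k v => ?_⟩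
    rw [hsmul, hsmul, map_smul]
    rfl
  haveI : FiniteDimensional (AdjoinRoot f) V := Module.Finite.of_restrictScalars_finite F (AdjoinRoot f) V
  have h3 : φ (AdjoinRoot.root f) = T := by
    have : AdjoinRoot.root f = AdjoinRoot.mk f X := rfl
    rw [this]
    show aeval T X = T
    simp
  let pb := AdjoinRoot.powerBasis hf.ne_zero
  haveI : Module.Finite F (AdjoinRoot f) := pb.finite
  have hTv : ∀ v, T v = (AdjoinRoot.root f) • v := fun v => by rw [hsmul, h3]
  refine ⟨finrank (AdjoinRoot f) V, ?_, ?_, ?_⟩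
  · rw [← Module.finrank_mul_finrank F (AdjoinRoot f) V, pb.finrank, AdjoinRoot.powerBasis_dim]
  · let TK : V →ₗ[AdjoinRoot f] V := (AdjoinRoot.root f) • LinearMap.id
    have hTK : (TK.restrictScalars F : Module.End F V) = T := by
      ext v
      exact (hTv v).symm
    rw [← hTK]
    have hnorm : Algebra.norm F (AdjoinRoot.root f) = (-1) ^ f.natDegree * f.coeff 0 := by
      have h1 := Algebra.PowerBasis.norm_gen_eq_coeff_zero_minpoly pb
      rw [AdjoinRoot.powerBasis_gen, AdjoinRoot.powerBasis_dim, AdjoinRoot.minpoly_root hf.ne_zero, hm.leadingCoeff] at h1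
      rw [h1]
      simp
    have h5 := LinearMap.det_restrictScalars (R := F) (S := AdjoinRoot f) (A := V) (f := TK)
    rw [LinearMap.det_smul, LinearMap.det_id, mul_one, map_pow, hnorm] at h5
    exact h5
  · intro hV δ hδ
    haveI : Finite (AdjoinRoot f) := Module.finite_of_finite F
    obtain ⟨u, hu⟩ := FiniteField.norm_surjective F (AdjoinRoot f) δ
    have hpos : 0 < finrank (AdjoinRoot f) V := finrank_pos
    let b := Module.finBasis (AdjoinRoot f) V
    let i₀ : Fin (finrank (AdjoinRoot f) V) := ⟨0, hpos⟩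
    let d : Fin (finrank (AdjoinRoot f) V) → AdjoinRoot f := fun i => if i = i₀ then u else 1
    let cK : V →ₗ[AdjoinRoot f] V := Matrix.toLin b b (Matrix.diagonal d)
    have hdet : LinearMap.det cK = u := by
      have h1 := LinearMap.det_toLin b (Matrix.diagonal d)
      rw [h1, Matrix.det_diagonal]
      simp only [d]
      rw [Finset.prod_ite_eq' Finset.univ i₀]
      simp
    refine ⟨cK.restrictScalars F, ?_, ?_⟩
    · ext v
      show cK (T v) = T (cK v)
      rw [hTv, hTv, map_smul]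
    · have h5 := LinearMap.det_restrictScalars (R := F) (S := AdjoinRoot f) (A := V) (f := cK)
      rw [hdet, hu] at h5
      exact h5

/-- A commuting endomorphism of prescribed determinant. -/
theorem exists_comm_det_of_sep {V : Type u} [AddCommGroup V] [Module F V] [FiniteDimensional F V] [Nontrivial V] (T : Module.End F V)
    (P : F[X]) (hP : P.Separable) (h0 : aeval T P = 0) (δ : F) (hδ : δ ≠ 0) :
    ∃ c : Module.End F V, c * T = T * c ∧ LinearMap.det c = δ := by
  classical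
  have hP0 : P ≠ 0 := hP.ne_zero
  have hint : IsIntegral F T := Algebra.IsIntegral.isIntegral T
  haveI : Nontrivial (Module.End F V) := inferInstance
  have hmin0 : (minpoly F T).natDegree ≠ 0 := (minpoly.natDegree_pos hint).ne'
  obtain ⟨f₀, hf₀, hf₀d⟩ := exists_irreducible_of_natDegree_ne_zero hmin0
  have hdP : minpoly F T ∣ P := minpoly.dvd F T h0
  -- normalise
  let f : F[X] := f₀ * C f₀.leadingCoeff⁻¹
  have hfm : f.Monic := monic_mul_leadingCoeff_inv hf₀.ne_zero
  have hfass : Associated f₀ f := ⟨Units.map C.toMonoidHom (Units.mk0 _ (inv_ne_zero (leadingCoeff_ne_zero.mpr hf₀.ne_zero))), by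
    simp [f]⟩
  have hf : Irreducible f := hfass.irreducible hf₀
  have hfd : f ∣ minpoly F T := hfass.symm.dvd.trans hf₀d
  obtain ⟨g, hg⟩ : f ∣ P := hfd.trans hdP
  have hcop : IsCoprime f g := Separable.isCoprime (hg ▸ hP)
  set A := LinearMap.ker (aeval T f) with hA
  set W := LinearMap.ker (aeval T g) with hW
  have hdisj : Disjoint A W := Polynomial.disjoint_ker_aeval_of_isCoprime T hcop
  have hsup : A ⊔ W = ⊤ := by
    rw [hA, hW, Polynomial.sup_ker_aeval_eq_ker_aeval_mul_of_coprime T hcop, ← hg, h0, LinearMap.ker_zero]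
  have hcompl : IsCompl A W := ⟨hdisj, codisjoint_iff.mpr hsup⟩
  have hcomm : ∀ (p : F[X]) v, aeval T p (T v) = T (aeval T p v) := by
    intro p v
    have : aeval T p * aeval T (X : F[X]) = aeval T (X : F[X]) * aeval T p := by
      rw [← map_mul, ← map_mul, mul_comm]
    rw [aeval_X] at this
    have := LinearMap.congr_fun this v
    simpa using this
  have hTA : ∀ v ∈ A, T v ∈ A := by
    intro v hv
    rw [hA, LinearMap.mem_ker] at hv ⊢
    rw [hcomm, hv, map_zero]
  have hTW : ∀ v ∈ W, T v ∈ W := by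
    intro v hv
    rw [hW, LinearMap.mem_ker] at hv ⊢
    rw [hcomm, hv, map_zero]
  let RA : Module.End F A := T.restrict hTA
  have hRA : aeval RA f = 0 := by
    apply LinearMap.ext
    intro v
    apply Subtype.ext
    rw [Cfsg.Agent.Lib.EigenThree.aeval_restrict_apply]
    exact LinearMap.mem_ker.mp v.2
  have hAne : Nontrivial A := by
    by_contra hnt
    rw [not_nontrivial_iff_subsingleton] at hnt
    have hAbot : A = ⊥ := (Submodule.subsingleton_iff_eq_bot).mp hnt
    have hWtop : W = ⊤ := by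
      rw [hAbot, bot_sup_eq] at hsup
      exact hsup
    have hg0 : aeval T g = 0 := LinearMap.ker_eq_top.mp hWtop
    have h1 : minpoly F T ∣ g := minpoly.dvd F T hg0
    have h2 : f ∣ g := hfd.trans h1
    have h3 : IsUnit f := hcop.isUnit_of_dvd' dvd_rfl h2
    exact hf.not_isUnit h3
  obtain ⟨m, -, -, hc⟩ := irr_struct RA f hf hfm hRA
  obtain ⟨cA, hcA, hdetA⟩ := hc hAne δ hδ
  let E := Submodule.prodEquivOfIsCompl A W hcompl
  let c₀ : Module.End F (A × W) := LinearMap.prodMap cA LinearMap.id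
  refine ⟨(E : (A × W) →ₗ[F] V) ∘ₗ c₀ ∘ₗ (E.symm : V →ₗ[F] (A × W)), ?_, ?_⟩
  · have hETr : ∀ t : A × W, T (E t) = E (RA t.1, T.restrict hTW t.2) := by
      rintro ⟨a, b⟩
      simp [E, Submodule.coe_prodEquivOfIsCompl', RA, LinearMap.restrict_coe_apply]
    ext v
    obtain ⟨⟨a, b⟩, rfl⟩ := E.surjective v
    show E (c₀ (E.symm (T (E (a, b))))) = T (E (c₀ (E.symm (E (a, b)))))
    rw [hETr, LinearEquiv.symm_apply_apply, LinearEquiv.symm_apply_apply]
    show E (cA (RA a), T.restrict hTW b) = T (E (cA a, b))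
    rw [hETr]
    have h1 : cA (RA a) = RA (cA a) := LinearMap.congr_fun hcA a
    rw [h1]
  · rw [LinearMap.det_conj, LinearMap.det_prodMap, LinearMap.det_id, mul_one, hdetA]

/-- An element of the multiplicative group whose order has a small `r`-part is an `r`-th power. -/
theorem exists_rpow_of_pow_eq_one {q r m : ℕ} (hq : Fintype.card F = q) (hr : r.Prime) (z : F) (hm : m ≠ 0) (hz : z ^ m = 1)
    (hv : padicValNat r m < padicValNat r (q - 1)) : ∃ w : F, w ^ r = z := by
  classical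
  haveI : Fact r.Prime := ⟨hr⟩
  have hq1 : 0 < q - 1 := by
    have := Fintype.one_lt_card (α := F)
    omega
  have hz0 : z ≠ 0 := by
    rintro rfl
    rw [zero_pow hm] at hz
    exact zero_ne_one hz
  obtain ⟨γ, hγ⟩ := IsCyclic.exists_generator (α := Fˣ)
  have h1 : orderOf γ = q - 1 := by
    rw [orderOf_eq_card_of_forall_mem_zpowers hγ, Nat.card_eq_fintype_card, Fintype.card_units, hq]
  let u : Fˣ := Units.mk0 z hz0
  obtain ⟨t, ht⟩ : u ∈ Submonoid.powers γ := mem_powers_iff_mem_zpowers.mpr (hγ u)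
  have ht' : γ ^ t = u := ht
  have hum : u ^ m = 1 := by
    apply Units.ext
    simpa [u] using hz
  have hdvd : q - 1 ∣ t * m := by
    rw [← h1]
    apply orderOf_dvd_of_pow_eq_one
    rw [pow_mul, ht', hum]
  have hrt : r ∣ t := by
    by_contra hrt
    have ht0 : t ≠ 0 := by
      rintro rfl
      exact hrt (dvd_zero _)
    have h2 : r ^ padicValNat r (q - 1) ∣ t * m := (pow_padicValNat_dvd).trans hdvd
    have h3 := (padicValNat_dvd_iff_le (mul_ne_zero ht0 hm)).mp h2
    rw [padicValNat.mul ht0 hm, padicValNat.eq_zero_of_not_dvd hrt] at h3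
    omega
  obtain ⟨s, rfl⟩ := hrt
  refine ⟨((γ ^ s : Fˣ) : F), ?_⟩
  rw [← Units.val_pow_eq_pow_val, ← pow_mul, mul_comm, ht']
  rfl

/-- A linear automorphism commuting with `x` gives the determinant adjustment. -/
theorem exists_det_one_of_sep (hn : 2 ≤ n) (x P : GL (Fin n) F) (w : F) (hw : w ≠ 0) (Q : F[X]) (hQ : Q.Separable)
    (h0 : aeval ((w⁻¹ • (x : Mt))) Q = 0) :
    ∃ P' : GL (Fin n) F, (P' : Mt).det = 1 ∧ P'⁻¹ * x * P' = P⁻¹ * x * P := by
  classical
  haveI : Nonempty (Fin n) := ⟨⟨0, by omega⟩⟩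
  let T : Module.End F (Fin n → F) := Matrix.toLinAlgEquiv' (w⁻¹ • (x : Mt))
  have h1 : aeval T Q = 0 := by
    rw [Polynomial.aeval_algEquiv]
    show Matrix.toLinAlgEquiv' (aeval _ _) = 0
    rw [h0, map_zero]
  have hdetP : (P : Mt).det ≠ 0 := Cfsg.Agent.S5979.det_ne_zero_GL P
  obtain ⟨c, hc, hdc⟩ := exists_comm_det_of_sep T Q hQ h1 ((P : Mt).det)⁻¹ (inv_ne_zero hdetP)
  let C : Mt := LinearMap.toMatrix' c
  have hCdet : C.det = ((P : Mt).det)⁻¹ := by
    rw [← hdc, ← LinearMap.det_toLin' C]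
    simp [C]
  have hCcomm : C * (w⁻¹ • (x : Mt)) = (w⁻¹ • (x : Mt)) * C := by
    have h2 : LinearMap.toMatrix' (c * T) = LinearMap.toMatrix' (T * c) := by rw [hc]
    have h3 : ∀ a b : Module.End F (Fin n → F), LinearMap.toMatrix' (a * b) = LinearMap.toMatrix' a * LinearMap.toMatrix' b := fun a b => LinearMap.toMatrix'_comp a b
    rw [h3, h3] at h2
    have h4 : LinearMap.toMatrix' T = w⁻¹ • (x : Mt) := by
      show LinearMap.toMatrix' (Matrix.toLin' _) = _
      rw [LinearMap.toMatrix'_toLin']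
    rwa [h4] at h2
  have hCx : C * (x : Mt) = (x : Mt) * C := by
    have h2 := congrArg (fun M : Mt => w • M) hCcomm
    simp only [Matrix.mul_smul, Matrix.smul_mul, smul_smul, mul_inv_cancel₀ hw, one_smul] at h2
    exact h2
  have hCdet0 : C.det ≠ 0 := by
    rw [hCdet]
    exact inv_ne_zero hdetP
  let Cg : GL (Fin n) F := Matrix.GeneralLinearGroup.mkOfDetNeZero C hCdet0
  have hCg : ((Cg : GL (Fin n) F) : Mt) = C := rfl
  have hcomm : Cg * x = x * Cg := Units.ext hCx
  refine ⟨Cg * P, ?_, ?_⟩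
  · rw [Units.val_mul, Matrix.det_mul, hCg, hCdet, inv_mul_cancel₀ hdetP]
  · rw [_root_.mul_inv_rev, mul_assoc, mul_assoc, ← mul_assoc Cg⁻¹]
    have h5 : Cg⁻¹ * (x * (Cg * P)) = x * P := by
      rw [← mul_assoc x, ← hcomm, mul_assoc, inv_mul_cancel_left]
    rw [mul_assoc, h5, mul_assoc]

/-- The case `r = k`. -/
theorem backward_rk {r q₀ p : ℕ} [hp : Fact p.Prime] [CharP F p] [hrf : Fact r.Prime] (hn : 2 ≤ n) (hr2 : r ≠ 2) (hrp : r ≠ p) (F₀ : Subfield F) (hF₀ : Nat.card F₀ = q₀) (hq : Fintype.card F = q₀ ^ r)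
    (hgapk : r ∣ q₀ - 1 → padicValNat r n ≤ padicValNat r (q₀ ^ r - 1))
    (x : GL (Fin n) F) (hdet : (x : Mt).det = 1) (z : F) (hz : ((x ^ r : GL (Fin n) F) : Mt) = z • (1 : Mt)) :
    ∃ g : GL (Fin n) F, (g : Mt).det = 1 ∧ g⁻¹ * x * g ∈ subfieldSubgroup F₀ 1 := by
  classical
  have hr : r.Prime := hrf.out
  have hrF : (r : F) ≠ 0 := by
    intro h
    have h1 := (CharP.cast_eq_zero_iff F p r).mp h
    exact hrp ((Nat.prime_dvd_prime_iff_eq hp.out hr).mp h1).symm
  have hn0 : n ≠ 0 := by omega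
  haveI : Nonempty (Fin n) := ⟨⟨0, by omega⟩⟩
  have hxr : (x : Mt) ^ r = z • (1 : Mt) := by rw [← Units.val_pow_eq_pow_val, hz]
  have hz0 : z ≠ 0 := by
    intro h0
    rw [h0, zero_smul] at hxr
    have h1 := congrArg Matrix.det hxr
    rw [Matrix.det_pow, hdet, one_pow, Matrix.det_zero] at h1
    exact one_ne_zero h1
  -- Step 1: z is an r-th power
  have hstep1 : ∃ w : F, w ^ r = z := by
    by_contra hno
    have hno' : ∀ b : F, b ^ r ≠ z := fun b hb => hno ⟨b, hb⟩
    have hirr := X_pow_sub_C_irreducible_of_prime hr hno'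
    have hmon : (X ^ r - C z : F[X]).Monic := monic_X_pow_sub_C z hr.ne_zero
    let T : Module.End F (Fin n → F) := Matrix.toLinAlgEquiv' (x : Mt)
    have h1 : aeval T (X ^ r - C z : F[X]) = 0 := by
      rw [Polynomial.aeval_algEquiv]
      show Matrix.toLinAlgEquiv' (aeval _ _) = 0
      rw [map_sub, map_pow, aeval_X, aeval_C, hxr, Algebra.algebraMap_eq_smul_one, sub_self, map_zero]
    obtain ⟨m, hm1, hm2, -⟩ := irr_struct T _ hirr hmon h1
    have hdeg : (X ^ r - C z : F[X]).natDegree = r := natDegree_X_pow_sub_C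
    have hco : (X ^ r - C z : F[X]).coeff 0 = - z := by
      simp [hr.ne_zero, hr.ne_zero.symm, coeff_X_pow]
    rw [hdeg] at hm1 hm2
    rw [hco] at hm2
    have hodd : Odd r := hr.odd_of_ne_two hr2
    rw [hodd.neg_one_pow, neg_one_mul, neg_neg] at hm2
    have hdetT : LinearMap.det T = 1 := by
      show LinearMap.det (Matrix.toLin' (x : Mt)) = 1
      rw [LinearMap.det_toLin', hdet]
    rw [hdetT] at hm2
    rw [finrank_fin_fun] at hm1
    have hm0 : m ≠ 0 := by
      rintro rfl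
      simp at hm1
      omega
    have hrq : r ∣ q₀ ^ r - 1 := by
      by_contra hrq
      obtain ⟨w, -, hw⟩ := Cfsg.Agent.S5979.exists_pow_eq hq hr hrq z hz0
      exact hno ⟨w, hw⟩
    have hq₀1 : 1 ≤ q₀ := by
      rw [← hF₀]
      exact Nat.card_pos
    have hmodq : ((q₀ : ZMod r)) ^ r = q₀ := ZMod.pow_card _
    have hrq₀ : r ∣ q₀ - 1 := by
      have h2 : ((q₀ ^ r - 1 : ℕ) : ZMod r) = 0 := (ZMod.natCast_eq_zero_iff _ _).mpr hrq
      have h3 : 1 ≤ q₀ ^ r := Nat.one_le_pow _ _ hq₀1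
      rw [Nat.cast_sub h3] at h2
      push_cast at h2
      rw [hmodq] at h2
      apply (ZMod.natCast_eq_zero_iff _ _).mp
      rw [Nat.cast_sub hq₀1]
      push_cast
      exact h2
    have hv := hgapk hrq₀
    rw [hm1, padicValNat.mul hr.ne_zero hm0, padicValNat_self] at hv
    obtain ⟨w, hw⟩ := exists_rpow_of_pow_eq_one hq hr z hm0 hm2.symm (by omega)
    exact hno ⟨w, hw⟩
  obtain ⟨w, hw⟩ := hstep1
  have hw0 : w ≠ 0 := by
    rintro rfl
    rw [zero_pow hr.ne_zero] at hw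
    exact hz0 hw.symm
  -- Step 2
  set y : Mt := w⁻¹ • (x : Mt) with hy
  have hyr : y ^ r = 1 := by
    rw [hy, _root_.smul_pow, hxr, smul_smul, inv_pow, hw, inv_mul_cancel₀ hz0, one_smul]
  let T : Module.End F (Fin n → F) := Matrix.toLinAlgEquiv' y
  have hTv : ∀ v, T v = y *ᵥ v := fun v => Matrix.toLinAlgEquiv'_apply y v
  have hTr : T ^ r = 1 := by
    show (Matrix.toLinAlgEquiv' y) ^ r = 1
    rw [← map_pow, hyr, map_one]
  obtain ⟨m, e, he⟩ := ratRep_of_pow F₀ hF₀ hq hrF T hTr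
  have hmn : m = n := by
    have := finrank_eq_card_basis e
    simpa using this.symm
  subst hmn
  choose a ha1 ha2 using he
  obtain ⟨P, hP⟩ := conj_of_rat_basis F₀ x e (fun i j => a j i) (fun i j => ha1 j i) w hw0 (by
    intro j
    have h1 := ha2 j
    rw [hTv, hy, Matrix.smul_mulVec] at h1
    rw [← h1, smul_smul, mul_inv_cancel₀ hw0, one_smul])
  have hsep : (X ^ r - C 1 : F[X]).Separable := separable_X_pow_sub_C 1 hrF one_ne_zero
  obtain ⟨P', hP1, hP2⟩ := exists_det_one_of_sep hn x P w hw0 _ hsep (by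
    show aeval y _ = 0
    rw [map_sub, map_pow, aeval_X, hyr, map_one, map_one, sub_self])
  exact ⟨P', hP1, by rw [hP2]; exact hP⟩

/-- A semilinear involution has a basis of fixed vectors. -/
theorem exists_fixed_basis (τ : F →+* F) (θ : F) (hθ : τ θ ≠ θ) {V : Type u} [AddCommGroup V] [Module F V] [FiniteDimensional F V]
    (Φ : V → V) (hadd : ∀ u v, Φ (u + v) = Φ u + Φ v) (hsmul : ∀ (a : F) v, Φ (a • v) = τ a • Φ v) (hΦ2 : ∀ v, Φ (Φ v) = v)
    (d : ℕ) (hd : finrank F V = d) : ∃ b : Basis (Fin d) F V, ∀ i, Φ (b i) = b i := by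
  classical
  let S : Set V := {v | Φ v = v}
  have hmem : ∀ v, v + Φ v ∈ S := fun v => by
    show Φ (v + Φ v) = v + Φ v
    rw [hadd, hΦ2, add_comm]
  have hspan : Submodule.span F S = ⊤ := by
    rw [eq_top_iff]
    intro v _
    have h1 : (θ - τ θ) • v = ((θ • v) + Φ (θ • v)) - τ θ • (v + Φ v) := by
      rw [hsmul, smul_add, sub_smul]
      abel
    have hne : θ - τ θ ≠ 0 := sub_ne_zero.mpr (Ne.symm hθ)
    have h2 : (θ - τ θ) • v ∈ Submodule.span F S := by
      rw [h1]
      exact Submodule.sub_mem _ (Submodule.subset_span (hmem _)) (Submodule.smul_mem _ _ (Submodule.subset_span (hmem _)))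
    exact (Submodule.smul_mem_iff _ hne).mp h2
  obtain ⟨B, hBS, hBspan, hBli⟩ := exists_linearIndependent F S
  have hBtop : ⊤ ≤ Submodule.span F (Set.range ((↑) : B → V)) := by
    rw [Subtype.range_coe, hBspan, hspan]
  let b₀ : Basis B F V := Basis.mk hBli hBtop
  have hb₀ : ∀ i, b₀ i = (i : V) := fun i => by simp [b₀]
  haveI : Fintype B := FiniteDimensional.fintypeBasisIndex b₀
  have hcard : Fintype.card B = d := by
    rw [← hd, finrank_eq_card_basis b₀]
  let ρ : B ≃ Fin d := Fintype.equivFinOfCardEq hcard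
  refine ⟨b₀.reindex ρ, fun i => ?_⟩
  rw [Basis.reindex_apply, hb₀]
  exact hBS (ρ.symm i).2

/-- Elements of norm one are `(q₀ - 1)`-th powers. -/
theorem exists_hilbert90 {q q₀ : ℕ} (hq : Fintype.card F = q) (hqq : q = q₀ ^ 2) (hq₀ : 2 ≤ q₀) (c : F) (hc : c ^ (q₀ + 1) = 1) :
    ∃ l : F, l ≠ 0 ∧ l ^ (q₀ - 1) = c := by
  classical
  have hfac : q - 1 = (q₀ - 1) * (q₀ + 1) := by
    rw [hqq]
    obtain ⟨k, rfl⟩ : ∃ k, q₀ = k + 1 := ⟨q₀ - 1, by omega⟩
    simp only [Nat.add_sub_cancel]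
    have : (k + 1) ^ 2 = k * (k + 1 + 1) + 1 := by ring
    omega
  have hc0 : c ≠ 0 := by
    rintro rfl
    rw [zero_pow (by omega)] at hc
    exact zero_ne_one hc
  obtain ⟨γ, hγ⟩ := IsCyclic.exists_generator (α := Fˣ)
  have h1 : orderOf γ = q - 1 := by
    rw [orderOf_eq_card_of_forall_mem_zpowers hγ, Nat.card_eq_fintype_card, Fintype.card_units, hq]
  let u : Fˣ := Units.mk0 c hc0
  obtain ⟨t, ht⟩ : u ∈ Submonoid.powers γ := mem_powers_iff_mem_zpowers.mpr (hγ u)
  have ht' : γ ^ t = u := ht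
  have hum : u ^ (q₀ + 1) = 1 := by
    apply Units.ext
    simpa [u] using hc
  have hdvd : (q₀ - 1) * (q₀ + 1) ∣ t * (q₀ + 1) := by
    rw [← hfac, ← h1]
    apply orderOf_dvd_of_pow_eq_one
    rw [pow_mul, ht', hum]
  have hd2 : q₀ - 1 ∣ t := Nat.dvd_of_mul_dvd_mul_right (by omega) hdvd
  obtain ⟨s, rfl⟩ := hd2
  refine ⟨((γ ^ s : Fˣ) : F), Units.ne_zero _, ?_⟩
  rw [← Units.val_pow_eq_pow_val, ← pow_mul, mul_comm, ht']
  rfl

/-- The case `k = 2`. -/
theorem backward_k2 {r q₀ q : ℕ} [hrf : Fact r.Prime] (hq : Fintype.card F = q) (hqq : q = q₀ ^ 2) (F₀ : Subfield F) (hF₀ : Nat.card F₀ = q₀)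
    (hr35 : r = 3 ∨ r = 5) (hnr : n = r) (hv : padicValNat r (q₀ + 1) = 1)
    (x : GL (Fin n) F) (hdet : (x : Mt).det = 1) (z : F) (hz : ((x ^ r : GL (Fin n) F) : Mt) = z • (1 : Mt)) :
    ∃ g : GL (Fin n) F, (g : Mt).det = 1 ∧ g⁻¹ * x * g ∈ subfieldSubgroup F₀ 1 := by
  classical
  have hr : r.Prime := hrf.out
  have hF : Fintype.card F = q₀ ^ 2 := hq.trans hqq
  have hq₀2 : 2 ≤ q₀ := Cfsg.Agent.Lib.HermCount.two_le_q hF
  have hr2 : r ≠ 2 := by
    rcases hr35 with rfl | rfl <;> norm_num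
  have hrq₀ : r ∣ q₀ + 1 := by
    apply dvd_of_one_le_padicValNat
    omega
  have hnd : ¬ r ∣ q₀ - 1 := by
    intro h
    have h1 : r ∣ (q₀ + 1) - (q₀ - 1) := Nat.dvd_sub hrq₀ h
    have h3 : (q₀ + 1) - (q₀ - 1) = 2 := by omega
    rw [h3] at h1
    exact hr2 ((Nat.prime_dvd_prime_iff_eq hr Nat.prime_two).mp h1)
  have hfac : q - 1 = (q₀ - 1) * (q₀ + 1) := by
    rw [hqq]
    obtain ⟨k, rfl⟩ : ∃ k, q₀ = k + 1 := ⟨q₀ - 1, by omega⟩
    simp only [Nat.add_sub_cancel]
    have : (k + 1) ^ 2 = k * (k + 1 + 1) + 1 := by ring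
    omega
  have hv' : padicValNat r (q - 1) = 1 := by
    rw [hfac, padicValNat.mul (by omega) (by omega), hv, padicValNat.eq_zero_of_not_dvd hnd]
  have hx : x ∈ specialLinear (Fin n) F := Cfsg.Agent.S5982.mem_of_det _ hdet
  have hz1 := Cfsg.Agent.S5982.scalar_one_of_det hq hr2 hnr hv' x hx z hz
  subst hz1
  rw [one_smul] at hz
  have hrdvd : r ∣ q - 1 := by
    rw [hfac]
    exact Dvd.dvd.mul_left hrq₀ _
  obtain ⟨ζ, hζ⟩ := Cfsg.Agent.S5981.exists_order (F := F) r (hq ▸ hrdvd)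
  have hprim : IsPrimitiveRoot ζ r := by
    rw [← hζ]
    exact IsPrimitiveRoot.orderOf ζ
  have hpos : 0 < r := hr.pos
  have hae : Polynomial.aeval (x : Mt) (∏ a ∈ Polynomial.nthRootsFinset r (1 : F), (Polynomial.X - Polynomial.C a) : Polynomial F) = 0 := by
    rw [← X_pow_sub_one_eq_prod hpos hprim, map_sub, map_pow, Polynomial.aeval_X, map_one, ← Units.val_pow_eq_pow_val, hz, sub_self]
  obtain ⟨lam, e, he, hlam⟩ := Cfsg.Agent.S5981.eig_basis_fin (x : Mt) _ hae
  have hlamr : ∀ i, lam i ^ r = 1 := fun i => (Polynomial.mem_nthRootsFinset hpos _).mp (hlam i)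
  have hlam0 : ∀ i, lam i ≠ 0 := by
    intro i h0
    have := hlamr i
    rw [h0, zero_pow hr.ne_zero] at this
    exact zero_ne_one this
  obtain ⟨cc, hcc⟩ := hrq₀
  have hlamσ : ∀ i, lam i ^ q₀ = (lam i)⁻¹ := by
    intro i
    have h1 : lam i ^ (q₀ + 1) = 1 := by rw [hcc, pow_mul, hlamr, one_pow]
    rw [pow_succ] at h1
    exact eq_inv_of_mul_eq_one_left h1
  haveI : NeZero r := ⟨hr.ne_zero⟩
  have hexp : ∀ i, ∃ k : ℕ, k < r ∧ ζ ^ k = lam i := fun i => hprim.eq_pow_of_pow_eq_one (hlamr i)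
  choose ε hεlt hε using hexp
  subst hnr
  let e' : Fin n → Fin n := fun i => ⟨ε i, hεlt i⟩
  have hdet' : ∏ i, lam i = 1 := by
    have h1 := Cfsg.Agent.S5971.det_of_basis (Matrix.toLin' (x : Mt)) e lam (fun i => by
      rw [Matrix.toLin'_apply]
      exact he i)
    rw [LinearMap.det_toLin'] at h1
    rw [← h1, hdet]
  have hsum : n ∣ ∑ i, (e' i).val := by
    apply hprim.dvd_of_pow_eq_one
    rw [← Finset.prod_pow_eq_pow_sum, ← hdet']
    refine Finset.prod_congr rfl fun i _ => ?_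
    exact hε i
  obtain ⟨h0, s, hs⟩ := Cfsg.Agent.S5981.exists_reflection n hr35 e' hsum
  obtain ⟨π, hπ⟩ := Cfsg.Agent.S5981.exists_pairing e' (Cfsg.Agent.S5981.tauR n h0 s) (Cfsg.Agent.S5981.tauR_invol n h0 s) Finset.univ hs
  have hπ2 : ∀ i, π (π i) = i := fun i => (hπ i (Finset.mem_univ _)).2.1
  have hπ3 : ∀ i, (e' (π i)).val = (s.val + n - (e' i).val) % n := fun i => by
    have := (hπ i (Finset.mem_univ _)).2.2
    rw [this]
    rfl
  have hμ : ∀ i, lam i * lam (π i) = ζ ^ s.val := by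
    intro i
    have h1 : lam (π i) = ζ ^ ((s.val + n - (e' i).val) % n) := by
      rw [← hπ3, ← hε]
    have h2 : ζ ^ ((s.val + n - (e' i).val) % n) = ζ ^ (s.val + n - (e' i).val) := by
      conv_rhs => rw [← Nat.mod_add_div (s.val + n - (e' i).val) n, pow_add, pow_mul, hprim.pow_eq_one, one_pow, mul_one]
    have h3 : lam i = ζ ^ (e' i).val := (hε i).symm
    rw [h1, h2, h3, ← pow_add]
    have h4 : (e' i).val + (s.val + n - (e' i).val) = s.val + n := by
      have := (e' i).isLt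
      omega
    rw [h4, pow_add, hprim.pow_eq_one, mul_one]
  set c : F := ζ ^ s.val with hc
  have hcn : c ^ (q₀ + 1) = 1 := by
    rw [hc, hcc, ← pow_mul, mul_comm, pow_mul, pow_mul, hprim.pow_eq_one, one_pow, one_pow]
  obtain ⟨l₀, hl₀, hl₀c⟩ := exists_hilbert90 hq hqq hq₀2 c hcn
  obtain ⟨τ, hτ1, hτ⟩ := exists_tau F₀
  rw [hF₀] at hτ1
  have hl₀τ : τ l₀ = c * l₀ := by
    rw [hτ1, ← hl₀c, ← pow_succ]
    congr 1
    omega
  let α : Fin n → F := fun i => lam i * l₀
  have hατ : ∀ i, τ (α i) = α (π i) := by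
    intro i
    simp only [α]
    rw [map_mul, hτ1, hlamσ, hl₀τ, ← hμ i]
    field_simp [hlam0 i]
  have hατ2 : ∀ i, τ (α (π i)) = α i := fun i => by rw [hατ, hπ2]
  have hτ2 : ∀ a : F, τ (τ a) = a := by
    intro a
    rw [hτ1, hτ1, ← pow_mul, ← sq, ← hF]
    exact FiniteField.pow_card a
  let Φ : (Fin n → F) → (Fin n → F) := fun u j => τ (u (π j))
  have hθ : ∃ θ : F, τ θ ≠ θ := by
    by_contra hall
    have hall' : ∀ θ : F, θ ∈ F₀ := by
      intro θ
      by_contra hθ
      exact hall ⟨θ, fun h => hθ ((hτ θ).mp h)⟩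
    have h1 : Nat.card F₀ = Nat.card F := Nat.card_congr (Equiv.subtypeUnivEquiv hall')
    rw [hF₀, Nat.card_eq_fintype_card, hF] at h1
    nlinarith
  obtain ⟨θ, hθ⟩ := hθ
  obtain ⟨b, hb⟩ := exists_fixed_basis τ θ hθ Φ
    (fun u v => by
      funext j
      simp [Φ])
    (fun a v => by
      funext j
      simp [Φ])
    (fun v => by
      funext j
      simp [Φ, hτ2, hπ2]) n (finrank_fin_fun F)
  let T₀ : (Fin n → F) →ₗ[F] (Fin n → F) := (Matrix.diagonal α).mulVecLin
  have hT₀ : ∀ u j, T₀ u j = α j * u j := by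
    intro u j
    simp [T₀, Matrix.mulVec_diagonal]
  have hΦT : ∀ u, Φ (T₀ u) = T₀ (Φ u) := by
    intro u
    funext j
    simp only [Φ]
    rw [hT₀, hT₀, map_mul, hατ2]
  have hΦsum : ∀ (c : Fin n → F) (v : Fin n → (Fin n → F)), Φ (∑ i, c i • v i) = ∑ i, τ (c i) • Φ (v i) := by
    intro c v
    funext j
    simp [Φ, Finset.sum_apply, map_sum]
  let a : Fin n → Fin n → F := fun i j => b.repr (T₀ (b j)) i
  have ha : ∀ j, ∑ i, a i j • b i = T₀ (b j) := fun j => b.sum_repr _
  have haτ : ∀ i j, τ (a i j) = a i j := by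
    intro i j
    have h1 : Φ (T₀ (b j)) = T₀ (b j) := by rw [hΦT, hb]
    rw [← ha j, hΦsum] at h1
    simp only [hb] at h1
    have h2 := congrArg (fun w => b.repr w i) h1
    simp only [Basis.repr_sum_self] at h2
    exact h2
  let E : (Fin n → F) ≃ₗ[F] (Fin n → F) := e.equivFun.symm
  have hE : ∀ u, E u = ∑ i, u i • e i := fun u => Basis.equivFun_symm_apply e u
  have hEx : ∀ u, (x : Mt) *ᵥ (E u) = E (fun i => lam i * u i) := by
    intro u
    rw [hE, hE, Matrix.mulVec_sum]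
    refine Finset.sum_congr rfl fun i _ => ?_
    rw [Matrix.mulVec_smul, he, smul_smul, mul_comm]
  obtain ⟨P, hP⟩ := conj_of_rat_basis F₀ x (b.map E) a (fun i j => (hτ _).mp (haτ i j)) l₀⁻¹ (inv_ne_zero hl₀) (by
    intro j
    simp only [Basis.map_apply]
    rw [hEx]
    have h1 : ∑ i, a i j • E (b i) = E (T₀ (b j)) := by
      rw [← ha j, map_sum]
      simp only [map_smul]
    rw [h1, ← map_smul]
    congr 1
    funext k
    simp only [Pi.smul_apply, smul_eq_mul, hT₀, α]
    field_simp)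
  obtain ⟨P', hdet'', he'⟩ := Cfsg.Agent.S5982.conj_det_one x P e lam he ⟨0, hpos⟩
  exact ⟨P', hdet'', by rw [he']; exact hP⟩

end rational



/-- Elements of odd prime order r ≠ p of PSL_n(q) and subfield subgroups. Here `T = PSL_n(F)` for a field `F` with `q = p^f` elements (`n ≥ 2`, `(n, q) ≠ (2, 2), (2, 3)`), `F₀` is the subfield with `q₀` elements where `q = q₀^k` for a prime `k`, and `H` is the subgroup of matrices of determinant 1 lying in the subfield group of `F₀` (invertible matrices over `F₀` times scalars) — a maximal subgroup of type GL_n(q₀) (the case `n = 2`, `q₀ = 2` is excluded); Ω is the set of `T`-conjugates of `H` (cosets of `H`), so an element of `T` of prime order `r` (a matrix `x` of determinant 1 with `x^r` scalar, `x` not scalar) fixes a point of Ω when some conjugate of `x` by a matrix of determinant 1 lies in `H`. Let `r ≠ p` be an odd prime dividing the index of `H`, with `(n, r) ≠ (6, 3)` and, when `r = k` divides `q₀ −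 1`, with `(n)_r ≤ (q − 1)_r`. Then every element of `T` of order `r` is conjugate in `T` into `H` if and only if `r = k`, or `k = 2`, `r = n ∈ {3, 5}` and `(q₀ + 1)_r = r`. The two excluded cases, `(n, r) = (6, 3)` and `r = k ∣ q₀ − 1` with `(n)_r > (q − 1)_r`, are ones where this criterion can fail, so they are left out. -/
theorem result {F : Type*} [Field F] [Fintype F] {p : ℕ} [Fact p.Prime] [CharP F p] {q : ℕ} (hq : Fintype.card F = q)
    (n : ℕ) (hn : 2 ≤ n) (hT : (n, q) ≠ (2, 2) ∧ (n, q) ≠ (2, 3))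
    (F₀ : Subfield F) (k q₀ : ℕ) (hk : k.Prime) (hF₀ : Nat.card ↥F₀ = q₀) (hqk : q = q₀ ^ k) (hC5 : ¬ (n = 2 ∧ q₀ = 2)) (r : ℕ) [Fact r.Prime] (hr2 : r ≠ 2) (hrp : r ≠ p) (hgap : ¬ (n = 6 ∧ r = 3)) (hgapk : r = k → r ∣ q₀ - 1 → padicValNat r n ≤ padicValNat r (q - 1)) (hΩ : r ∣ ((Cfsg.Geo.subfieldSubgroup F₀ 1).comap (Matrix.SpecialLinearGroup.toGL : Matrix.SpecialLinearGroup (Fin n) F →* GL (Fin n) F)).index) :
    (∀ x : Matrix.SpecialLinearGroup (Fin n) F,
      (∃ z : F, ((x ^ r : Matrix.SpecialLinearGroup (Fin n) F) : Matrix (Fin n) (Fin n) F) = z • (1 : Matrix (Fin n) (Fin n) F)) →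
      (∀ z : F, (x : Matrix (Fin n) (Fin n) F) ≠ z • (1 : Matrix (Fin n) (Fin n) F)) →
      ∃ P : Matrix.SpecialLinearGroup (Fin n) F, P⁻¹ * x * P ∈ ((Cfsg.Geo.subfieldSubgroup F₀ 1).comap (Matrix.SpecialLinearGroup.toGL : Matrix.SpecialLinearGroup (Fin n) F →* GL (Fin n) F))) ↔
    (r = k ∨ (k = 2 ∧ r = n ∧ (n = 3 ∨ n = 5) ∧ padicValNat r (q₀ + 1) = 1)) := by
  classical
  constructor
  · intro hfix
    by_cases hrk : r = k
    · exact Or.inl hrk
    · right
      refine forward hq hn F₀ hk hF₀ hqk hr2 hrp hgap hrk hΩ ?_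
      intro x hdet hz hns
      obtain ⟨z, hz⟩ := hz
      let x₀ : Matrix.SpecialLinearGroup (Fin n) F := ⟨(x : Matrix (Fin n) (Fin n) F), hdet⟩
      have hx₀ : (Matrix.SpecialLinearGroup.toGL x₀ : GL (Fin n) F) = x := Units.ext rfl
      have hz₀ : ((x₀ ^ r : Matrix.SpecialLinearGroup (Fin n) F) : Matrix (Fin n) (Fin n) F) = z • (1 : Matrix (Fin n) (Fin n) F) := by
        rw [← hz, Matrix.SpecialLinearGroup.coe_pow, Units.val_pow_eq_pow_val]
      obtain ⟨P, hP⟩ := hfix x₀ ⟨z, hz₀⟩ hns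
      refine ⟨Matrix.SpecialLinearGroup.toGL P, ?_⟩
      have h1 : Matrix.SpecialLinearGroup.toGL (P⁻¹ * x₀ * P) ∈ subfieldSubgroup F₀ 1 := hP
      rw [map_mul, map_mul, map_inv, hx₀] at h1
      exact h1
  · intro hcase x hz hns
    obtain ⟨z, hz⟩ := hz
    let x' : GL (Fin n) F := Matrix.SpecialLinearGroup.toGL x
    have hdet : (x' : Matrix (Fin n) (Fin n) F).det = 1 := x.2
    have hz' : ((x' ^ r : GL (Fin n) F) : Matrix (Fin n) (Fin n) F) = z • (1 : Matrix (Fin n) (Fin n) F) := by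
      rw [← hz]
      simp only [x']
      rw [← map_pow]
      rfl
    have hmain : ∃ g : GL (Fin n) F, (g : Matrix (Fin n) (Fin n) F).det = 1 ∧ g⁻¹ * x' * g ∈ subfieldSubgroup F₀ 1 := by
      rcases hcase with hrk | ⟨hk2, hrn, hn35, hv⟩
      · subst hrk
        have hq' : Fintype.card F = q₀ ^ r := hq.trans hqk
        exact backward_rk hn hr2 hrp F₀ hF₀ hq' (fun h => by
          have := hgapk rfl h
          rwa [hqk] at this) x' hdet z hz'
      · subst hk2
        exact backward_k2 hq hqk F₀ hF₀ (hn35.elim (fun h => Or.inl (hrn.trans h)) (fun h => Or.inr (hrn.trans h))) hrn.symm hv x' hdet z hz'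
    obtain ⟨g, hg1, hg2⟩ := hmain
    let P : Matrix.SpecialLinearGroup (Fin n) F := ⟨(g : Matrix (Fin n) (Fin n) F), hg1⟩
    have hPg : (Matrix.SpecialLinearGroup.toGL P : GL (Fin n) F) = g := Units.ext rfl
    refine ⟨P, ?_⟩
    show Matrix.SpecialLinearGroup.toGL (P⁻¹ * x * P) ∈ subfieldSubgroup F₀ 1
    rw [map_mul, map_mul, map_inv, hPg]
    exact hg2

end Cfsg.Agent.S5965
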