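import Mathlib
import Cfsg.Agent.S5964
import Cfsg.Agent.S5970
import Cfsg.Agent.S5971
import Cfsg.Agent.Lib.JordanBasis
import Cfsg.Statements.S5966
-- import your own Cfsg.Agent.* helpers here

set_option autoImplicit false
open scoped MatrixGroups
open Cfsg

namespace Cfsg.Agent.S5966

open Matrix Module Cfsg.Geo
open Cfsg.Agent.Lib.MatConj Cfsg.Agent.Lib.SqZero Cfsg.Agent.Lib.JordanBasis Cfsg.Agent.Lib.InvolConj
open Cfsg.Agent.S5964

set_option linter.unusedSimpArgs false
set_option linter.unusedVariables false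

variable {F : Type*} [Field F] {n : ℕ}

local notation "Mt" => Matrix (Fin n) (Fin n) F

/-- Cube injective in characteristic 3. -/
theorem cube_inj (h3 : (3 : F) = 0) {a b : F} (h : a ^ 3 = b ^ 3) : a = b := by
  have : (a - b) ^ 3 = 0 := by linear_combination h + (b - a) * a * b * h3
  exact sub_eq_zero.mp (pow_eq_zero_iff (by norm_num) |>.mp this)

theorem cube_surj [Finite F] (h3 : (3 : F) = 0) (a : F) : ∃ b : F, b ^ 3 = a :=
  (Finite.injective_iff_surjective.mp (fun _ _ h => cube_inj h3 h)) a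

theorem cube_nilp {V : Type*} [AddCommGroup V] [Module F V] (h3 : (3 : F) = 0) (w : F) (hw0 : w ≠ 0) (T : Module.End F V)
   (hT3 : ∀ v, T (T (T v)) = w ^ 3 • v) : (w⁻¹ • T - 1) ^ 3 = 0 := by
  set A : Module.End F V := w⁻¹ • T with hA
  have hA3 : A ^ 3 = 1 := by
    apply LinearMap.ext
    intro v
    simp only [hA, pow_succ, pow_zero, one_mul, Module.End.mul_apply, LinearMap.smul_apply, map_smul, hT3, smul_smul, Module.End.one_apply]
    have : w⁻¹ * (w⁻¹ * (w⁻¹ * (w * w * w))) = 1 := by field_simp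
    rw [this, one_smul]
  have h3' : (3 : Module.End F V) = 0 := by
    apply LinearMap.ext
    intro v
    have : (3 : Module.End F V) = (3 : F) • (1 : Module.End F V) := by
      rw [show (3 : F) = ((3 : ℕ) : F) by norm_cast, Nat.cast_smul_eq_nsmul]; simp
    rw [this, h3]; simp
  have : (A - 1) ^ 3 = A ^ 3 - 3 * A ^ 2 + 3 * A - 1 := by noncomm_ring
  rw [this, hA3, h3']; simp

/-- The Jordan data for an element with scalar cube, in characteristic 3. -/
theorem exists_data [Fintype F] (h3 : (3 : F) = 0) (x : GL (Fin n) F) (w : F) (hw0 : w ≠ 0) (hz : (x : Mt) ^ 3 = w ^ 3 • (1 : Mt)) :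
    ∃ (κ : Type) (_ : Fintype κ) (_ : DecidableEq κ) (ℓ : κ → ℕ) (e : Basis (Σ j, Fin (ℓ j)) F (Fin n → F)),
      (∀ j, 0 < ℓ j ∧ ℓ j ≤ 3) ∧
      (∀ (j : κ) (i : Fin (ℓ j)) (hi : (i : ℕ) + 1 < ℓ j), (x : Mt) *ᵥ e ⟨j, i⟩ = w • (e ⟨j, i⟩ + e ⟨j, ⟨i + 1, hi⟩⟩)) ∧
      (∀ (j : κ) (i : Fin (ℓ j)) (hi : ¬ (i : ℕ) + 1 < ℓ j), (x : Mt) *ᵥ e ⟨j, i⟩ = w • e ⟨j, i⟩) := by
  classical
  let T : Module.End F (Fin n → F) := Matrix.toLin' (x : Mt)
  have hTv : ∀ v, T v = (x : Mt) *ᵥ v := fun v => rfl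
  have hT3 : ∀ v, T (T (T v)) = w ^ 3 • v := by
    intro v
    simp only [hTv, Matrix.mulVec_mulVec]
    have : (x : Mt) * ((x : Mt) * (x : Mt)) = w ^ 3 • (1 : Mt) := by
      rw [← hz, pow_succ, pow_two, Matrix.mul_assoc]
    rw [this, Matrix.smul_mulVec, Matrix.one_mulVec]
  let N : Module.End F (Fin n → F) := w⁻¹ • T - 1
  have hNv : ∀ v, N v = w⁻¹ • T v - v := fun v => rfl
  have hN3 : N ^ 3 = 0 := cube_nilp h3 w hw0 T hT3
  obtain ⟨κ, i1, i2, ℓ, v, e, he, hv, hℓ⟩ := exists_jordan_basis N ⟨3, hN3⟩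
  have hTN : ∀ u, T u = w • (u + N u) := by
    intro u
    rw [hNv, smul_add, smul_sub, smul_smul, mul_inv_cancel₀ hw0, one_smul]
    abel
  refine ⟨κ, i1, i2, ℓ, e, ?_, ?_, ?_⟩
  · intro j
    refine ⟨hℓ j, ?_⟩
    by_contra hgt
    have h4 : 3 < ℓ j := by omega
    have h5 := e.ne_zero ⟨j, ⟨3, h4⟩⟩
    apply h5
    rw [he, hN3]
    rfl
  · intro j i hi
    rw [← hTv, hTN]
    congr 2
    rw [he, he, ← Module.End.mul_apply, ← pow_succ']
  · intro j i hi
    rw [← hTv, hTN]
    have : N (e ⟨j, i⟩) = 0 := by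
      rw [he, ← Module.End.mul_apply, ← pow_succ']
      have h5 : (i : ℕ) + 1 = ℓ j := by omega
      rw [h5, hv]
    rw [this, add_zero]

/-- A diagonal element in a given basis. -/
theorem exists_diag_gl {ι ι' : Type*} [Fintype ι] [DecidableEq ι] [Fintype ι'] [DecidableEq ι']
    (e : Basis ι' F (ι → F)) (μ : ι' → F) (hμ : ∀ i, μ i ≠ 0) :
    ∃ D : GL ι F, (∀ i, (D : Matrix ι ι F) *ᵥ e i = μ i • e i) ∧ (D : Matrix ι ι F).det = ∏ i, μ i := by
  classical
  let e' := e.unitsSMul (fun i => Units.mk0 (μ i) (hμ i))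
  let E : (ι → F) ≃ₗ[F] (ι → F) := e.equiv e' (Equiv.refl _)
  have hEe : ∀ i, E (e i) = μ i • e i := by
    intro i
    simp [E, e', Basis.equiv_apply, Basis.unitsSMul_apply, Units.smul_def]
  refine ⟨glOfEquiv E, fun i => ?_, ?_⟩
  · rw [glOfEquiv_mulVec, hEe]
  · show (LinearMap.toMatrix' (E : (ι → F) →ₗ[F] (ι → F))).det = _
    rw [LinearMap.det_toMatrix']
    exact Cfsg.Agent.S5971.det_of_basis _ e μ hEe

theorem exists_nonsq_sub [Fintype F] (F₀ : Subfield F) {q q₀ k : ℕ} (hq : Fintype.card F = q) (hodd : Odd q)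
    (hF₀ : Nat.card F₀ = q₀) (hqk : q = q₀ ^ k) (hk : Odd k) : ∃ α : F₀, α ≠ 0 ∧ ¬ IsSquare (α : F) := by
  classical
  haveI : Fintype F₀ := Fintype.ofFinite _
  have hc : Fintype.card F₀ = q₀ := by rw [Fintype.card_eq_nat_card, hF₀]
  have hq₀ : Odd q₀ := by
    by_contra hne
    have : Even q₀ := Nat.not_odd_iff_even.mp hne
    rw [hqk] at hodd
    exact (Nat.not_even_iff_odd.mpr hodd) (this.pow_of_ne_zero hk.pos.ne')
  obtain ⟨α, hα⟩ := FiniteField.exists_nonsquare (ringChar_ne_two_of_odd hc hq₀)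
  have hα0 : α ≠ 0 := by
    rintro rfl
    exact hα ⟨0, by simp⟩
  refine ⟨α, hα0, ?_⟩
  have hα0' : (α : F) ≠ 0 := by simpa using hα0
  rw [isSquare_iff_pow hq hodd hα0']
  rw [isSquare_iff_pow hc hq₀ hα0] at hα
  have hsq : (α ^ ((q₀ - 1) / 2)) * (α ^ ((q₀ - 1) / 2)) = 1 := by
    rw [← pow_add]
    have : (q₀ - 1) / 2 + (q₀ - 1) / 2 = q₀ - 1 := by
      obtain ⟨t, rfl⟩ := hq₀
      omega
    rw [this, ← hc]
    exact FiniteField.pow_card_sub_one_eq_one α hα0
  have hm1 : α ^ ((q₀ - 1) / 2) = -1 := by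
    have : (α ^ ((q₀ - 1) / 2) - 1) * (α ^ ((q₀ - 1) / 2) + 1) = 0 := by linear_combination hsq
    rcases mul_eq_zero.mp this with h | h
    · exact absurd (sub_eq_zero.mp h) hα
    · exact eq_neg_of_add_eq_zero_left h
  obtain ⟨u, hu, hu2⟩ := geom q₀ k hq₀
  have huo : Odd u := by
    rw [← Nat.not_even_iff_odd, hu, Nat.not_even_iff_odd]
    exact hk
  have hexp : (q - 1) / 2 = (q₀ - 1) / 2 * u := by
    rw [hqk, ← hu2]
    obtain ⟨t, rfl⟩ := hq₀
    simp only [Nat.add_sub_cancel]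
    rw [mul_assoc, Nat.mul_div_cancel_left _ (by norm_num), Nat.mul_div_cancel_left _ (by norm_num)]
  rw [hexp, pow_mul]
  have h1 : (α : F) ^ ((q₀ - 1) / 2) = -1 := by
    have := congrArg (fun t : F₀ => (t : F)) hm1
    simpa using this
  rw [h1, huo.neg_one_pow]
  intro h
  have h2 : (2 : F) = 0 := by linear_combination -h
  exact two_ne_zero_of_odd hq hodd h2

section Nz

variable {K : Type*} [Field K] {m : ℕ} (τ : Fin m ⊕ Fin m ≃ Fin n)

noncomputable def Nz : Matrix (Fin n) (Fin n) K := Matrix.reindex τ τ (fromBlocks 0 0 1 0)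

theorem Nz_map {L : Type*} [Field L] (ι : K →+* L) : (Nz τ : Matrix (Fin n) (Fin n) K).map ι = Nz τ := by
  unfold Nz
  simp only [Matrix.reindex_apply]
  ext a b
  simp only [Matrix.map_apply, Matrix.submatrix_apply]
  cases τ.symm a <;> cases τ.symm b <;> simp [Matrix.one_apply, apply_ite ι]

theorem Nz_mul_self : (Nz τ : Matrix (Fin n) (Fin n) K) * Nz τ = 0 := by
  unfold Nz
  simp only [Matrix.reindex_apply]
  rw [Matrix.submatrix_mul_equiv, Matrix.fromBlocks_multiply]
  simp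

theorem Nz_single_inl (i : Fin m) : (Nz τ : Matrix (Fin n) (Fin n) K) *ᵥ Pi.single (τ (Sum.inl i)) 1 = Pi.single (τ (Sum.inr i)) 1 := by
  unfold Nz
  funext a
  rw [Matrix.mulVec_single_one, Matrix.col_apply]
  simp only [Matrix.reindex_apply, Matrix.submatrix_apply, Equiv.symm_apply_apply]
  obtain ⟨a', rfl⟩ := τ.surjective a
  simp only [Equiv.symm_apply_apply]
  rcases a' with a' | a'
  · simp [Pi.single_apply]
  · simp [Pi.single_apply, Matrix.one_apply]

theorem Nz_single_inr (i : Fin m) : (Nz τ : Matrix (Fin n) (Fin n) K) *ᵥ Pi.single (τ (Sum.inr i)) 1 = 0 := by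
  unfold Nz
  funext a
  rw [Matrix.mulVec_single_one, Matrix.col_apply]
  simp only [Matrix.reindex_apply, Matrix.submatrix_apply, Equiv.symm_apply_apply]
  obtain ⟨a', rfl⟩ := τ.surjective a
  simp only [Equiv.symm_apply_apply]
  rcases a' with a' | a' <;> simp

theorem Nz_ker (v : Fin n → K) (h : (Nz τ : Matrix (Fin n) (Fin n) K) *ᵥ v = 0) : ∃ u, v = (Nz τ : Matrix (Fin n) (Fin n) K) *ᵥ u := by
  classical
  have hv : ∀ i, v (τ (Sum.inl i)) = 0 := by
    intro i
    have h1 := congrFun h (τ (Sum.inr i))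
    have h2 : ∀ j, (Nz τ : Matrix (Fin n) (Fin n) K) (τ (Sum.inr i)) j = (Pi.single (τ (Sum.inl i)) (1 : K) : Fin n → K) j := by
      intro j
      obtain ⟨j', rfl⟩ := τ.surjective j
      unfold Nz
      simp only [Matrix.reindex_apply, Matrix.submatrix_apply, Equiv.symm_apply_apply]
      rcases j' with j' | j'
      · simp [Pi.single_apply, Matrix.one_apply, eq_comm]
      · simp [Pi.single_apply]
    simp only [Matrix.mulVec, dotProduct, h2, Pi.zero_apply] at h1
    simpa [Pi.single_apply] using h1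
  refine ⟨fun a => Sum.elim (fun i => v (τ (Sum.inr i))) (fun _ => 0) (τ.symm a), ?_⟩
  funext a
  obtain ⟨a', rfl⟩ := τ.surjective a
  rcases a' with a' | a'
  · rw [hv]
    simp only [Matrix.mulVec, dotProduct]
    symm
    apply Finset.sum_eq_zero
    intro j _
    obtain ⟨j', rfl⟩ := τ.surjective j
    unfold Nz
    simp only [Matrix.reindex_apply, Matrix.submatrix_apply, Equiv.symm_apply_apply]
    rcases j' with j' | j' <;> simp
  · simp only [Matrix.mulVec, dotProduct]
    rw [Finset.sum_eq_single (τ (Sum.inl a'))]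
    · unfold Nz
      simp [Matrix.reindex_apply, Matrix.submatrix_apply]
    · intro j _ hj
      obtain ⟨j', rfl⟩ := τ.surjective j
      unfold Nz
      simp only [Matrix.reindex_apply, Matrix.submatrix_apply, Equiv.symm_apply_apply]
      rcases j' with j' | j'
      · have : j' ≠ a' := by
          rintro rfl
          exact hj rfl
        simp [Matrix.one_apply, this.symm]
      · simp
    · simp

theorem Nz_comm_det (R : Matrix (Fin n) (Fin n) K) (h : R * Nz τ = Nz τ * R) : IsSquare R.det := by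
  classical
  let R' : Matrix (Fin m ⊕ Fin m) (Fin m ⊕ Fin m) K := R.submatrix τ τ
  have hR : R = Matrix.reindex τ τ R' := by
    ext a b
    simp [R', Matrix.reindex_apply]
  have hR' : R' = fromBlocks R'.toBlocks₁₁ R'.toBlocks₁₂ R'.toBlocks₂₁ R'.toBlocks₂₂ := (Matrix.fromBlocks_toBlocks R').symm
  set A := R'.toBlocks₁₁
  set B := R'.toBlocks₁₂
  set C := R'.toBlocks₂₁
  set D := R'.toBlocks₂₂
  have h1 : R' * fromBlocks 0 0 1 0 = fromBlocks 0 0 1 0 * R' := by
    have := congrArg (fun M : Matrix (Fin n) (Fin n) K => M.submatrix τ τ) h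
    rw [hR] at this
    unfold Nz at this
    simp only [Matrix.reindex_apply] at this
    rw [Matrix.submatrix_mul_equiv, Matrix.submatrix_mul_equiv] at this
    simpa using this
  rw [hR', Matrix.fromBlocks_multiply, Matrix.fromBlocks_multiply] at h1
  simp only [Matrix.mul_zero, Matrix.zero_mul, Matrix.mul_one, Matrix.one_mul, add_zero, zero_add] at h1
  have h2 := Matrix.fromBlocks_inj.mp h1
  obtain ⟨h21, h22, h23, h24⟩ := h2
  have hB : B = 0 := h21
  have hD : D = A := h23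
  have hdet : R.det = A.det * A.det := by
    rw [hR, Matrix.det_reindex_self, hR', hB, hD, Matrix.det_fromBlocks_zero₁₂]
  exact ⟨A.det, hdet⟩

end Nz

/-- The direction `(←)`. -/
theorem backward [Fintype F] (h3 : (3 : F) = 0) (F₀ : Subfield F) {q q₀ k : ℕ} (hq : Fintype.card F = q) (hodd : Odd q)
    (hF₀ : Nat.card F₀ = q₀) (hqk : q = q₀ ^ k) (hk : k.Prime) (hn : 2 ≤ n) (h : Odd n ∨ (Even n ∧ 2 < k))
    (x : Matrix.SpecialLinearGroup (Fin n) F) (z : F)
    (hz : ((x ^ 3 : Matrix.SpecialLinearGroup (Fin n) F) : Mt) = z • (1 : Mt)) :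
    ∃ P : Matrix.SpecialLinearGroup (Fin n) F, P⁻¹ * x * P ∈ ((subfieldSubgroup F₀ 1).comap (Matrix.SpecialLinearGroup.toGL : Matrix.SpecialLinearGroup (Fin n) F →* GL (Fin n) F)) := by
  classical
  obtain ⟨w, hw⟩ := cube_surj h3 z
  have hxd : (x : Mt).det = 1 := x.2
  have hw0 : w ≠ 0 := by
    rintro rfl
    have hd := congrArg Matrix.det hz
    rw [Matrix.SpecialLinearGroup.coe_pow, Matrix.det_pow, hxd, one_pow, ← hw] at hd
    rw [Matrix.det_smul] at hd
    simp [zero_pow (show n ≠ 0 by omega)] at hd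
  let x' : GL (Fin n) F := Matrix.SpecialLinearGroup.toGL x
  have hx' : (x' : Mt) = x := rfl
  have hz' : (x' : Mt) ^ 3 = w ^ 3 • (1 : Mt) := by
    rw [hw, hx', ← hz, Matrix.SpecialLinearGroup.coe_pow]
  obtain ⟨κ, i1, i2, ℓ, e, hℓ, hr1, hr2⟩ := exists_data h3 x' w hw0 hz'
  obtain ⟨P, hP⟩ := exists_conj_into F₀ x' e w hw0 (by
     rintro ⟨j, i⟩
     by_cases hi : (i : ℕ) + 1 < ℓ j
     · refine ⟨Pi.single ⟨j, i⟩ 1 + Pi.single ⟨j, ⟨i + 1, hi⟩⟩ 1, ?_⟩
       rw [hr1 j i hi]
       congr 1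
       simp only [Pi.add_apply, Subfield.coe_add, add_smul, Finset.sum_add_distrib]
       rw [sum_single, sum_single]
       simp
     · refine ⟨Pi.single ⟨j, i⟩ 1, ?_⟩
       rw [hr2 j i hi, sum_single]
       simp)
  have hScale : ∀ (j₀ : κ) (c : F), c ≠ 0 → ∃ D : GL (Fin n) F, (D : Mt).det = c ^ ℓ j₀ ∧ D * x' = x' * D := by
    intro j₀ c hc
    let μ : (Σ j, Fin (ℓ j)) → F := fun p => if p.1 = j₀ then c else 1
    obtain ⟨D, hD, hDd⟩ := exists_diag_gl e μ (by
      intro p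
      by_cases h : p.1 = j₀ <;> simp [μ, h, hc])
    refine ⟨D, ?_, ?_⟩
    · rw [hDd, Fintype.prod_sigma]
      simp only [μ, Finset.prod_const, Finset.card_univ, Fintype.card_fin]
      rw [Finset.prod_eq_single j₀]
      · simp
      · intro b _ hb
        simp [hb]
      · simp
    · apply Units.ext
      rw [Units.val_mul, Units.val_mul]
      apply Matrix.toLin'.injective
      apply e.ext
      rintro ⟨j, i⟩
      simp only [Matrix.toLin'_apply, ← Matrix.mulVec_mulVec]
      rw [hD]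
      by_cases hi : (i : ℕ) + 1 < ℓ j
      · rw [hr1 j i hi, Matrix.mulVec_smul, Matrix.mulVec_add, hD, hD, Matrix.mulVec_smul, hr1 j i hi]
        simp only [μ, smul_add, smul_smul, mul_comm]
      · rw [hr2 j i hi, Matrix.mulVec_smul, hD, Matrix.mulVec_smul, hr2 j i hi]
        simp only [smul_smul, mul_comm]
  have hfin : ∀ P₁ : GL (Fin n) F, P₁⁻¹ * x' * P₁ ∈ subfieldSubgroup F₀ 1 → ∀ (j₀ : κ) (c : F), c ≠ 0 →
      c ^ ℓ j₀ = ((P₁ : Mt).det)⁻¹ →
      ∃ P : Matrix.SpecialLinearGroup (Fin n) F, P⁻¹ * x * P ∈ ((subfieldSubgroup F₀ 1).comap (Matrix.SpecialLinearGroup.toGL : Matrix.SpecialLinearGroup (Fin n) F →* GL (Fin n) F)) := by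
    intro P₁ hP₁ j₀ c hc hce
    obtain ⟨D, hDd, hDc⟩ := hScale j₀ c hc
    have hP₁d : (P₁ : Mt).det ≠ 0 := (Matrix.isUnits_det_units P₁).ne_zero
    apply Cfsg.Agent.S5970.conj_pack _ x (D * P₁)
    · rw [Units.val_mul, Matrix.det_mul, hDd, hce, inv_mul_cancel₀ hP₁d]
    · have : (D * P₁)⁻¹ * x' * (D * P₁) = P₁⁻¹ * x' * P₁ := by
        rw [_root_.mul_inv_rev]
        calc P₁⁻¹ * D⁻¹ * x' * (D * P₁) = P₁⁻¹ * (D⁻¹ * (x' * D)) * P₁ := by group
          _ = P₁⁻¹ * (D⁻¹ * (D * x')) * P₁ := by rw [hDc]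
          _ = _ := by group
      show (D * P₁)⁻¹ * x' * (D * P₁) ∈ _
      rw [this]
      exact hP₁
  have hPd0 : (P : Mt).det ≠ 0 := (Matrix.isUnits_det_units P).ne_zero
  by_cases hexo : ∃ j₀, Odd (ℓ j₀)
  · obtain ⟨j₀, hj₀⟩ := hexo
    have hl : ℓ j₀ = 1 ∨ ℓ j₀ = 3 := by
      have h1 := hℓ j₀
      obtain ⟨t, ht⟩ := hj₀
      omega
    obtain ⟨c, hc⟩ : ∃ c : F, c ^ ℓ j₀ = ((P : Mt).det)⁻¹ := by
      rcases hl with hl | hl
      · exact ⟨_, by rw [hl, pow_one]⟩
      · rw [hl]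
        exact cube_surj h3 _
    have hc0 : c ≠ 0 := by
      rintro rfl
      rw [zero_pow (hℓ j₀).1.ne'] at hc
      exact inv_ne_zero hPd0 hc.symm
    exact hfin P hP j₀ c hc0 hc
  · push_neg at hexo
    have hl2 : ∀ j, ℓ j = 2 := by
      intro j
      have h1 := hℓ j
      have h2 := hexo j
      rw [Nat.not_odd_iff_even] at h2
      obtain ⟨t, ht⟩ := h2
      omega
    have hncard : n = ∑ j, ℓ j := by
      have := Module.finrank_eq_card_basis e
      rw [Module.finrank_fin_fun, Fintype.card_sigma] at this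
      simpa using this
    have hne : Nonempty κ := by
      by_contra hemp
      rw [not_nonempty_iff] at hemp
      rw [Finset.univ_eq_empty, Finset.sum_empty] at hncard
      omega
    obtain ⟨j₀⟩ := hne
    have hev : Even n := by
      rw [hncard, Finset.sum_congr rfl (fun j _ => hl2 j)]
      simp
    have hk2 : 2 < k := by
      rcases h with h | h
      · exact absurd h (Nat.not_odd_iff_even.mpr hev)
      · exact h.2
    have hko : Odd k := hk.odd_of_ne_two (by omega)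
    obtain ⟨α, hα0, hα⟩ := exists_nonsq_sub F₀ hq hodd hF₀ hqk hko
    let i₀ : Fin n := ⟨0, by omega⟩
    -- the element `g`
    let c₀ : Matrix (Fin n) (Fin n) F₀ := Matrix.diagonal (Function.update 1 i₀ α)
    have hdc₀ : c₀.det = α := by
      rw [Matrix.det_diagonal, Finset.prod_update_of_mem (Finset.mem_univ _)]
      simp
    have hc₀ne : c₀.det ≠ 0 := by rw [hdc₀]; exact hα0
    let g₀ : GL (Fin n) F₀ := Matrix.GeneralLinearGroup.mkOfDetNeZero c₀ hc₀ne
    let g : GL (Fin n) F := Matrix.GeneralLinearGroup.map F₀.subtype g₀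
    have hgv : (g : Mt) = c₀.map F₀.subtype := rfl
    have hgH : g ∈ subfieldSubgroup F₀ 1 := mem_sub_of F₀ g 1 one_ne_zero c₀ (by rw [hgv, one_smul])
    have hgd : (g : Mt).det = (α : F) := by
      rw [hgv]
      have : (c₀.map F₀.subtype).det = F₀.subtype c₀.det := (F₀.subtype.map_det c₀).symm
      rw [this, hdc₀]
      rfl
    obtain ⟨P₁, hP₁, hP₁s⟩ : ∃ P₁ : GL (Fin n) F, P₁⁻¹ * x' * P₁ ∈ subfieldSubgroup F₀ 1 ∧ IsSquare (P₁ : Mt).det := by
      by_cases hsq : IsSquare (P : Mt).det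
      · exact ⟨P, hP, hsq⟩
      · refine ⟨P * g, ?_, ?_⟩
        · have : (P * g)⁻¹ * x' * (P * g) = g⁻¹ * (P⁻¹ * x' * P) * g := by group
          rw [this]
          exact mul_mem (mul_mem (inv_mem hgH) hP) hgH
        · rw [Units.val_mul, Matrix.det_mul, hgd]
          have h2 : ringChar F ≠ 2 := ringChar_ne_two_of_odd hq hodd
          have hα0' : (α : F) ≠ 0 := by simpa using hα0
          have hne : (P : Mt).det * (α : F) ≠ 0 := mul_ne_zero hPd0 hα0'
          rw [← quadraticChar_one_iff_isSquare hne, map_mul,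
            (quadraticChar_neg_one_iff_not_isSquare).mpr hsq, (quadraticChar_neg_one_iff_not_isSquare).mpr hα]
          norm_num
    obtain ⟨s, hs⟩ := hP₁s
    have hs0 : s ≠ 0 := by
      rintro rfl
      apply (Matrix.isUnits_det_units P₁).ne_zero
      rw [hs, mul_zero]
    refine hfin P₁ hP₁ j₀ s⁻¹ (inv_ne_zero hs0) ?_
    rw [hl2, hs, pow_two, mul_inv]

/-- The direction `(→)`. -/
theorem forward [Fintype F] (h3 : (3 : F) = 0) (F₀ : Subfield F) {q q₀ m : ℕ} (hq : Fintype.card F = q) (hodd : Odd q)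
    (hF₀ : Nat.card F₀ = q₀) (hqk : q = q₀ ^ 2) (hm : 0 < m) (τ : Fin m ⊕ Fin m ≃ Fin n)
    (hall : ∀ x : Matrix.SpecialLinearGroup (Fin n) F,
      (∃ z : F, ((x ^ 3 : Matrix.SpecialLinearGroup (Fin n) F) : Mt) = z • (1 : Mt)) →
      (∀ z : F, (x : Mt) ≠ z • (1 : Mt)) →
      ∃ P : Matrix.SpecialLinearGroup (Fin n) F, P⁻¹ * x * P ∈ ((subfieldSubgroup F₀ 1).comap (Matrix.SpecialLinearGroup.toGL : Matrix.SpecialLinearGroup (Fin n) F →* GL (Fin n) F))) : False := by
  classical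
  obtain ⟨b, hb⟩ := FiniteField.exists_nonsquare (ringChar_ne_two_of_odd hq hodd)
  have hb0 : b ≠ 0 := by
    rintro rfl
    exact hb ⟨0, by simp⟩
  let i₀ : Fin n := τ (Sum.inl ⟨0, hm⟩)
  let P₀ : Mt := Matrix.diagonal (Function.update 1 i₀ b)
  let P₀i : Mt := Matrix.diagonal (Function.update 1 i₀ b⁻¹)
  have hP1 : P₀ * P₀i = 1 := by
    rw [Matrix.diagonal_mul_diagonal, ← Matrix.diagonal_one]
    congr 1
    funext a
    by_cases ha : a = i₀
    · subst ha
      simp [hb0]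
    · simp [Function.update_of_ne ha]
  have hP2 : P₀i * P₀ = 1 := by
    rw [Matrix.diagonal_mul_diagonal, ← Matrix.diagonal_one]
    congr 1
    funext a
    by_cases ha : a = i₀
    · subst ha
      simp [hb0]
    · simp [Function.update_of_ne ha]
  have hP₀d : P₀.det = b := by
    rw [Matrix.det_diagonal, Finset.prod_update_of_mem (Finset.mem_univ _)]
    simp
  let Nzz : Mt := Nz τ
  have hNN : Nzz * Nzz = 0 := Nz_mul_self τ
  let U : Mt := 1 + Nzz
  have hU3 : U * U * U = 1 := by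
    have h3N : (3 : F) • Nzz = 0 := by rw [h3, zero_smul]
    have h3N' : (3 : F) • Nzz = Nzz + Nzz + Nzz := by
      rw [show (3 : F) = 1 + 1 + 1 by norm_num, add_smul, add_smul, one_smul]
    simp only [U, Matrix.add_mul, Matrix.mul_add, Matrix.one_mul, Matrix.mul_one, hNN, Matrix.zero_mul, add_zero]
    have : (1 : Mt) + Nzz + (Nzz + 0) + (Nzz + 0) = 1 + ((3 : F) • Nzz) := by
      rw [h3N']; simp only [add_zero]; abel
    rw [h3N] at this
    simp only [add_zero] at this ⊢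
    exact this
  let X : Mt := P₀ * U * P₀i
  have hX3 : X * X * X = 1 := by
    calc X * X * X = P₀ * U * (P₀i * P₀) * U * (P₀i * P₀) * U * P₀i := by simp only [X, Matrix.mul_assoc]
      _ = P₀ * (U * U * U) * P₀i := by rw [hP2, Matrix.mul_one, Matrix.mul_one]; simp only [Matrix.mul_assoc]
      _ = 1 := by rw [hU3, Matrix.mul_one, hP1]
  have hXd : X.det = 1 := by
    have h1 : X.det ^ 3 = (1 : F) ^ 3 := by
      have := congrArg Matrix.det hX3
      rw [Matrix.det_mul, Matrix.det_mul, Matrix.det_one] at this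
      rw [pow_succ, pow_two, this, one_pow]
    exact cube_inj h3 h1
  let x : Matrix.SpecialLinearGroup (Fin n) F := ⟨X, hXd⟩
  have hxv : (x : Mt) = X := rfl
  have hx3 : ((x ^ 3 : Matrix.SpecialLinearGroup (Fin n) F) : Mt) = (1 : F) • (1 : Mt) := by
    rw [Matrix.SpecialLinearGroup.coe_pow, one_smul, pow_succ, pow_two, hxv]
    exact hX3
  have hxns : ∀ z : F, (x : Mt) ≠ z • (1 : Mt) := by
    intro z hz
    rw [hxv] at hz
    have hU : U = z • (1 : Mt) := by
      calc U = P₀i * X * P₀ := by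
            simp only [X]
            calc U = (P₀i * P₀) * U * (P₀i * P₀) := by rw [hP2, Matrix.one_mul, Matrix.mul_one]
              _ = _ := by simp only [Matrix.mul_assoc]
        _ = z • (1 : Mt) := by rw [hz, Matrix.mul_smul, Matrix.smul_mul, Matrix.mul_one, hP2]
    have hij : τ (Sum.inr ⟨0, hm⟩) ≠ τ (Sum.inl ⟨0, hm⟩) := by
      intro h
      have := τ.injective h
      simp at this
    have h1 := congrFun (Nz_single_inl (K := F) τ (⟨0, hm⟩ : Fin m)) (τ (Sum.inr ⟨0, hm⟩))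
    rw [Matrix.mulVec_single_one, Matrix.col_apply] at h1
    have h2 := congrFun (congrFun hU (τ (Sum.inr ⟨0, hm⟩))) (τ (Sum.inl ⟨0, hm⟩))
    simp only [U, Matrix.add_apply, Matrix.one_apply_ne hij, zero_add, Matrix.smul_apply, smul_zero, smul_eq_mul, mul_zero] at h2
    have h4 : Nzz (τ (Sum.inr ⟨0, hm⟩)) (τ (Sum.inl ⟨0, hm⟩)) = 1 := by
      have : Nzz (τ (Sum.inr ⟨0, hm⟩)) (τ (Sum.inl ⟨0, hm⟩)) = (Nz τ : Mt) (τ (Sum.inr ⟨0, hm⟩)) (τ (Sum.inl ⟨0, hm⟩)) := rfl
      rw [this, h1]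
      simp
    rw [h4] at h2
    exact one_ne_zero h2
  obtain ⟨Q, hQ⟩ := hall x ⟨1, hx3⟩ hxns
  rw [Subgroup.mem_comap] at hQ
  obtain ⟨w, c, hc⟩ := exists_of_mem F₀ _ hQ
  let Qm : Mt := (Q : Mt)
  let Qi : Mt := ((Q⁻¹ : Matrix.SpecialLinearGroup (Fin n) F) : Mt)
  have hval : ((Matrix.SpecialLinearGroup.toGL (Q⁻¹ * x * Q) : GL (Fin n) F) : Mt) = Qi * X * Qm := rfl
  have hQR : Qi * Qm = 1 := by
    have : ((Q⁻¹ * Q : Matrix.SpecialLinearGroup (Fin n) F) : Mt) = 1 := by rw [inv_mul_cancel]; rfl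
    rwa [Matrix.SpecialLinearGroup.coe_mul] at this
  have hRQ : Qm * Qi = 1 := by
    have : ((Q * Q⁻¹ : Matrix.SpecialLinearGroup (Fin n) F) : Mt) = 1 := by rw [mul_inv_cancel]; rfl
    rwa [Matrix.SpecialLinearGroup.coe_mul] at this
  have hQid : Qi.det = 1 := (Q⁻¹ : Matrix.SpecialLinearGroup (Fin n) F).2
  rw [hval] at hc
  let Si : Mt := Qi * P₀
  let S : Mt := P₀i * Qm
  have hSS : Si * S = 1 := by
    calc Si * S = Qi * (P₀ * P₀i) * Qm := by simp only [Si, S, Matrix.mul_assoc]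
      _ = 1 := by rw [hP1, Matrix.mul_one, hQR]
  have hSS' : S * Si = 1 := by
    calc S * Si = P₀i * (Qm * Qi) * P₀ := by simp only [Si, S, Matrix.mul_assoc]
      _ = 1 := by rw [hRQ, Matrix.mul_one, hP2]
  have hy : Qi * X * Qm = Si * U * S := by simp only [X, Si, S, Matrix.mul_assoc]
  let Nt : Mt := Si * Nzz * S
  have hyN : Qi * X * Qm = 1 + Nt := by
    rw [hy]
    simp only [U, Nt, Matrix.mul_add, Matrix.add_mul, Matrix.mul_one, hSS]
  have hy3 : (Qi * X * Qm) * (Qi * X * Qm) * (Qi * X * Qm) = 1 := by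
    rw [hy]
    calc (Si * U * S) * (Si * U * S) * (Si * U * S) = Si * U * (S * Si) * U * (S * Si) * U * S := by simp only [Matrix.mul_assoc]
      _ = Si * (U * U * U) * S := by rw [hSS', Matrix.mul_one, Matrix.mul_one]; simp only [Matrix.mul_assoc]
      _ = 1 := by rw [hU3, Matrix.mul_one, hSS]
  -- descend the scalar
  have hF₀3 : (3 : F₀) = 0 := by
    apply F₀.subtype.injective
    rw [map_ofNat, map_zero]
    exact h3
  haveI : Finite F₀ := inferInstance
  have hwf : ∃ f : F₀, (f : F) = w := by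
    rw [hc] at hy3
    simp only [Matrix.smul_mul, Matrix.mul_smul, smul_smul] at hy3
    have hmap : (c.map F₀.subtype) * (c.map F₀.subtype) * (c.map F₀.subtype) = (c * c * c).map F₀.subtype := by
      rw [Matrix.map_mul, Matrix.map_mul]
    rw [hmap] at hy3
    have hent := congrFun (congrFun hy3 i₀) i₀
    simp only [Matrix.smul_apply, Matrix.map_apply, Matrix.one_apply_eq, smul_eq_mul] at hent
    set t : F₀ := (c * c * c) i₀ i₀ with ht
    have htc : F₀.subtype t = (t : F) := rfl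
    rw [htc] at hent
    have ht0 : t ≠ 0 := by
      rintro h0
      rw [h0] at hent
      simp at hent
    obtain ⟨f, hf⟩ := cube_surj hF₀3 t⁻¹
    refine ⟨f, ?_⟩
    apply cube_inj h3
    have : F₀.subtype (f ^ 3 : F₀) = F₀.subtype (t⁻¹ : F₀) := by rw [hf]
    rw [map_pow, map_inv₀, htc] at this
    have hf3 : F₀.subtype f = (f : F) := rfl
    rw [hf3] at this
    rw [this]
    apply inv_eq_of_mul_eq_one_right
    linear_combination hent
  obtain ⟨f, hfw⟩ := hwf
  let A' : Matrix (Fin n) (Fin n) F₀ := f • c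
  let N' : Matrix (Fin n) (Fin n) F₀ := A' - 1
  have hN'map : N'.map F₀.subtype = Nt := by
    have h1 : (Nt : Mt) = w • c.map F₀.subtype - 1 := by
      rw [← hc, hyN]; simp
    rw [h1, ← hfw]
    ext a b
    simp [N', A', Matrix.sub_apply, Matrix.one_apply, Matrix.smul_apply]
    by_cases hab : a = b <;> simp [hab]
  have hNtNt : Nt * Nt = 0 := by
    calc Nt * Nt = Si * Nzz * (S * Si) * Nzz * S := by simp only [Nt, Matrix.mul_assoc]
      _ = Si * (Nzz * Nzz) * S := by rw [hSS', Matrix.mul_one]; simp only [Matrix.mul_assoc]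
      _ = 0 := by rw [hNN]; simp
  have hinj : Function.Injective F₀.subtype := F₀.subtype.injective
  have hN'N' : N' * N' = 0 := by
    apply Matrix.map_injective hinj
    show (N' * N').map F₀.subtype = (0 : Matrix (Fin n) (Fin n) F₀).map F₀.subtype
    rw [Matrix.map_mul, hN'map, hNtNt]
    simp
  let T₀ : (Fin n → F₀) →ₗ[F₀] (Fin n → F₀) := Matrix.toLin' N'
  have hT₀ : ∀ v, T₀ v = N' *ᵥ v := fun v => rfl
  have hT₀₀ : ∀ v, T₀ (T₀ v) = 0 := by
    intro v
    simp only [hT₀, Matrix.mulVec_mulVec, hN'N', Matrix.zero_mulVec]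
  obtain ⟨r, s, e₀, he1, he2⟩ := exists_sqzero_basis T₀ hT₀₀
  -- `s = 0`
  have hs : ∀ j : Fin s, False := by
    intro j
    let d₀ : Fin n → F₀ := e₀ (Sum.inr (Sum.inr j))
    let coord := e₀.coord (Sum.inr (Sum.inr j))
    let lam : Fin n → F₀ := fun a => coord (Pi.single a 1)
    have hlam : ∀ v, lam ⬝ᵥ v = coord v := by
      intro v
      rw [LinearMap.pi_apply_eq_sum_univ coord v]
      simp only [dotProduct, lam, smul_eq_mul]
      apply Finset.sum_congr rfl
      intro a _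
      rw [mul_comm]
      congr 2
      funext j
      simp [Pi.single_apply, eq_comm]
    have hzero : ∀ u, coord (T₀ u) = 0 := by
      have : coord ∘ₗ T₀ = 0 := by
        apply e₀.ext
        rintro (i | i | i)
        · simp only [LinearMap.comp_apply, he1, LinearMap.zero_apply, coord, Basis.coord_apply, Basis.repr_self]
          simp
        · have : T₀ (e₀ (Sum.inr (Sum.inl i))) = 0 := by
            rw [← he1, hT₀₀]
          simp [this]
        · simp [he2]
      intro u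
      exact LinearMap.congr_fun this u
    have hd1 : lam ⬝ᵥ d₀ = 1 := by
      rw [hlam]
      simp [coord, d₀]
    have hl0 : lam ᵥ* N' = 0 := by
      funext a
      have : (lam ᵥ* N') a = lam ⬝ᵥ (N' *ᵥ Pi.single a 1) := by
        rw [Matrix.dotProduct_mulVec]
        simp
      rw [this, hlam, ← hT₀, hzero]
      rfl
    have hNd : N' *ᵥ d₀ = 0 := he2 j
    let ι : F₀ →+* F := F₀.subtype
    let lt : Fin n → F := ι ∘ lam
    let dt : Fin n → F := ι ∘ d₀
    have h1 : lt ⬝ᵥ dt = 1 := by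
      have := RingHom.map_dotProduct ι lam d₀
      rw [hd1, map_one] at this
      exact this.symm
    have h2 : Nt *ᵥ dt = 0 := by
      funext a
      have := RingHom.map_mulVec ι N' d₀ a
      rw [hNd, Pi.zero_apply, map_zero] at this
      rw [← hN'map]
      exact this.symm
    have h3' : lt ᵥ* Nt = 0 := by
      funext a
      have := RingHom.map_vecMul ι N' lam a
      rw [hl0, Pi.zero_apply, map_zero] at this
      rw [← hN'map]
      exact this.symm
    have h4 : (Nzz : Mt) *ᵥ (S *ᵥ dt) = 0 := by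
      have h5 : S *ᵥ (Nt *ᵥ dt) = 0 := by rw [h2]; simp
      have h6 : S * Nt = Nzz * S := by
        calc S * Nt = (S * Si) * Nzz * S := by simp only [Nt, Matrix.mul_assoc]
          _ = _ := by rw [hSS', Matrix.one_mul]
      rw [Matrix.mulVec_mulVec, h6, ← Matrix.mulVec_mulVec] at h5
      exact h5
    obtain ⟨u, hu⟩ := Nz_ker τ _ h4
    have h7 : dt = Nt *ᵥ (Si *ᵥ u) := by
      have : dt = Si *ᵥ (S *ᵥ dt) := by
        rw [Matrix.mulVec_mulVec, hSS, Matrix.one_mulVec]
      rw [this, hu, Matrix.mulVec_mulVec, Matrix.mulVec_mulVec]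
      congr 1
      calc Si * Nz τ = Si * Nzz * (S * Si) := by rw [hSS', Matrix.mul_one]
        _ = _ := by simp only [Nt, Matrix.mul_assoc]
    rw [h7, Matrix.dotProduct_mulVec, h3'] at h1
    simp at h1
  have hs0 : s = 0 := by
    by_contra hne
    exact hs ⟨0, Nat.pos_of_ne_zero hne⟩
  subst hs0
  have hcard : n = m + m := by
    have := Module.finrank_eq_card_basis (Pi.basisFun F₀ (Fin n))
    simpa using (Fintype.card_congr τ).symm
  have hrm : r = m := by
    have := Module.finrank_eq_card_basis e₀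
    rw [Module.finrank_fin_fun] at this
    simp at this
    omega
  subst hrm
  let σ : Fin r ⊕ (Fin r ⊕ Fin 0) ≃ Fin n := (Equiv.sumCongr (Equiv.refl _) (Equiv.sumEmpty _ _)).trans τ
  have hσ1 : ∀ i, σ (Sum.inl i) = τ (Sum.inl i) := fun i => rfl
  have hσ2 : ∀ i, σ (Sum.inr (Sum.inl i)) = τ (Sum.inr i) := fun i => rfl
  let E₀ : (Fin n → F₀) ≃ₗ[F₀] (Fin n → F₀) := e₀.equiv (Pi.basisFun F₀ (Fin n)) σ
  have hEe : ∀ a, E₀ (e₀ a) = Pi.single (σ a) 1 := by
    intro a
    simp [E₀, Basis.equiv_apply]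
  have hE₀ : ∀ v, E₀ (N' *ᵥ v) = (Nz τ : Matrix (Fin n) (Fin n) F₀) *ᵥ E₀ v := by
    intro v
    have : (E₀ : (Fin n → F₀) →ₗ[F₀] (Fin n → F₀)).comp T₀ =
        (Matrix.toLin' (Nz τ : Matrix (Fin n) (Fin n) F₀)).comp (E₀ : (Fin n → F₀) →ₗ[F₀] (Fin n → F₀)) := by
      apply e₀.ext
      rintro (i | i | i)
      · simp only [LinearMap.comp_apply, LinearEquiv.coe_coe, Matrix.toLin'_apply, he1, hEe, hσ1, hσ2]
        rw [Nz_single_inl]
      · have : T₀ (e₀ (Sum.inr (Sum.inl i))) = 0 := by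
          rw [← he1, hT₀₀]
        simp only [LinearMap.comp_apply, LinearEquiv.coe_coe, Matrix.toLin'_apply, this, hEe, hσ2, map_zero]
        rw [Nz_single_inr]
      · exact i.elim0
    exact LinearMap.congr_fun this v
  have hconj := conj_of_equiv E₀ N' (Nz τ) hE₀
  let G₀ : Matrix (Fin n) (Fin n) F₀ := (glOfEquiv E₀ : GL (Fin n) F₀)
  have hG₀d : G₀.det ≠ 0 := (Matrix.isUnits_det_units (glOfEquiv E₀)).ne_zero
  let G : Mt := G₀.map F₀.subtype
  have hGc : G * Nt = Nzz * G := by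
    have := congrArg (fun M : Matrix (Fin n) (Fin n) F₀ => M.map F₀.subtype) hconj
    simp only [Matrix.map_mul, hN'map, Nz_map] at this
    exact this
  have hGd : G.det = ((G₀.det : F₀) : F) := (F₀.subtype.map_det G₀).symm
  let R : Mt := G * Si
  have hRc : R * Nzz = Nzz * R := by
    calc R * Nzz = G * (Si * Nzz * (S * Si)) := by
          rw [hSS', Matrix.mul_one]; simp only [R, Matrix.mul_assoc]
      _ = G * Nt * Si := by simp only [Nt, Matrix.mul_assoc]
      _ = Nzz * R := by rw [hGc]; simp only [R, Matrix.mul_assoc]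
  have hRsq : IsSquare R.det := Nz_comm_det τ R hRc
  have hRd : R.det = G.det * b := by
    simp only [R, Si]
    rw [Matrix.det_mul, Matrix.det_mul, hQid, one_mul, hP₀d]
  have hGsq : IsSquare G.det := by
    rw [hGd]
    exact isSquare_of_mem_subfield F₀ hq hodd hF₀ hqk _
  have hG0 : G.det ≠ 0 := by
    rw [hGd]
    simpa using hG₀d
  apply hb
  have : b = R.det / G.det := by
    rw [hRd]
    field_simp
  rw [this]
  exact hRsq.div hGsq



/-- Elements of order 3 of PSL_n(q) in characteristic 3 and subfield subgroups. Here `T = PSL_n(F)` for a field `F` with `q` elements, `q` a power of 3 (`n ≥ 2`, `(n, q) ≠ (2, 2), (2, 3)`), `F₀` is the subfield with `q₀` elements where `q = q₀^k` for a prime `k`, and `H` is the subgroup of matrices of determinant 1 lying in the subfield group of `F₀` (invertible matrices over `F₀` times scalars) — a maximal subgroup of type GL_n(q₀) (the case `n = 2`, `q₀ = 2` is excluded); Ω is the set of `T`-conjugates of `H`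 (cosets of `H`), so an element of `T` of prime order `r` (a matrix `x` of determinant 1 with `x^r` scalar, `x` not scalar) fixes a point of Ω when some conjugate of `x` by a matrix of determinant 1 lies in `H`. Suppose 3 divides the index of `H`. Then every element of `T` of order 3 is conjugate in `T` into `H` if and only if `n` is odd, or `n` is even and `k > 2`. -/
theorem result {F : Type*} [Field F] [Fintype F] [CharP F 3] {q : ℕ} (hq : Fintype.card F = q)
    (n : ℕ) (hn : 2 ≤ n) (hT : (n, q) ≠ (2, 3))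
    (F₀ : Subfield F) (k q₀ : ℕ) (hk : k.Prime) (hF₀ : Nat.card ↥F₀ = q₀) (hqk : q = q₀ ^ k) (hC5 : ¬ (n = 2 ∧ q₀ = 2)) (hΩ : 3 ∣ ((Cfsg.Geo.subfieldSubgroup F₀ 1).comap (Matrix.SpecialLinearGroup.toGL : Matrix.SpecialLinearGroup (Fin n) F →* GL (Fin n) F)).index) :
    (∀ x : Matrix.SpecialLinearGroup (Fin n) F,
      (∃ z : F, ((x ^ 3 : Matrix.SpecialLinearGroup (Fin n) F) : Matrix (Fin n) (Fin n) F) = z • (1 : Matrix (Fin n) (Fin n) F)) →
      (∀ z : F, (x : Matrix (Fin n) (Fin n) F) ≠ z • (1 : Matrix (Fin n) (Fin n) F)) →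
      ∃ P : Matrix.SpecialLinearGroup (Fin n) F, P⁻¹ * x * P ∈ ((Cfsg.Geo.subfieldSubgroup F₀ 1).comap (Matrix.SpecialLinearGroup.toGL : Matrix.SpecialLinearGroup (Fin n) F →* GL (Fin n) F))) ↔
    (Odd n ∨ (Even n ∧ 2 < k)) := by
  classical
  have h3 : (3 : F) = 0 := by exact_mod_cast CharP.cast_eq_zero F 3
  have hodd : Odd q := by
    haveI : Fact (Nat.Prime 3) := ⟨Nat.prime_three⟩
    obtain ⟨e, -, he⟩ := FiniteField.card F 3
    rw [← hq, he]
    exact Odd.pow (by decide)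
  constructor
  · intro hall
    by_contra hne
    push_neg at hne
    obtain ⟨h1, h2⟩ := hne
    have hev : Even n := Nat.not_odd_iff_even.mp h1
    have hk2 : k = 2 := le_antisymm (h2 hev) hk.two_le
    subst hk2
    obtain ⟨m, hm⟩ := hev
    exact forward h3 F₀ hq hodd hF₀ hqk (by omega : 0 < m) (finSumFinEquiv.trans (finCongr hm.symm)) hall
  · rintro h x ⟨z, hz⟩ hx
    exact backward h3 F₀ hq hodd hF₀ hqk hk hn h x z hz

end Cfsg.Agent.S5966
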