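import Mathlib
import Cfsg.Agent.Lib.MatConj
import Cfsg.Agent.Lib.EigenSq
import Cfsg.Agent.Lib.InvolConj
import Cfsg.Agent.Lib.SqZero
import Cfsg.Agent.Lib.SympBasis
import Cfsg.Agent.S5969
import Cfsg.Statements.S5967
-- import your own Cfsg.Agent.* helpers here

set_option autoImplicit false
open scoped MatrixGroups
open Cfsg

namespace Cfsg.Agent.S5967

open Matrix Module Cfsg.Geo
open Cfsg.Agent.Lib.SqScalar Cfsg.Agent.Lib.MatConj Cfsg.Agent.Lib.EigenSq Cfsg.Agent.Lib.InvolConj Cfsg.Agent.Lib.SqZero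
open Cfsg.Agent.Lib.SympBasis

set_option linter.unusedSimpArgs false
set_option linter.unusedVariables false

variable {F : Type*} [Field F] {n : ℕ}

local notation "Mt" => Matrix (Fin n) (Fin n) F

/-- The form as a bilinear map. -/
def mkB (f : (Fin n → F) → (Fin n → F) → F) (hf : IsBilinearForm f) : (Fin n → F) →ₗ[F] (Fin n → F) →ₗ[F] F :=
  LinearMap.mk₂ F f hf.add_left hf.smul_left hf.add_right hf.smul_right

theorem mkB_apply (f : (Fin n → F) → (Fin n → F) → F) (hf : IsBilinearForm f) (u v : Fin n → F) :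
    mkB f hf u v = f u v := rfl

theorem conj_of_blocks (f : (Fin n → F) → (Fin n → F) → F) (hf : IsSymplecticForm f) (x : GL (Fin n) F)
    (m : ℕ) (e : Basis (Fin 2 × Fin m) F (Fin n → F)) (A : Fin m → Matrix (Fin 2) (Fin 2) F) (δ : F) (hδ : δ ≠ 0)
    (hA : ∀ j, (A j).det = δ)
    (he : ∀ i j, (x : Mt) *ᵥ e (i, j) = A j 0 i • e (0, j) + A j 1 i • e (1, j)) :
    ∃ P : GL (Fin n) F, P⁻¹ * x * P ∈ similarityGroup f := by
  classical
  set B := mkB f hf.bilinear with hB
  obtain ⟨m', s, hs⟩ := exists_symp_basis B (fun v => hf.alternating v) (by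
    intro v hv
    by_contra hv0
    obtain ⟨-, y, hy⟩ := hf.nondegenerate v hv0
    exact hy (hv y))
  have hmm : m' = m := by
    have h1 := Module.finrank_eq_card_basis e
    have h2 := Module.finrank_eq_card_basis s
    simp at h1 h2
    omega
  subst hmm
  let L : (Fin n → F) →ₗ[F] (Fin n → F) := s.constr F (fun p => A p.2 0 p.1 • s (0, p.2) + A p.2 1 p.1 • s (1, p.2))
  have hL : ∀ i j, L (s (i, j)) = A j 0 i • s (0, j) + A j 1 i • s (1, j) := by
    intro i j
    exact s.constr_basis F _ (i, j)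
  let E : (Fin n → F) ≃ₗ[F] (Fin n → F) := e.equiv s (Equiv.refl _)
  have hE : ∀ p, E (e p) = s p := by
    intro p
    simp [E, Basis.equiv_apply]
  have hEL : ∀ u, E ((x : Mt) *ᵥ u) = L (E u) := by
    intro u
    have : (E : (Fin n → F) →ₗ[F] (Fin n → F)).comp (Matrix.toLin' (x : Mt)) = L.comp (E : (Fin n → F) →ₗ[F] (Fin n → F)) := by
      apply e.ext
      rintro ⟨i, j⟩
      simp only [LinearMap.comp_apply, Matrix.toLin'_apply, LinearEquiv.coe_coe]
      rw [he, map_add, map_smul, map_smul, hE, hE, hE, hL]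
    have := LinearMap.congr_fun this u
    simpa using this
  obtain ⟨P, hP⟩ := exists_conj_of_equiv' E x (LinearMap.toMatrix' L) (by
    intro u
    rw [LinearMap.toMatrix'_mulVec]
    exact hEL u)
  refine ⟨P, Units.mk0 δ hδ, ?_⟩
  rw [hP]
  have key : B.compl₁₂ L L = δ • B := by
    apply LinearMap.ext_basis s s
    rintro ⟨i, j⟩ ⟨i', j'⟩
    simp only [LinearMap.compl₁₂_apply, LinearMap.smul_apply, smul_eq_mul]
    rw [hL, hL]
    simp only [map_add, map_smul, LinearMap.add_apply, LinearMap.smul_apply, smul_eq_mul, hs]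
    by_cases hj : j = j'
    · subst hj
      simp only [if_true]
      have hd := hA j
      rw [Matrix.det_fin_two] at hd
      rw [← hd]
      fin_cases i <;> fin_cases i' <;> simp [J_00, J_01, J_10, J_11] <;> ring
    · simp [hj]
  intro u v
  rw [LinearMap.toMatrix'_mulVec, LinearMap.toMatrix'_mulVec]
  have := LinearMap.congr_fun (LinearMap.congr_fun key u) v
  simp only [LinearMap.compl₁₂_apply, LinearMap.smul_apply, smul_eq_mul] at this
  exact this

/-- eigen type -/
theorem case_sq [Fintype F] {q : ℕ} (f : (Fin n → F) → (Fin n → F) → F) (hf : IsSymplecticForm f)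
    (hq : Fintype.card F = q) (hodd : Odd q)
    (hv : padicValNat 2 (q - 1) ≤ padicValNat 2 n) (hn0 : n ≠ 0) (h2n : 2 ∣ n)
    (x : Matrix.SpecialLinearGroup (Fin n) F)
    (w : F) (hw0 : w ≠ 0) (hz : (x : Mt) * x = (w * w) • (1 : Mt)) :
    ∃ P : GL (Fin n) F, P⁻¹ * (Matrix.SpecialLinearGroup.toGL x) * P ∈ similarityGroup f := by
  classical
  obtain ⟨m, ε, e, he⟩ := Cfsg.Agent.S5969.pairing_basis hq hodd hv hn0 h2n x w hw0 hz
  have hε : ∀ j, ε j * ε j = w * w := by
    intro j
    have h1 : (x : Mt) *ᵥ ((x : Mt) *ᵥ e (0, j)) = (w * w) • e (0, j) := by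
      rw [Matrix.mulVec_mulVec, hz, Matrix.smul_mulVec, Matrix.one_mulVec]
    rw [he, Matrix.mulVec_smul, he, smul_smul] at h1
    by_contra hne
    have h2 : (ε j * ε j - w * w) • e (0, j) = 0 := by
      rw [sub_smul, h1, sub_self]
    rcases smul_eq_zero.mp h2 with h3 | h3
    · exact hne (sub_eq_zero.mp h3)
    · exact e.ne_zero _ h3
  refine conj_of_blocks f hf (Matrix.SpecialLinearGroup.toGL x) m e (fun j => ε j • (1 : Matrix (Fin 2) (Fin 2) F)) (w * w) (mul_ne_zero hw0 hw0) ?_ ?_
  · intro j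
    simp [Matrix.det_fin_two, sq, hε]
  · intro i j
    rw [Matrix.SpecialLinearGroup.coe_GL_coe_matrix, he]
    fin_cases i <;> simp

open Cfsg.Agent.S5969 in
/-- nonsquare type -/
theorem case_nonsq (f : (Fin n → F) → (Fin n → F) → F) (hf : IsSymplecticForm f)
    (x : GL (Fin n) F) (z : F) (hz : (x : Mt) * x = z • (1 : Mt)) (hnsq : ¬ IsSquare z) :
    ∃ P : GL (Fin n) F, P⁻¹ * x * P ∈ similarityGroup f := by
  classical
  have hno : ∀ s : F, s * s - 0 * s - z ≠ 0 := by
    intro r hr
    apply hnsq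
    exact ⟨r, by linear_combination -hr⟩
  have hirr := quadPoly_irred 0 z hno
  have hz0 : z ≠ 0 := fun h => hnsq (h ▸ IsSquare.zero)
  let T : Module.End F (Fin n → F) := Matrix.toLin' (x : Mt)
  have hT : ∀ v, T (T v) = z • v := by
    intro v
    simp only [T, Matrix.toLin'_apply, Matrix.mulVec_mulVec, hz, Matrix.smul_mulVec, Matrix.one_mulVec]
  have hT0 : Polynomial.aeval T (quadPoly 0 z) = 0 := by
    refine (aeval_quadPoly 0 z T).trans ?_
    apply LinearMap.ext
    intro v
    simp only [LinearMap.sub_apply, Module.End.mul_apply, LinearMap.smul_apply, Module.End.one_apply, hT,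
      LinearMap.zero_apply, zero_smul]
    simp
  obtain ⟨m, v, b, hb⟩ := exists_poly_basis' T (quadPoly 0 z) hirr hT0 2 (quadPoly_natDegree 0 z)
  have hb0 : ∀ j, b (0, j) = v j := by
    intro j
    rw [hb]; simp
  have hb1 : ∀ j, b (1, j) = T (v j) := by
    intro j
    rw [hb]; simp
  refine conj_of_blocks f hf x m b (fun _ => !![0, z; 1, 0]) (-z) (neg_ne_zero.mpr hz0) ?_ ?_
  · intro j
    simp [Matrix.det_fin_two]
  · intro i j
    have hTx : ∀ u, (x : Mt) *ᵥ u = T u := fun u => by simp [T]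
    rw [hTx]
    fin_cases i
    · simp [hb0, hb1]
    · simp [hb0, hb1, hT]

/-- even characteristic -/
theorem case_even (h2F : (2 : F) = 0) (f : (Fin n → F) → (Fin n → F) → F) (hf : IsSymplecticForm f)
    (h2n : Even n) (x : GL (Fin n) F) (w : F) (hw0 : w ≠ 0) (hz : (x : Mt) * x = (w * w) • (1 : Mt)) :
    ∃ P : GL (Fin n) F, P⁻¹ * x * P ∈ similarityGroup f := by
  classical
  let T : (Fin n → F) →ₗ[F] (Fin n → F) := Matrix.toLin' (x : Mt)
  have hT : ∀ v, T (T v) = (w * w) • v := by
    intro v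
    simp only [T, Matrix.toLin'_apply, Matrix.mulVec_mulVec, hz, Matrix.smul_mulVec, Matrix.one_mulVec]
  let N : (Fin n → F) →ₗ[F] (Fin n → F) := w⁻¹ • T - LinearMap.id
  have hNv : ∀ v, N v = w⁻¹ • T v - v := fun v => rfl
  have hN : ∀ v, N (N v) = 0 := by
    intro v
    rw [hNv, hNv, map_sub, map_smul, hT, smul_sub, smul_smul, smul_smul]
    have e2 : w⁻¹ * w⁻¹ * (w * w) = 1 := by field_simp
    rw [e2, one_smul]
    have : v - w⁻¹ • T v - (w⁻¹ • T v - v) = (2 : F) • (v - w⁻¹ • T v) := by module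
    rw [this, h2F, zero_smul]
  obtain ⟨r, s, e, he1, he2⟩ := exists_sqzero_basis N hN
  have hTN : ∀ v, (x : Mt) *ᵥ v = w • (v + N v) := by
    intro v
    rw [hNv, smul_add, smul_sub, smul_smul, mul_inv_cancel₀ hw0, one_smul]
    simp [T]
  have hcard : n = r + (r + s) := by
    have := Module.finrank_eq_card_basis e
    simpa using this
  have hs : Even s := by
    have h3 : Even (r + (r + s)) := hcard ▸ h2n
    have h4 : r + (r + s) = (r + r) + s := by ring
    rw [h4] at h3
    exact (Nat.even_add.mp h3).mp (Even.add_self r)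
  obtain ⟨s', rfl⟩ := hs
  let τ : Fin (s' + s') ≃ Fin 2 × Fin s' := Fintype.equivOfCardEq (by simp; ring)
  let ρ : Fin r ⊕ Fin r ≃ Fin 2 × Fin r :=
    { toFun := Sum.elim (fun i => (0, i)) (fun i => (1, i))
      invFun := fun p => if p.1 = 0 then Sum.inl p.2 else Sum.inr p.2
      left_inv := by
        rintro (i | i) <;> simp
      right_inv := by
        rintro ⟨a, b⟩
        fin_cases a <;> simp }
  let σ : Fin r ⊕ (Fin r ⊕ Fin (s' + s')) ≃ Fin 2 × Fin (r + s') :=
    (Equiv.sumAssoc _ _ _).symm.trans ((ρ.sumCongr τ).trans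
      ((Equiv.prodSumDistrib _ _ _).symm.trans (Equiv.prodCongr (Equiv.refl _) finSumFinEquiv)))
  have h1 : ∀ i : Fin r, σ.symm (0, finSumFinEquiv (Sum.inl i)) = Sum.inl i := by
    intro i
    rw [Equiv.symm_apply_eq]
    rfl
  have h2 : ∀ i : Fin r, σ.symm (1, finSumFinEquiv (Sum.inl i)) = Sum.inr (Sum.inl i) := by
    intro i
    rw [Equiv.symm_apply_eq]
    rfl
  have h3 : ∀ (a : Fin 2) (k : Fin s'), σ.symm (a, finSumFinEquiv (Sum.inr k)) = Sum.inr (Sum.inr (τ.symm (a, k))) := by
    intro a k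
    rw [Equiv.symm_apply_eq]
    simp [σ]
  let A : Fin (r + s') → Matrix (Fin 2) (Fin 2) F := fun j =>
    Sum.elim (fun _ => !![w, 0; w, w]) (fun _ => w • 1) (finSumFinEquiv.symm j)
  refine conj_of_blocks f hf x (r + s') (e.reindex σ) A (w * w) (mul_ne_zero hw0 hw0) ?_ ?_
  · intro j
    obtain ⟨k, rfl⟩ := finSumFinEquiv.surjective j
    rcases k with k | k <;> simp [A, Matrix.det_fin_two, sq]
  · intro i j
    obtain ⟨k, rfl⟩ := finSumFinEquiv.surjective j
    rw [hTN]
    rcases k with k | k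
    · have hA' : A (finSumFinEquiv (Sum.inl k)) = !![w, 0; w, w] := by simp [A]
      rw [hA']
      simp only [Basis.reindex_apply]
      revert i
      rw [Fin.forall_fin_two]
      constructor
      · rw [h1, h2, he1]
        simp
      · rw [h1, h2, ← he1, hN]
        simp
    · have hA' : A (finSumFinEquiv (Sum.inr k)) = w • 1 := by simp [A]
      rw [hA']
      simp only [Basis.reindex_apply]
      rw [h3, he2]
      simp only [add_zero]
      revert i
      rw [Fin.forall_fin_two]
      constructor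
      · rw [h3, h3]
        simp
      · rw [h3, h3]
        simp

theorem forward [Fintype F] (f : (Fin n → F) → (Fin n → F) → F) (hf : IsSymplecticForm f) (h2F : (2 : F) ≠ 0)
    (hn : 3 ≤ n)
    (hall : ∀ x : Matrix.SpecialLinearGroup (Fin n) F,
      (∃ z : F, ((x ^ 2 : Matrix.SpecialLinearGroup (Fin n) F) : Matrix (Fin n) (Fin n) F) = z • (1 : Matrix (Fin n) (Fin n) F)) →
      (∀ z : F, (x : Matrix (Fin n) (Fin n) F) ≠ z • (1 : Matrix (Fin n) (Fin n) F)) →
      ∃ P : Matrix.SpecialLinearGroup (Fin n) F, P⁻¹ * x * P ∈ ((Cfsg.Geo.similarityGroup f).comap (Matrix.SpecialLinearGroup.toGL : Matrix.SpecialLinearGroup (Fin n) F →* GL (Fin n) F)))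
    (c : F) (hc : c ≠ 0) (hcn : c ^ n = -1) : False := by
  classical
  let i₀ : Fin n := ⟨0, by omega⟩
  let i₁ : Fin n := ⟨1, by omega⟩
  have hi : i₀ ≠ i₁ := by
    intro h
    have := congrArg Fin.val h
    simp [i₀, i₁] at this
  set u : Fin n → F := Pi.single i₀ (-(2 * c)) with hu
  set v : Fin n → F := Pi.single i₀ 1 with hv
  have hvu : v ⬝ᵥ u = -(2 * c) := by
    simp [hu, hv, single_dotProduct]
  have h2c : 2 * c + v ⬝ᵥ u = 0 := by rw [hvu]; ring
  set X : Mt := c • (1 : Mt) + vecMulVec u v with hX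
  have hdet : X.det = 1 := by
    have e : X = c • (1 + (replicateCol Unit (c⁻¹ • u) * replicateRow Unit v)) := by
      rw [← Matrix.vecMulVec_eq, hX, smul_add]
      congr 1
      ext i j
      simp [Matrix.vecMulVec_apply, Matrix.smul_apply]
      field_simp
    rw [e, Matrix.det_smul, Matrix.det_one_add_replicateCol_mul_replicateRow]
    simp only [Fintype.card_fin, hcn, dotProduct_smul, smul_eq_mul]
    have : c⁻¹ * (v ⬝ᵥ u) = -2 := by
      rw [hvu]
      field_simp
    rw [this]
    ring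
  have hsq : X * X = (c * c) • (1 : Mt) := by
    have hMM : vecMulVec u v * vecMulVec u v = (v ⬝ᵥ u) • vecMulVec u v := by
      rw [Matrix.vecMulVec_mul_vecMulVec]
      ext i j
      simp [Matrix.vecMulVec_apply]
      ring
    have : X * X = (c * c) • (1 : Mt) + (2 * c + v ⬝ᵥ u) • vecMulVec u v := by
      rw [hX]
      simp only [Matrix.mul_add, Matrix.add_mul, Matrix.mul_smul, Matrix.smul_mul, Matrix.mul_one, Matrix.one_mul, hMM]
      module
    rw [this, h2c, zero_smul, add_zero]
  have hnonsc : ∀ s : F, X ≠ s • (1 : Mt) := by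
    intro s hs
    have h0 := congrFun (congrFun hs i₀) i₀
    have h1 := congrFun (congrFun hs i₁) i₁
    simp [hX, hu, hv, Matrix.vecMulVec_apply, hi.symm, hi] at h0 h1
    apply mul_ne_zero h2F hc
    rw [← h1] at h0
    linear_combination -h0
  let x : Matrix.SpecialLinearGroup (Fin n) F := ⟨X, hdet⟩
  obtain ⟨P, hP⟩ := hall x ⟨c * c, by
    rw [pow_two, Matrix.SpecialLinearGroup.coe_mul]
    exact hsq⟩ (fun z hz => hnonsc z hz)
  rw [Subgroup.mem_comap] at hP
  obtain ⟨μ, hμ⟩ := hP
  set Q : Mt := ((P⁻¹ : Matrix.SpecialLinearGroup (Fin n) F) : Mt) with hQ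
  set R : Mt := (P : Mt) with hR
  have hQR : Q * R = 1 := by
    have : ((P⁻¹ * P : Matrix.SpecialLinearGroup (Fin n) F) : Mt) = 1 := by rw [inv_mul_cancel]; rfl
    rwa [Matrix.SpecialLinearGroup.coe_mul] at this
  have hRQ : R * Q = 1 := by
    have : ((P * P⁻¹ : Matrix.SpecialLinearGroup (Fin n) F) : Mt) = 1 := by rw [mul_inv_cancel]; rfl
    rwa [Matrix.SpecialLinearGroup.coe_mul] at this
  have hval : ((Matrix.SpecialLinearGroup.toGL (P⁻¹ * x * P) : GL (Fin n) F) : Mt) = Q * X * R := rfl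
  rw [hval] at hμ
  set a : Fin n → F := Q *ᵥ u with ha
  set l : Fin n → F := v ᵥ* R with hl
  have hYv : ∀ s, (Q * X * R) *ᵥ s = c • s + (l ⬝ᵥ s) • a := by
    intro s
    have e1 : Q * X * R = c • (1 : Mt) + vecMulVec a l := by
      rw [hX, Matrix.mul_add, Matrix.add_mul, Matrix.mul_smul, Matrix.smul_mul, Matrix.mul_one, hQR,
        Matrix.mul_vecMulVec, Matrix.vecMulVec_mul]
    rw [e1, Matrix.add_mulVec, Matrix.smul_mulVec, Matrix.one_mulVec]
    congr 1
    ext i
    simp only [Matrix.mulVec, dotProduct, Matrix.vecMulVec_apply, Pi.smul_apply, smul_eq_mul, Finset.sum_mul, Finset.mul_sum]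
    exact Finset.sum_congr rfl (fun j _ => by ring)
  have hla : l ⬝ᵥ a = -(2 * c) := by
    rw [ha, hl, ← Matrix.dotProduct_mulVec, Matrix.mulVec_mulVec, hRQ, Matrix.one_mulVec, hvu]
  have ha0 : a ≠ 0 := by
    intro h
    have h3 : -(2 * c) = 0 := by rw [← hla, h]; simp
    exact mul_ne_zero h2F hc (neg_eq_zero.mp h3)
  have hbil := hf.bilinear
  have hkey : ∀ s t, c * c * f s t + c * (l ⬝ᵥ t) * f s a + c * (l ⬝ᵥ s) * f a t = μ * f s t := by
    intro s t
    have := hμ s t
    rw [hYv, hYv] at this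
    simp only [hbil.add_left, hbil.add_right, hbil.smul_left, hbil.smul_right, hf.alternating a] at this
    rw [← this]
    ring
  -- a common zero of two functionals
  let φ₁ : (Fin n → F) →ₗ[F] F :=
    { toFun := fun s => l ⬝ᵥ s
      map_add' := fun s t => dotProduct_add l s t
      map_smul' := fun r s => by simp [dotProduct_smul] }
  let φ₂ : (Fin n → F) →ₗ[F] F := (mkB f hbil).flip a
  let Λ := φ₁.prod φ₂
  have hker : LinearMap.ker Λ ≠ ⊥ := by
    apply LinearMap.ker_ne_bot_of_finrank_lt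
    simp
    omega
  obtain ⟨s, hs, hs0⟩ := Submodule.exists_mem_ne_zero_of_ne_bot hker
  have hs1 : l ⬝ᵥ s = 0 := by
    have := congrArg Prod.fst (LinearMap.mem_ker.mp hs)
    exact this
  have hs2 : f s a = 0 := by
    have := congrArg Prod.snd (LinearMap.mem_ker.mp hs)
    exact this
  obtain ⟨t, ht⟩ := (hf.nondegenerate s hs0).2
  have hμc : (μ : F) = c * c := by
    have h3 := hkey s t
    rw [hs1, hs2] at h3
    have h4 : ((μ : F) - c * c) * f s t = 0 := by linear_combination -h3
    rcases mul_eq_zero.mp h4 with h5 | h5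
    · exact sub_eq_zero.mp h5
    · exact absurd h5 ht
  obtain ⟨y, hy⟩ := (hf.nondegenerate a ha0).1
  have h6 := hkey y a
  rw [hf.alternating a, hla, hμc] at h6
  apply hy
  have h7 : (2 * (c * c)) * f y a = 0 := by linear_combination -h6
  exact (mul_eq_zero.mp h7).resolve_left (mul_ne_zero h2F (mul_ne_zero hc hc))



/-- Involutions of PSL_n(q) and the symplectic-type subgroups. Here `T = PSL_n(F)` for a field `F` with `q` elements, `n ≥ 4` even, `f` is a nondegenerate alternating form on `F^n`, and `H` is the subgroup of matrices of determinant 1 preserving `f` up to a scalar — a maximal subgroup of type Sp_n(q); Ω is the set of `T`-conjugates of `H` (cosets of `H`), so an element of `T` of prime order `r` (a matrix `x` of determinant 1 with `x^r` scalar, `x` not scalar) fixes a point of Ω when some conjugate of `x` by a matrix of determinant 1 preserves `f` up to a scalar. Suppose the index of `H` is even. Then every involution of `T` is conjugate in `T` into `H` if and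 only if `(q − 1)_2 ≤ (n)_2`. -/
theorem result {F : Type*} [Field F] [Fintype F] {p : ℕ} [Fact p.Prime] [CharP F p] {q : ℕ} (hq : Fintype.card F = q)
    (n : ℕ) (hn : 4 ≤ n) (he : Even n) (f : (Fin n → F) → (Fin n → F) → F) (hf : Cfsg.Geo.IsSymplecticForm f)
    (hΩ : 2 ∣ ((Cfsg.Geo.similarityGroup f).comap (Matrix.SpecialLinearGroup.toGL : Matrix.SpecialLinearGroup (Fin n) F →* GL (Fin n) F)).index) :
    (∀ x : Matrix.SpecialLinearGroup (Fin n) F,
      (∃ z : F, ((x ^ 2 : Matrix.SpecialLinearGroup (Fin n) F) : Matrix (Fin n) (Fin n) F) = z • (1 : Matrix (Fin n) (Fin n) F)) →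
      (∀ z : F, (x : Matrix (Fin n) (Fin n) F) ≠ z • (1 : Matrix (Fin n) (Fin n) F)) →
      ∃ P : Matrix.SpecialLinearGroup (Fin n) F, P⁻¹ * x * P ∈ ((Cfsg.Geo.similarityGroup f).comap (Matrix.SpecialLinearGroup.toGL : Matrix.SpecialLinearGroup (Fin n) F →* GL (Fin n) F))) ↔
    padicValNat 2 (q - 1) ≤ padicValNat 2 n := by
  have hn0 : n ≠ 0 := by omega
  have h2n : 2 ∣ n := even_iff_two_dvd.mp he
  refine ⟨fun hall => ?_, fun hv => ?_⟩
  · by_contra hv
    have hv' : padicValNat 2 n < padicValNat 2 (q - 1) := not_le.mp hv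
    have hodd : Odd q := by
      by_contra hodd
      have hq1 : ¬ 2 ∣ q - 1 := by
        have h2q : 2 ≤ q := by
          have := Fintype.one_lt_card (α := F)
          omega
        have := Nat.not_odd_iff_even.mp hodd
        obtain ⟨t, ht⟩ := this
        omega
      rw [padicValNat.eq_zero_of_not_dvd hq1] at hv'
      omega
    obtain ⟨c, hc⟩ := (Cfsg.Agent.Lib.SqScalar.pow_eq_neg_one_iff hq hodd n hn0).mpr hv'
    have hc0 : c ≠ 0 := by
      rintro rfl
      rw [zero_pow hn0] at hc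
      exact one_ne_zero (neg_eq_zero.mp hc.symm)
    exact forward f hf (Cfsg.Agent.Lib.InvolConj.two_ne_zero_of_odd hq hodd) (by omega) hall c hc0 hc
  · rintro x ⟨z, hz⟩ hx
    apply Cfsg.Agent.Lib.InvolConj.reduce_GL _ x z hz hx
    have hzz : (x : Matrix (Fin n) (Fin n) F) * x = z • (1 : Matrix (Fin n) (Fin n) F) := by
      rw [pow_two, Matrix.SpecialLinearGroup.coe_mul] at hz
      exact hz
    have hw0' : ∀ w : F, z = w * w → w ≠ 0 := by
      rintro w rfl rfl
      have h1 := congrArg Matrix.det hzz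
      have hxd : (x : Matrix (Fin n) (Fin n) F).det = 1 := x.2
      haveI : Nonempty (Fin n) := ⟨⟨0, by omega⟩⟩
      rw [Matrix.det_mul, hxd] at h1
      simp at h1
    by_cases hodd : Odd q
    · by_cases hsq : IsSquare z
      · obtain ⟨w, rfl⟩ := hsq
        exact case_sq f hf hq hodd hv hn0 h2n x w (hw0' w rfl) hzz
      · exact case_nonsq f hf (Matrix.SpecialLinearGroup.toGL x) z hzz hsq
    · have h2F := Cfsg.Agent.Lib.InvolConj.two_eq_zero_of_even hq hodd
      haveI : CharP F 2 := CharTwo.of_one_ne_zero_of_two_eq_zero one_ne_zero h2F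
      have hc : ringChar F = 2 := ringChar.eq F 2
      obtain ⟨w, rfl⟩ : IsSquare z := FiniteField.isSquare_of_char_two hc z
      exact case_even h2F f hf he (Matrix.SpecialLinearGroup.toGL x) w (hw0' w rfl) hzz

end Cfsg.Agent.S5967
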