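import Cfsg.Statements.S5972
import Cfsg.Agent.Lib.OTS.OddTwo
import Cfsg.Agent.Lib.OTS.OddForward
import Cfsg.Agent.Lib.OTS.BackOdd
import Cfsg.Agent.Lib.OTS.CountOdd

set_option autoImplicit false
open scoped MatrixGroups
open Cfsg

namespace Cfsg.Agent.S5972

/-- Elements of prime order of Ω_n(q), n = 2d+1 ≥ 7, q odd, with no fixed totally singular `m`-space. Here `T = Ω_n(q)` is realised as the commutator subgroup of the isometry group of the quadratic form `x₀² + Σ xᵢyᵢ` over the field `F` with `q` elements (it has trivial centre, so its elements of prime order `r` are used directly); let `1 ≤ m ≤ d` and let `r` be a prime dividing the number of totally singular `m`-spaces. For `r ≠ p` let `i` be the multiplicative order of `q` modulo `r`, `c = i` for `i` even and `c = 2i` for `i` odd, and write `k = n mod c`, `ℓ = m mod i`, `n' = ⌊n/i⌋`, `m' = ⌊m/i⌋`, `t = (r−1)/i`. Then every element of `T` of order `r` fixes some totally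 singular `m`-space if and only if either (i) `r = 2` and (`m < (n−1)/2` or `q ≡ 1 (mod 4)`); or (ii) `r ≠ p` is odd, `i ≤ m`, `k > 2ℓ`, and (`i` is odd or `n' − 2m' ≥ t`). -/
theorem result {F : Type*} [Field F] [Fintype F] {p : ℕ} [Fact p.Prime] [CharP F p] {q : ℕ} (hq : Fintype.card F = q) (hqodd : Odd q)
    (d m : ℕ) (hd : 3 ≤ d) (hm : 1 ≤ m) (hmd : m ≤ d)
    (r : ℕ) [Fact r.Prime]
    (hrΩ : r ∣ Nat.card {W : Submodule F (Unit ⊕ (Fin d ⊕ Fin d) → F) // Module.finrank F ↥W = m ∧ (∀ w ∈ W, Cfsg.quadFormOdd d F w = 0)})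
    (i c : ℕ) (hi : i = orderOf (q : ZMod r)) (hc : c = if Even i then i else 2 * i) :
    (∀ x : GL (Unit ⊕ (Fin d ⊕ Fin d)) F, x ∈ Cfsg.Geo.omegaGL (Cfsg.quadFormOdd d F) → orderOf x = r →
      ∃ W : Submodule F (Unit ⊕ (Fin d ⊕ Fin d) → F), Module.finrank F ↥W = m ∧ (∀ w ∈ W, Cfsg.quadFormOdd d F w = 0) ∧
        W.map (Matrix.toLin' (x : Matrix (Unit ⊕ (Fin d ⊕ Fin d)) (Unit ⊕ (Fin d ⊕ Fin d)) F)) ≤ W) ↔
    ((r = 2 ∧ (m < d ∨ q % 4 = 1)) ∨
     (r ≠ p ∧ 2 < r ∧ i ≤ m ∧ 2 * (m % i) < (2 * d + 1) % c ∧ (Odd i ∨ (r - 1) / i + 2 * (m / i) ≤ (2 * d + 1) / i))) := by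
  classical
  have hrf : Fact r.Prime := inferInstance
  have hr : r.Prime := hrf.out
  have hodd : Odd (Fintype.card F) := by
    rw [hq]
    exact hqodd
  obtain ⟨hrp, j, hjm, hjd⟩ := Cfsg.Agent.Lib.OTS.prime_dvd_card_ts_odd (p := p) hodd hmd hr hrΩ
  rw [hq] at hjd
  have hrF : (r : F) ≠ 0 := Cfsg.Agent.Lib.PrimOrder.natCast_ne_zero_of_ne hr Fact.out hrp
  have hd1 : 1 ≤ d := by omega
  have hconv : ∀ x : GL (Unit ⊕ (Fin d ⊕ Fin d)) F,
      (∃ W : Submodule F (Unit ⊕ (Fin d ⊕ Fin d) → F), Module.finrank F ↥W = m ∧ (∀ w ∈ W, Cfsg.quadFormOdd d F w = 0) ∧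
        W.map (Matrix.toLin' (x : Matrix (Unit ⊕ (Fin d ⊕ Fin d)) (Unit ⊕ (Fin d ⊕ Fin d)) F)) ≤ W) ↔
      ∃ W : Submodule F (Unit ⊕ (Fin d ⊕ Fin d) → F), Cfsg.Agent.Lib.IsomBlock.InvOn (Matrix.toLin' (x : Matrix (Unit ⊕ (Fin d ⊕ Fin d)) (Unit ⊕ (Fin d ⊕ Fin d)) F)) W ∧
        Cfsg.Agent.Lib.OTS.TS (Cfsg.Agent.Lib.OrthoCount.qOdd d F) W ∧ Module.finrank F W = m := by
    intro x
    constructor
    · rintro ⟨W, h1, h2, h3⟩
      refine ⟨W, fun v hv => h3 (Submodule.mem_map_of_mem hv), fun w hw => ?_, h1⟩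
      rw [Cfsg.Agent.Lib.OrthoCount.qOdd_apply]
      exact h2 w hw
    · rintro ⟨W, h1, h2, h3⟩
      refine ⟨W, h3, fun w hw => ?_, ?_⟩
      · rw [← Cfsg.Agent.Lib.OrthoCount.qOdd_apply]
        exact h2 w hw
      · rintro _ ⟨v, hv, rfl⟩
        exact h1 v hv
  by_cases hr2 : r = 2
  · subst hr2
    constructor
    · intro H
      left
      refine ⟨rfl, ?_⟩
      by_cases hq4 : q % 4 = 1
      · exact Or.inr hq4
      · exact Or.inl (Cfsg.Agent.Lib.OTS.forward_two_q hq hd1 hqodd hq4 (fun x hx ho => (hconv x).mp (H x hx ho)))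
    · rintro (⟨-, hc2⟩ | ⟨-, h, -⟩)
      · intro x hx ho
        refine (hconv x).mpr (Cfsg.Agent.Lib.OTS.backward_two_q hq hqodd ?_ x hx ho)
        rcases hc2 with h | h
        · exact Or.inl h
        · exact Or.inr ⟨h, hmd⟩
      · omega
  · constructor
    · intro H
      right
      have h2r : 2 < r := by
        have := hr.two_le
        omega
      have h3 := Cfsg.Agent.Lib.OTS.forward_odd_q p hq hqodd hr2 hrF hd1 hm hmd hi hc ⟨j, hjm, hjd⟩
        (fun x hx ho => (hconv x).mp (H x hx ho))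
      exact ⟨hrp, h2r, h3⟩
    · rintro (⟨h, -⟩ | ⟨-, -, him, hk, hev⟩)
      · exact absurd h hr2
      · intro x hx ho
        refine (hconv x).mpr ?_
        have hnd' := Cfsg.Agent.S2673.nd_odd hodd d
        have hnd : Cfsg.Agent.Lib.IsomBlock.NDOn (QuadraticMap.polarBilin (Cfsg.Agent.Lib.OrthoCount.qOdd d F)) ⊤ := fun v _ hv => hnd' v fun w => hv w trivial
        have hfun : Cfsg.quadFormOdd d F = ⇑(Cfsg.Agent.Lib.OrthoCount.qOdd d F) := funext fun v => (Cfsg.Agent.Lib.OrthoCount.qOdd_apply d v).symm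
        have hcard : Module.finrank F (Unit ⊕ (Fin d ⊕ Fin d) → F) = 2 * d + 1 := by
          simp
          ring
        have hQT : ∀ y, Cfsg.Agent.Lib.OrthoCount.qOdd d F (Matrix.toLin' (x : Matrix (Unit ⊕ (Fin d ⊕ Fin d)) (Unit ⊕ (Fin d ⊕ Fin d)) F) y) = Cfsg.Agent.Lib.OrthoCount.qOdd d F y := by
          intro y
          rw [Matrix.toLin'_apply]
          have := Cfsg.Agent.H97.Asch.omegaGL_isometry hx y
          simpa [hfun] using this
        have hTr : (Matrix.toLin' (x : Matrix (Unit ⊕ (Fin d ⊕ Fin d)) (Unit ⊕ (Fin d ⊕ Fin d)) F)) ^ r = 1 := by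
          rw [Cfsg.Agent.Lib.SpRealize.toLin_pow]
          have h1 : x ^ r = 1 := by
            rw [← ho]
            exact pow_orderOf_eq_one x
          have h4 : (x : Matrix (Unit ⊕ (Fin d ⊕ Fin d)) (Unit ⊕ (Fin d ⊕ Fin d)) F) ^ r = 1 := by
            have h3 := congrArg (fun y : GL (Unit ⊕ (Fin d ⊕ Fin d)) F => (y : Matrix (Unit ⊕ (Fin d ⊕ Fin d)) (Unit ⊕ (Fin d ⊕ Fin d)) F)) h1
            simpa using h3
          rw [h4, Matrix.toLin'_one]
          rfl
        by_cases hie : Even i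
        · rw [if_pos hie] at hc
          subst hc
          have ht := hev.resolve_left (by
            intro ho'
            exact (Nat.not_even_iff_odd.mpr ho') hie)
          exact Cfsg.Agent.Lib.OTS.exists_ts_of_iso_even (Q := Cfsg.Agent.Lib.OrthoCount.qOdd d F) hq hr2 hrF hnd hQT hTr hi hie (by rw [hcard]; exact hk) (by rw [hcard]; exact ht)
        · rw [if_neg hie] at hc
          subst hc
          exact Cfsg.Agent.Lib.OTS.exists_ts_of_iso_odd (Q := Cfsg.Agent.Lib.OrthoCount.qOdd d F) hq hr2 hrF hnd hQT hTr hi hie (by rw [hcard]; omega) (by rw [hcard]; exact hk)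

end Cfsg.Agent.S5972
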