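import Cfsg.Statements.S5973
import Cfsg.Agent.Lib.OTS.EvenMain

set_option autoImplicit false
open scoped MatrixGroups
open Cfsg

namespace Cfsg.Agent.S5973

/-- Elements of prime order of PΩ⁺_n(q), n = 2d ≥ 8, with no fixed totally singular `m`-space, `m < n/2`. Here `T = PΩ⁺_n(q)` is realised through `Ω⁺_n(q)`, the commutator subgroup of the isometry group of the quadratic form `Σ xᵢyᵢ` over the field `F` with `q` elements; an element of `T` of prime order `r` is an element `x` of `Ω⁺_n(q)` with `x^r` scalar and `x` not scalar. Let `1 ≤ m < d` and let `r` be a prime dividing the number of totally singular `m`-spaces. For `r ≠ p` let `i` be the multiplicative order of `q` modulo `r`, `c = i` for `i` even and `c = 2i` for `i` odd, and write `k = n mod c`, `ℓ = m mod i`, `n' = ⌊n/i⌋`, `m' = ⌊m/i⌋`, `t = (r−1)/i`. Then every element of `T` of order `r` fixes some totally singular `m`-space if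 and only if one of: (i) `r = 2 ≠ p` and either `q ≡ 1 (mod 4)`, or `q ≡ 3 (mod 4)`, `m ≤ n/2 − 2` and (`m` even or `n ≡ 2 (mod 4)`); (ii) `r ≠ p` odd, `i` odd, `i ≤ m` and `k ≥ 2ℓ`; (iii) `r ≠ p` odd, `i` even, `i ≤ m`, `n' − 2m' ≥ t`, and one of: `i ≥ 2ℓ`, `k = 0`, `n/i` odd and `n' − 2m' > t`; or `k ≥ 2ℓ` and `n'` even; or `k > 2ℓ` and `n'` odd. -/
theorem result {F : Type*} [Field F] [Fintype F] {p : ℕ} [Fact p.Prime] [CharP F p] {q : ℕ} (hq : Fintype.card F = q)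
    (d m : ℕ) (hd : 4 ≤ d) (hm : 1 ≤ m) (hmd : m < d)
    (r : ℕ) [Fact r.Prime]
    (hrΩ : r ∣ Nat.card {W : Submodule F (Fin d ⊕ Fin d → F) // Module.finrank F ↥W = m ∧ (∀ w ∈ W, Cfsg.quadFormPlus d F w = 0)})
    (i c : ℕ) (hi : i = orderOf (q : ZMod r)) (hc : c = if Even i then i else 2 * i) :
    (∀ x : GL (Fin d ⊕ Fin d) F, x ∈ Cfsg.Geo.omegaGL (Cfsg.quadFormPlus d F) →
      (∃ z : F, ((x ^ r : GL (Fin d ⊕ Fin d) F) : Matrix (Fin d ⊕ Fin d) (Fin d ⊕ Fin d) F) = z • (1 : Matrix (Fin d ⊕ Fin d) (Fin d ⊕ Fin d) F)) →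
      (∀ z : F, (x : Matrix (Fin d ⊕ Fin d) (Fin d ⊕ Fin d) F) ≠ z • (1 : Matrix (Fin d ⊕ Fin d) (Fin d ⊕ Fin d) F)) →
      ∃ W : Submodule F (Fin d ⊕ Fin d → F), Module.finrank F ↥W = m ∧ (∀ w ∈ W, Cfsg.quadFormPlus d F w = 0) ∧
        W.map (Matrix.toLin' (x : Matrix (Fin d ⊕ Fin d) (Fin d ⊕ Fin d) F)) ≤ W) ↔
    ((r = 2 ∧ p ≠ 2 ∧ (q % 4 = 1 ∨ (q % 4 = 3 ∧ m + 2 ≤ d ∧ (Even m ∨ (2 * d) % 4 = 2)))) ∨
     (r ≠ p ∧ 2 < r ∧ Odd i ∧ i ≤ m ∧ 2 * (m % i) ≤ (2 * d) % c) ∨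
     (r ≠ p ∧ 2 < r ∧ Even i ∧ i ≤ m ∧ (r - 1) / i + 2 * (m / i) ≤ (2 * d) / i ∧
       ((2 * (m % i) ≤ i ∧ (2 * d) % c = 0 ∧ Odd ((2 * d) / i) ∧ (r - 1) / i + 2 * (m / i) < (2 * d) / i) ∨
        (2 * (m % i) ≤ (2 * d) % c ∧ Even ((2 * d) / i)) ∨
        (2 * (m % i) < (2 * d) % c ∧ Odd ((2 * d) / i))))) := by
  classical
  subst hq
  have hr : r.Prime := Fact.out
  have hnd' := Cfsg.Agent.S2674.nd_plus (F := F) d
  have hnd : Cfsg.Agent.Lib.IsomBlock.NDOn (QuadraticMap.polarBilin (Cfsg.Agent.Lib.OrthoCount.qPlus d F)) ⊤ := fun v _ hv => hnd' v fun w => hv w trivial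
  have hQnd : (Cfsg.Agent.Lib.OrthGroup.B (Cfsg.Agent.Lib.OrthoCount.qPlus d F)).Nondegenerate := Cfsg.Agent.Lib.QuadFF.nondegenerate_of_ND hnd'
  have hfun : Cfsg.quadFormPlus d F = ⇑(Cfsg.Agent.Lib.OrthoCount.qPlus d F) := funext fun v => (Cfsg.Agent.Lib.OrthoCount.qPlus_apply d v).symm
  have hdim : Module.finrank F (Fin d ⊕ Fin d → F) = 2 * d := by
    simp [two_mul]
  have hcι : Fintype.card (Fin d ⊕ Fin d) = 2 * d := by
    simp [two_mul]
  have hF : (∃ a : F, a ≠ 0 ∧ a ≠ 1) ∨ Module.finrank F (Fin d ⊕ Fin d → F) ≠ 4 := Or.inr (by rw [hdim]; omega)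
  have hplus : Cfsg.Agent.Lib.OTS.PlusOn (Cfsg.Agent.Lib.OrthoCount.qPlus d F) ⊤ := by
    obtain ⟨K, h1, h3⟩ := Cfsg.Agent.Lib.QuadClass2.exists_ts_of_hyp (Cfsg.Agent.Lib.QuadClass.hypBasis_qPlus (F := F) d)
    refine ⟨K, le_top, h1, ?_⟩
    rw [finrank_top, hdim, h3]
  have hσ : Cfsg.Agent.Lib.OTS.PlusOn (Cfsg.Agent.Lib.OrthoCount.qPlus d F) ⊤ ↔ Even 0 := ⟨fun _ => Even.zero, fun _ => hplus⟩
  have hrΩ' : r ∣ Nat.card {W : Submodule F (Fin d ⊕ Fin d → F) // Module.finrank F W = m ∧ Cfsg.Agent.Lib.OTS.TS (Cfsg.Agent.Lib.OrthoCount.qPlus d F) W} := by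
    rw [hfun] at hrΩ
    exact hrΩ
  obtain ⟨d', rfl⟩ : ∃ d', d = d' + 1 := ⟨d - 1, by omega⟩
  obtain ⟨hrp, j, hjm, hjd⟩ := Cfsg.Agent.Lib.OTS.prime_dvd_card_ts_even (p := p) (ε := 1) (by norm_num) (d' := d') hnd hdim
    (by rw [Cfsg.Agent.Lib.OrthoCount.zeros_plus_succ]; ring) (by omega) hrΩ'
  have hrF : (r : F) ≠ 0 := Cfsg.Agent.Lib.PrimOrder.natCast_ne_zero_of_ne hr Fact.out hrp
  have hconv : ∀ x : GL (Fin (d' + 1) ⊕ Fin (d' + 1)) F,
      (∃ W : Submodule F (Fin (d' + 1) ⊕ Fin (d' + 1) → F), Module.finrank F ↥W = m ∧ (∀ w ∈ W, Cfsg.quadFormPlus (d' + 1) F w = 0) ∧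
        W.map (Matrix.toLin' (x : Matrix (Fin (d' + 1) ⊕ Fin (d' + 1)) (Fin (d' + 1) ⊕ Fin (d' + 1)) F)) ≤ W) ↔
      ∃ W : Submodule F (Fin (d' + 1) ⊕ Fin (d' + 1) → F), Cfsg.Agent.Lib.IsomBlock.InvOn (Matrix.toLin' (x : Matrix (Fin (d' + 1) ⊕ Fin (d' + 1)) (Fin (d' + 1) ⊕ Fin (d' + 1)) F)) W ∧
        Cfsg.Agent.Lib.OTS.TS (Cfsg.Agent.Lib.OrthoCount.qPlus (d' + 1) F) W ∧ Module.finrank F W = m := by
    intro x
    constructor
    · rintro ⟨W, h1, h2, h3⟩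
      refine ⟨W, fun v hv => h3 (Submodule.mem_map_of_mem hv), fun w hw => ?_, h1⟩
      rw [Cfsg.Agent.Lib.OrthoCount.qPlus_apply]
      exact h2 w hw
    · rintro ⟨W, h1, h2, h3⟩
      refine ⟨W, h3, fun w hw => ?_, ?_⟩
      · rw [← Cfsg.Agent.Lib.OrthoCount.qPlus_apply]
        exact h2 w hw
      · rintro _ ⟨v, hv, rfl⟩
        exact h1 v hv
  by_cases hr2 : r = 2
  · subst hr2
    have hp2 : p ≠ 2 := fun h => hrp h.symm
    have h2 : (2 : F) ≠ 0 := by exact_mod_cast hrF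
    have hodd : Odd (Fintype.card F) := Cfsg.Agent.Lib.OTS.odd_card_of_two_ne h2
    constructor
    · intro H
      have H' : ∀ x : GL (Fin (d' + 1) ⊕ Fin (d' + 1)) F, x ∈ Cfsg.Geo.omegaGL (⇑(Cfsg.Agent.Lib.OrthoCount.qPlus (d' + 1) F)) →
          (∃ z : F, ((x ^ 2 : GL (Fin (d' + 1) ⊕ Fin (d' + 1)) F) : Matrix (Fin (d' + 1) ⊕ Fin (d' + 1)) (Fin (d' + 1) ⊕ Fin (d' + 1)) F) = z • (1 : Matrix (Fin (d' + 1) ⊕ Fin (d' + 1)) (Fin (d' + 1) ⊕ Fin (d' + 1)) F)) →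
          (∀ z : F, (x : Matrix (Fin (d' + 1) ⊕ Fin (d' + 1)) (Fin (d' + 1) ⊕ Fin (d' + 1)) F) ≠ z • (1 : Matrix (Fin (d' + 1) ⊕ Fin (d' + 1)) (Fin (d' + 1) ⊕ Fin (d' + 1)) F)) →
          ∃ W : Submodule F (Fin (d' + 1) ⊕ Fin (d' + 1) → F), Cfsg.Agent.Lib.IsomBlock.InvOn (Matrix.toLin' (x : Matrix (Fin (d' + 1) ⊕ Fin (d' + 1)) (Fin (d' + 1) ⊕ Fin (d' + 1)) F)) W ∧
            Cfsg.Agent.Lib.OTS.TS (Cfsg.Agent.Lib.OrthoCount.qPlus (d' + 1) F) W ∧ Module.finrank F W = m := by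
        intro x hx h1 h3
        rw [← hfun] at hx
        exact (hconv x).mp (H x hx h1 h3)
      left
      refine ⟨rfl, hp2, ?_⟩
      by_cases hq4 : Fintype.card F % 4 = 1
      · exact Or.inl hq4
      · have hq3 : Fintype.card F % 4 = 3 := by
          obtain ⟨k, hk⟩ := hodd
          omega
        have hsq := Cfsg.Agent.Lib.OTS.no_sq_of_mod4 hq3
        refine Or.inr ⟨hq3, ?_, ?_⟩
        · obtain ⟨u, v, hu, hv, huv⟩ := Cfsg.Agent.Lib.OTS.exists_orth_units (F := F) (d := d' + 1) (by omega)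
          exact Cfsg.Agent.Lib.OTS.two_refl_forward h2 hQnd hF hnd hsq hdim (by omega) hplus hu hv huv H'
        · by_cases hde : Even (d' + 1)
          · left
            obtain ⟨T, hQT, hT2⟩ := Cfsg.Agent.Lib.OTS.exists_J_plus h2 hq3 hde
            refine Cfsg.Agent.Lib.OTS.J_forward h2 hQnd hF hnd hsq hdim (by omega) ?_ hQT hT2 H'
            obtain ⟨k, hk⟩ := hde
            rw [hk, pow_add]
            exact ⟨_, rfl⟩
          · right
            rw [Nat.not_even_iff_odd] at hde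
            obtain ⟨k, hk⟩ := hde
            omega
    · rintro (⟨-, -, hcase⟩ | ⟨-, h, -⟩ | ⟨-, h, -⟩)
      · intro x hx h1 _
        rw [hfun] at hx
        exact (hconv x).mpr (Cfsg.Agent.Lib.OTS.back_two_plus h2 hQnd hF hnd hdim hmd hplus hcase x hx h1)
      · omega
      · omega
  · have h2r : 2 < r := by
      have := hr.two_le
      omega
    have hr0 : r ≠ 0 := hr.ne_zero
    constructor
    · intro H
      have h1 := Cfsg.Agent.Lib.OTS.forward_generic (Cfsg.Agent.Lib.OrthoCount.qPlus (d' + 1) F) hQnd hF hnd (σ := 0) (ε := 1) (i := i) (by simp) hcι hdim (by omega) hσ hr2 hrF hr0 hm hmd hi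
        ⟨j, hjm, by
          have e1 : d' + 1 - j - 1 = d' - j := by omega
          rw [e1]
          simpa using hjd⟩
        (fun a ha hinv hle hP => by
          rw [← hfun]
          exact Cfsg.Agent.S2674.plus_hex hr2 hrF hr0 (Cfsg.Agent.Lib.OTS.q_ne_zero_zmod hrF) a ha hinv hle hP)
        (fun x hx h1 h3 => by
          rw [← hfun] at hx
          exact (hconv x).mp (H x hx h1 h3))
      right
      rcases h1 with ⟨hie, him, h3⟩ | ⟨hie, him, ht, h3⟩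
      · left
        rw [if_neg hie] at hc
        subst hc
        refine ⟨hrp, h2r, Nat.not_even_iff_odd.mp hie, him, ?_⟩
        rcases h3 with ⟨-, h4⟩ | ⟨h5, -⟩
        · exact h4
        · exact absurd h5 (by decide)
      · right
        rw [if_pos hie] at hc
        subst hc
        refine ⟨hrp, h2r, hie, him, ht, ?_⟩
        simpa using h3
    · rintro (⟨h, -⟩ | ⟨-, -, hio, him, hk⟩ | ⟨-, -, hie, him, ht, hcase⟩)
      · exact absurd h hr2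
      · intro x hx h1 _
        rw [hfun] at hx
        have hie : ¬ Even i := Nat.not_even_iff_odd.mpr hio
        rw [if_neg hie] at hc
        subst hc
        exact (hconv x).mpr (Cfsg.Agent.Lib.OTS.backward_odd _ hnd hdim (by omega) hr2 hrF hi hie (Or.inl ⟨hplus, hk, by omega⟩) x hx h1)
      · intro x hx h1 _
        rw [hfun] at hx
        rw [if_pos hie] at hc
        subst hc
        exact (hconv x).mpr (Cfsg.Agent.Lib.OTS.backward_even _ hnd hdim (by omega) hσ hr2 hrF hi hie ht (by simpa using hcase) x hx h1)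


end Cfsg.Agent.S5973
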