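import Cfsg.Statements.S5974
import Cfsg.Agent.Lib.EvQ99

set_option autoImplicit false
open scoped MatrixGroups
open Cfsg

namespace Cfsg.Agent.S5974


open Module QuadraticMap Matrix
open Cfsg.Agent.Lib.QuadFF Cfsg.Agent.Lib.IsomBlock Cfsg.Agent.Lib.HypEll Cfsg.Agent.Lib.EvT99 Cfsg.Agent.Lib.EvBlock99
open Cfsg.Agent.Lib.OrthoCount Cfsg.Agent.Lib.OrthMatrix Cfsg.Agent.Lib.EvElt99 Cfsg.Agent.Lib.EvTwo99 Cfsg.Agent.Lib.EvTwoP99
open Cfsg.Agent.Lib.EvMain99 Cfsg.Agent.Lib.EvCount99 Cfsg.Agent.Lib.EvUni99 Cfsg.Agent.Lib.HypLevi Cfsg.Agent.Lib.EvP99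
open Cfsg.Agent.Lib.EvInv99 Cfsg.Agent.Lib.EvQ99

section aux

variable {F : Type*} [Field F] [Fintype F] {d m r : ℕ}

theorem count_hyp (p : ℕ) [Fact p.Prime] [CharP F p] [hrf : Fact r.Prime] (hrF : (r : F) ≠ 0) (hme : Even m) (hm : 2 ≤ m) (hmd : m < d)
    (hrΩ : r ∣ Nat.card (TSet (qPlus d F) m false)) :
    r ∣ Fintype.card F ^ d - 1 ∨ r ∣ Fintype.card F ^ (d - m / 2) + 1 ∨
      ∃ j, d - m / 2 < j ∧ j ≤ d - 1 ∧ r ∣ Fintype.card F ^ (2 * j) - 1 := by
  obtain ⟨D, rfl⟩ : ∃ D, d = D + 1 := ⟨d - 1, by omega⟩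
  obtain ⟨A, rfl⟩ : ∃ A, m = 2 * (A + 1) := by
    obtain ⟨a, ha⟩ := hme
    exact ⟨a - 1, by omega⟩
  obtain ⟨b, hb⟩ : ∃ b, A + b + 1 = D := ⟨D - A - 1, by omega⟩
  have hV := isT_plus_top (F := F) (D + 1)
  have hND : ND (qPlus (D + 1) F) := fun u h => by
    by_contra hne
    obtain ⟨y, hy⟩ := Cfsg.Agent.Lib.OrthoOrder.nondeg_qPlus (D + 1) u hne
    exact hy (h y)
  obtain ⟨W, _, hE, hWd⟩ := exists_hyp_sub' (qPlus (D + 1) F) (A + 1) ⊤ hV.nd (by rw [finrank_top, finrank_plus]; omega)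
  let W₀ : TSet (qPlus (D + 1) F) (2 * (A + 1)) false := ⟨W, hWd, hE⟩
  have hrq : ¬ r ∣ Fintype.card F := by
    rw [← ZMod.natCast_eq_zero_iff]
    exact card_ne_zero (p := p) hrF
  rcases count_dvd hND hV (finrank_plus _) hb W₀ hrf.out hrq hrΩ with h | h | ⟨j, h1, h3, h⟩
  · exact Or.inl h
  · right
    left
    have e : D + 1 - 2 * (A + 1) / 2 = b + 1 := by omega
    rw [e]
    exact h
  · right
    right
    exact ⟨j, by omega, by omega, h⟩

/-- Characteristic two, forward. -/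
theorem two_two_forward [CharP F 2] (hd : 4 ≤ d) (H : ElusiveP F d m 2 false) : (2 * d) % 4 = 2 ∨ m % 4 = 0 := by
  by_contra hno
  push Not at hno
  obtain ⟨h1, h3⟩ := hno
  obtain ⟨x, hx, hx2, hnon, hfix⟩ := Cfsg.Agent.S5985.exists_bad_invol (F := F) hd (d := d) (by
    rw [Nat.even_iff]
    omega)
  rw [← Cfsg.Agent.S5985.hf_plus] at hx hfix
  obtain ⟨W, ⟨h5, h6⟩, h7⟩ := H x hx ⟨1, by rw [hx2]; simp⟩ hnon
  have hT := hT_of_omega hx
  have hT2 : ∀ v, Matrix.toLin' (x : Matrix (Fin d ⊕ Fin d) (Fin d ⊕ Fin d) F) (Matrix.toLin' (x : Matrix (Fin d ⊕ Fin d) (Fin d ⊕ Fin d) F) v) = v := by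
    intro v
    have h8 := hTr_of_pow hx2
    have h9 := congrArg (fun f => f v) h8
    simpa [pow_two] using h9
  have := four_dvd_of_bad hT hT2 (fun v hv => hfix v (by rwa [Matrix.toLin'_apply] at hv)) h6.nd h7
  rw [h5] at this
  omega

/-- Characteristic two, backward. -/
theorem two_two_backward [CharP F 2] (hd : 4 ≤ d) (hme : Even m) (hmd : m < d) (hc : (2 * d) % 4 = 2 ∨ m % 4 = 0) : ElusiveP F d m 2 false := by
  intro x hx ⟨z, hz⟩ hne
  have h2 : (2 : F) = 0 := CharTwo.two_eq_zero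
  obtain ⟨v₀, hv₀⟩ := exists_v' (F := F) hd
  have hxi := mem_iso_of_omega hx
  have hzz := scalar_sq (Subgroup.pow_mem _ hxi 2) hz hv₀
  have hz1 : z = 1 := Cfsg.Agent.S5985.eq_one_of_mul_self z hzz
  subst hz1
  set T := Matrix.toLin' (x : Matrix (Fin d ⊕ Fin d) (Fin d ⊕ Fin d) F) with hTdef
  have hT : ∀ v, qPlus d F (T v) = qPlus d F v := hT_of_omega hx
  have hT2 : T ^ 2 = 1 := by
    rw [hTdef, Cfsg.Agent.Lib.EvElt99.toLin_pow, ← Units.val_pow_eq_pow_val, hz, one_smul, Matrix.toLin'_one]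
    rfl
  have hT2' : ∀ v, T (T v) = v := by
    intro v
    have h9 := congrArg (fun f => f v) hT2
    simpa [pow_two] using h9
  have hfr := finrank_plus (F := F) d
  obtain ⟨W, h1, h3, h4⟩ := invol_hyp h2 hT hT2' (isT_plus_top d) hme (by rw [hfr]; omega) (by rw [hfr]; exact hc)
  exact ⟨W, ⟨h3, h1⟩, h4⟩

/-- Odd characteristic, forward. -/
theorem two_odd_forward {q : ℕ} (hq : Fintype.card F = q) (h2 : (2 : F) ≠ 0) (hd : 4 ≤ d) (hme : Even m) (hqodd : q % 2 = 1)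
    (H : ElusiveP F d m 2 false) : (2 * d) % 4 = 2 ∨ m % 4 = 0 ∨ q % 4 = 1 := by
  by_contra hno
  push Not at hno
  obtain ⟨h1, h3, h4⟩ := hno
  have hde : Even d := by
    rw [Nat.even_iff]
    omega
  have hq4 : q % 4 = 3 := by omega
  have hsq : ∀ c : F, c * c ≠ -1 := fun c hc => ((neg_one_sq_iff hq).1 ⟨c, hc⟩) hq4
  obtain ⟨A, hA, hdet⟩ := exists_J_matrix (F := F) hde
  let B : GL (Fin d) F := ⟨A, -A, by rw [mul_neg, hA, neg_neg], by rw [neg_mul, hA, neg_neg]⟩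
  obtain ⟨x, hx, hx2, hnon, hJ⟩ := exists_lev hd h2 B hA (by
    show IsSquare A.det
    rw [hdet]
    exact ⟨1, by simp⟩)
  obtain ⟨W, ⟨h5, h6⟩, h7⟩ := H x hx ⟨-1, hx2⟩ hnon
  obtain ⟨a, ha, hta⟩ := type_J h2 hsq (hT_of_omega hx) hJ m W h5 h6.nd h7
  have h8 : a.bodd = true := by
    rw [bodd_true_iff]
    obtain ⟨b, hb⟩ := hme
    exact ⟨a / 2, by omega⟩
  rw [h8] at hta
  exact absurd (h6.uniq hta) (by decide)

/-- Odd characteristic, backward. -/
theorem two_odd_backward {q : ℕ} (hq : Fintype.card F = q) (h2 : (2 : F) ≠ 0) (hd : 4 ≤ d) (hme : Even m) (hm0 : 0 < m) (hmd : m < d)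
    (hrhs : (2 * d) % 4 = 2 ∨ m % 4 = 0 ∨ q % 4 = 1) : ElusiveP F d m 2 false := by
  intro x hx ⟨z, hz⟩ hne
  obtain ⟨v₀, hv₀⟩ := exists_v (F := F) h2 hd
  have hxi := mem_iso_of_omega hx
  have hzz := scalar_sq (Subgroup.pow_mem _ hxi 2) hz hv₀
  set T := Matrix.toLin' (x : Matrix (Fin d ⊕ Fin d) (Fin d ⊕ Fin d) F) with hTdef
  have hT : ∀ v, qPlus d F (T v) = qPlus d F v := hT_of_omega hx
  have hV := isT_plus_top (F := F) d
  have hT2 : T ^ 2 = z • 1 := by
    rw [hTdef, Cfsg.Agent.Lib.EvElt99.toLin_pow, ← Units.val_pow_eq_pow_val, hz, map_smul, Matrix.toLin'_one]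
    rfl
  have hfr := finrank_plus (F := F) d
  rcases mul_self_eq_one_iff.1 hzz with rfl | rfl
  · rw [one_smul] at hT2
    obtain ⟨W, h1, h3, h4⟩ := back_invol h2 hV.nd hT hT2 hme hm0 (by rw [hfr]; omega) false
    exact ⟨W, ⟨h3, h1⟩, h4⟩
  · have hJ : ∀ v, T (T v) = -v := by
      intro v
      have h1 : (T ^ 2) v = T (T v) := by
        rw [pow_two]
        rfl
      rw [← h1, hT2]
      simp
    obtain ⟨a, ha⟩ := hme
    by_cases hi : ∃ i : F, i * i = -1
    · obtain ⟨i, hi⟩ := hi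
      obtain ⟨W, _, h1, h3, h4⟩ := exists_J_hyp h2 hi hT hJ a ⊤ hV.nd (fun u _ => trivial) (by rw [finrank_top, hfr]; omega)
      exact ⟨W, ⟨by omega, h1⟩, h3⟩
    · push Not at hi
      have hq4 : q % 4 = 3 := by
        by_contra h5
        obtain ⟨i, hi'⟩ := (neg_one_sq_iff hq).2 h5
        exact hi i hi'
      obtain ⟨a', ha', hta⟩ := type_J h2 hi hT hJ _ ⊤ (by rw [finrank_top, hfr]) hV.nd (fun u _ => trivial)
      have haed : a' = d := by omega
      subst haed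
      have hde : a'.bodd = false := hta.uniq hV
      rw [bodd_false_iff] at hde
      have hm4 : m % 4 = 0 := by
        obtain ⟨b, hb⟩ := hde
        omega
      obtain ⟨W, _, h1, h3, h4⟩ := exists_J_sub h2 hi hT hJ a ⊤ hV.nd (fun u _ => trivial) (by rw [finrank_top, hfr]; omega)
      obtain ⟨a'', ha'', hta'⟩ := type_J h2 hi hT hJ _ W h4 h1 h3
      have h8 : a''.bodd = false := by
        rw [bodd_false_iff]
        exact ⟨a'' / 2, by omega⟩
      rw [h8] at hta'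
      exact ⟨W, ⟨by omega, hta'⟩, h3⟩

end aux

/-- Elements of prime order of PΩ⁺_n(q), n = 2d ≥ 8, with no fixed nondegenerate hyperbolic `m`-space. Here `T = PΩ⁺_n(q)` is realised through `Ω⁺_n(q)`, the commutator subgroup of the isometry group of `Q = Σ xᵢyᵢ` over the field `F` with `q` elements; an element of `T` of prime order `r` is an element `x` of `Ω⁺_n(q)` with `x^r` scalar and `x` not scalar. A hyperbolic `m`-space is a subspace `W` of even dimension `m` on which the polar form of `Q` is nondegenerate and which contains a totally singular subspace of dimension `m/2`. Let `m` be even with `2 ≤ m < n/2`, and let `r` be a prime dividing the number of hyperbolic `m`-spaces, with `r = 2` or `r ≠ p`. For `r ≠ p` let `i` be the multiplicative order of `q` modulo `r`, `c = i` for `i` even and `c = 2i` for `i` odd, and write `k = n mod c`, `ℓ' = m mod c`. Then every element of `T` of order `r` fixes some hyperbolic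 `m`-space if and only if one of: (i) `r = 2` and (`n ≡ 2 (mod 4)`, or `m ≡ 0 (mod 4)`, or `q ≡ 1 (mod 4)`); (ii) `r ≠ p` odd, `i` odd, `c ≤ m` and `k ≥ ℓ'`; (iii) `r ≠ p` odd, `i` even, and either `k = 0` and (`n/i` odd, or `ℓ' = 0` and `m/i` even), or `i ≤ m` and (`k > ℓ' > 0`, or `k = ℓ' > 0` and `(n + m − 2k)/i` even, or `k > ℓ' = 0` and `m/i` even). -/
theorem result {F : Type*} [Field F] [Fintype F] {p : ℕ} [Fact p.Prime] [CharP F p] {q : ℕ} (hq : Fintype.card F = q)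
    (d m : ℕ) (hd : 4 ≤ d) (hm : 2 ≤ m) (hme : Even m) (hmd : m < d)
    (r : ℕ) [Fact r.Prime] (hr : r = 2 ∨ r ≠ p)
    (hrΩ : r ∣ Nat.card {W : Submodule F (Fin d ⊕ Fin d → F) // (Module.finrank F ↥W = m ∧ (∀ u ∈ W, u ≠ 0 → ∃ v ∈ W, QuadraticMap.polar (Cfsg.quadFormPlus d F) u v ≠ 0) ∧
          ∃ U : Submodule F (Fin d ⊕ Fin d → F), U ≤ W ∧ 2 * Module.finrank F ↥U = m ∧ ∀ u ∈ U, Cfsg.quadFormPlus d F u = 0)})
    (i c : ℕ) (hi : i = orderOf (q : ZMod r)) (hc : c = if Even i then i else 2 * i) :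
    (∀ x : GL (Fin d ⊕ Fin d) F, x ∈ Cfsg.Geo.omegaGL (Cfsg.quadFormPlus d F) →
      (∃ z : F, ((x ^ r : GL (Fin d ⊕ Fin d) F) : Matrix (Fin d ⊕ Fin d) (Fin d ⊕ Fin d) F) = z • (1 : Matrix (Fin d ⊕ Fin d) (Fin d ⊕ Fin d) F)) →
      (∀ z : F, (x : Matrix (Fin d ⊕ Fin d) (Fin d ⊕ Fin d) F) ≠ z • (1 : Matrix (Fin d ⊕ Fin d) (Fin d ⊕ Fin d) F)) →
      ∃ W : Submodule F (Fin d ⊕ Fin d → F), (Module.finrank F ↥W = m ∧ (∀ u ∈ W, u ≠ 0 → ∃ v ∈ W, QuadraticMap.polar (Cfsg.quadFormPlus d F) u v ≠ 0) ∧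
          ∃ U : Submodule F (Fin d ⊕ Fin d → F), U ≤ W ∧ 2 * Module.finrank F ↥U = m ∧ ∀ u ∈ U, Cfsg.quadFormPlus d F u = 0) ∧
        W.map (Matrix.toLin' (x : Matrix (Fin d ⊕ Fin d) (Fin d ⊕ Fin d) F)) ≤ W) ↔
    ((r = 2 ∧ ((2 * d) % 4 = 2 ∨ m % 4 = 0 ∨ q % 4 = 1)) ∨
     (r ≠ p ∧ 2 < r ∧ Odd i ∧ c ≤ m ∧ m % c ≤ (2 * d) % c) ∨
     (r ≠ p ∧ 2 < r ∧ Even i ∧
       (((2 * d) % c = 0 ∧ (Odd ((2 * d) / i) ∨ (m % c = 0 ∧ Even (m / i)))) ∨
        (i ≤ m ∧ ((m % c < (2 * d) % c ∧ 0 < m % c) ∨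
                  ((2 * d) % c = m % c ∧ 0 < m % c ∧ Even ((2 * d + m - 2 * ((2 * d) % c)) / i)) ∨
                  (0 < (2 * d) % c ∧ m % c = 0 ∧ Even (m / i))))))) := by
  classical
  subst hq
  have hE : (∀ x : GL (Fin d ⊕ Fin d) F, x ∈ Cfsg.Geo.omegaGL (Cfsg.quadFormPlus d F) →
      (∃ z : F, ((x ^ r : GL (Fin d ⊕ Fin d) F) : Matrix (Fin d ⊕ Fin d) (Fin d ⊕ Fin d) F) = z • (1 : Matrix (Fin d ⊕ Fin d) (Fin d ⊕ Fin d) F)) →
      (∀ z : F, (x : Matrix (Fin d ⊕ Fin d) (Fin d ⊕ Fin d) F) ≠ z • (1 : Matrix (Fin d ⊕ Fin d) (Fin d ⊕ Fin d) F)) →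
      ∃ W : Submodule F (Fin d ⊕ Fin d → F), (Module.finrank F ↥W = m ∧ (∀ u ∈ W, u ≠ 0 → ∃ v ∈ W, QuadraticMap.polar (Cfsg.quadFormPlus d F) u v ≠ 0) ∧
          ∃ U : Submodule F (Fin d ⊕ Fin d → F), U ≤ W ∧ 2 * Module.finrank F ↥U = m ∧ ∀ u ∈ U, Cfsg.quadFormPlus d F u = 0) ∧
        W.map (Matrix.toLin' (x : Matrix (Fin d ⊕ Fin d) (Fin d ⊕ Fin d) F)) ≤ W) ↔ ElusiveP F d m r false := by
    simp only [← Cfsg.Agent.S5985.hf_plus, hyp_set_iff, map_le_iff]
    rfl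
  rw [hE]
  have hrΩ' : r ∣ Nat.card (TSet (qPlus d F) m false) := by
    have h1 : Nat.card {W : Submodule F (Fin d ⊕ Fin d → F) // (Module.finrank F ↥W = m ∧ (∀ u ∈ W, u ≠ 0 → ∃ v ∈ W, QuadraticMap.polar (Cfsg.quadFormPlus d F) u v ≠ 0) ∧
          ∃ U : Submodule F (Fin d ⊕ Fin d → F), U ≤ W ∧ 2 * Module.finrank F ↥U = m ∧ ∀ u ∈ U, Cfsg.quadFormPlus d F u = 0)} = Nat.card (TSet (qPlus d F) m false) := by
      apply Nat.card_congr
      apply Equiv.subtypeEquivRight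
      intro W
      simp only [← Cfsg.Agent.S5985.hf_plus]
      exact hyp_set_iff W
    rwa [h1] at hrΩ
  have hp := (Fact.out : p.Prime)
  have hr' := (Fact.out : r.Prime)
  have hm0 : 0 < m := by omega
  by_cases hr2 : r = 2
  · subst hr2
    by_cases hp2 : p = 2
    · subst hp2
      have hqe : Fintype.card F % 2 = 0 := FiniteField.even_card_of_char_two (ringChar.eq F 2)
      constructor
      · intro H
        rcases two_two_forward hd H with h | h
        · exact Or.inl ⟨rfl, Or.inl h⟩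
        · exact Or.inl ⟨rfl, Or.inr (Or.inl h)⟩
      · rintro (⟨_, h⟩ | ⟨_, h, _⟩ | ⟨_, h, _⟩)
        · apply two_two_backward hd hme hmd
          rcases h with h | h | h
          · exact Or.inl h
          · exact Or.inr h
          · omega
        · omega
        · omega
    · have h2 : (2 : F) ≠ 0 := by
        intro h
        have h3 : ((2 : ℕ) : F) = 0 := by exact_mod_cast h
        rw [CharP.cast_eq_zero_iff F p] at h3
        exact hp2 ((Nat.prime_dvd_prime_iff_eq hp Nat.prime_two).1 h3)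
      have hch : ringChar F ≠ 2 := by
        intro h
        apply h2
        have := ringChar.Nat.cast_ringChar (R := F)
        rw [h] at this
        exact_mod_cast this
      have hqodd : Fintype.card F % 2 = 1 := FiniteField.odd_card_of_char_ne_two hch
      constructor
      · intro H
        exact Or.inl ⟨rfl, two_odd_forward rfl h2 hd hme hqodd H⟩
      · rintro (⟨_, h⟩ | ⟨_, h, _⟩ | ⟨_, h, _⟩)
        · exact two_odd_backward rfl h2 hd hme hm0 hmd h
        · omega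
        · omega
  have hrp : r ≠ p := hr.resolve_left hr2
  have hrF : (r : F) ≠ 0 := by
    intro h
    rw [CharP.cast_eq_zero_iff F p] at h
    exact hrp ((Nat.prime_dvd_prime_iff_eq hp hr').1 h).symm
  have hr3 : 2 < r := by
    have := hr'.two_le
    omega
  have hcount := count_hyp p hrF hme hm hmd hrΩ'
  have hcb : blockDim r (Fintype.card F) = c := by
    rw [hc, hi]
    rfl
  have hc0 : 0 < c := by
    rw [← hcb]
    exact blockDim_pos rfl hrF
  have hi0 : orderOf ((Fintype.card F : ℕ) : ZMod r) = i := hi.symm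
  have hqpos : 0 < Fintype.card F := Fintype.card_pos
  obtain ⟨a, ha⟩ := hme
  have hm2 : m / 2 = a := by omega
  rcases Nat.even_or_odd i with hev | hodd
  · have hev' : Even (orderOf ((Fintype.card F : ℕ) : ZMod r)) := by rw [hi0]; exact hev
    have hci : c = i := by rw [hc, if_pos hev]
    subst hci
    have hcount' : c ∣ d ∨ (∃ w, Odd w ∧ 2 * (d - m / 2) = c * w) ∨ ∃ j, d - m / 2 < j ∧ j ≤ d - 1 ∧ c ∣ 2 * j := by
      rcases hcount with h | h | ⟨j, h1, h3, h⟩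
      · exact Or.inl (hi0 ▸ dvd_of_pow h hqpos)
      · right
        left
        obtain ⟨w, hw1, hw⟩ := plus_even hr3 h
        rw [hi0] at hw
        exact ⟨w, hw1, hw⟩
      · exact Or.inr (Or.inr ⟨j, h1, h3, hi0 ▸ dvd_of_pow h hqpos⟩)
    constructor
    · intro H
      refine Or.inr (Or.inr ⟨hrp, hr3, hev, ?_⟩)
      by_cases hA : (2 * d) % c = 0 ∧ Odd ((2 * d) / c)
      · exact Or.inl ⟨hA.1, Or.inl hA.2⟩
      · have hex : ∃ e, c ∣ e ∧ 2 * d - m ≤ e ∧ e ≤ 2 * d ∧ 0 < e := by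
          rcases hcount' with h | ⟨w, hw1, hw⟩ | ⟨j, h1, h3, h⟩
          · exact ⟨2 * d, h.mul_left 2, by omega, le_rfl, by omega⟩
          · exact ⟨2 * (d - m / 2), ⟨w, hw⟩, by omega, by omega, by omega⟩
          · exact ⟨2 * j, h, by omega, by omega, by omega⟩
        obtain ⟨e, he1, he2, he3, he4⟩ := hex
        obtain ⟨hs, hk⟩ := s0_k0 hc0 he1 he2 he3 he4 (by omega)
        have hP : c * ((2 * d) / c) = 2 * d → ((Fintype.card F : ℕ) : ZMod r) ^ d = 1 := by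
          intro h
          have h0 : (2 * d) % c = 0 := Nat.mod_eq_zero_of_dvd ⟨_, h.symm⟩
          have h3 : ¬ Odd ((2 * d) / c) := fun h4 => hA ⟨h0, h4⟩
          rw [Nat.not_odd_iff_even] at h3
          obtain ⟨w, hw⟩ := h3
          refine pow_of_dvd hi0 (w := w) ?_
          rw [hw] at h
          have : c * (w + w) = 2 * (c * w) := by ring
          omega
        rw [← hcb] at hs hP
        obtain ⟨h1, h0, h3⟩ := key_forward (η := false) p hr2 hrF hd hs hP H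
        rw [hcb] at h1 h0 h3
        rw [tau_even hev'] at h0 h3
        rw [tau_even hev'] at h3
        rcases fwd_even_hyp hc0 rfl hm0 ⟨a, ha⟩ hmd hk hcount' h1 h0 h3 with h | h
        · exact Or.inl ⟨h.1, Or.inr h.2⟩
        · exact Or.inr h
    · rintro (⟨h, _⟩ | ⟨_, _, h, _⟩ | ⟨_, _, _, h⟩)
      · exact absurd h hr2
      · exact absurd hev (Nat.not_even_iff_odd.2 h)
      · apply odd_backward hr2 hrF hd ⟨a, ha⟩ hm0 hmd
        rw [hcb]
        simp only [tau_even hev']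
        apply back_cond_even_hyp hc0 hm0
        rcases h with h | ⟨_, h⟩
        · exact Or.inl h
        · exact Or.inr h
  · have hev : ¬ Even i := Nat.not_even_iff_odd.2 hodd
    have hev' : ¬ Even (orderOf ((Fintype.card F : ℕ) : ZMod r)) := by rw [hi0]; exact hev
    have hci : c = 2 * i := by rw [hc, if_neg hev]
    have hodd' : Odd (orderOf ((Fintype.card F : ℕ) : ZMod r)) := by rw [hi0]; exact hodd
    have hcop : Nat.Coprime i 2 := by
      rw [Nat.coprime_comm, Nat.coprime_two_left]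
      exact hodd
    have hcount' : c ∣ 2 * d ∨ ∃ e, c ∣ e ∧ 2 * d - m < e ∧ e < 2 * d := by
      rcases hcount with h | h | ⟨j, h1, h3, h⟩
      · left
        rw [hci]
        exact mul_dvd_mul_left 2 (hi0 ▸ dvd_of_pow h hqpos)
      · exact (plus_odd hr3 h hodd').elim
      · right
        refine ⟨2 * j, ?_, by omega, by omega⟩
        rw [hci]
        apply mul_dvd_mul_left 2
        exact hcop.dvd_of_dvd_mul_left (hi0 ▸ dvd_of_pow h hqpos)
    constructor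
    · intro H
      refine Or.inr (Or.inl ⟨hrp, hr3, hodd, ?_⟩)
      have hex : ∃ e, c ∣ e ∧ 2 * d - m ≤ e ∧ e ≤ 2 * d ∧ 0 < e := by
        rcases hcount' with h | ⟨e, h1, h3, h4⟩
        · exact ⟨2 * d, h, by omega, le_rfl, by omega⟩
        · exact ⟨e, h1, by omega, by omega, by omega⟩
      obtain ⟨e, he1, he2, he3, he4⟩ := hex
      obtain ⟨hs, hk⟩ := s0_k0 hc0 he1 he2 he3 he4 (by omega)
      have hP : c * ((2 * d) / c) = 2 * d → ((Fintype.card F : ℕ) : ZMod r) ^ d = 1 := by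
        intro h
        refine pow_of_dvd hi0 (w := (2 * d) / c) ?_
        have h5 : c * ((2 * d) / c) = 2 * (i * ((2 * d) / c)) := by
          rw [hci]
          ring
        omega
      rw [← hcb] at hs hP
      obtain ⟨h1, h0, h3⟩ := key_forward (η := false) p hr2 hrF hd hs hP H
      rw [hcb] at h1 h0 h3
      exact ⟨fwd_odd_hyp hc0 hm0 hcount' h1, h1⟩
    · rintro (⟨h, _⟩ | ⟨_, _, _, _, h1⟩ | ⟨_, _, h, _⟩)
      · exact absurd h hr2
      · apply odd_backward hr2 hrF hd ⟨a, ha⟩ hm0 hmd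
        rw [hcb]
        simp only [tau_odd hev']
        have h9 := back_cond_odd_hyp (c := c) (n := 2 * d) (m := m) h1
        simpa using h9
      · exact absurd h hev

end Cfsg.Agent.S5974
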