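import Cfsg.Statements.S5976
import Mathlib
import Cfsg.Agent.Lib.SpGU.Index
import Cfsg.Agent.Lib.SpGU.Transv
import Cfsg.Agent.Lib.SpGU.Bad

set_option autoImplicit false
open scoped MatrixGroups
open Cfsg

namespace Cfsg.Agent.S5976

/-- Elements of prime order of PSp_n(q), q odd, and the subgroups of type GU_{n/2}(q). Here `T = PSp_{2d}(F)` for a field `F` with `q` elements, `q` odd, `d ≥ 2`, realised through the matrices preserving the standard alternating form `f`; `K` is a subalgebra of the `2d × 2d` matrices that is a field of degree 2 over `F`, closed under taking adjoints for `f` but not consisting of self-adjoint elements (so `F^{2d}` becomes a `d`-dimensional space over `K ≅ F_{q²}` on which `f` is the trace of a multiple of a non-degenerate hermitian form); `H` is the subgroup of `T` normalizing `K` — the symplectic maps that are `K`-linear or `K`-semilinear, a subgroup of type GU_d(q) (maximality is not assumed). Ω is the set of cosets of `H` in `T`,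 so an element of `T` of prime order `r` (`x ∈ T` with `x^r` scalar, `x` not scalar) fixes a point of Ω exactly when some `T`-conjugate of `x` normalizes `K`. Let `r` be a prime dividing the index of `H`. Then every element of `T` of order `r` fixes a point of Ω if and only if `r = 2`. -/
theorem result {F : Type*} [Field F] [Fintype F] {p : ℕ} [Fact p.Prime] [CharP F p] {q : ℕ} (hq : Fintype.card F = q)
    (hodd : Odd q) (d : ℕ) (hd : 2 ≤ d)
    (K : Subalgebra F (Matrix (Fin d ⊕ Fin d) (Fin d ⊕ Fin d) F)) (hK : Cfsg.Geo.IsFieldSubalgebra 2 K)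
    (hKf : Cfsg.Geo.IsAdjointClosedFor (Cfsg.sympForm d F) K) (hKns : ¬ Cfsg.Geo.IsSelfAdjointFor (Cfsg.sympForm d F) K)
    (r : ℕ) [Fact r.Prime]
    (hΩ : r ∣ (Cfsg.Geo.subalgebraNormalizer K).relIndex (Cfsg.spGL d F)) :
    (∀ x ∈ Cfsg.spGL d F, (∃ z : F, ((x ^ r : GL (Fin d ⊕ Fin d) F) : Matrix (Fin d ⊕ Fin d) (Fin d ⊕ Fin d) F) = z • (1 : Matrix (Fin d ⊕ Fin d) (Fin d ⊕ Fin d) F)) →
      (∀ z : F, (x : Matrix (Fin d ⊕ Fin d) (Fin d ⊕ Fin d) F) ≠ z • (1 : Matrix (Fin d ⊕ Fin d) (Fin d ⊕ Fin d) F)) →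
      ∃ g ∈ Cfsg.spGL d F, g⁻¹ * x * g ∈ Cfsg.Geo.subalgebraNormalizer K) ↔ r = 2 := by
  classical
  have hc : ringChar F ≠ 2 := by
    intro h
    have h1 := (FiniteField.even_card_iff_char_two (F := F)).mp h
    rw [hq] at h1
    exact absurd hodd (by
      rw [Nat.odd_iff]
      omega)
  have h2 : (2 : F) ≠ 0 := Ring.two_ne_zero hc
  obtain ⟨s, hs⟩ := FiniteField.exists_nonsquare hc
  have hs0 : s ≠ 0 := by
    rintro rfl
    exact hs ⟨0, by ring⟩
  obtain ⟨T, hT⟩ := Cfsg.Agent.Lib.SpGU.exists_KStd hK hKf hKns h2 hs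
  have hd1 : 1 ≤ d := by omega
  constructor
  · intro H
    by_contra hr2
    have hrp : r ≠ p := by
      rintro rfl
      obtain ⟨x, hx, ⟨z, hz⟩, hns, hno⟩ := Cfsg.Agent.Lib.SpGU.exists_transv (p := r) h2 hd1 hs hT
      exact hno (H x hx ⟨z, hz⟩ hns)
    have hrF : (r : F) ≠ 0 := by
      intro h
      have h1 := (CharP.cast_eq_zero_iff F p r).mp h
      exact hrp ((Nat.prime_dvd_prime_iff_eq (Fact.out : p.Prime) (Fact.out : r.Prime)).mp h1).symm
    by_cases hmod : orderOf (q : ZMod r) % 4 = 2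
    · exact Cfsg.Agent.Lib.SpGU.not_dvd_index hq hr2 hrF h2 hs hT hmod hΩ
    · have hle : Cfsg.Agent.Lib.IsomBlock.blockDim r q ≤ 2 * d := by
        apply Cfsg.Agent.Lib.SpGU.block_le_of_dvd hq hrF
        rw [← Cfsg.Agent.Lib.SpGU.card_spGL'']
        exact hΩ.trans (Subgroup.relIndex_dvd_card _ _)
      obtain ⟨x, hx, ⟨z, hz⟩, hns, hno⟩ := Cfsg.Agent.Lib.SpGU.exists_bad hq hr2 hrF h2 hd1 hs hT hle hmod
      exact hno (H x hx ⟨z, hz⟩ hns)
  · rintro rfl x hx ⟨z, hz⟩ -
    exact Cfsg.Agent.Lib.SpGU.backward_two h2 hd1 hs0 hT x hx z hz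

end Cfsg.Agent.S5976
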