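import Cfsg.Statements.S5977
import Cfsg.Agent.Lib.QFH99

set_option autoImplicit false
open scoped MatrixGroups
open Cfsg

namespace Cfsg.Agent.S5977

open Module QuadraticMap Matrix
open Cfsg.Agent.Lib.IsomBlock Cfsg.Agent.Lib.QFA99 Cfsg.Agent.Lib.QFB99 Cfsg.Agent.Lib.QFC99 Cfsg.Agent.Lib.QFD99 Cfsg.Agent.Lib.QFE99 Cfsg.Agent.Lib.QFF99 Cfsg.Agent.Lib.QFG99 Cfsg.Agent.Lib.QFH99
open Cfsg.Agent.Lib.OrthGroup Cfsg.Agent.Lib.OrthOmega Cfsg.Agent.Lib.OrthMatrix Cfsg.Agent.Lib.QuadFF Cfsg.Agent.Lib.OrthoBasic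
open Cfsg.Agent.Lib.QuadClass Cfsg.Agent.Lib.QuadClass2 Cfsg.Agent.Lib.OrthoCount Cfsg.Agent.Lib.EvCount99 Cfsg.Agent.Lib.EvElt99

section aux

variable {F : Type*} [Field F] [Fintype F]

theorem two_ne_of_odd (hodd : Odd (Fintype.card F)) : (2 : F) ≠ 0 := by
  intro h
  haveI : CharP F 2 := CharTwo.of_one_ne_zero_of_two_eq_zero one_ne_zero h
  have h1 : ringChar F = 2 := ringChar.eq F 2
  have h3 := FiniteField.even_card_iff_char_two.mp h1
  have h4 := Nat.odd_iff.mp hodd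
  omega

theorem siegel_plus {d : ℕ} (hd : 2 ≤ d) : ∃ e f v : Fin d ⊕ Fin d → F, qPlus d F e = 0 ∧ qPlus d F f = 0 ∧ B (qPlus d F) e f = 0 ∧ B (qPlus d F) v e = 1 ∧ B (qPlus d F) v f = 0 ∧ f ≠ 0 := by
  classical
  have hb := hypBasis_qPlus (F := F) d
  let i0 : Fin d := ⟨0, by omega⟩
  let i1 : Fin d := ⟨1, by omega⟩
  have h01 : i0 ≠ i1 := by
    intro h
    have := congrArg Fin.val h
    simp [i0, i1] at this
  let b := Pi.basisFun F (Fin d ⊕ Fin d)
  refine ⟨b (Sum.inl i0), b (Sum.inl i1), b (Sum.inr i0), (hb.1 i0).1, (hb.1 i1).1, (hb.2.2 i0 i1).1, ?_, ?_, b.ne_zero _⟩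
  · rw [B_comm]
    have := hb.2.1 i0 i0
    rwa [if_pos rfl] at this
  · rw [B_comm]
    have := hb.2.1 i1 i0
    rwa [if_neg h01.symm] at this

end aux


/-- Elements of prime order of PΩ⁺_n(q), q odd, and the field-extension subgroups of degree 2 (orthogonal type over F_{q²}). Here `T = PΩ⁺_{2d}(F)` for a field `F` with `q` elements, `q` odd, `d ≥ 4`, realised through `Ω⁺_{2d}(q)`, the commutator subgroup of the isometry group of `Q = Σ xᵢyᵢ`, with polar form `B`; `K` is a subalgebra of the `2d × 2d` matrices that is a field of degree 2 over `F` whose elements are self-adjoint for `B` (so `F^{2d}` becomes a `d`-dimensional space over `K ≅ F_{q²}` on which `B` is the trace of a `K`-bilinear symmetric form); `H` is the subgroup of `Ω⁺_{2d}(q)` normalizing `K` — the elements of `Ω⁺_{2d}(q)` that are `K`-linear or `K`-semilinear, a subgroup of orthogonal type over the quadratic extension (maximality is not assumed).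 Ω is the set of cosets of `H`, so an element of `T` of prime order `r` (`x ∈ Ω⁺_{2d}(q)` with `x^r` scalar, `x` not scalar) fixes a point of Ω exactly when some `Ω⁺_{2d}(q)`-conjugate of `x` normalizes `K`. Let `r` be a prime dividing the index of `H`. Then every element of `T` of order `r` fixes a point of Ω if and only if `r = 2`. -/
theorem result {F : Type*} [Field F] [Fintype F] {p : ℕ} [Fact p.Prime] [CharP F p] {q : ℕ} (hq : Fintype.card F = q)
    (hodd : Odd q) (d : ℕ) (hd : 4 ≤ d)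
    (K : Subalgebra F (Matrix (Fin d ⊕ Fin d) (Fin d ⊕ Fin d) F)) (hK : Cfsg.Geo.IsFieldSubalgebra 2 K)
    (hKf : Cfsg.Geo.IsSelfAdjointFor (QuadraticMap.polar (Cfsg.quadFormPlus d F)) K)
    (r : ℕ) [Fact r.Prime]
    (hΩ : r ∣ (Cfsg.Geo.subalgebraNormalizer K).relIndex (Cfsg.Geo.omegaGL (Cfsg.quadFormPlus d F))) :
    (∀ x ∈ Cfsg.Geo.omegaGL (Cfsg.quadFormPlus d F), (∃ z : F, ((x ^ r : GL (Fin d ⊕ Fin d) F) : Matrix (Fin d ⊕ Fin d) (Fin d ⊕ Fin d) F) = z • (1 : Matrix (Fin d ⊕ Fin d) (Fin d ⊕ Fin d) F)) →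
      (∀ z : F, (x : Matrix (Fin d ⊕ Fin d) (Fin d ⊕ Fin d) F) ≠ z • (1 : Matrix (Fin d ⊕ Fin d) (Fin d ⊕ Fin d) F)) →
      ∃ g ∈ Cfsg.Geo.omegaGL (Cfsg.quadFormPlus d F), g⁻¹ * x * g ∈ Cfsg.Geo.subalgebraNormalizer K) ↔ r = 2 := by
  classical
  subst hq
  have h2 : (2 : F) ≠ 0 := two_ne_of_odd hodd
  rw [← Cfsg.Agent.S5985.hf_plus] at *
  obtain ⟨n, rfl⟩ : ∃ n, d = n + 2 := ⟨d - 2, by omega⟩
  have hnd : ∀ u, (∀ v, B (qPlus (n + 2) F) u v = 0) → u = 0 := by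
    intro u hu
    by_contra hne
    obtain ⟨y, hy⟩ := Cfsg.Agent.Lib.OrthoOrder.nondeg_qPlus (n + 2) u hne
    exact hy (hu y)
  constructor
  · intro hH
    by_contra hr2
    obtain ⟨v₀, hv₀⟩ := Cfsg.Agent.Lib.EvP99.exists_v' (F := F) hd
    obtain ⟨e, f, v, he, hf, hef, hve, hvf, hf0⟩ := siegel_plus (F := F) (d := n + 2) (by omega)
    have hcard : Nat.card (Cfsg.isometryGroup F ⇑(qPlus (n + 2) F)) = ordT (Fintype.card F) (n + 1) false := by
      rw [Cfsg.Agent.S5985.hf_plus, Cfsg.Agent.Lib.OrthoOrder.card_isometry_plus rfl (n + 2) (by omega)]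
      rfl
    refine forward_generic (n := n + 1) (η := false) p h2 hodd hnd (Cfsg.Agent.Lib.HypLevi.finrank_plus _) hcard hK hKf ?_ (Cfsg.Agent.S5985.hOG_plus hd) hv₀ he hf hef hve hvf hf0 hr2 ?_ hΩ hH
    · intro ω _ c E hc hE2 a ha _
      exact Or.inl ⟨rfl, hyp_plus h2 hodd ha hc E hE2⟩
    · intro hrF hle hP
      exact exists_x_plus' p h2 hd hr2 hrF hle (fun h => (hP h).1 rfl)
  · rintro rfl
    intro x hx ⟨z, hz⟩ _
    exact back_K h2 hnd (Cfsg.Agent.Lib.HypLevi.hF_plus (Or.inr (by omega))) (by rw [Cfsg.Agent.Lib.HypLevi.finrank_plus]) hK hKf hx hz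

end Cfsg.Agent.S5977
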