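import Cfsg.Statements.S5978
import Cfsg.Agent.Lib.QFH99
import Cfsg.Agent.Lib.EvN99

set_option autoImplicit false
open scoped MatrixGroups
open Cfsg

namespace Cfsg.Agent.S5978

open Module QuadraticMap Matrix
open Cfsg.Agent.Lib.IsomBlock Cfsg.Agent.Lib.QFA99 Cfsg.Agent.Lib.QFB99 Cfsg.Agent.Lib.QFC99 Cfsg.Agent.Lib.QFD99 Cfsg.Agent.Lib.QFE99 Cfsg.Agent.Lib.QFF99 Cfsg.Agent.Lib.QFG99 Cfsg.Agent.Lib.QFH99
open Cfsg.Agent.Lib.OrthGroup Cfsg.Agent.Lib.OrthOmega Cfsg.Agent.Lib.OrthMatrix Cfsg.Agent.Lib.QuadFF Cfsg.Agent.Lib.OrthoBasic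
open Cfsg.Agent.Lib.QuadClass Cfsg.Agent.Lib.QuadClass2 Cfsg.Agent.Lib.OrthoCount Cfsg.Agent.Lib.EvCount99 Cfsg.Agent.Lib.EvElt99

section aux

variable {F : Type*} [Field F] [Fintype F]

theorem two_ne_of_odd (hodd : Odd (Fintype.card F)) : (2 : F) ≠ 0 := by
  intro h
  haveI : CharP F 2 := CharTwo.of_one_ne_zero_of_two_eq_zero one_ne_zero h
  have h1 : ringChar F = 2 := ringChar.eq F 2
  have h3 := FiniteField.even_card_iff_char_two.mp h1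
  have h4 := Nat.odd_iff.mp hodd
  omega

theorem siegel_minus {k : ℕ} (hk : 2 ≤ k) (a b : F) :
    ∃ e f v : (Fin k ⊕ Fin k) ⊕ Fin 2 → F, qMinus k a b e = 0 ∧ qMinus k a b f = 0 ∧ B (qMinus k a b) e f = 0 ∧ B (qMinus k a b) v e = 1 ∧ B (qMinus k a b) v f = 0 ∧ f ≠ 0 := by
  classical
  have hval : ∀ v, qMinus k a b v = (∑ i, v (Sum.inl (Sum.inl i)) * v (Sum.inl (Sum.inr i))) +
      (v (Sum.inr 0) ^ 2 + a * v (Sum.inr 0) * v (Sum.inr 1) + b * v (Sum.inr 1) ^ 2) := fun v => by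
    rw [qMinus_apply]; rfl
  let i0 : Fin k := ⟨0, by omega⟩
  let i1 : Fin k := ⟨1, by omega⟩
  have h01 : i0 ≠ i1 := by
    intro h
    have := congrArg Fin.val h
    simp [i0, i1] at this
  refine ⟨Pi.single (Sum.inl (Sum.inl i0)) 1, Pi.single (Sum.inl (Sum.inl i1)) 1, Pi.single (Sum.inl (Sum.inr i0)) 1, ?_, ?_, ?_, ?_, ?_, ?_⟩
  · simp [hval, Pi.single_apply]
  · simp [hval, Pi.single_apply]
  · simp [polar, hval, Pi.single_apply, Finset.sum_add_distrib, add_mul, mul_add, h01]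
  · simp [polar, hval, Pi.single_apply, Finset.sum_add_distrib, add_mul, mul_add]
  · simp [polar, hval, Pi.single_apply, Finset.sum_add_distrib, add_mul, mul_add, h01]
  · intro h
    have := congrFun h (Sum.inl (Sum.inl i1))
    simp at this

/-- The statement with the dimension written as `k + 1`. -/
theorem main_minus {F : Type*} [Field F] [Fintype F] {p : ℕ} [Fact p.Prime] [CharP F p]
    (hodd : Odd (Fintype.card F)) (k : ℕ) (hd : 3 ≤ k) (a b : F) (hab : ∀ x y : F, x ^ 2 + a * x * y + b * y ^ 2 = 0 → x = 0 ∧ y = 0)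
    (K : Subalgebra F (Matrix ((Fin k ⊕ Fin k) ⊕ Fin 2) ((Fin k ⊕ Fin k) ⊕ Fin 2) F)) (hK : Cfsg.Geo.IsFieldSubalgebra 2 K)
    (hKf : Cfsg.Geo.IsSelfAdjointFor (QuadraticMap.polar (Cfsg.quadFormMinus k F a b)) K)
    (r : ℕ) [Fact r.Prime]
    (hΩ : r ∣ (Cfsg.Geo.subalgebraNormalizer K).relIndex (Cfsg.Geo.omegaGL (Cfsg.quadFormMinus k F a b))) :
    (∀ x ∈ Cfsg.Geo.omegaGL (Cfsg.quadFormMinus k F a b), (∃ z : F, ((x ^ r : GL ((Fin k ⊕ Fin k) ⊕ Fin 2) F) : Matrix ((Fin k ⊕ Fin k) ⊕ Fin 2) ((Fin k ⊕ Fin k) ⊕ Fin 2) F) = z • (1 : Matrix ((Fin k ⊕ Fin k) ⊕ Fin 2) ((Fin k ⊕ Fin k) ⊕ Fin 2) F)) →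
      (∀ z : F, (x : Matrix ((Fin k ⊕ Fin k) ⊕ Fin 2) ((Fin k ⊕ Fin k) ⊕ Fin 2) F) ≠ z • (1 : Matrix ((Fin k ⊕ Fin k) ⊕ Fin 2) ((Fin k ⊕ Fin k) ⊕ Fin 2) F)) →
      ∃ g ∈ Cfsg.Geo.omegaGL (Cfsg.quadFormMinus k F a b), g⁻¹ * x * g ∈ Cfsg.Geo.subalgebraNormalizer K) ↔ r = 2 := by
  classical
  have h2 : (2 : F) ≠ 0 := two_ne_of_odd hodd
  rw [← hf_minus (k := k) a b] at *
  have hnd : ∀ u, (∀ v, B (qMinus k a b) u v = 0) → u = 0 := ND_qMinus a b hab k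
  constructor
  · intro hH
    by_contra hr2
    obtain ⟨v₀, hv₀⟩ := Cfsg.Agent.Lib.EvN99.exists_v_minus (F := F) (k := k) (a := a) (b := b)
    obtain ⟨e, f, v, he, hf, hef, hve, hvf, hf0⟩ := siegel_minus (F := F) (k := k) (by omega) a b
    have hcard : Nat.card (Cfsg.isometryGroup F ⇑(qMinus k a b)) = ordT (Fintype.card F) k true := by
      rw [hf_minus]
      exact Cfsg.Agent.Lib.OrthoDihedral.card_isometry_minus rfl (k + 1) (by omega) a b hab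
    refine forward_generic (n := k) (η := true) p h2 hodd hnd finrank_minus hcard hK hKf ?_ (hOG_minus (by omega) hab) hv₀ he hf hef hve hvf hf0 hr2 ?_ hΩ hH
    · intro ω _ c E hc hE2 w hw _
      exact Or.inr ⟨rfl, minus_minus h2 hw rfl hc hab E hE2⟩
    · intro hrF hle hP
      exact exists_x_minus' p h2 (by omega) hab hr2 hrF hle (fun h => (hP h).2 rfl)
  · rintro rfl
    intro x hx ⟨z, hz⟩ _
    obtain ⟨n, rfl⟩ : ∃ n, k = n + 1 := ⟨k - 1, by omega⟩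
    exact back_K h2 hnd (Or.inr (by rw [finrank_minus]; omega)) (by rw [finrank_minus]) hK hKf hx hz

end aux


/-- Elements of prime order of PΩ⁻_n(q), q odd, and the field-extension subgroups of degree 2 (orthogonal type over F_{q²}). Here `T = PΩ⁻_{2d}(F)` for a field `F` with `q` elements, `q` odd, `d ≥ 4`, realised through `Ω⁻_{2d}(q)`, the commutator subgroup of the isometry group of `Q = Σ_{i<d−1} xᵢyᵢ + z₁² + a z₁z₂ + b z₂²` with `z₁² + a z₁z₂ + b z₂²` anisotropic, with polar form `B`; `K` is a subalgebra of the `2d × 2d` matrices that is a field of degree 2 over `F` whose elements are self-adjoint for `B` (so `F^{2d}` becomes a `d`-dimensional space over `K ≅ F_{q²}` on which `B` is the trace of a `K`-bilinear symmetric form); `H` is the subgroup of `Ω⁻_{2d}(q)` normalizing `K` — the elements of `Ω⁻_{2d}(q)` that are `K`-linear or `K`-semilinear, a subgroup of orthogonal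 type over the quadratic extension (maximality is not assumed). Ω is the set of cosets of `H`, so an element of `T` of prime order `r` (`x ∈ Ω⁻_{2d}(q)` with `x^r` scalar, `x` not scalar) fixes a point of Ω exactly when some `Ω⁻_{2d}(q)`-conjugate of `x` normalizes `K`. Let `r` be a prime dividing the index of `H`. Then every element of `T` of order `r` fixes a point of Ω if and only if `r = 2`. -/
theorem result {F : Type*} [Field F] [Fintype F] {p : ℕ} [Fact p.Prime] [CharP F p] {q : ℕ} (hq : Fintype.card F = q)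
    (hodd : Odd q) (d : ℕ) (hd : 4 ≤ d) (a b : F) (hab : ∀ x y : F, x ^ 2 + a * x * y + b * y ^ 2 = 0 → x = 0 ∧ y = 0)
    (K : Subalgebra F (Matrix ((Fin (d - 1) ⊕ Fin (d - 1)) ⊕ Fin 2) ((Fin (d - 1) ⊕ Fin (d - 1)) ⊕ Fin 2) F)) (hK : Cfsg.Geo.IsFieldSubalgebra 2 K)
    (hKf : Cfsg.Geo.IsSelfAdjointFor (QuadraticMap.polar (Cfsg.quadFormMinus (d - 1) F a b)) K)
    (r : ℕ) [Fact r.Prime]
    (hΩ : r ∣ (Cfsg.Geo.subalgebraNormalizer K).relIndex (Cfsg.Geo.omegaGL (Cfsg.quadFormMinus (d - 1) F a b))) :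
    (∀ x ∈ Cfsg.Geo.omegaGL (Cfsg.quadFormMinus (d - 1) F a b), (∃ z : F, ((x ^ r : GL ((Fin (d - 1) ⊕ Fin (d - 1)) ⊕ Fin 2) F) : Matrix ((Fin (d - 1) ⊕ Fin (d - 1)) ⊕ Fin 2) ((Fin (d - 1) ⊕ Fin (d - 1)) ⊕ Fin 2) F) = z • (1 : Matrix ((Fin (d - 1) ⊕ Fin (d - 1)) ⊕ Fin 2) ((Fin (d - 1) ⊕ Fin (d - 1)) ⊕ Fin 2) F)) →
      (∀ z : F, (x : Matrix ((Fin (d - 1) ⊕ Fin (d - 1)) ⊕ Fin 2) ((Fin (d - 1) ⊕ Fin (d - 1)) ⊕ Fin 2) F) ≠ z • (1 : Matrix ((Fin (d - 1) ⊕ Fin (d - 1)) ⊕ Fin 2) ((Fin (d - 1) ⊕ Fin (d - 1)) ⊕ Fin 2) F)) →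
      ∃ g ∈ Cfsg.Geo.omegaGL (Cfsg.quadFormMinus (d - 1) F a b), g⁻¹ * x * g ∈ Cfsg.Geo.subalgebraNormalizer K) ↔ r = 2 := by
  subst hq
  obtain ⟨k, rfl⟩ : ∃ k, d = k + 1 := ⟨d - 1, by omega⟩
  exact main_minus (p := p) hodd k (by omega) a b hab K hK hKf r hΩ

end Cfsg.Agent.S5978
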