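import Cfsg.Statements.S5987
import Cfsg.Agent.Lib.OTS.EvenMain

set_option autoImplicit false
open scoped MatrixGroups
open Cfsg

namespace Cfsg.Agent.S5987

/-- Elements of prime order of PΩ⁻_n(q) with no fixed totally singular `m`-space. Here `T = PΩ⁻_n(F)`, `n = 2d ≥ 8`, realised through `Ω⁻_n(q)`, the commutator subgroup of the isometry group of `Q = Σ_{i<d−1} xᵢyᵢ + z₁² + a z₁z₂ + b z₂²` with `z₁² + a z₁z₂ + b z₂²` anisotropic, over the field `F` with `q` elements; an element of `T` of prime order `r` is an element `x` of `Ω⁻_n(q)` with `x^r` scalar and `x` not scalar. Let `1 ≤ m ≤ d − 1` and let `r` be a prime dividing the number of totally singular `m`-spaces (subspaces of dimension `m` on which `Q` vanishes); for `r ≠ p` let `i` be the multiplicative order of `q` modulo `r`, `c = i` for `i` even and `c = 2i` for `i` odd, and write `k = n mod c`, `ℓ = m mod i`, `n'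 = ⌊n/i⌋`, `m' = ⌊m/i⌋`, `t = (r−1)/i`. Then every element of `T` of order `r` fixes some totally singular `m`-space if and only if one of: (i) `r = 2 ≠ p` and (`n ≡ 0 (mod 4)`, or `m` is even, or `q ≢ 7 (mod 8)`); (ii) `r ≠ p` odd, `i` odd, `i ≤ m` and (`k = 0` or `k > 2ℓ`); (iii) `r ≠ p` odd, `i` even, `i ≤ m`, `n' − 2m' ≥ t`, and one of: (a) `i ≥ 2ℓ`, `k = 0`, `n/i` even and `n' − 2m' > t` (all four); (b) `k ≥ 2ℓ` and `n'` odd; (c) `k > 2ℓ` and `n'` even. -/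
theorem result {F : Type*} [Field F] [Fintype F] {p : ℕ} [Fact p.Prime] [CharP F p] {q : ℕ} (hq : Fintype.card F = q)
    (d m : ℕ) (hd : 4 ≤ d) (hm : 1 ≤ m) (hmd : m + 1 ≤ d) (a b : F) (hab : ∀ x y : F, x ^ 2 + a * x * y + b * y ^ 2 = 0 → x = 0 ∧ y = 0)
    (r : ℕ) [Fact r.Prime]
    (hrΩ : r ∣ Nat.card {W : Submodule F ((Fin (d - 1) ⊕ Fin (d - 1)) ⊕ Fin 2 → F) // Module.finrank F ↥W = m ∧ Cfsg.Geo.IsTotallySingularQuad (Cfsg.quadFormMinus (d - 1) F a b) W})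
    (i c : ℕ) (hi : i = orderOf (q : ZMod r)) (hc : c = if Even i then i else 2 * i) :
    (∀ x : GL ((Fin (d - 1) ⊕ Fin (d - 1)) ⊕ Fin 2) F, x ∈ Cfsg.Geo.omegaGL (Cfsg.quadFormMinus (d - 1) F a b) →
      (∃ z : F, ((x ^ r : GL ((Fin (d - 1) ⊕ Fin (d - 1)) ⊕ Fin 2) F) : Matrix ((Fin (d - 1) ⊕ Fin (d - 1)) ⊕ Fin 2) ((Fin (d - 1) ⊕ Fin (d - 1)) ⊕ Fin 2) F) = z • (1 : Matrix ((Fin (d - 1) ⊕ Fin (d - 1)) ⊕ Fin 2) ((Fin (d - 1) ⊕ Fin (d - 1)) ⊕ Fin 2) F)) →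
      (∀ z : F, (x : Matrix ((Fin (d - 1) ⊕ Fin (d - 1)) ⊕ Fin 2) ((Fin (d - 1) ⊕ Fin (d - 1)) ⊕ Fin 2) F) ≠ z • (1 : Matrix ((Fin (d - 1) ⊕ Fin (d - 1)) ⊕ Fin 2) ((Fin (d - 1) ⊕ Fin (d - 1)) ⊕ Fin 2) F)) →
      ∃ W : Submodule F ((Fin (d - 1) ⊕ Fin (d - 1)) ⊕ Fin 2 → F), (Module.finrank F ↥W = m ∧ Cfsg.Geo.IsTotallySingularQuad (Cfsg.quadFormMinus (d - 1) F a b) W) ∧ W.map (Matrix.toLin' (x : Matrix ((Fin (d - 1) ⊕ Fin (d - 1)) ⊕ Fin 2) ((Fin (d - 1) ⊕ Fin (d - 1)) ⊕ Fin 2) F)) ≤ W) ↔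
    ((r = 2 ∧ p ≠ 2 ∧ (Even d ∨ Even m ∨ q % 8 ≠ 7)) ∨
     (r ≠ p ∧ 2 < r ∧ Odd i ∧ i ≤ m ∧ ((2 * d) % c = 0 ∨ 2 * (m % i) < (2 * d) % c)) ∨
     (r ≠ p ∧ 2 < r ∧ Even i ∧ i ≤ m ∧ (r - 1) / i + 2 * (m / i) ≤ (2 * d) / i ∧
       ((2 * (m % i) ≤ i ∧ (2 * d) % c = 0 ∧ Even ((2 * d) / i) ∧ (r - 1) / i + 2 * (m / i) < (2 * d) / i) ∨
        (2 * (m % i) ≤ (2 * d) % c ∧ Odd ((2 * d) / i)) ∨
        (2 * (m % i) < (2 * d) % c ∧ Even ((2 * d) / i))))) := by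
  classical
  subst hq
  have hr : r.Prime := Fact.out
  generalize hk : d - 1 = k at hrΩ ⊢
  obtain rfl : d = k + 1 := by omega
  have hnd' := Cfsg.Agent.Lib.QuadClass.ND_qMinus a b hab k
  have hnd : Cfsg.Agent.Lib.IsomBlock.NDOn (QuadraticMap.polarBilin (Cfsg.Agent.Lib.OrthoCount.qMinus k a b)) ⊤ := fun v _ hv => hnd' v fun w => hv w trivial
  have hQnd : (Cfsg.Agent.Lib.OrthGroup.B (Cfsg.Agent.Lib.OrthoCount.qMinus k a b)).Nondegenerate := Cfsg.Agent.Lib.QuadFF.nondegenerate_of_ND hnd'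
  have hfun : Cfsg.quadFormMinus k F a b = ⇑(Cfsg.Agent.Lib.OrthoCount.qMinus k a b) := funext fun v => (Cfsg.Agent.Lib.OrthoCount.qMinus_apply k a b v).symm
  have hcι : Fintype.card ((Fin k ⊕ Fin k) ⊕ Fin 2) = 2 * (k + 1) := by
    simp
    ring
  have hdim : Module.finrank F ((Fin k ⊕ Fin k) ⊕ Fin 2 → F) = 2 * (k + 1) := by
    rw [Module.finrank_fintype_fun_eq_card, hcι]
  have hF : (∃ a : F, a ≠ 0 ∧ a ≠ 1) ∨ Module.finrank F ((Fin k ⊕ Fin k) ⊕ Fin 2 → F) ≠ 4 := Or.inr (by rw [hdim]; omega)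
  have hnplus : ¬ Cfsg.Agent.Lib.OTS.PlusOn (Cfsg.Agent.Lib.OrthoCount.qMinus k a b) ⊤ := by
    rintro ⟨K, -, h1, h3⟩
    have h4 := Cfsg.Agent.Lib.QuadClass.finrank_le_of_ts a b hab k K h1
    rw [finrank_top, hdim] at h3
    omega
  have hσ : Cfsg.Agent.Lib.OTS.PlusOn (Cfsg.Agent.Lib.OrthoCount.qMinus k a b) ⊤ ↔ Even 1 := ⟨fun h => absurd h hnplus, fun h => absurd h (by decide)⟩
  have hrΩ' : r ∣ Nat.card {W : Submodule F ((Fin k ⊕ Fin k) ⊕ Fin 2 → F) // Module.finrank F W = m ∧ Cfsg.Agent.Lib.OTS.TS (Cfsg.Agent.Lib.OrthoCount.qMinus k a b) W} := by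
    rw [hfun] at hrΩ
    exact hrΩ
  obtain ⟨hrp, j, hjm, hjd⟩ := Cfsg.Agent.Lib.OTS.prime_dvd_card_ts_even (p := p) (ε := -1) (by norm_num) (d' := k) hnd hdim
    (by rw [Cfsg.Agent.Lib.OrthoCount.zeros_minus a b hab]; ring) (by omega) hrΩ'
  have hrF : (r : F) ≠ 0 := Cfsg.Agent.Lib.PrimOrder.natCast_ne_zero_of_ne hr Fact.out hrp
  have hconv : ∀ x : GL ((Fin k ⊕ Fin k) ⊕ Fin 2) F,
      (∃ W : Submodule F ((Fin k ⊕ Fin k) ⊕ Fin 2 → F), (Module.finrank F ↥W = m ∧ Cfsg.Geo.IsTotallySingularQuad (Cfsg.quadFormMinus k F a b) W) ∧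
        W.map (Matrix.toLin' (x : Matrix ((Fin k ⊕ Fin k) ⊕ Fin 2) ((Fin k ⊕ Fin k) ⊕ Fin 2) F)) ≤ W) ↔
      ∃ W : Submodule F ((Fin k ⊕ Fin k) ⊕ Fin 2 → F), Cfsg.Agent.Lib.IsomBlock.InvOn (Matrix.toLin' (x : Matrix ((Fin k ⊕ Fin k) ⊕ Fin 2) ((Fin k ⊕ Fin k) ⊕ Fin 2) F)) W ∧
        Cfsg.Agent.Lib.OTS.TS (Cfsg.Agent.Lib.OrthoCount.qMinus k a b) W ∧ Module.finrank F W = m := by
    intro x
    constructor
    · rintro ⟨W, ⟨h1, h2⟩, h3⟩
      refine ⟨W, fun v hv => h3 (Submodule.mem_map_of_mem hv), fun w hw => ?_, h1⟩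
      rw [Cfsg.Agent.Lib.OrthoCount.qMinus_apply]
      exact h2 w hw
    · rintro ⟨W, h1, h2, h3⟩
      refine ⟨W, ⟨h3, fun w hw => ?_⟩, ?_⟩
      · rw [← Cfsg.Agent.Lib.OrthoCount.qMinus_apply]
        exact h2 w hw
      · rintro _ ⟨v, hv, rfl⟩
        exact h1 v hv
  by_cases hr2 : r = 2
  · subst hr2
    have hp2 : p ≠ 2 := fun h => hrp h.symm
    have h2 : (2 : F) ≠ 0 := by exact_mod_cast hrF
    have hodd : Odd (Fintype.card F) := Cfsg.Agent.Lib.OTS.odd_card_of_two_ne h2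
    constructor
    · intro H
      have H' : ∀ x : GL ((Fin k ⊕ Fin k) ⊕ Fin 2) F, x ∈ Cfsg.Geo.omegaGL (⇑(Cfsg.Agent.Lib.OrthoCount.qMinus k a b)) →
          (∃ z : F, ((x ^ 2 : GL ((Fin k ⊕ Fin k) ⊕ Fin 2) F) : Matrix ((Fin k ⊕ Fin k) ⊕ Fin 2) ((Fin k ⊕ Fin k) ⊕ Fin 2) F) = z • (1 : Matrix ((Fin k ⊕ Fin k) ⊕ Fin 2) ((Fin k ⊕ Fin k) ⊕ Fin 2) F)) →
          (∀ z : F, (x : Matrix ((Fin k ⊕ Fin k) ⊕ Fin 2) ((Fin k ⊕ Fin k) ⊕ Fin 2) F) ≠ z • (1 : Matrix ((Fin k ⊕ Fin k) ⊕ Fin 2) ((Fin k ⊕ Fin k) ⊕ Fin 2) F)) →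
          ∃ W : Submodule F ((Fin k ⊕ Fin k) ⊕ Fin 2 → F), Cfsg.Agent.Lib.IsomBlock.InvOn (Matrix.toLin' (x : Matrix ((Fin k ⊕ Fin k) ⊕ Fin 2) ((Fin k ⊕ Fin k) ⊕ Fin 2) F)) W ∧
            Cfsg.Agent.Lib.OTS.TS (Cfsg.Agent.Lib.OrthoCount.qMinus k a b) W ∧ Module.finrank F W = m := by
        intro x hx h1 h3
        rw [← hfun] at hx
        exact (hconv x).mp (H x hx h1 h3)
      left
      refine ⟨rfl, hp2, ?_⟩
      by_contra hcon
      push Not at hcon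
      obtain ⟨hde, hme, hq8⟩ := hcon
      have hq3 : Fintype.card F % 4 = 3 := by omega
      have hsq := Cfsg.Agent.Lib.OTS.no_sq_of_mod4 hq3
      obtain ⟨T, hQT, hT2⟩ := Cfsg.Agent.Lib.OTS.exists_J_minus h2 hq3 (Nat.not_even_iff_odd.mp hde) a b hab
      refine hme (Cfsg.Agent.Lib.OTS.J_forward h2 hQnd hF hnd hsq hdim (by omega) ?_ hQT hT2 H')
      have h2sq : IsSquare (2 : F) := by
        rw [FiniteField.isSquare_two_iff]
        omega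
      exact h2sq.pow _
    · rintro (⟨-, -, hcase⟩ | ⟨-, h, -⟩ | ⟨-, h, -⟩)
      · intro x hx h1 _
        rw [hfun] at hx
        exact (hconv x).mpr (Cfsg.Agent.Lib.OTS.back_two_minus h2 hQnd hF hnd hdim hmd hnplus hodd hcase x hx h1)
      · omega
      · omega
  · have h2r : 2 < r := by
      have := hr.two_le
      omega
    have hr0 : r ≠ 0 := hr.ne_zero
    constructor
    · intro H
      have h1 := Cfsg.Agent.Lib.OTS.forward_generic (Cfsg.Agent.Lib.OrthoCount.qMinus k a b) hQnd hF hnd (σ := 1) (ε := -1) (i := i) (by simp) hcι hdim (by omega) hσ hr2 hrF hr0 hm (by omega) hi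
        ⟨j, hjm, by
          have e1 : k + 1 - j - 1 = k - j := by omega
          rw [e1]
          simpa using hjd⟩
        (fun a' ha hinv hle hP => by
          rw [← hfun]
          exact Cfsg.Agent.S2675.minus_hex hab hr2 hrF hr0 (Cfsg.Agent.Lib.OTS.q_ne_zero_zmod hrF) a' ha hinv hle hP)
        (fun x hx h1 h3 => by
          rw [← hfun] at hx
          exact (hconv x).mp (H x hx h1 h3))
      right
      rcases h1 with ⟨hie, him, h3⟩ | ⟨hie, him, ht, h3⟩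
      · left
        rw [if_neg hie] at hc
        subst hc
        refine ⟨hrp, h2r, Nat.not_even_iff_odd.mp hie, him, ?_⟩
        rcases h3 with ⟨h5, -⟩ | ⟨-, h4⟩
        · exact absurd h5 (by decide)
        · exact h4
      · right
        rw [if_pos hie] at hc
        subst hc
        refine ⟨hrp, h2r, hie, him, ht, ?_⟩
        have e1 : ∀ n : ℕ, (Odd (n + 1) ↔ Even n) := fun n => by
          rw [Nat.odd_add_one, Nat.not_odd_iff_even]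
        have e2 : ∀ n : ℕ, (Even (n + 1) ↔ Odd n) := fun n => by
          rw [Nat.even_add_one, Nat.not_even_iff_odd]
        simpa only [e1, e2] using h3
    · rintro (⟨h, -⟩ | ⟨-, -, hio, him, hk⟩ | ⟨-, -, hie, him, ht, hcase⟩)
      · exact absurd h hr2
      · intro x hx h1 _
        rw [hfun] at hx
        have hie : ¬ Even i := Nat.not_even_iff_odd.mpr hio
        rw [if_neg hie] at hc
        subst hc
        exact (hconv x).mpr (Cfsg.Agent.Lib.OTS.backward_odd _ hnd hdim (by omega) hr2 hrF hi hie (Or.inr ⟨hnplus, hk, by omega⟩) x hx h1)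
      · intro x hx h1 _
        rw [hfun] at hx
        rw [if_pos hie] at hc
        subst hc
        have e1 : ∀ n : ℕ, (Odd (n + 1) ↔ Even n) := fun n => by
          rw [Nat.odd_add_one, Nat.not_odd_iff_even]
        have e2 : ∀ n : ℕ, (Even (n + 1) ↔ Odd n) := fun n => by
          rw [Nat.even_add_one, Nat.not_even_iff_odd]
        exact (hconv x).mpr (Cfsg.Agent.Lib.OTS.backward_even _ hnd hdim (by omega) hσ hr2 hrF hi hie ht (by simpa only [e1, e2] using hcase) x hx h1)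


end Cfsg.Agent.S5987
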