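import Cfsg.Statements.S5988
import Cfsg.Agent.Lib.EvP99

set_option autoImplicit false
open scoped MatrixGroups
open Cfsg

namespace Cfsg.Agent.S5988


open Module QuadraticMap Matrix
open Cfsg.Agent.Lib.QuadFF Cfsg.Agent.Lib.IsomBlock Cfsg.Agent.Lib.HypEll Cfsg.Agent.Lib.EvT99 Cfsg.Agent.Lib.EvBlock99
open Cfsg.Agent.Lib.OrthoCount Cfsg.Agent.Lib.OrthMatrix Cfsg.Agent.Lib.EvElt99 Cfsg.Agent.Lib.EvTwo99 Cfsg.Agent.Lib.EvTwoP99
open Cfsg.Agent.Lib.EvMain99 Cfsg.Agent.Lib.EvCount99 Cfsg.Agent.Lib.EvUni99 Cfsg.Agent.Lib.HypLevi Cfsg.Agent.Lib.EvP99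

section aux

variable {F : Type*} [Field F] [Fintype F] {d m r : ℕ}

theorem dvd_of_pow {q r e : ℕ} (h : r ∣ q ^ e - 1) (hq : 0 < q) : orderOf (q : ZMod r) ∣ e := by
  apply orderOf_dvd_of_pow_eq_one
  have h1 : ((q ^ e - 1 : ℕ) : ZMod r) = 0 := (ZMod.natCast_eq_zero_iff _ _).2 h
  rw [Nat.cast_sub (Nat.one_le_pow _ _ hq)] at h1
  push_cast at h1
  exact sub_eq_zero.1 h1

theorem count_plus (p : ℕ) [Fact p.Prime] [CharP F p] [hrf : Fact r.Prime] (hrF : (r : F) ≠ 0) (hme : Even m) (hm : 2 ≤ m) (hmd : m < d)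
    (hrΩ : r ∣ Nat.card (TSet (qPlus d F) m true)) :
    orderOf ((Fintype.card F : ℕ) : ZMod r) ∣ d ∨ orderOf ((Fintype.card F : ℕ) : ZMod r) ∣ (d - m / 2) ∨
      ∃ j, d - m / 2 < j ∧ j ≤ d - 1 ∧ orderOf ((Fintype.card F : ℕ) : ZMod r) ∣ 2 * j := by
  obtain ⟨D, rfl⟩ : ∃ D, d = D + 1 := ⟨d - 1, by omega⟩
  obtain ⟨A, rfl⟩ : ∃ A, m = 2 * (A + 1) := by
    obtain ⟨a, ha⟩ := hme
    exact ⟨a - 1, by omega⟩
  obtain ⟨b, hb⟩ : ∃ b, A + b + 1 = D := ⟨D - A - 1, by omega⟩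
  have hV := isT_plus_top (F := F) (D + 1)
  have hND : ND (qPlus (D + 1) F) := fun u h => by
    by_contra hne
    obtain ⟨y, hy⟩ := Cfsg.Agent.Lib.OrthoOrder.nondeg_qPlus (D + 1) u hne
    exact hy (h y)
  obtain ⟨W, _, hE, hWd⟩ := exists_ell_sub' (qPlus (D + 1) F) A hV.nd (by rw [finrank_top, finrank_plus]; omega)
  let W₀ : TSet (qPlus (D + 1) F) (2 * (A + 1)) true := ⟨W, hWd, hE⟩
  have hrq : ¬ r ∣ Fintype.card F := by
    rw [← ZMod.natCast_eq_zero_iff]
    exact card_ne_zero (p := p) hrF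
  have hqpos : 0 < Fintype.card F := Fintype.card_pos
  rcases count_dvd hND hV (finrank_plus _) hb W₀ hrf.out hrq hrΩ with h | h | ⟨j, h1, h3, h⟩
  · left
    exact dvd_of_pow h hqpos
  · right
    left
    have e : D + 1 - 2 * (A + 1) / 2 = b + 1 := by omega
    rw [e]
    exact dvd_of_pow h hqpos
  · right
    right
    exact ⟨j, by omega, by omega, dvd_of_pow h hqpos⟩

theorem key_forward (p : ℕ) [Fact p.Prime] [CharP F p] [hrf : Fact r.Prime] (hr2 : r ≠ 2) (hrF : (r : F) ≠ 0) (hd : 4 ≤ d)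
    (hs : 0 < (2 * d) / blockDim r (Fintype.card F))
    (hP : blockDim r (Fintype.card F) * ((2 * d) / blockDim r (Fintype.card F)) = 2 * d → ((Fintype.card F : ℕ) : ZMod r) ^ d = 1)
    (H : ElusiveP F d m r true) :
    m % blockDim r (Fintype.card F) ≤ (2 * d) % blockDim r (Fintype.card F) ∧
      (m % blockDim r (Fintype.card F) = 0 → true = tau r (Fintype.card F) (m / blockDim r (Fintype.card F))) ∧
      (m % blockDim r (Fintype.card F) = (2 * d) % blockDim r (Fintype.card F) →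
        true = xor (xor false (tau r (Fintype.card F) ((2 * d) / blockDim r (Fintype.card F)))) (tau r (Fintype.card F) (m / blockDim r (Fintype.card F)))) := by
  obtain ⟨x, hx, h1, h3, hfix⟩ := exists_x_plus p hd hr2 hrF hs (Nat.mul_div_le _ _) hP
  obtain ⟨v₀, hv₀⟩ := exists_v' (F := F) hd
  obtain ⟨W, ⟨h5, h6⟩, h7⟩ := H x hx ⟨1, by rw [h1]; simp⟩
    (not_scalar_of_odd (mem_iso_of_omega hx) (hrf.out.odd_of_ne_two hr2) h1 h3 hv₀)
  have := forward_main rfl hr2 hrF (hT_of_omega hx) (hTr_of_pow h1) (isT_plus_top d) (finrank_plus d) (by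
    have := Nat.div_add_mod (2 * d) (blockDim r (Fintype.card F))
    omega) h6 h7
  rwa [h5] at this

theorem odd_backward [hrf : Fact r.Prime] (hr2 : r ≠ 2) (hrF : (r : F) ≠ 0) (hd : 4 ≤ d) (hme : Even m) (hm0 : 0 < m) (hmd : m < d)
    (hcond : ∀ s f γ, 2 * d = f + blockDim r (Fintype.card F) * s → xor γ (tau r (Fintype.card F) s) = false → (f = 0 → γ = false) →
      (0 < m % blockDim r (Fintype.card F) → m / blockDim r (Fintype.card F) ≤ s → (m % blockDim r (Fintype.card F) < f ∨ (m % blockDim r (Fintype.card F) = f ∧ xor γ (tau r (Fintype.card F) (m / blockDim r (Fintype.card F))) = true))) ∧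
      (m % blockDim r (Fintype.card F) = 0 → m / blockDim r (Fintype.card F) ≤ s → (tau r (Fintype.card F) (m / blockDim r (Fintype.card F)) = true ∨ blockDim r (Fintype.card F) < f ∨
        (blockDim r (Fintype.card F) = f ∧ xor γ (tau r (Fintype.card F) (m / blockDim r (Fintype.card F) - 1)) = true)))) :
    ElusiveP F d m r true := by
  intro x hx ⟨z, hz⟩ hne
  obtain ⟨v₀, hv₀⟩ := exists_v' (F := F) hd
  obtain ⟨T, hT, hTr, _, hI⟩ := odd_reduce (mem_iso_of_omega hx) (hrf.out.odd_of_ne_two hr2) hz hne hv₀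
  obtain ⟨W, h1, h3, h4⟩ := backward_main rfl hr2 hrF hT hTr (isT_plus_top d) (finrank_plus d) hm0 (by omega) hme hcond
  exact ⟨W, ⟨h3, h1⟩, hI W h4⟩

theorem pow_of_dvd {q r d i w : ℕ} (hi : orderOf (q : ZMod r) = i) (h : d = i * w) : (q : ZMod r) ^ d = 1 := by
  rw [h, pow_mul, ← hi, pow_orderOf_eq_one, one_pow]

end aux

/-- Elements of prime order of PΩ⁺_n(q) with no fixed elliptic `m`-space. Here `T = PΩ⁺_n(F)`, `n = 2d ≥ 8`, realised through `Ω⁺_n(q)`, the commutator subgroup of the isometry group of `Q = Σ xᵢyᵢ` over the field `F` with `q` elements; an element of `T` of prime order `r` is an element `x` of `Ω⁺_n(q)` with `x^r` scalar and `x` not scalar; a nondegenerate `m`-space (even `m`) is a subspace on which the polar form of `Q` is nondegenerate; it is hyperbolic if it contains an `m/2`-dimensional subspace on which `Q` vanishes, elliptic otherwise. Let `m` be even with `2 ≤ m < n/2` and let `r` be a prime dividing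 the number of elliptic `m`-spaces; for `r ≠ p` let `i` be the multiplicative order of `q` modulo `r`, `c = i` for `i` even and `c = 2i` for `i` odd, and write `k = n mod c`, `ℓ = m mod i`, `ℓ' = m mod c`, `n' = ⌊n/i⌋`, `m' = ⌊m/i⌋`, `t = (r−1)/i`. Then every element of `T` of order `r` fixes some elliptic `m`-space if and only if one of: (i) `r = 2 ≠ p` and either `n ≡ 0 (mod 4)`, `q ≡ 3 (mod 4)` and `m ≡ 2 (mod 4)`, or `n ≡ 2 (mod 4)` and `q ≢ 1 (mod 8)`; (ii) `r ≠ p` odd, `i` odd, `c ≤ m` and `k > ℓ' > 0`; (iii) `r ≠ p` odd, `i` even, and either `k = 0` and (`n/i` odd, or `ℓ' = 0` and `m/i` odd), or `i ≤ m` and (`k > ℓ' > 0`, or `k = ℓ' > 0` and `(n + m − 2k)/i` odd, or `k > ℓ' = 0` and `m/i` odd). (For `r = p` there is always an element of order `p` fixing no elliptic `m`-space.) -/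
theorem result {F : Type*} [Field F] [Fintype F] {p : ℕ} [Fact p.Prime] [CharP F p] {q : ℕ} (hq : Fintype.card F = q)
    (d m : ℕ) (hd : 4 ≤ d) (hm : 2 ≤ m) (hme : Even m) (hmd : m < d)
    (r : ℕ) [Fact r.Prime]
    (hrΩ : r ∣ Nat.card {W : Submodule F (Fin d ⊕ Fin d → F) // Module.finrank F ↥W = m ∧ Cfsg.Geo.IsNondegenerateOn (QuadraticMap.polar (Cfsg.quadFormPlus d F)) W ∧ ¬ Cfsg.Geo.IsPlusTypeOn (Cfsg.quadFormPlus d F) W})
    (i c : ℕ) (hi : i = orderOf (q : ZMod r)) (hc : c = if Even i then i else 2 * i) :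
    (∀ x : GL (Fin d ⊕ Fin d) F, x ∈ Cfsg.Geo.omegaGL (Cfsg.quadFormPlus d F) →
      (∃ z : F, ((x ^ r : GL (Fin d ⊕ Fin d) F) : Matrix (Fin d ⊕ Fin d) (Fin d ⊕ Fin d) F) = z • (1 : Matrix (Fin d ⊕ Fin d) (Fin d ⊕ Fin d) F)) →
      (∀ z : F, (x : Matrix (Fin d ⊕ Fin d) (Fin d ⊕ Fin d) F) ≠ z • (1 : Matrix (Fin d ⊕ Fin d) (Fin d ⊕ Fin d) F)) →
      ∃ W : Submodule F (Fin d ⊕ Fin d → F), (Module.finrank F ↥W = m ∧ Cfsg.Geo.IsNondegenerateOn (QuadraticMap.polar (Cfsg.quadFormPlus d F)) W ∧ ¬ Cfsg.Geo.IsPlusTypeOn (Cfsg.quadFormPlus d F) W) ∧ W.map (Matrix.toLin' (x : Matrix (Fin d ⊕ Fin d) (Fin d ⊕ Fin d) F)) ≤ W) ↔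
    ((r = 2 ∧ p ≠ 2 ∧ ((Even d ∧ q % 4 = 3 ∧ m % 4 = 2) ∨ (Odd d ∧ q % 8 ≠ 1))) ∨
     (r ≠ p ∧ 2 < r ∧ Odd i ∧ c ≤ m ∧ 0 < m % c ∧ m % c < (2 * d) % c) ∨
     (r ≠ p ∧ 2 < r ∧ Even i ∧
       (((2 * d) % c = 0 ∧ (Odd ((2 * d) / i) ∨ (m % c = 0 ∧ Odd (m / i)))) ∨
        (i ≤ m ∧ ((0 < m % c ∧ m % c < (2 * d) % c) ∨
                  (0 < m % c ∧ m % c = (2 * d) % c ∧ Odd ((2 * d + m - 2 * ((2 * d) % c)) / i)) ∨
                  (m % c = 0 ∧ 0 < (2 * d) % c ∧ Odd (m / i))))))) := by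
  classical
  subst hq
  have hE : (∀ x : GL (Fin d ⊕ Fin d) F, x ∈ Cfsg.Geo.omegaGL (Cfsg.quadFormPlus d F) →
      (∃ z : F, ((x ^ r : GL (Fin d ⊕ Fin d) F) : Matrix (Fin d ⊕ Fin d) (Fin d ⊕ Fin d) F) = z • (1 : Matrix (Fin d ⊕ Fin d) (Fin d ⊕ Fin d) F)) →
      (∀ z : F, (x : Matrix (Fin d ⊕ Fin d) (Fin d ⊕ Fin d) F) ≠ z • (1 : Matrix (Fin d ⊕ Fin d) (Fin d ⊕ Fin d) F)) →
      ∃ W : Submodule F (Fin d ⊕ Fin d → F), (Module.finrank F ↥W = m ∧ Cfsg.Geo.IsNondegenerateOn (QuadraticMap.polar (Cfsg.quadFormPlus d F)) W ∧ ¬ Cfsg.Geo.IsPlusTypeOn (Cfsg.quadFormPlus d F) W) ∧ W.map (Matrix.toLin' (x : Matrix (Fin d ⊕ Fin d) (Fin d ⊕ Fin d) F)) ≤ W) ↔ ElusiveP F d m r true := by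
    simp only [← Cfsg.Agent.S5985.hf_plus, ell_set_iff hme, map_le_iff]
    rfl
  rw [hE]
  have hrΩ' : r ∣ Nat.card (TSet (qPlus d F) m true) := by
    have h1 : Nat.card {W : Submodule F (Fin d ⊕ Fin d → F) // Module.finrank F ↥W = m ∧ Cfsg.Geo.IsNondegenerateOn (QuadraticMap.polar (Cfsg.quadFormPlus d F)) W ∧ ¬ Cfsg.Geo.IsPlusTypeOn (Cfsg.quadFormPlus d F) W} = Nat.card (TSet (qPlus d F) m true) := by
      apply Nat.card_congr
      apply Equiv.subtypeEquivRight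
      intro W
      simp only [← Cfsg.Agent.S5985.hf_plus]
      exact ell_set_iff hme W
    rwa [h1] at hrΩ
  have hp := (Fact.out : p.Prime)
  have hr := (Fact.out : r.Prime)
  have hm0 : 0 < m := by omega
  by_cases hrp : r = p
  · subst hrp
    constructor
    · intro H
      exact absurd H (not_elusive_p r hd hme)
    · rintro (⟨_, h, _⟩ | ⟨h, _⟩ | ⟨h, _⟩)
      · exact absurd ‹r = 2› (by rintro rfl; exact h rfl)
      · exact absurd rfl h
      · exact absurd rfl h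
  have hrF : (r : F) ≠ 0 := by
    intro h
    rw [CharP.cast_eq_zero_iff F p] at h
    exact hrp ((Nat.prime_dvd_prime_iff_eq hp hr).1 h).symm
  by_cases hr2 : r = 2
  · subst hr2
    have h2 : (2 : F) ≠ 0 := by exact_mod_cast hrF
    constructor
    · intro H
      exact Or.inl ⟨rfl, fun h => hrp h.symm, two_forward rfl h2 hd hme H⟩
    · rintro (⟨_, _, h⟩ | ⟨_, h, _⟩ | ⟨_, h, _⟩)
      · exact two_backward rfl h2 hd hme hm0 hmd h
      · omega
      · omega
  have hr3 : 2 < r := by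
    have := hr.two_le
    omega
  have hcount := count_plus p hrF hme hm hmd hrΩ'
  have hcb : blockDim r (Fintype.card F) = c := by
    rw [hc, hi]
    rfl
  have hc0 : 0 < c := by
    rw [← hcb]
    exact blockDim_pos rfl hrF
  rw [← hi] at hcount
  have hi0 : orderOf ((Fintype.card F : ℕ) : ZMod r) = i := hi.symm
  rcases Nat.even_or_odd i with hev | hodd
  · have hev' : Even (orderOf ((Fintype.card F : ℕ) : ZMod r)) := by rw [hi0]; exact hev
    have hci : c = i := by rw [hc, if_pos hev]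
    subst hci
    constructor
    · intro H
      refine Or.inr (Or.inr ⟨hrp, hr3, hev, ?_⟩)
      by_cases hA : (2 * d) % c = 0 ∧ Odd ((2 * d) / c)
      · exact Or.inl ⟨hA.1, Or.inl hA.2⟩
      · obtain ⟨e, he1, he2, he3, he4⟩ := mult_exists (c := c) (i := c) (Or.inl ⟨hev, rfl⟩) hme hmd hcount
        obtain ⟨hs, hk⟩ := s0_k0 hc0 he1 he2 he3 he4 (by omega)
        have hP : c * ((2 * d) / c) = 2 * d → ((Fintype.card F : ℕ) : ZMod r) ^ d = 1 := by
          intro h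
          have h0 : (2 * d) % c = 0 := Nat.mod_eq_zero_of_dvd ⟨_, h.symm⟩
          have h3 : ¬ Odd ((2 * d) / c) := fun h4 => hA ⟨h0, h4⟩
          rw [Nat.not_odd_iff_even] at h3
          obtain ⟨w, hw⟩ := h3
          refine pow_of_dvd hi0 (w := w) ?_
          rw [hw] at h
          have : c * (w + w) = 2 * (c * w) := by ring
          omega
        rw [← hcb] at hs hP
        obtain ⟨h1, h0, h3⟩ := key_forward p hr2 hrF hd hs hP H
        rw [hcb] at h1 h0 h3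
        rw [tau_even hev'] at h0 h3
        rw [tau_even hev'] at h3
        rcases fwd_even hc0 rfl hm0 hme hmd hk hcount h1 h0 h3 with h | h
        · exact Or.inl ⟨h.1, Or.inr h.2⟩
        · exact Or.inr h
    · rintro (⟨h, _⟩ | ⟨_, _, h, _⟩ | ⟨_, _, _, h⟩)
      · exact absurd h hr2
      · exact absurd hev (Nat.not_even_iff_odd.2 h)
      · apply odd_backward hr2 hrF hd hme hm0 hmd
        rw [hcb]
        simp only [tau_even hev']
        apply back_cond_even hc0 hm0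
        rcases h with h | ⟨_, h⟩
        · exact Or.inl h
        · exact Or.inr h
  · have hev : ¬ Even i := Nat.not_even_iff_odd.2 hodd
    have hev' : ¬ Even (orderOf ((Fintype.card F : ℕ) : ZMod r)) := by rw [hi0]; exact hev
    have hci : c = 2 * i := by rw [hc, if_neg hev]
    constructor
    · intro H
      refine Or.inr (Or.inl ⟨hrp, hr3, hodd, ?_⟩)
      obtain ⟨e, he1, he2, he3, he4⟩ := mult_exists (c := c) (i := i) (Or.inr ⟨hev, hci⟩) hme hmd hcount
      obtain ⟨hs, hk⟩ := s0_k0 hc0 he1 he2 he3 he4 (by omega)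
      have hP : c * ((2 * d) / c) = 2 * d → ((Fintype.card F : ℕ) : ZMod r) ^ d = 1 := by
        intro h
        refine pow_of_dvd hi0 (w := (2 * d) / c) ?_
        have h5 : c * ((2 * d) / c) = 2 * (i * ((2 * d) / c)) := by
          rw [hci]
          ring
        omega
      rw [← hcb] at hs hP
      obtain ⟨h1, h0, h3⟩ := key_forward p hr2 hrF hd hs hP H
      rw [hcb] at h1 h0 h3
      rw [tau_odd hev'] at h0 h3
      rw [tau_odd hev'] at h3
      exact fwd_odd hc0 hk h1 h0 h3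
    · rintro (⟨h, _⟩ | ⟨_, _, _, _, h1, h3⟩ | ⟨_, _, h, _⟩)
      · exact absurd h hr2
      · apply odd_backward hr2 hrF hd hme hm0 hmd
        rw [hcb]
        simp only [tau_odd hev']
        exact back_cond_odd h1 h3
      · exact absurd h hev

end Cfsg.Agent.S5988
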