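import Mathlib
import Cfsg.Statements.S5989
import Cfsg.Agent.Lib.OddSubFinal
-- import your own Cfsg.Agent.* helpers here

set_option autoImplicit false
open scoped MatrixGroups
open Cfsg

namespace Cfsg.Agent.S5989

/-- Elements of prime order of PΩ⁺_n(q), q odd, with no fixed nondegenerate `m`-space of odd dimension. Here `T = PΩ⁺_n(F)`, `n = 2d ≥ 8`, realised through `Ω⁺_n(q)`, the commutator subgroup of the isometry group of `Q = Σ xᵢyᵢ` over the field `F` with `q` elements; an element of `T` of prime order `r` is an element `x` of `Ω⁺_n(q)` with `x^r` scalar and `x` not scalar; `q` and `m` are odd, `1 ≤ m < n/2`. The nondegenerate `m`-spaces (subspaces on which the polar form is nondegenerate) fall into two isometry classes, each an orbit of `T`, and the two actions are equivalent; fix one such space `W₀` and let Ω be the set of nondegenerate `m`-spaces isometric to `W₀` (some linear isomorphism preserves `Q`). Let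 `r` be a prime dividing the size of Ω; for `r ≠ p` let `i` be the multiplicative order of `q` modulo `r`, `c = i` for `i` even and `c = 2i` for `i` odd, and write `k = n mod c`, `ℓ = m mod i`, `ℓ' = m mod c`, `n' = ⌊n/i⌋`, `m' = ⌊m/i⌋`, `t = (r−1)/i`. Then every element of `T` of order `r` fixes a member of Ω if and only if one of: (i) `r = 2`, `n ≡ 2 (mod 4)` and `q ≢ 1 (mod 8)`; (ii) `r ≠ p` odd, `i` odd, `c ≤ m` and `k > ℓ' > 0`; (iii) `r ≠ p` odd, `i` even, and either `k = 0` and `n/i` odd, or `i ≤ m` and `k > ℓ' > 0`. (For `r = p` there is always an element of order `p` fixing no member of Ω.) -/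
theorem result {F : Type*} [Field F] [Fintype F] {p : ℕ} [Fact p.Prime] [CharP F p] {q : ℕ} (hq : Fintype.card F = q)
    (hodd : Odd q) (d m : ℕ) (hd : 4 ≤ d) (hm : Odd m) (hmd : m < d)
    (W₀ : Submodule F (Fin d ⊕ Fin d → F)) (hW₀ : Module.finrank F ↥W₀ = m ∧ Cfsg.Geo.IsNondegenerateOn (QuadraticMap.polar (Cfsg.quadFormPlus d F)) W₀)
    (r : ℕ) [Fact r.Prime]
    (hrΩ : r ∣ Nat.card {W : Submodule F (Fin d ⊕ Fin d → F) // Module.finrank F ↥W = m ∧ Cfsg.Geo.IsNondegenerateOn (QuadraticMap.polar (Cfsg.quadFormPlus d F)) W ∧ Cfsg.Geo.AreIsometricFor (Cfsg.quadFormPlus d F) W W₀})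
    (i c : ℕ) (hi : i = orderOf (q : ZMod r)) (hc : c = if Even i then i else 2 * i) :
    (∀ x : GL (Fin d ⊕ Fin d) F, x ∈ Cfsg.Geo.omegaGL (Cfsg.quadFormPlus d F) →
      (∃ z : F, ((x ^ r : GL (Fin d ⊕ Fin d) F) : Matrix (Fin d ⊕ Fin d) (Fin d ⊕ Fin d) F) = z • (1 : Matrix (Fin d ⊕ Fin d) (Fin d ⊕ Fin d) F)) →
      (∀ z : F, (x : Matrix (Fin d ⊕ Fin d) (Fin d ⊕ Fin d) F) ≠ z • (1 : Matrix (Fin d ⊕ Fin d) (Fin d ⊕ Fin d) F)) →
      ∃ W : Submodule F (Fin d ⊕ Fin d → F), (Module.finrank F ↥W = m ∧ Cfsg.Geo.IsNondegenerateOn (QuadraticMap.polar (Cfsg.quadFormPlus d F)) W ∧ Cfsg.Geo.AreIsometricFor (Cfsg.quadFormPlus d F) W W₀) ∧ W.map (Matrix.toLin' (x : Matrix (Fin d ⊕ Fin d) (Fin d ⊕ Fin d) F)) ≤ W) ↔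
    ((r = 2 ∧ Odd d ∧ q % 8 ≠ 1) ∨
     (r ≠ p ∧ 2 < r ∧ Odd i ∧ c ≤ m ∧ 0 < m % c ∧ m % c < (2 * d) % c) ∨
     (r ≠ p ∧ 2 < r ∧ Even i ∧ (((2 * d) % c = 0 ∧ Odd ((2 * d) / i)) ∨ (i ≤ m ∧ 0 < m % c ∧ m % c < (2 * d) % c)))) := by
  classical
  open Cfsg.Agent.Lib.HypBridge Cfsg.Agent.Lib.HypModel Cfsg.Agent.Lib.IsomBlock Cfsg.Agent.Lib.OddSubMain Cfsg.Agent.Lib.OddSubModel Cfsg.Agent.Lib.OddSub Cfsg.Agent.Lib.HypEll Cfsg.Agent.Lib.OddSubFinal Cfsg.Agent.Lib.OddSubTwo Cfsg.Agent.Lib.OddSubUni Cfsg.Agent.Lib.OrthoCount Cfsg.Agent.Lib.QuadClass2 in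
  have hodd' : Odd (Fintype.card F) := hq ▸ hodd
  have h2 := two_ne hodd'
  have hrpr : r.Prime := Fact.out
  have hp : Odd p := Cfsg.Agent.Lib.JWall99.odd_char_of_card hq hodd
  have hf : ⇑(qPlus d F) = Cfsg.quadFormPlus d F := funext (qPlus_apply d)
  rw [← hf] at hW₀ hrΩ ⊢
  show HOdd (qPlus d F) W₀ r m ↔ _
  have hND : Cfsg.Agent.Lib.QuadFF.ND (qPlus d F) := Cfsg.Agent.Lib.QuadFF.ND_of_nondegenerate (Cfsg.Agent.Lib.HypLevi.hQ_qPlus d)
  have hfin : Module.finrank F (Fin d ⊕ Fin d → F) = 2 * d := by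
    simp
    ring
  have hTop : Hyp (qPlus d F) ⊤ := ⟨ndOn_top hND, L0 d F, le_top, fun v hv => qPlus_L0 hv, by rw [finrank_L0, finrank_top, hfin]⟩
  obtain ⟨t, rfl⟩ := hm
  obtain ⟨α, hα⟩ := cs_exists h2 ((ndOn_iff' _).1 hW₀.2) hW₀.1
  by_cases hr2 : r = 2
  · subst hr2
    rw [two_plus h2 hND hTop hq hodd hfin hmd ⟨t, rfl⟩ hα hW₀.1]
    constructor
    · exact fun h => Or.inl ⟨rfl, h⟩
    · rintro (⟨_, h⟩ | ⟨_, h, _⟩ | ⟨_, h, _⟩)
      · exact h
      · omega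
      · omega
  by_cases hrp : r = p
  · subst hrp
    constructor
    · intro H
      exfalso
      rcases Nat.even_or_odd d with hev | hoo
      · exact not_HOdd_plus_even hp hev (by omega) hα hW₀.1 ⟨t, rfl⟩ H
      · exact not_HOdd_odd hp hND hfin hoo (by omega) (by omega) ⟨t, rfl⟩ H
    · rintro (⟨h, _⟩ | ⟨h, _⟩ | ⟨h, _⟩)
      · exact absurd h hr2
      · exact absurd rfl h
      · exact absurd rfl h
  have hrF : (r : F) ≠ 0 := by
    intro h
    rw [CharP.cast_eq_zero_iff F p] at h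
    exact hrp ((Nat.prime_dvd_prime_iff_eq Fact.out hrpr).1 h).symm
  have h2r : 2 < r := by
    have := hrpr.two_le
    omega
  subst hi
  have hcb : c = blockDim r q := by
    rw [hc]
    rfl
  subst hcb
  rw [core_odd p h2 hND (Or.inl hTop) hq hr2 hrF hfin hmd hα hW₀.1 hrΩ]
  by_cases hiev : Even (orderOf (q : ZMod r))
  · have hci := blockDim_of_even hiev
    have hty : TypeF (qPlus d F) r q ((2 * d) / blockDim r q) ⊤ ↔ Even ((2 * d) / blockDim r q) := by
      constructor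
      · intro h
        by_contra hcon
        rw [Nat.not_even_iff_odd] at hcon
        exact not_hyp_of_ell h2 ((h.2 hiev).2 hcon) hTop
      · intro h
        exact ⟨fun h3 => absurd hiev h3, fun _ => ⟨fun _ => hTop, fun h3 => absurd h (Nat.not_even_iff_odd.2 h3)⟩⟩
    rw [hty, Nat.not_even_iff_odd]
    constructor
    · rintro ⟨h3, h4⟩
      right; right
      refine ⟨hrp, h2r, hiev, ?_⟩
      by_cases h5 : (2 * d) % blockDim r q = 0
      · left
        refine ⟨h5, ?_⟩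
        rw [← hci]
        exact h4 h5
      · right
        obtain ⟨h6, h7, h8⟩ := h3 (Nat.pos_of_ne_zero h5)
        exact ⟨by rw [← hci]; exact h6, h7, h8⟩
    · rintro (⟨h, _⟩ | ⟨_, _, h, _⟩ | ⟨_, _, _, h⟩)
      · exact absurd h hr2
      · exact absurd hiev (Nat.not_even_iff_odd.2 h)
      · rcases h with ⟨h3, h4⟩ | ⟨h3, h4, h5⟩
        · refine ⟨fun h5 => by omega, fun _ => ?_⟩
          rw [hci]
          exact h4
        · refine ⟨fun _ => ⟨by rw [hci]; exact h3, h4, h5⟩, fun h6 => by omega⟩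
  · have hty : TypeF (qPlus d F) r q ((2 * d) / blockDim r q) ⊤ :=
      ⟨fun _ => hTop, fun h3 => absurd h3 hiev⟩
    constructor
    · rintro ⟨h3, h4⟩
      right; left
      have h5 : (2 * d) % blockDim r q ≠ 0 := fun h => h4 h hty
      obtain ⟨h6, h7, h8⟩ := h3 (Nat.pos_of_ne_zero h5)
      exact ⟨hrp, h2r, Nat.not_even_iff_odd.1 hiev, h6, h7, h8⟩
    · rintro (⟨h, _⟩ | ⟨_, _, _, h3, h4, h5⟩ | ⟨_, _, h, _⟩)
      · exact absurd h hr2
      · exact ⟨fun _ => ⟨h3, h4, h5⟩, fun h6 => by omega⟩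
      · exact absurd h hiev

end Cfsg.Agent.S5989
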