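import Cfsg.Statements.S5990
import Cfsg.Agent.Lib.EvN99

set_option autoImplicit false
open scoped MatrixGroups
open Cfsg

namespace Cfsg.Agent.S5990


open Module QuadraticMap Matrix
open Cfsg.Agent.Lib.QuadFF Cfsg.Agent.Lib.IsomBlock Cfsg.Agent.Lib.HypEll Cfsg.Agent.Lib.EvT99 Cfsg.Agent.Lib.EvBlock99
open Cfsg.Agent.Lib.OrthoCount Cfsg.Agent.Lib.OrthMatrix Cfsg.Agent.Lib.EvElt99 Cfsg.Agent.Lib.EvTwo99 Cfsg.Agent.Lib.EvTwoP99
open Cfsg.Agent.Lib.EvMain99 Cfsg.Agent.Lib.EvCount99 Cfsg.Agent.Lib.EvUni99 Cfsg.Agent.Lib.HypLevi Cfsg.Agent.Lib.EvP99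
open Cfsg.Agent.Lib.EvInv99 Cfsg.Agent.Lib.EvQ99 Cfsg.Agent.Lib.EvMinus99 Cfsg.Agent.Lib.EvN99

section aux

variable {F : Type*} [Field F] [Fintype F] {k m r : ℕ} {a b : F}

/-- The left-hand side. -/
def ElusiveM (F : Type*) [Field F] [Fintype F] (k : ℕ) (a b : F) (m r : ℕ) : Prop :=
  ∀ x : GL ((Fin k ⊕ Fin k) ⊕ Fin 2) F, x ∈ Cfsg.Geo.omegaGL ⇑(qMinus k a b) →
    (∃ z : F, ((x ^ r : GL ((Fin k ⊕ Fin k) ⊕ Fin 2) F) : Matrix ((Fin k ⊕ Fin k) ⊕ Fin 2) ((Fin k ⊕ Fin k) ⊕ Fin 2) F) = z • (1 : Matrix ((Fin k ⊕ Fin k) ⊕ Fin 2) ((Fin k ⊕ Fin k) ⊕ Fin 2) F)) →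
    (∀ z : F, (x : Matrix ((Fin k ⊕ Fin k) ⊕ Fin 2) ((Fin k ⊕ Fin k) ⊕ Fin 2) F) ≠ z • (1 : Matrix ((Fin k ⊕ Fin k) ⊕ Fin 2) ((Fin k ⊕ Fin k) ⊕ Fin 2) F)) →
    ∃ W : Submodule F ((Fin k ⊕ Fin k) ⊕ Fin 2 → F), (finrank F W = m ∧ IsT (qMinus k a b) W true) ∧
      InvOn (Matrix.toLin' (x : Matrix ((Fin k ⊕ Fin k) ⊕ Fin 2) ((Fin k ⊕ Fin k) ⊕ Fin 2) F)) W

theorem count_minus (p : ℕ) [Fact p.Prime] [CharP F p] [hrf : Fact r.Prime] (hab : ∀ x y : F, x ^ 2 + a * x * y + b * y ^ 2 = 0 → x = 0 ∧ y = 0)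
    (hrF : (r : F) ≠ 0) (hme : Even m) (hm : 2 ≤ m) (hmn : m + 2 ≤ 2 * (k + 1))
    (hrΩ : r ∣ Nat.card (TSet (qMinus k a b) m true)) :
    r ∣ Fintype.card F ^ (k + 1) + 1 ∨ r ∣ Fintype.card F ^ (k + 1 - m / 2) + 1 ∨
      ∃ j, k + 1 - m / 2 < j ∧ j ≤ k ∧ r ∣ Fintype.card F ^ (2 * j) - 1 := by
  obtain ⟨A, rfl⟩ : ∃ A, m = 2 * (A + 1) := by
    obtain ⟨c, hc⟩ := hme
    exact ⟨c - 1, by omega⟩
  obtain ⟨t, ht⟩ : ∃ t, A + t + 1 = k := ⟨k - A - 1, by omega⟩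
  have hV : IsT (qMinus k a b) ⊤ true := isT_minus_top hab
  have hND : ND (qMinus k a b) := Cfsg.Agent.Lib.QuadClass.ND_qMinus a b hab k
  obtain ⟨W, _, hE, hWd⟩ := exists_ell_sub' (qMinus k a b) A hV.nd (by rw [finrank_top, finrank_minus]; omega)
  let W₀ : TSet (qMinus k a b) (2 * (A + 1)) true := ⟨W, hWd, hE⟩
  have hrq : ¬ r ∣ Fintype.card F := by
    rw [← ZMod.natCast_eq_zero_iff]
    exact card_ne_zero (p := p) hrF
  rcases count_dvd hND hV finrank_minus ht W₀ hrf.out hrq hrΩ with h | h | ⟨j, h1, h3, h⟩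
  · exact Or.inl h
  · right
    left
    have e : k + 1 - 2 * (A + 1) / 2 = t + 1 := by omega
    rw [e]
    exact h
  · right
    right
    exact ⟨j, by omega, by omega, h⟩

theorem key_forward_minus (p : ℕ) [Fact p.Prime] [CharP F p] [hrf : Fact r.Prime] (hab : ∀ x y : F, x ^ 2 + a * x * y + b * y ^ 2 = 0 → x = 0 ∧ y = 0)
    (hr2 : r ≠ 2) (hrF : (r : F) ≠ 0) (hk : 3 ≤ k)
    (hs : 0 < (2 * (k + 1)) / blockDim r (Fintype.card F))
    (hP : blockDim r (Fintype.card F) * ((2 * (k + 1)) / blockDim r (Fintype.card F)) = 2 * (k + 1) → ((Fintype.card F : ℕ) : ZMod r) ^ (k + 1) = -1)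
    (H : ElusiveM F k a b m r) :
    m % blockDim r (Fintype.card F) ≤ (2 * (k + 1)) % blockDim r (Fintype.card F) ∧
      (m % blockDim r (Fintype.card F) = 0 → true = tau r (Fintype.card F) (m / blockDim r (Fintype.card F))) ∧
      (m % blockDim r (Fintype.card F) = (2 * (k + 1)) % blockDim r (Fintype.card F) →
        true = xor (xor true (tau r (Fintype.card F) ((2 * (k + 1)) / blockDim r (Fintype.card F)))) (tau r (Fintype.card F) (m / blockDim r (Fintype.card F)))) := by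
  obtain ⟨x, hx, h1, h3, hfix⟩ := exists_x_minus p (by omega) hab hr2 hrF hs (Nat.mul_div_le _ _) hP
  obtain ⟨v₀, hv₀⟩ := exists_v_minus (F := F) (k := k) (a := a) (b := b)
  obtain ⟨W, ⟨h5, h6⟩, h7⟩ := H x hx ⟨1, by rw [h1]; simp⟩
    (not_scalar_of_odd (mem_iso_of_omega hx) (hrf.out.odd_of_ne_two hr2) h1 h3 hv₀)
  have := forward_main rfl hr2 hrF (hT_of_omega hx) (hTr_of_pow h1) (isT_minus_top hab) finrank_minus (by
    have := Nat.div_add_mod (2 * (k + 1)) (blockDim r (Fintype.card F))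
    omega) h6 h7
  rwa [h5] at this

theorem odd_backward_minus [hrf : Fact r.Prime] (hab : ∀ x y : F, x ^ 2 + a * x * y + b * y ^ 2 = 0 → x = 0 ∧ y = 0) (hr2 : r ≠ 2) (hrF : (r : F) ≠ 0) (hme : Even m) (hm0 : 0 < m) (hmn : m + 2 ≤ 2 * (k + 1))
    (hcond : ∀ s f γ, 2 * (k + 1) = f + blockDim r (Fintype.card F) * s → xor γ (tau r (Fintype.card F) s) = true → (f = 0 → γ = false) →
      (0 < m % blockDim r (Fintype.card F) → m / blockDim r (Fintype.card F) ≤ s → (m % blockDim r (Fintype.card F) < f ∨ (m % blockDim r (Fintype.card F) = f ∧ xor γ (tau r (Fintype.card F) (m / blockDim r (Fintype.card F))) = true))) ∧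
      (m % blockDim r (Fintype.card F) = 0 → m / blockDim r (Fintype.card F) ≤ s → (tau r (Fintype.card F) (m / blockDim r (Fintype.card F)) = true ∨ blockDim r (Fintype.card F) < f ∨
        (blockDim r (Fintype.card F) = f ∧ xor γ (tau r (Fintype.card F) (m / blockDim r (Fintype.card F) - 1)) = true)))) :
    ElusiveM F k a b m r := by
  intro x hx ⟨z, hz⟩ hne
  obtain ⟨v₀, hv₀⟩ := exists_v_minus (F := F) (k := k) (a := a) (b := b)
  obtain ⟨T, hT, hTr, _, hI⟩ := odd_reduce (mem_iso_of_omega hx) (hrf.out.odd_of_ne_two hr2) hz hne hv₀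
  obtain ⟨W, h1, h3, h4⟩ := backward_main rfl hr2 hrF hT hTr (isT_minus_top hab) finrank_minus hm0 (by omega) hme hcond
  exact ⟨W, ⟨h3, h1⟩, hI W h4⟩

theorem two_two_forward_m [CharP F 2] (hk : 3 ≤ k) (hab : ∀ x y : F, x ^ 2 + a * x * y + b * y ^ 2 = 0 → x = 0 ∧ y = 0)
    (hme : Even m) (H : ElusiveM F k a b m 2) : Even (k + 1) ∨ m % 4 = 2 := by
  by_contra hno
  push Not at hno
  obtain ⟨h1, h3⟩ := hno
  have hke : Even k := by
    rw [Nat.even_add_one, not_not] at h1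
    exact h1
  have hk4 : 4 ≤ k := by
    obtain ⟨c, hc⟩ := hke
    omega
  obtain ⟨x, hx, hx2, hxne, hW⟩ := exists_bad_minus hk4 hke hab
  obtain ⟨W, ⟨h5, h6⟩, h7⟩ := H x hx ⟨1, by rw [hx2]; simp⟩ (Cfsg.Agent.Lib.JWall99.not_scalar_of_pow hx2 hxne)
  obtain ⟨t, ht, hta⟩ := hW W h6.nd h7
  have h8 : t.bodd = true := hta.uniq h6
  rw [bodd_true_iff] at h8
  obtain ⟨c, hc⟩ := h8
  omega

theorem two_two_backward_m [CharP F 2] (hab : ∀ x y : F, x ^ 2 + a * x * y + b * y ^ 2 = 0 → x = 0 ∧ y = 0)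
    (hme : Even m) (hm : 2 ≤ m) (hmn : m + 2 ≤ 2 * (k + 1)) (hc : Even (k + 1) ∨ m % 4 = 2) : ElusiveM F k a b m 2 := by
  intro x hx ⟨z, hz⟩ hne
  have h2 : (2 : F) = 0 := CharTwo.two_eq_zero
  obtain ⟨v₀, hv₀⟩ := exists_v_minus (F := F) (k := k) (a := a) (b := b)
  have hxi := mem_iso_of_omega hx
  have hzz := scalar_sq (Subgroup.pow_mem _ hxi 2) hz hv₀
  have hz1 : z = 1 := Cfsg.Agent.S5985.eq_one_of_mul_self z hzz
  subst hz1
  set T := Matrix.toLin' (x : Matrix ((Fin k ⊕ Fin k) ⊕ Fin 2) ((Fin k ⊕ Fin k) ⊕ Fin 2) F) with hTdef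
  have hT : ∀ v, qMinus k a b (T v) = qMinus k a b v := hT_of_omega hx
  have hT2 : T ^ 2 = 1 := by
    rw [hTdef, Cfsg.Agent.Lib.EvElt99.toLin_pow, ← Units.val_pow_eq_pow_val, hz, one_smul, Matrix.toLin'_one]
    rfl
  have hT2' : ∀ v, T (T v) = v := by
    intro v
    have h9 := LinearMap.congr_fun hT2 v
    rw [pow_two] at h9
    exact h9
  have hfr := finrank_minus (F := F) (k := k)
  obtain ⟨W, h1, h3, h4⟩ := invol_ell h2 hT hT2' (isT_minus_top hab) hme hm (by rw [hfr]; omega) (by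
    rw [hfr]
    rcases hc with h | h
    · left
      obtain ⟨c, hc⟩ := h
      omega
    · exact Or.inr h)
  exact ⟨W, ⟨h3, h1⟩, h4⟩

theorem isSquare_of_odd_pow {u : F} (hu : u ≠ 0) {n : ℕ} (hn : Odd n) (h : IsSquare (u ^ n)) : IsSquare u := by
  obtain ⟨t, rfl⟩ := hn
  obtain ⟨e, he⟩ := h
  have h7 : u ^ t ≠ 0 := pow_ne_zero _ hu
  refine ⟨e / u ^ t, ?_⟩
  field_simp
  have h8 : u * (u ^ t) ^ 2 = u ^ (2 * t + 1) := by ring
  rw [h8, he]
  ring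

theorem two_odd_forward_m {q : ℕ} (hq : Fintype.card F = q) (h2 : (2 : F) ≠ 0) (hk : 3 ≤ k)
    (hab : ∀ x y : F, x ^ 2 + a * x * y + b * y ^ 2 = 0 → x = 0 ∧ y = 0) (hme : Even m)
    (H : ElusiveM F k a b m 2) : Even (k + 1) ∨ q % 8 ≠ 7 ∨ m % 4 = 2 := by
  by_contra hno
  push Not at hno
  obtain ⟨h1, h3, h4⟩ := hno
  have hke : Even k := by
    rw [Nat.even_add_one, not_not] at h1
    exact h1
  have hq4 : q % 4 = 3 := by omega
  have hsq : ∀ c : F, c * c ≠ -1 := fun c hc => ((neg_one_sq_iff hq).1 ⟨c, hc⟩) hq4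
  obtain ⟨x, hxi, hxx⟩ := exists_J_minus h2 hsq hke (by omega) hab
  have hV := isT_minus_top (k := k) hab
  have hJ : ∀ v, Matrix.toLin' (x : Matrix ((Fin k ⊕ Fin k) ⊕ Fin 2) ((Fin k ⊕ Fin k) ⊕ Fin 2) F) (Matrix.toLin' (x : Matrix ((Fin k ⊕ Fin k) ⊕ Fin 2) ((Fin k ⊕ Fin k) ⊕ Fin 2) F) v) = -v := by
    intro v
    rw [Matrix.toLin'_apply, Matrix.toLin'_apply, Matrix.mulVec_mulVec, hxx, Matrix.neg_mulVec, Matrix.one_mulVec]
  have hs2 : IsSquare (2 : F) := by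
    rw [FiniteField.isSquare_two_iff, hq]
    omega
  have hmem := (J_mem_iff (Q := qMinus k a b) hV.nd (Or.inr (by rw [finrank_minus]; omega)) h2 hxi hJ finrank_minus).2 (hs2.pow _)
  have hnon : ∀ z : F, (x : Matrix ((Fin k ⊕ Fin k) ⊕ Fin 2) ((Fin k ⊕ Fin k) ⊕ Fin 2) F) ≠ z • (1 : Matrix ((Fin k ⊕ Fin k) ⊕ Fin 2) ((Fin k ⊕ Fin k) ⊕ Fin 2) F) := by
    intro z hz
    rw [hz, smul_mul_smul_comm, mul_one] at hxx
    let j : (Fin k ⊕ Fin k) ⊕ Fin 2 := Sum.inr 0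
    have h5 := congrFun (congrFun hxx j) j
    simp [Matrix.one_apply] at h5
    exact hsq z h5
  have hx2 : ((x ^ 2 : GL ((Fin k ⊕ Fin k) ⊕ Fin 2) F) : Matrix ((Fin k ⊕ Fin k) ⊕ Fin 2) ((Fin k ⊕ Fin k) ⊕ Fin 2) F) = (-1 : F) • (1 : Matrix ((Fin k ⊕ Fin k) ⊕ Fin 2) ((Fin k ⊕ Fin k) ⊕ Fin 2) F) := by
    rw [pow_two, Units.val_mul, hxx]
    simp
  obtain ⟨W, ⟨h5, h6⟩, h7⟩ := H x hmem ⟨-1, hx2⟩ hnon
  obtain ⟨t, ht, hta⟩ := type_J h2 hsq (hT_of_omega hmem) hJ m W h5 h6.nd h7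
  have h8 : t.bodd = true := hta.uniq h6
  rw [bodd_true_iff] at h8
  obtain ⟨c, hc⟩ := h8
  obtain ⟨c', hc'⟩ := hme
  omega

theorem two_odd_backward_m {q : ℕ} (hq : Fintype.card F = q) (h2 : (2 : F) ≠ 0) (hk : 3 ≤ k)
    (hab : ∀ x y : F, x ^ 2 + a * x * y + b * y ^ 2 = 0 → x = 0 ∧ y = 0) (hme : Even m) (hm : 2 ≤ m) (hmn : m + 2 ≤ 2 * (k + 1))
    (hc : Even (k + 1) ∨ q % 8 ≠ 7 ∨ m % 4 = 2) : ElusiveM F k a b m 2 := by
  intro x hx ⟨z, hz⟩ hne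
  obtain ⟨v₀, hv₀⟩ := exists_v_minus (F := F) (k := k) (a := a) (b := b)
  have hxi := mem_iso_of_omega hx
  have hzz := scalar_sq (Subgroup.pow_mem _ hxi 2) hz hv₀
  set T := Matrix.toLin' (x : Matrix ((Fin k ⊕ Fin k) ⊕ Fin 2) ((Fin k ⊕ Fin k) ⊕ Fin 2) F) with hTdef
  have hT : ∀ v, qMinus k a b (T v) = qMinus k a b v := hT_of_omega hx
  have hV := isT_minus_top (k := k) hab
  have hT2 : T ^ 2 = z • 1 := by
    rw [hTdef, Cfsg.Agent.Lib.EvElt99.toLin_pow, ← Units.val_pow_eq_pow_val, hz, map_smul, Matrix.toLin'_one]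
    rfl
  have hfr := finrank_minus (F := F) (k := k)
  rcases mul_self_eq_one_iff.1 hzz with rfl | rfl
  · rw [one_smul] at hT2
    have hfe := even_fix_of_omega (Q := qMinus k a b) hV.nd (Or.inr (by rw [finrank_minus]; omega)) (by rw [hfr]; exact even_two_mul _) hx
    obtain ⟨W, h1, h3, h4⟩ := invol_ell_odd h2 hT hT2 hV hfe hme hm (by rw [hfr]; exact hmn)
    exact ⟨W, ⟨h3, h1⟩, h4⟩
  · have hJ : ∀ v, T (T v) = -v := by
      intro v
      have h1 : (T ^ 2) v = T (T v) := by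
        rw [pow_two]
        rfl
      rw [← h1, hT2]
      simp
    by_cases hi : ∃ i : F, i * i = -1
    · exfalso
      obtain ⟨i, hi⟩ := hi
      obtain ⟨U, _, hU, hUd⟩ := ts_half_of_i h2 hi hT hJ (W := ⊤) (fun u _ => trivial) (a := k + 1) (by rw [finrank_top, hfr])
      exact not_hyp_of_ell' hV ⟨hV.nd, U, le_top, hU, by rw [finrank_top, hfr, hUd]⟩
    · push Not at hi
      have hq4 : q % 4 = 3 := by
        by_contra h5
        obtain ⟨i, hi'⟩ := (neg_one_sq_iff hq).2 h5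
        exact hi i hi'
      obtain ⟨a', ha', hta⟩ := type_J h2 hi hT hJ _ ⊤ (by rw [finrank_top, hfr]) hV.nd (fun u _ => trivial)
      have haed : a' = k + 1 := by omega
      subst haed
      have hde : (k + 1).bodd = true := hta.uniq hV
      rw [bodd_true_iff] at hde
      have hde' : ¬ Even (k + 1) := Nat.not_even_iff_odd.2 hde
      by_cases hm4 : m % 4 = 2
      · obtain ⟨c, hc'⟩ := hme
        obtain ⟨W, _, h1, h3, h4⟩ := exists_J_sub h2 hi hT hJ c ⊤ hV.nd (fun u _ => trivial) (by rw [finrank_top, hfr]; omega)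
        obtain ⟨a'', ha'', hta'⟩ := type_J h2 hi hT hJ _ W h4 h1 h3
        have h8 : a''.bodd = true := by
          rw [bodd_true_iff]
          exact ⟨a'' / 2, by omega⟩
        rw [h8] at hta'
        exact ⟨W, ⟨by omega, hta'⟩, h3⟩
      · exfalso
        have hq8 : q % 8 ≠ 7 := by
          rcases hc with h | h | h
          · exact absurd h hde'
          · exact h
          · exact absurd h hm4
        have h5 := (J_mem_iff (Q := qMinus k a b) hV.nd (Or.inr (by rw [finrank_minus]; omega)) h2 hxi hJ finrank_minus).1 hx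
        have h6 := isSquare_of_odd_pow h2 hde h5
        rw [FiniteField.isSquare_two_iff, hq] at h6
        omega

/-- The core statement, with `d = k + 1`. -/
theorem core {p : ℕ} [Fact p.Prime] [CharP F p]
    (k m : ℕ) (hk : 3 ≤ k) (hm : 2 ≤ m) (hme : Even m) (hmn : m + 2 ≤ 2 * (k + 1)) (a b : F) (hab : ∀ x y : F, x ^ 2 + a * x * y + b * y ^ 2 = 0 → x = 0 ∧ y = 0)
    (r : ℕ) [Fact r.Prime] (hr : r = 2 ∨ r ≠ p)
    (hrΩ : r ∣ Nat.card (TSet (qMinus k a b) m true))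
    (i c : ℕ) (hi : i = orderOf ((Fintype.card F : ℕ) : ZMod r)) (hc : c = if Even i then i else 2 * i) :
    ElusiveM F k a b m r ↔
    ((r = 2 ∧ p = 2 ∧ (Even (k + 1) ∨ m % 4 = 2)) ∨
     (r = 2 ∧ p ≠ 2 ∧ (Even (k + 1) ∨ Fintype.card F % 8 ≠ 7 ∨ m % 4 = 2)) ∨
     (r ≠ p ∧ 2 < r ∧ Odd i ∧ ((2 * (k + 1)) % c = 0 ∨ (c ≤ m ∧ 0 < m % c ∧ m % c ≤ (2 * (k + 1)) % c))) ∨
     (r ≠ p ∧ 2 < r ∧ Even i ∧
       (((2 * (k + 1)) % c = 0 ∧ (Even ((2 * (k + 1)) / i) ∨ (m % c = 0 ∧ Odd (m / i)))) ∨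
        (0 < (2 * (k + 1)) % c ∧ i ≤ m ∧ ((0 < m % c ∧ m % c < (2 * (k + 1)) % c) ∨ (m % c = 0 ∧ Odd (m / i)) ∨
                                    (m % c = (2 * (k + 1)) % c ∧ Even ((2 * (k + 1) + m - 2 * ((2 * (k + 1)) % c)) / i))))))) := by
  classical
  have hp := (Fact.out : p.Prime)
  have hr' := (Fact.out : r.Prime)
  have hm0 : 0 < m := by omega
  by_cases hr2 : r = 2
  · subst hr2
    by_cases hp2 : p = 2
    · subst hp2
      constructor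
      · intro H
        exact Or.inl ⟨rfl, rfl, two_two_forward_m hk hab hme H⟩
      · rintro (⟨_, _, h⟩ | ⟨_, h, _⟩ | ⟨_, h, _⟩ | ⟨_, h, _⟩)
        · exact two_two_backward_m hab hme hm hmn h
        · exact absurd rfl h
        · omega
        · omega
    · have h2 : (2 : F) ≠ 0 := by
        intro h
        have h3 : ((2 : ℕ) : F) = 0 := by exact_mod_cast h
        rw [CharP.cast_eq_zero_iff F p] at h3
        exact hp2 ((Nat.prime_dvd_prime_iff_eq hp Nat.prime_two).1 h3)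
      constructor
      · intro H
        exact Or.inr (Or.inl ⟨rfl, hp2, two_odd_forward_m rfl h2 hk hab hme H⟩)
      · rintro (⟨_, h, _⟩ | ⟨_, _, h⟩ | ⟨_, h, _⟩ | ⟨_, h, _⟩)
        · exact absurd h hp2
        · exact two_odd_backward_m rfl h2 hk hab hme hm hmn h
        · omega
        · omega
  have hrp : r ≠ p := hr.resolve_left hr2
  have hrF : (r : F) ≠ 0 := by
    intro h
    rw [CharP.cast_eq_zero_iff F p] at h
    exact hrp ((Nat.prime_dvd_prime_iff_eq hp hr').1 h).symm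
  have hr3 : 2 < r := by
    have := hr'.two_le
    omega
  have hcount := count_minus p hab hrF hme hm hmn hrΩ
  have hcb : blockDim r (Fintype.card F) = c := by
    rw [hc, hi]
    rfl
  have hc0 : 0 < c := by
    rw [← hcb]
    exact blockDim_pos rfl hrF
  have hi0 : orderOf ((Fintype.card F : ℕ) : ZMod r) = i := hi.symm
  have hqpos : 0 < Fintype.card F := Fintype.card_pos
  obtain ⟨a₀, ha₀⟩ := hme
  have hm2 : m / 2 = a₀ := by omega
  rcases Nat.even_or_odd i with hev | hodd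
  · have hev' : Even (orderOf ((Fintype.card F : ℕ) : ZMod r)) := by rw [hi0]; exact hev
    have hci : c = i := by rw [hc, if_pos hev]
    subst hci
    have hcount' : (∃ w, Odd w ∧ 2 * (k + 1) = c * w) ∨ (∃ w, Odd w ∧ 2 * (k + 1 - m / 2) = c * w) ∨
        ∃ j, k + 1 - m / 2 < j ∧ j ≤ k + 1 - 1 ∧ c ∣ 2 * j := by
      rcases hcount with h | h | ⟨j, h1, h3, h⟩
      · left
        obtain ⟨w, hw1, hw⟩ := plus_even hr3 h
        rw [hi0] at hw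
        exact ⟨w, hw1, hw⟩
      · right
        left
        obtain ⟨w, hw1, hw⟩ := plus_even hr3 h
        rw [hi0] at hw
        exact ⟨w, hw1, hw⟩
      · exact Or.inr (Or.inr ⟨j, h1, by omega, hi0 ▸ dvd_of_pow h hqpos⟩)
    constructor
    · intro H
      refine Or.inr (Or.inr (Or.inr ⟨hrp, hr3, hev, ?_⟩))
      by_cases hA : (2 * (k + 1)) % c = 0 ∧ Even ((2 * (k + 1)) / c)
      · exact Or.inl ⟨hA.1, Or.inl hA.2⟩
      · have hex : ∃ e, c ∣ e ∧ 2 * (k + 1) - m ≤ e ∧ e ≤ 2 * (k + 1) ∧ 0 < e := by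
          rcases hcount' with ⟨w, hw1, hw⟩ | ⟨w, hw1, hw⟩ | ⟨j, h1, h3, h⟩
          · exact ⟨2 * (k + 1), ⟨w, hw⟩, by omega, le_rfl, by omega⟩
          · exact ⟨2 * (k + 1 - m / 2), ⟨w, hw⟩, by omega, by omega, by omega⟩
          · exact ⟨2 * j, h, by omega, by omega, by omega⟩
        obtain ⟨e, he1, he2, he3, he4⟩ := hex
        obtain ⟨hs, hk'⟩ := s0_k0 hc0 he1 he2 he3 he4 (by omega)
        have hP : c * ((2 * (k + 1)) / c) = 2 * (k + 1) → ((Fintype.card F : ℕ) : ZMod r) ^ (k + 1) = -1 := by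
          intro h
          have h0 : (2 * (k + 1)) % c = 0 := Nat.mod_eq_zero_of_dvd ⟨_, h.symm⟩
          have h3 : ¬ Even ((2 * (k + 1)) / c) := fun h4 => hA ⟨h0, h4⟩
          rw [Nat.not_even_iff_odd] at h3
          have h4 := half_pow (q := Fintype.card F) (r := r) hev' (by omega)
          rw [hi0] at h4
          obtain ⟨e', he'⟩ := hev
          have h5 : k + 1 = (c / 2) * ((2 * (k + 1)) / c) := by
            have h6 : c / 2 = e' := by omega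
            rw [h6]
            rw [he'] at h ⊢
            have h7 : (e' + e') * ((2 * (k + 1)) / (e' + e')) = 2 * (e' * ((2 * (k + 1)) / (e' + e'))) := by ring
            omega
          rw [h5, pow_mul, h4]
          exact h3.neg_one_pow
        rw [← hcb] at hs hP
        obtain ⟨h1, h0, h3⟩ := key_forward_minus p hab hr2 hrF hk hs hP H
        rw [hcb] at h1 h0 h3
        rw [tau_even hev'] at h0 h3
        rw [tau_even hev'] at h3
        rcases fwd_even_minus hc0 rfl hm0 ⟨a₀, ha₀⟩ hmn hk' hcount' h1 h0 h3 with h | h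
        · exact Or.inl ⟨h.1, Or.inr h.2⟩
        · exact Or.inr h
    · rintro (⟨h, _⟩ | ⟨h, _⟩ | ⟨_, _, h, _⟩ | ⟨_, _, _, h⟩)
      · exact absurd h hr2
      · exact absurd h hr2
      · exact absurd hev (Nat.not_even_iff_odd.2 h)
      · apply odd_backward_minus hab hr2 hrF ⟨a₀, ha₀⟩ hm0 hmn
        rw [hcb]
        simp only [tau_even hev']
        apply back_cond_even_minus hc0 hm0
        rcases h with h | ⟨h1, _, h⟩
        · exact Or.inl h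
        · exact Or.inr ⟨h1, h⟩
  · have hev : ¬ Even i := Nat.not_even_iff_odd.2 hodd
    have hev' : ¬ Even (orderOf ((Fintype.card F : ℕ) : ZMod r)) := by rw [hi0]; exact hev
    have hci : c = 2 * i := by rw [hc, if_neg hev]
    have hodd' : Odd (orderOf ((Fintype.card F : ℕ) : ZMod r)) := by rw [hi0]; exact hodd
    have hcop : Nat.Coprime i 2 := by
      rw [Nat.coprime_comm, Nat.coprime_two_left]
      exact hodd
    constructor
    · intro H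
      refine Or.inr (Or.inr (Or.inl ⟨hrp, hr3, hodd, ?_⟩))
      by_cases hA : (2 * (k + 1)) % c = 0
      · exact Or.inl hA
      · right
        have hj : ∃ e, c ∣ e ∧ 2 * (k + 1) - (m - 1) ≤ e ∧ e ≤ 2 * (k + 1) ∧ 0 < e := by
          rcases hcount with h | h | ⟨j, h1, h3, h⟩
          · exact (plus_odd hr3 h hodd').elim
          · exact (plus_odd hr3 h hodd').elim
          · refine ⟨2 * j, ?_, by omega, by omega, by omega⟩
            rw [hci]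
            apply mul_dvd_mul_left 2
            exact hcop.dvd_of_dvd_mul_left (hi0 ▸ dvd_of_pow h hqpos)
        obtain ⟨e, he1, he2, he3, he4⟩ := hj
        obtain ⟨hs, hk'⟩ := s0_k0 hc0 he1 he2 he3 he4 (by omega)
        have hP : c * ((2 * (k + 1)) / c) = 2 * (k + 1) → ((Fintype.card F : ℕ) : ZMod r) ^ (k + 1) = -1 := by
          intro h
          exact absurd (Nat.mod_eq_zero_of_dvd ⟨_, h.symm⟩) hA
        rw [← hcb] at hs hP
        obtain ⟨h1, h0, h3⟩ := key_forward_minus p hab hr2 hrF hk hs hP H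
        rw [hcb] at h1 h0 h3
        rw [tau_odd hev'] at h0
        exact fwd_odd_minus hc0 hm0 (by omega) h1 h0
    · rintro (⟨h, _⟩ | ⟨h, _⟩ | ⟨_, _, _, h⟩ | ⟨_, _, h, _⟩)
      · exact absurd h hr2
      · exact absurd h hr2
      · apply odd_backward_minus hab hr2 hrF ⟨a₀, ha₀⟩ hm0 hmn
        rw [hcb]
        simp only [tau_odd hev']
        have h9 := back_cond_odd_minus (c := c) (n := 2 * (k + 1)) (m := m) hc0 (by
          rcases h with h | ⟨_, h5⟩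
          · exact Or.inl h
          · exact Or.inr h5)
        exact h9
      · exact absurd h hev

end aux

/-- Elements of prime order of PΩ⁻_n(q) with no fixed elliptic `m`-space. Here `T = PΩ⁻_n(F)`, `n = 2d ≥ 8`, realised through `Ω⁻_n(q)`, the commutator subgroup of the isometry group of `Q = Σ_{i<d−1} xᵢyᵢ + z₁² + a z₁z₂ + b z₂²` with `z₁² + a z₁z₂ + b z₂²` anisotropic, over the field `F` with `q` elements; an element of `T` of prime order `r` is an element `x` of `Ω⁻_n(q)` with `x^r` scalar and `x` not scalar; a nondegenerate `m`-space (even `m`) is a subspace on which the polar form of `Q` is nondegenerate; it is hyperbolic if it contains an `m/2`-dimensional subspace on which `Q` vanishes, elliptic otherwise. Let `m` be even with `2 ≤ m ≤ n − 2` (no restriction `m < n/2`: fixing an elliptic `m`-space is the same as fixing its hyperbolic orthogonal complement) and let `r`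 be a prime dividing the number of elliptic `m`-spaces, with `r = 2` or `r ≠ p`; for `r ≠ p` let `i` be the multiplicative order of `q` modulo `r`, `c = i` for `i` even and `c = 2i` for `i` odd, and write `k = n mod c`, `ℓ = m mod i`, `ℓ' = m mod c`, `n' = ⌊n/i⌋`, `m' = ⌊m/i⌋`, `t = (r−1)/i`. Then every element of `T` of order `r` fixes some elliptic `m`-space if and only if one of: (i) `r = p = 2` and (`n ≡ 0 (mod 4)` or `m ≡ 2 (mod 4)`); (ii) `r = 2 ≠ p` and (`n ≡ 0 (mod 4)`, or `q ≢ 7 (mod 8)`, or `m ≡ 2 (mod 4)`); (iii) `r ≠ p` odd, `i` odd, and `k = 0` or (`c ≤ m` and `k ≥ ℓ' > 0`); (iv) `r ≠ p` odd, `i` even, and either `k = 0` and (`n/i` even, or `ℓ' = 0` and `m/i` odd), or `k > 0`, `i ≤ m` and (`k > ℓ' > 0`, or `ℓ' = 0` and `m/i` odd, or `k = ℓ'` and `(n + m − 2k)/i` even). (Odd `r = p` is not covered by this statement.) -/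
theorem result {F : Type*} [Field F] [Fintype F] {p : ℕ} [Fact p.Prime] [CharP F p] {q : ℕ} (hq : Fintype.card F = q)
    (d m : ℕ) (hd : 4 ≤ d) (hm : 2 ≤ m) (hme : Even m) (hmn : m + 2 ≤ 2 * d) (a b : F) (hab : ∀ x y : F, x ^ 2 + a * x * y + b * y ^ 2 = 0 → x = 0 ∧ y = 0)
    (r : ℕ) [Fact r.Prime] (hr : r = 2 ∨ r ≠ p)
    (hrΩ : r ∣ Nat.card {W : Submodule F ((Fin (d - 1) ⊕ Fin (d - 1)) ⊕ Fin 2 → F) // Module.finrank F ↥W = m ∧ Cfsg.Geo.IsNondegenerateOn (QuadraticMap.polar (Cfsg.quadFormMinus (d - 1) F a b)) W ∧ ¬ Cfsg.Geo.IsPlusTypeOn (Cfsg.quadFormMinus (d - 1) F a b) W})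
    (i c : ℕ) (hi : i = orderOf (q : ZMod r)) (hc : c = if Even i then i else 2 * i) :
    (∀ x : GL ((Fin (d - 1) ⊕ Fin (d - 1)) ⊕ Fin 2) F, x ∈ Cfsg.Geo.omegaGL (Cfsg.quadFormMinus (d - 1) F a b) →
      (∃ z : F, ((x ^ r : GL ((Fin (d - 1) ⊕ Fin (d - 1)) ⊕ Fin 2) F) : Matrix ((Fin (d - 1) ⊕ Fin (d - 1)) ⊕ Fin 2) ((Fin (d - 1) ⊕ Fin (d - 1)) ⊕ Fin 2) F) = z • (1 : Matrix ((Fin (d - 1) ⊕ Fin (d - 1)) ⊕ Fin 2) ((Fin (d - 1) ⊕ Fin (d - 1)) ⊕ Fin 2) F)) →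
      (∀ z : F, (x : Matrix ((Fin (d - 1) ⊕ Fin (d - 1)) ⊕ Fin 2) ((Fin (d - 1) ⊕ Fin (d - 1)) ⊕ Fin 2) F) ≠ z • (1 : Matrix ((Fin (d - 1) ⊕ Fin (d - 1)) ⊕ Fin 2) ((Fin (d - 1) ⊕ Fin (d - 1)) ⊕ Fin 2) F)) →
      ∃ W : Submodule F ((Fin (d - 1) ⊕ Fin (d - 1)) ⊕ Fin 2 → F), (Module.finrank F ↥W = m ∧ Cfsg.Geo.IsNondegenerateOn (QuadraticMap.polar (Cfsg.quadFormMinus (d - 1) F a b)) W ∧ ¬ Cfsg.Geo.IsPlusTypeOn (Cfsg.quadFormMinus (d - 1) F a b) W) ∧ W.map (Matrix.toLin' (x : Matrix ((Fin (d - 1) ⊕ Fin (d - 1)) ⊕ Fin 2) ((Fin (d - 1) ⊕ Fin (d - 1)) ⊕ Fin 2) F)) ≤ W) ↔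
    ((r = 2 ∧ p = 2 ∧ (Even d ∨ m % 4 = 2)) ∨
     (r = 2 ∧ p ≠ 2 ∧ (Even d ∨ q % 8 ≠ 7 ∨ m % 4 = 2)) ∨
     (r ≠ p ∧ 2 < r ∧ Odd i ∧ ((2 * d) % c = 0 ∨ (c ≤ m ∧ 0 < m % c ∧ m % c ≤ (2 * d) % c))) ∨
     (r ≠ p ∧ 2 < r ∧ Even i ∧
       (((2 * d) % c = 0 ∧ (Even ((2 * d) / i) ∨ (m % c = 0 ∧ Odd (m / i)))) ∨
        (0 < (2 * d) % c ∧ i ≤ m ∧ ((0 < m % c ∧ m % c < (2 * d) % c) ∨ (m % c = 0 ∧ Odd (m / i)) ∨
                                    (m % c = (2 * d) % c ∧ Even ((2 * d + m - 2 * ((2 * d) % c)) / i))))))) := by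
  classical
  subst hq
  obtain ⟨k, rfl⟩ : ∃ k, d = k + 1 := ⟨d - 1, by omega⟩
  show (∀ x : GL ((Fin k ⊕ Fin k) ⊕ Fin 2) F, x ∈ Cfsg.Geo.omegaGL (Cfsg.quadFormMinus k F a b) →
      (∃ z : F, ((x ^ r : GL ((Fin k ⊕ Fin k) ⊕ Fin 2) F) : Matrix ((Fin k ⊕ Fin k) ⊕ Fin 2) ((Fin k ⊕ Fin k) ⊕ Fin 2) F) = z • (1 : Matrix ((Fin k ⊕ Fin k) ⊕ Fin 2) ((Fin k ⊕ Fin k) ⊕ Fin 2) F)) →
      (∀ z : F, (x : Matrix ((Fin k ⊕ Fin k) ⊕ Fin 2) ((Fin k ⊕ Fin k) ⊕ Fin 2) F) ≠ z • (1 : Matrix ((Fin k ⊕ Fin k) ⊕ Fin 2) ((Fin k ⊕ Fin k) ⊕ Fin 2) F)) →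
      ∃ W : Submodule F ((Fin k ⊕ Fin k) ⊕ Fin 2 → F), (Module.finrank F ↥W = m ∧ Cfsg.Geo.IsNondegenerateOn (QuadraticMap.polar (Cfsg.quadFormMinus k F a b)) W ∧ ¬ Cfsg.Geo.IsPlusTypeOn (Cfsg.quadFormMinus k F a b) W) ∧ W.map (Matrix.toLin' (x : Matrix ((Fin k ⊕ Fin k) ⊕ Fin 2) ((Fin k ⊕ Fin k) ⊕ Fin 2) F)) ≤ W) ↔ _
  have hE : (∀ x : GL ((Fin k ⊕ Fin k) ⊕ Fin 2) F, x ∈ Cfsg.Geo.omegaGL (Cfsg.quadFormMinus k F a b) →
      (∃ z : F, ((x ^ r : GL ((Fin k ⊕ Fin k) ⊕ Fin 2) F) : Matrix ((Fin k ⊕ Fin k) ⊕ Fin 2) ((Fin k ⊕ Fin k) ⊕ Fin 2) F) = z • (1 : Matrix ((Fin k ⊕ Fin k) ⊕ Fin 2) ((Fin k ⊕ Fin k) ⊕ Fin 2) F)) →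
      (∀ z : F, (x : Matrix ((Fin k ⊕ Fin k) ⊕ Fin 2) ((Fin k ⊕ Fin k) ⊕ Fin 2) F) ≠ z • (1 : Matrix ((Fin k ⊕ Fin k) ⊕ Fin 2) ((Fin k ⊕ Fin k) ⊕ Fin 2) F)) →
      ∃ W : Submodule F ((Fin k ⊕ Fin k) ⊕ Fin 2 → F), (Module.finrank F ↥W = m ∧ Cfsg.Geo.IsNondegenerateOn (QuadraticMap.polar (Cfsg.quadFormMinus k F a b)) W ∧ ¬ Cfsg.Geo.IsPlusTypeOn (Cfsg.quadFormMinus k F a b) W) ∧ W.map (Matrix.toLin' (x : Matrix ((Fin k ⊕ Fin k) ⊕ Fin 2) ((Fin k ⊕ Fin k) ⊕ Fin 2) F)) ≤ W) ↔ ElusiveM F k a b m r := by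
    simp only [← hf_minus, ell_set_iff hme, map_le_iff]
    rfl
  rw [hE]
  have hrΩ' : r ∣ Nat.card (TSet (qMinus k a b) m true) := by
    have h1 : Nat.card {W : Submodule F ((Fin k ⊕ Fin k) ⊕ Fin 2 → F) // Module.finrank F ↥W = m ∧ Cfsg.Geo.IsNondegenerateOn (QuadraticMap.polar (Cfsg.quadFormMinus k F a b)) W ∧ ¬ Cfsg.Geo.IsPlusTypeOn (Cfsg.quadFormMinus k F a b) W} = Nat.card (TSet (qMinus k a b) m true) := by
      apply Nat.card_congr
      apply Equiv.subtypeEquivRight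
      intro W
      simp only [← hf_minus]
      exact ell_set_iff hme W
    have h2 : r ∣ Nat.card {W : Submodule F ((Fin k ⊕ Fin k) ⊕ Fin 2 → F) // Module.finrank F ↥W = m ∧ Cfsg.Geo.IsNondegenerateOn (QuadraticMap.polar (Cfsg.quadFormMinus k F a b)) W ∧ ¬ Cfsg.Geo.IsPlusTypeOn (Cfsg.quadFormMinus k F a b) W} := hrΩ
    rwa [h1] at h2
  exact core k m (by omega) hm hme hmn a b hab r hr hrΩ' i c hi hc

end Cfsg.Agent.S5990
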