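import Mathlib
import Cfsg.Statements.S5991
import Cfsg.Agent.Lib.OddSubFinal
-- import your own Cfsg.Agent.* helpers here

set_option autoImplicit false
open scoped MatrixGroups
open Cfsg

namespace Cfsg.Agent.S5991

/-- Elements of prime order of PΩ⁻_n(q), q odd, with no fixed nondegenerate `m`-space of odd dimension. Here `T = PΩ⁻_n(F)`, `n = 2d ≥ 8`, realised through `Ω⁻_n(q)`, the commutator subgroup of the isometry group of `Q = Σ_{i<d−1} xᵢyᵢ + z₁² + a z₁z₂ + b z₂²` with `z₁² + a z₁z₂ + b z₂²` anisotropic, over the field `F` with `q` elements; an element of `T` of prime order `r` is an element `x` of `Ω⁻_n(q)` with `x^r` scalar and `x` not scalar; `q` and `m` are odd, `1 ≤ m < n/2`. The nondegenerate `m`-spaces fall into two isometry classes, each an orbit of `T`, with equivalent actions; fix one such space `W₀` and let Ω be the set of nondegenerate `m`-spaces isometric to `W₀`. Let `r` be a prime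 dividing the size of Ω; for `r ≠ p` let `i` be the multiplicative order of `q` modulo `r`, `c = i` for `i` even and `c = 2i` for `i` odd, and write `k = n mod c`, `ℓ = m mod i`, `ℓ' = m mod c`, `n' = ⌊n/i⌋`, `m' = ⌊m/i⌋`, `t = (r−1)/i`. Then every element of `T` of order `r` fixes a member of Ω if and only if one of: (i) `r = 2` and (`n ≡ 0 (mod 4)` or `q ≢ 7 (mod 8)`); (ii) `r ≠ p` odd, `i` odd, and `k = 0` or (`c ≤ m` and `k > ℓ' > 0`); (iii) `r ≠ p` odd, `i` even, and either `k = 0` and `n/i` even, or `k > 0`, `i ≤ m` and `k > ℓ' > 0`. (For `r = p` there is always an element of order `p` fixing no member of Ω.) -/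
theorem result {F : Type*} [Field F] [Fintype F] {p : ℕ} [Fact p.Prime] [CharP F p] {q : ℕ} (hq : Fintype.card F = q)
    (hodd : Odd q) (d m : ℕ) (hd : 4 ≤ d) (hm : Odd m) (hmd : m < d) (a b : F) (hab : ∀ x y : F, x ^ 2 + a * x * y + b * y ^ 2 = 0 → x = 0 ∧ y = 0)
    (W₀ : Submodule F ((Fin (d - 1) ⊕ Fin (d - 1)) ⊕ Fin 2 → F)) (hW₀ : Module.finrank F ↥W₀ = m ∧ Cfsg.Geo.IsNondegenerateOn (QuadraticMap.polar (Cfsg.quadFormMinus (d - 1) F a b)) W₀)
    (r : ℕ) [Fact r.Prime]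
    (hrΩ : r ∣ Nat.card {W : Submodule F ((Fin (d - 1) ⊕ Fin (d - 1)) ⊕ Fin 2 → F) // Module.finrank F ↥W = m ∧ Cfsg.Geo.IsNondegenerateOn (QuadraticMap.polar (Cfsg.quadFormMinus (d - 1) F a b)) W ∧ Cfsg.Geo.AreIsometricFor (Cfsg.quadFormMinus (d - 1) F a b) W W₀})
    (i c : ℕ) (hi : i = orderOf (q : ZMod r)) (hc : c = if Even i then i else 2 * i) :
    (∀ x : GL ((Fin (d - 1) ⊕ Fin (d - 1)) ⊕ Fin 2) F, x ∈ Cfsg.Geo.omegaGL (Cfsg.quadFormMinus (d - 1) F a b) →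
      (∃ z : F, ((x ^ r : GL ((Fin (d - 1) ⊕ Fin (d - 1)) ⊕ Fin 2) F) : Matrix ((Fin (d - 1) ⊕ Fin (d - 1)) ⊕ Fin 2) ((Fin (d - 1) ⊕ Fin (d - 1)) ⊕ Fin 2) F) = z • (1 : Matrix ((Fin (d - 1) ⊕ Fin (d - 1)) ⊕ Fin 2) ((Fin (d - 1) ⊕ Fin (d - 1)) ⊕ Fin 2) F)) →
      (∀ z : F, (x : Matrix ((Fin (d - 1) ⊕ Fin (d - 1)) ⊕ Fin 2) ((Fin (d - 1) ⊕ Fin (d - 1)) ⊕ Fin 2) F) ≠ z • (1 : Matrix ((Fin (d - 1) ⊕ Fin (d - 1)) ⊕ Fin 2) ((Fin (d - 1) ⊕ Fin (d - 1)) ⊕ Fin 2) F)) →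
      ∃ W : Submodule F ((Fin (d - 1) ⊕ Fin (d - 1)) ⊕ Fin 2 → F), (Module.finrank F ↥W = m ∧ Cfsg.Geo.IsNondegenerateOn (QuadraticMap.polar (Cfsg.quadFormMinus (d - 1) F a b)) W ∧ Cfsg.Geo.AreIsometricFor (Cfsg.quadFormMinus (d - 1) F a b) W W₀) ∧ W.map (Matrix.toLin' (x : Matrix ((Fin (d - 1) ⊕ Fin (d - 1)) ⊕ Fin 2) ((Fin (d - 1) ⊕ Fin (d - 1)) ⊕ Fin 2) F)) ≤ W) ↔
    ((r = 2 ∧ (Even d ∨ q % 8 ≠ 7)) ∨
     (r ≠ p ∧ 2 < r ∧ Odd i ∧ ((2 * d) % c = 0 ∨ (c ≤ m ∧ 0 < m % c ∧ m % c < (2 * d) % c))) ∨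
     (r ≠ p ∧ 2 < r ∧ Even i ∧ (((2 * d) % c = 0 ∧ Even ((2 * d) / i)) ∨ (0 < (2 * d) % c ∧ i ≤ m ∧ 0 < m % c ∧ m % c < (2 * d) % c)))) := by
  classical
  open Cfsg.Agent.Lib.HypBridge Cfsg.Agent.Lib.HypModel Cfsg.Agent.Lib.IsomBlock Cfsg.Agent.Lib.OddSubMain Cfsg.Agent.Lib.OddSubModel Cfsg.Agent.Lib.OddSub Cfsg.Agent.Lib.HypEll Cfsg.Agent.Lib.OddSubFinal Cfsg.Agent.Lib.OddSubTwo Cfsg.Agent.Lib.OddSubUni Cfsg.Agent.Lib.OrthoCount Cfsg.Agent.Lib.QuadClass in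
  have hodd' : Odd (Fintype.card F) := hq ▸ hodd
  have h2 := two_ne hodd'
  have hrpr : r.Prime := Fact.out
  have hp : Odd p := Cfsg.Agent.Lib.JWall99.odd_char_of_card hq hodd
  have hf : ⇑(qMinus (d - 1) a b) = Cfsg.quadFormMinus (d - 1) F a b := funext (qMinus_apply (d - 1) a b)
  rw [← hf] at hW₀ hrΩ ⊢
  show HOdd (qMinus (d - 1) a b) W₀ r m ↔ _
  have hND : Cfsg.Agent.Lib.QuadFF.ND (qMinus (d - 1) a b) := ND_qMinus a b hab (d - 1)
  have hfin : Module.finrank F ((Fin (d - 1) ⊕ Fin (d - 1)) ⊕ Fin 2 → F) = 2 * d := by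
    simp
    omega
  have hTop : Ell (qMinus (d - 1) a b) ⊤ := by
    rcases hyp_or_ell h2 (qMinus (d - 1) a b) d ⊤ (by rw [finrank_top, hfin]) (ndOn_top hND) with h | h
    · exfalso
      obtain ⟨_, K, _, hK, hKd⟩ := h
      have := finrank_le_of_ts a b hab (d - 1) K hK
      rw [finrank_top, hfin] at hKd
      omega
    · exact h
  obtain ⟨t, rfl⟩ := hm
  obtain ⟨α, hα⟩ := cs_exists h2 ((ndOn_iff' _).1 hW₀.2) hW₀.1
  by_cases hr2 : r = 2
  · subst hr2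
    rw [two_minus h2 hND hTop hq hodd hfin hmd ⟨t, rfl⟩ hα hW₀.1]
    constructor
    · exact fun h => Or.inl ⟨rfl, h⟩
    · rintro (⟨_, h⟩ | ⟨_, h, _⟩ | ⟨_, h, _⟩)
      · exact h
      · omega
      · omega
  by_cases hrp : r = p
  · subst hrp
    constructor
    · intro H
      exfalso
      rcases Nat.even_or_odd d with hev | hoo
      · exact not_HOdd_minus_even hp hND hTop hfin hev (by omega) hα hW₀.1 ⟨t, rfl⟩ H
      · exact not_HOdd_odd hp hND hfin hoo (by omega) (by omega) ⟨t, rfl⟩ H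
    · rintro (⟨h, _⟩ | ⟨h, _⟩ | ⟨h, _⟩)
      · exact absurd h hr2
      · exact absurd rfl h
      · exact absurd rfl h
  have hrF : (r : F) ≠ 0 := by
    intro h
    rw [CharP.cast_eq_zero_iff F p] at h
    exact hrp ((Nat.prime_dvd_prime_iff_eq Fact.out hrpr).1 h).symm
  have h2r : 2 < r := by
    have := hrpr.two_le
    omega
  subst hi
  have hcb : c = blockDim r q := by
    rw [hc]
    rfl
  subst hcb
  rw [core_odd p h2 hND (Or.inr hTop) hq hr2 hrF hfin hmd hα hW₀.1 hrΩ]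
  by_cases hiev : Even (orderOf (q : ZMod r))
  · have hci := blockDim_of_even hiev
    have hty : ¬ TypeF (qMinus (d - 1) a b) r q ((2 * d) / blockDim r q) ⊤ ↔ Even ((2 * d) / blockDim r q) := by
      constructor
      · intro h
        by_contra hcon
        rw [Nat.not_even_iff_odd] at hcon
        exact h ⟨fun h3 => absurd hiev h3, fun _ => ⟨fun h3 => absurd h3 (Nat.not_even_iff_odd.2 hcon), fun _ => hTop⟩⟩
      · intro h h3
        exact not_hyp_of_ell h2 hTop ((h3.2 hiev).1 h)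
    rw [hty]
    constructor
    · rintro ⟨h3, h4⟩
      right; right
      refine ⟨hrp, h2r, hiev, ?_⟩
      by_cases h5 : (2 * d) % blockDim r q = 0
      · left
        refine ⟨h5, ?_⟩
        rw [← hci]
        exact h4 h5
      · right
        obtain ⟨h6, h7, h8⟩ := h3 (Nat.pos_of_ne_zero h5)
        exact ⟨Nat.pos_of_ne_zero h5, by rw [← hci]; exact h6, h7, h8⟩
    · rintro (⟨h, _⟩ | ⟨_, _, h, _⟩ | ⟨_, _, _, h⟩)
      · exact absurd h hr2
      · exact absurd hiev (Nat.not_even_iff_odd.2 h)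
      · rcases h with ⟨h3, h4⟩ | ⟨h0, h3, h4, h5⟩
        · refine ⟨fun h5 => by omega, fun _ => ?_⟩
          rw [hci]
          exact h4
        · refine ⟨fun _ => ⟨by rw [hci]; exact h3, h4, h5⟩, fun h6 => by omega⟩
  · have hty : ¬ TypeF (qMinus (d - 1) a b) r q ((2 * d) / blockDim r q) ⊤ := fun h =>
      not_hyp_of_ell h2 hTop (h.1 hiev)
    constructor
    · rintro ⟨h3, h4⟩
      right; left
      refine ⟨hrp, h2r, Nat.not_even_iff_odd.1 hiev, ?_⟩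
      by_cases h5 : (2 * d) % blockDim r q = 0
      · exact Or.inl h5
      · exact Or.inr (h3 (Nat.pos_of_ne_zero h5))
    · rintro (⟨h, _⟩ | ⟨_, _, _, h⟩ | ⟨_, _, h, _⟩)
      · exact absurd h hr2
      · refine ⟨fun h3 => ?_, fun _ => hty⟩
        rcases h with h | h
        · omega
        · exact h
      · exact absurd h hiev

end Cfsg.Agent.S5991
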