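import Mathlib
import Cfsg.Statements.S5993
import Cfsg.Agent.Lib.HypBridgeE
import Cfsg.Agent.Lib.HypBackE
import Cfsg.Agent.Lib.HypUni
-- import your own Cfsg.Agent.* helpers here

set_option autoImplicit false
open scoped MatrixGroups
open Cfsg

namespace Cfsg.Agent.S5993

/-- Elements of prime order of Ω_n(q), nq odd, with no fixed elliptic `m`-space. Here `T = Ω_n(F)`, `n = 2d+1 ≥ 7`, `q` odd, realised as the commutator subgroup of the isometry group of `Q = x₀² + Σ xᵢyᵢ` over the field `F` with `q` elements (trivial centre, so its elements of prime order `r` are used directly); a nondegenerate `m`-space (even `m`) is a subspace on which the polar form of `Q` is nondegenerate; it is hyperbolic if it contains an `m/2`-dimensional subspace on which `Q` vanishes, elliptic otherwise. Let `m` be even with `2 ≤ m ≤ n − 1` (no restriction `m < n/2`) and let `r` be a prime dividing the number of elliptic `m`-spaces; for `r ≠ p` let `i` be the multiplicative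 order of `q` modulo `r`, `c = i` for `i` even and `c = 2i` for `i` odd, and write `k = n mod c`, `ℓ' = m mod c`. Then every element of `T` of order `r` fixes some elliptic `m`-space if and only if `r = 2`, or `r ≠ p` is odd and one of: (i) `i` odd, `c ≤ m` and `k > ℓ' > 0`; (ii) `i` even, `i ≤ m`, `k > ℓ'`, and `m/i` odd whenever `ℓ' = 0`. (For `r = p` there is always an element of order `p` fixing no elliptic `m`-space.) -/
theorem result {F : Type*} [Field F] [Fintype F] {p : ℕ} [Fact p.Prime] [CharP F p] {q : ℕ} (hq : Fintype.card F = q) (hqodd : Odd q)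
    (d m : ℕ) (hd : 3 ≤ d) (hm : 2 ≤ m) (hme : Even m) (hmn : m ≤ 2 * d)
    (r : ℕ) [Fact r.Prime]
    (hrΩ : r ∣ Nat.card {W : Submodule F (Unit ⊕ (Fin d ⊕ Fin d) → F) // Module.finrank F ↥W = m ∧ Cfsg.Geo.IsNondegenerateOn (QuadraticMap.polar (Cfsg.quadFormOdd d F)) W ∧ ¬ Cfsg.Geo.IsPlusTypeOn (Cfsg.quadFormOdd d F) W})
    (i c : ℕ) (hi : i = orderOf (q : ZMod r)) (hc : c = if Even i then i else 2 * i) :
    (∀ x : GL (Unit ⊕ (Fin d ⊕ Fin d)) F, x ∈ Cfsg.Geo.omegaGL (Cfsg.quadFormOdd d F) → orderOf x = r →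
      ∃ W : Submodule F (Unit ⊕ (Fin d ⊕ Fin d) → F), (Module.finrank F ↥W = m ∧ Cfsg.Geo.IsNondegenerateOn (QuadraticMap.polar (Cfsg.quadFormOdd d F)) W ∧ ¬ Cfsg.Geo.IsPlusTypeOn (Cfsg.quadFormOdd d F) W) ∧ W.map (Matrix.toLin' (x : Matrix (Unit ⊕ (Fin d ⊕ Fin d)) (Unit ⊕ (Fin d ⊕ Fin d)) F)) ≤ W) ↔
    (r = 2 ∨
     (r ≠ p ∧ 2 < r ∧ Odd i ∧ c ≤ m ∧ 0 < m % c ∧ m % c < (2 * d + 1) % c) ∨
     (r ≠ p ∧ 2 < r ∧ Even i ∧ i ≤ m ∧ m % c < (2 * d + 1) % c ∧ (0 < m % c ∨ Odd (m / i)))) := by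
  classical
  open Cfsg.Agent.Lib.HypBridge Cfsg.Agent.Lib.HypBridgeE Cfsg.Agent.Lib.HypBackE Cfsg.Agent.Lib.HypModel Cfsg.Agent.Lib.IsomBlock in
  have hodd : Odd (Fintype.card F) := hq ▸ hqodd
  have h2 := two_ne hodd
  have hrpr : r.Prime := Fact.out
  have hp2 : p ≠ 2 := by
    rintro rfl
    haveI : CharP F 2 := ‹CharP F 2›
    exact h2 (CharTwo.two_eq_zero)
  obtain ⟨A, rfl⟩ : ∃ A, m = 2 * (A + 1) := by
    obtain ⟨A, hA⟩ := hme
    exact ⟨A - 1, by omega⟩
  have hAd : A + 1 ≤ d := by omega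
  have hfr := finrank_qOdd (F := F) (d := d)
  have hoddn : Odd (2 * d + 1) := ⟨d, rfl⟩
  have hevm : Even (2 * (A + 1)) := ⟨A + 1, by omega⟩
  by_cases hrpeq : r = p
  · subst hrpeq
    constructor
    · intro H
      by_cases hr2 : r = 2
      · exact Or.inl hr2
      exfalso
      obtain ⟨T, hT, hTr, hne, hno⟩ := Cfsg.Agent.Lib.HypUni.exists_unip (F := F) (d := d) h2 hp2 (by omega)
      obtain ⟨x, hx, hxo, hxT⟩ := exists_x hodd hr2 hT hTr hne
      obtain ⟨W, hW, hWm⟩ := H x hx hxo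
      rw [ell_iff hodd] at hW
      rw [map_le_iff, hxT] at hWm
      exact hno W hW.1 hWm
    · rintro (hr2 | ⟨h, _⟩ | ⟨h, _⟩)
      · exact absurd hr2 hp2
      · exact absurd rfl h
      · exact absurd rfl h
  have hrF : (r : F) ≠ 0 := by
    intro h
    rw [CharP.cast_eq_zero_iff F p] at h
    exact hrpeq ((Nat.prime_dvd_prime_iff_eq Fact.out hrpr).1 h).symm
  subst hi
  have hcb : c = blockDim r q := by
    rw [hc]
    rfl
  subst hcb
  have hpos : 0 < blockDim r q := blockDim_pos hq hrF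
  constructor
  · intro H
    by_cases hr2 : r = 2
    · exact Or.inl hr2
    right
    have h2r : 2 < r := by
      have := hrpr.two_le
      omega
    have hrq : ¬ r ∣ Fintype.card F := by
      rw [hq]
      exact not_dvd_card hq hrF
    obtain ⟨j, hj, hdvd⟩ := count_matrix_E hodd hrpr hrq hAd hrΩ
    rw [hq] at hdvd
    have hcd := blockDim_dvd (by rw [← hq]; exact Fintype.card_pos) hdvd
    have hcle : blockDim r q ≤ 2 * (d - j) := Nat.le_of_dvd (by omega) hcd
    obtain ⟨T, hT, hTr, hfix⟩ := exists_T (Q := Cfsg.Agent.Lib.OrthoCount.qOdd d F) p h2 hq hr2 hrF (ndOn_top hodd) (by rw [hfr]; exact hoddn)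
    rw [hfr] at hfix
    have hlt := Nat.mod_lt (2 * d + 1) hpos
    have hne : T ≠ 1 := by
      rintro rfl
      have : fixS (1 : (Unit ⊕ (Fin d ⊕ Fin d) → F) →ₗ[F] (Unit ⊕ (Fin d ⊕ Fin d) → F)) ⊤ = ⊤ := by
        ext v
        rw [mem_fixS]
        simp
      rw [this, finrank_top, hfr] at hfix
      omega
    obtain ⟨x, hx, hxo, hxT⟩ := exists_x hodd hr2 hT hTr hne
    obtain ⟨W, hW, hWm⟩ := H x hx hxo
    rw [ell_iff hodd] at hW
    obtain ⟨hWH, hWd⟩ := hW
    rw [map_le_iff, hxT] at hWm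
    obtain ⟨h5, h6, h7⟩ := forward_ell h2 hq hr2 hrF hT hTr hoddn hevm hfix hWH hWd hWm
    have hcm : blockDim r q ≤ 2 * (A + 1) := by
      by_contra hcon
      push Not at hcon
      rw [Nat.mod_eq_of_lt hcon] at h5
      obtain ⟨t, ht⟩ := hcd
      have h8 : 2 * d + 1 = (2 * j + 1) + blockDim r q * t := by
        rw [← ht]
        omega
      rw [h8, Nat.add_mul_mod_self_left, Nat.mod_eq_of_lt (by omega)] at h5
      omega
    by_cases hev : Even (orderOf (q : ZMod r))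
    · right
      have hci : blockDim r q = orderOf (q : ZMod r) := by
        unfold blockDim
        rw [if_pos hev]
      refine ⟨hrpeq, h2r, hev, hci ▸ hcm, h5, ?_⟩
      by_cases h0 : 2 * (A + 1) % blockDim r q = 0
      · exact Or.inr (h7 hev h0)
      · exact Or.inl (Nat.pos_of_ne_zero h0)
    · left
      exact ⟨hrpeq, h2r, Nat.not_even_iff_odd.1 hev, hcm, h6 hev, h5⟩
  · intro hcond x hx hxo
    have hT := hT_of_mem hx
    have hxr : x ^ r = 1 := by
      rw [← hxo]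
      exact pow_orderOf_eq_one x
    have hTr := hTr_of_pow hxr
    have hex : ∃ W : Submodule F (Unit ⊕ (Fin d ⊕ Fin d) → F), Cfsg.Agent.Lib.HypEll.Ell (Cfsg.Agent.Lib.OrthoCount.qOdd d F) W ∧ Module.finrank F W = 2 * (A + 1) ∧
        InvOn (Matrix.toLin' (x : Matrix (Unit ⊕ (Fin d ⊕ Fin d)) (Unit ⊕ (Fin d ⊕ Fin d)) F)) W := by
      rcases hcond with hr2 | ⟨_, h2r, hodi, hcm, h0, hlt⟩ | ⟨_, h2r, hev, him, hlt, hcond⟩
      · subst hr2
        exact backward_two_ell h2 hT (fun v => by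
          have := LinearMap.congr_fun hTr v
          simpa [pow_two] using this) (ndOn_top hodd) hfr (by omega) hAd
      · exact backward_odd_ell h2 hq (by omega) hrF hT hTr (ndOn_top hodd) hfr (by omega) hevm (Or.inl ⟨Nat.not_even_iff_odd.2 hodi, h0, hlt⟩)
      · exact backward_odd_ell h2 hq (by omega) hrF hT hTr (ndOn_top hodd) hfr (by omega) hevm (Or.inr ⟨hev, hlt, hcond⟩)
    obtain ⟨W, h1, h3, h4⟩ := hex
    exact ⟨W, (ell_iff hodd W _).2 ⟨h1, h3⟩, (map_le_iff _ W).2 h4⟩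

end Cfsg.Agent.S5993
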