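import Cfsg.Statements.S5994
import Cfsg.Agent.Lib.JWall99
import Cfsg.Agent.Lib.QuadClass
import Cfsg.Agent.Lib.OrthoCount
-- import your own Cfsg.Agent.* helpers here

set_option autoImplicit false
open scoped MatrixGroups
open Cfsg

namespace Cfsg.Agent.S5994

open Matrix Module QuadraticMap
open Cfsg.Agent.Lib.JWall99 Cfsg.Agent.Lib.OrthoCount Cfsg.Agent.Lib.QuadFF

/-- A necessary condition for every element of order p of PΩ⁻_n(q), q odd, to fix an elliptic `m`-space. Here `T = PΩ⁻_n(F)`, `n = 2d ≥ 8`, realised through `Ω⁻_n(q)`, the commutator subgroup of the isometry group of `Q = Σ_{i<d−1} xᵢyᵢ + z₁² + a z₁z₂ + b z₂²` with `z₁² + a z₁z₂ + b z₂²` anisotropic, over the field `F` with `q` elements; an element of `T` of prime order `r` is an element `x` of `Ω⁻_n(q)` with `x^r` scalar and `x` not scalar; `q` is odd; a nondegenerate `m`-space (even `m`) is a subspace on which the polar form of `Q` is nondegenerate; it is hyperbolic if it contains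 an `m/2`-dimensional subspace on which `Q` vanishes, elliptic otherwise. Let `m` be even with `2 ≤ m ≤ n − 2` and suppose `p` divides the number of elliptic `m`-spaces. If every element of `T` of order `p` fixes some elliptic `m`-space, then `n ≡ m (mod 4)` and every partition of `n` into parts of size at most `p` in which every even part has even multiplicity contains (as a sub-multiset) a partition of `m` in which every even part has even multiplicity. -/
theorem result {F : Type*} [Field F] [Fintype F] {p : ℕ} [Fact p.Prime] [CharP F p] {q : ℕ} (hq : Fintype.card F = q) (hqodd : Odd q)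
    (d m : ℕ) (hd : 4 ≤ d) (hm : 2 ≤ m) (hme : Even m) (hmn : m + 2 ≤ 2 * d) (a b : F) (hab : ∀ x y : F, x ^ 2 + a * x * y + b * y ^ 2 = 0 → x = 0 ∧ y = 0)
    (hpΩ : p ∣ Nat.card {W : Submodule F ((Fin (d - 1) ⊕ Fin (d - 1)) ⊕ Fin 2 → F) // Module.finrank F ↥W = m ∧ Cfsg.Geo.IsNondegenerateOn (QuadraticMap.polar (Cfsg.quadFormMinus (d - 1) F a b)) W ∧ ¬ Cfsg.Geo.IsPlusTypeOn (Cfsg.quadFormMinus (d - 1) F a b) W}) :
    (∀ x : GL ((Fin (d - 1) ⊕ Fin (d - 1)) ⊕ Fin 2) F, x ∈ Cfsg.Geo.omegaGL (Cfsg.quadFormMinus (d - 1) F a b) →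
      (∃ z : F, ((x ^ p : GL ((Fin (d - 1) ⊕ Fin (d - 1)) ⊕ Fin 2) F) : Matrix ((Fin (d - 1) ⊕ Fin (d - 1)) ⊕ Fin 2) ((Fin (d - 1) ⊕ Fin (d - 1)) ⊕ Fin 2) F) = z • (1 : Matrix ((Fin (d - 1) ⊕ Fin (d - 1)) ⊕ Fin 2) ((Fin (d - 1) ⊕ Fin (d - 1)) ⊕ Fin 2) F)) →
      (∀ z : F, (x : Matrix ((Fin (d - 1) ⊕ Fin (d - 1)) ⊕ Fin 2) ((Fin (d - 1) ⊕ Fin (d - 1)) ⊕ Fin 2) F) ≠ z • (1 : Matrix ((Fin (d - 1) ⊕ Fin (d - 1)) ⊕ Fin 2) ((Fin (d - 1) ⊕ Fin (d - 1)) ⊕ Fin 2) F)) →
      ∃ W : Submodule F ((Fin (d - 1) ⊕ Fin (d - 1)) ⊕ Fin 2 → F), (Module.finrank F ↥W = m ∧ Cfsg.Geo.IsNondegenerateOn (QuadraticMap.polar (Cfsg.quadFormMinus (d - 1) F a b)) W ∧ ¬ Cfsg.Geo.IsPlusTypeOn (Cfsg.quadFormMinus (d - 1) F a b) W) ∧ W.map (Matrix.toLin' (x : Matrix ((Fin (d - 1) ⊕ Fin (d - 1)) ⊕ Fin 2) ((Fin (d - 1) ⊕ Fin (d - 1)) ⊕ Fin 2) F)) ≤ W) →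
    ((2 * d) % 4 = m % 4 ∧ (∀ μ : Multiset ℕ, (∀ e ∈ μ, 0 < e ∧ e ≤ p) → (∀ e : ℕ, Even e → Even (μ.count e)) → μ.sum = 2 * d →
        ∃ ν : Multiset ℕ, ν ≤ μ ∧ ν.sum = m ∧ ∀ e : ℕ, Even e → Even (ν.count e))) := by
  intro hyp
  have hf : ⇑(qMinus (d - 1) a b) = Cfsg.quadFormMinus (d - 1) F a b := funext (qMinus_apply (d - 1) a b)
  rw [← hf] at hyp
  have hp : Odd p := odd_char_of_card hq hqodd
  have h2F : (2 : F) ≠ 0 := two_ne_zero_of_odd hp
  have hQ : ND (qMinus (d - 1) a b) := Cfsg.Agent.Lib.QuadClass.ND_qMinus a b hab (d - 1)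
  have hcard : Fintype.card ((Fin (d - 1) ⊕ Fin (d - 1)) ⊕ Fin 2) = 2 * d := by
    simp only [Fintype.card_sum, Fintype.card_fin]
    omega
  have hp3 : 3 ≤ p := by
    have h3 := (Fact.out : p.Prime).two_le
    obtain ⟨s, hs⟩ := hp
    omega
  have key : ∀ μ : Multiset ℕ, (∀ e ∈ μ, 0 < e ∧ e ≤ p) → (∀ e : ℕ, Even e → Even (μ.count e)) → μ.sum = 2 * d →
      ∃ ν : Multiset ℕ, ν ≤ μ ∧ ν.sum = m ∧ ∀ e : ℕ, Even e → Even (ν.count e) := by
    intro μ hμ hev hsum
    refine nec_sub hp (qMinus (d - 1) a b) hQ m (by rw [hcard]; omega) hme ?_ μ hμ hev (by rw [hcard, hsum])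
    intro x hx hxp hns
    obtain ⟨W, ⟨h1, h2, _⟩, h4⟩ := hyp x hx ⟨1, by rw [hxp]; simp⟩ hns
    exact ⟨W, h1, h2, h4⟩
  refine ⟨?_, key⟩
  rcases Nat.even_or_odd d with hd2 | hd2
  · -- `n ≡ 0 (mod 4)`
    have hcount : ∀ e, Even e → Even ((Multiset.replicate d 2).count e) := by
      intro e he
      rw [Multiset.count_replicate]
      split_ifs with h
      · exact hd2
      · exact Even.zero
    obtain ⟨ν, h1, h3, h4⟩ := key (Multiset.replicate d 2) (by
        intro e he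
        rw [Multiset.eq_of_mem_replicate he]
        omega) hcount (by
        simp only [Multiset.sum_replicate, smul_eq_mul]
        omega)
    have h5 := mod_four_of_le_replicate d ν h1 (h4 2 ⟨1, rfl⟩)
    rw [h3] at h5
    obtain ⟨s, hs⟩ := hd2
    omega
  · -- `n ≡ 2 (mod 4)`
    obtain ⟨s, hs⟩ := hd2
    obtain ⟨t, ht⟩ := hme
    have hm4 : m % 4 = 2 := by
      by_contra hne
      have hm0 : m % 4 = 0 := by omega
      have hd3 : Even (d - 1) := ⟨s, by omega⟩
      have hcount : ∀ e, Even e → Even ((1 ::ₘ 1 ::ₘ Multiset.replicate (d - 1) 2).count e) := by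
        intro e he
        have he1 : e ≠ 1 := by
          rintro rfl
          exact absurd he (by decide)
        rw [Multiset.count_cons_of_ne he1, Multiset.count_cons_of_ne he1, Multiset.count_replicate]
        split_ifs with h
        · exact hd3
        · exact Even.zero
      obtain ⟨x, hxΩ, hxp, hxiso, hxrk⟩ := exists_omega_jtype hp (qMinus (d - 1) a b) hQ
        (1 ::ₘ 1 ::ₘ Multiset.replicate (d - 1) 2) (by
          intro e he
          rw [Multiset.mem_cons, Multiset.mem_cons] at he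
          rcases he with rfl | rfl | he
          · omega
          · omega
          · rw [Multiset.eq_of_mem_replicate he]
            omega) hcount (by
          rw [hcard]
          simp only [Multiset.sum_cons, Multiset.sum_replicate, smul_eq_mul]
          omega) ⟨1, Multiset.mem_cons_self _ _, by decide⟩
      have hne1 : x ≠ 1 := by
        rintro rfl
        have h3 := hxrk 1
        have h4 : Cfsg.Agent.Lib.JType.NN (Cfsg.Agent.Lib.OrthMatrix.glEquiv (1 : GL ((Fin (d - 1) ⊕ Fin (d - 1)) ⊕ Fin 2) F)) = 0 := by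
          apply LinearMap.ext
          intro v
          simp [Cfsg.Agent.Lib.JType.NN_apply]
        rw [h4, pow_one, LinearMap.range_zero, finrank_bot] at h3
        have h5 : (2 : ℕ) - 1 ∈ (1 ::ₘ 1 ::ₘ Multiset.replicate (d - 1) 2).map (· - 1) :=
          Multiset.mem_map.mpr ⟨2, by
            rw [Multiset.mem_cons, Multiset.mem_cons]
            right
            right
            exact Multiset.mem_replicate.2 ⟨by omega, rfl⟩, rfl⟩
        have h6 := Multiset.single_le_sum (fun x _ => Nat.zero_le x) _ h5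
        omega
      obtain ⟨W, ⟨h1, h2, h3⟩, h4⟩ := hyp x hxΩ ⟨1, by rw [hxp]; simp⟩ (not_scalar_of_pow hxp hne1)
      apply h3
      exact isPlus_of_two_ones h2F _ hQ x hxiso (d - 1) hxrk W h2 h4 (by rw [h1]; exact hm0)
    omega

end Cfsg.Agent.S5994
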