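import Cfsg.Statements.S5995
import Cfsg.Agent.Lib.JWall99
import Cfsg.Agent.Lib.H97Ort4
import Cfsg.Agent.Lib.OrthoCount
-- import your own Cfsg.Agent.* helpers here

set_option autoImplicit false
open scoped MatrixGroups
open Cfsg

namespace Cfsg.Agent.S5995

open Matrix Module QuadraticMap
open Cfsg.Agent.Lib.JWall99 Cfsg.Agent.Lib.OrthoCount Cfsg.Agent.Lib.QuadFF

/-- A necessary condition for every element of order p of Ω_n(q), nq odd, to fix a hyperbolic `m`-space. Here `T = Ω_n(F)`, `n = 2d+1 ≥ 7`, `q` odd, realised as the commutator subgroup of the isometry group of `Q = x₀² + Σ xᵢyᵢ` over the field `F` with `q` elements (trivial centre, so its elements of prime order `r` are used directly); a nondegenerate `m`-space (even `m`) is a subspace on which the polar form of `Q` is nondegenerate; it is hyperbolic if it contains an `m/2`-dimensional subspace on which `Q` vanishes, elliptic otherwise. Let `m` be even with `2 ≤ m ≤ n − 1` and suppose `p` divides the number of hyperbolic `m`-spaces.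 If every element of `T` of order `p` fixes some hyperbolic `m`-space, then `m ≡ 0 (mod 4)` and every partition of `n` into parts of size at most `p` in which every even part has even multiplicity contains (as a sub-multiset) a partition of `m` in which every even part has even multiplicity. -/
theorem result {F : Type*} [Field F] [Fintype F] {p : ℕ} [Fact p.Prime] [CharP F p] {q : ℕ} (hq : Fintype.card F = q) (hqodd : Odd q)
    (d m : ℕ) (hd : 3 ≤ d) (hm : 2 ≤ m) (hme : Even m) (hmn : m ≤ 2 * d)
    (hpΩ : p ∣ Nat.card {W : Submodule F (Unit ⊕ (Fin d ⊕ Fin d) → F) // Module.finrank F ↥W = m ∧ Cfsg.Geo.IsNondegenerateOn (QuadraticMap.polar (Cfsg.quadFormOdd d F)) W ∧ Cfsg.Geo.IsPlusTypeOn (Cfsg.quadFormOdd d F) W}) :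
    (∀ x : GL (Unit ⊕ (Fin d ⊕ Fin d)) F, x ∈ Cfsg.Geo.omegaGL (Cfsg.quadFormOdd d F) → orderOf x = p →
      ∃ W : Submodule F (Unit ⊕ (Fin d ⊕ Fin d) → F), (Module.finrank F ↥W = m ∧ Cfsg.Geo.IsNondegenerateOn (QuadraticMap.polar (Cfsg.quadFormOdd d F)) W ∧ Cfsg.Geo.IsPlusTypeOn (Cfsg.quadFormOdd d F) W) ∧ W.map (Matrix.toLin' (x : Matrix (Unit ⊕ (Fin d ⊕ Fin d)) (Unit ⊕ (Fin d ⊕ Fin d)) F)) ≤ W) →
    (m % 4 = 0 ∧ (∀ μ : Multiset ℕ, (∀ e ∈ μ, 0 < e ∧ e ≤ p) → (∀ e : ℕ, Even e → Even (μ.count e)) → μ.sum = 2 * d + 1 →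
        ∃ ν : Multiset ℕ, ν ≤ μ ∧ ν.sum = m ∧ ∀ e : ℕ, Even e → Even (ν.count e))) := by
  intro hyp
  have hf : ⇑(qOdd d F) = Cfsg.quadFormOdd d F := funext (qOdd_apply d)
  rw [← hf] at hyp
  have hp : Odd p := odd_char_of_card hq hqodd
  have h2F : (2 : F) ≠ 0 := two_ne_zero_of_odd hp
  have hQ : ND (qOdd d F) := by
    intro x hx
    by_contra hne
    obtain ⟨_, ⟨y, hy⟩⟩ := (Cfsg.Agent.H97.Asch.qOdd_nondeg (m := d) h2F).nondegenerate x hne
    exact hy (hx y)
  have hcard : Fintype.card (Unit ⊕ (Fin d ⊕ Fin d)) = 2 * d + 1 := by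
    simp only [Fintype.card_sum, Fintype.card_fin, Fintype.card_unit]
    omega
  have hp3 : 3 ≤ p := by
    have h3 := (Fact.out : p.Prime).two_le
    obtain ⟨s, hs⟩ := hp
    omega
  have key : ∀ μ : Multiset ℕ, (∀ e ∈ μ, 0 < e ∧ e ≤ p) → (∀ e : ℕ, Even e → Even (μ.count e)) → μ.sum = 2 * d + 1 →
      ∃ ν : Multiset ℕ, ν ≤ μ ∧ ν.sum = m ∧ ∀ e : ℕ, Even e → Even (ν.count e) := by
    intro μ hμ hev hsum
    refine nec_sub hp (qOdd d F) hQ m (by rw [hcard]; omega) hme ?_ μ hμ hev (by rw [hcard, hsum])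
    intro x hx hxp hns
    have hne : x ≠ 1 := by
      rintro rfl
      exact hns 1 (by simp)
    obtain ⟨W, ⟨h1, h2, _⟩, h4⟩ := hyp x hx (orderOf_eq_prime hxp hne)
    exact ⟨W, h1, h2, h4⟩
  refine ⟨?_, key⟩
  -- `m` is divisible by four
  rcases Nat.even_or_odd d with hd2 | hd2
  · have hcount : ∀ e, Even e → Even ((1 ::ₘ Multiset.replicate d 2).count e) := by
      intro e he
      rw [Multiset.count_cons_of_ne (by rintro rfl; exact absurd he (by decide)), Multiset.count_replicate]
      split_ifs with h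
      · exact hd2
      · exact Even.zero
    obtain ⟨ν, h1, h3, h4⟩ := key (1 ::ₘ Multiset.replicate d 2) (by
        intro e he
        rw [Multiset.mem_cons] at he
        rcases he with rfl | he
        · omega
        · rw [Multiset.eq_of_mem_replicate he]
          omega) hcount (by
        simp only [Multiset.sum_cons, Multiset.sum_replicate, smul_eq_mul]
        omega)
    rw [← h3]
    exact mod_four_of_le_cons 1 d (by decide) ν h1 (h3 ▸ hme) (h4 2 ⟨1, rfl⟩)
  · obtain ⟨s, hs⟩ := hd2
    have hd3 : Even (d - 1) := ⟨s, by omega⟩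
    have hcount : ∀ e, Even e → Even ((3 ::ₘ Multiset.replicate (d - 1) 2).count e) := by
      intro e he
      rw [Multiset.count_cons_of_ne (by rintro rfl; exact absurd he (by decide)), Multiset.count_replicate]
      split_ifs with h
      · exact hd3
      · exact Even.zero
    obtain ⟨ν, h1, h3, h4⟩ := key (3 ::ₘ Multiset.replicate (d - 1) 2) (by
        intro e he
        rw [Multiset.mem_cons] at he
        rcases he with rfl | he
        · omega
        · rw [Multiset.eq_of_mem_replicate he]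
          omega) hcount (by
        simp only [Multiset.sum_cons, Multiset.sum_replicate, smul_eq_mul]
        omega)
    rw [← h3]
    exact mod_four_of_le_cons 3 (d - 1) (by decide) ν h1 (h3 ▸ hme) (h4 2 ⟨1, rfl⟩)

end Cfsg.Agent.S5995
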