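import Mathlib
import Cfsg.Agent.S5971
import Cfsg.Agent.Lib.EigenThree
import Cfsg.Agent.Lib.ClassicalCore
import Cfsg.Agent.Lib.MatConj
import Cfsg.Statements.S5998
-- import your own Cfsg.Agent.* helpers here

set_option autoImplicit false
open scoped MatrixGroups
open Cfsg

namespace Cfsg.Agent.S5998

open Matrix Module Polynomial Cfsg.Geo
open Cfsg.Agent.Lib.MatConj Cfsg.Agent.Lib.EigenThree

set_option linter.unusedSimpArgs false
set_option linter.unusedVariables false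

variable {F : Type*} [Field F]

local notation "M3" => Matrix (Fin 3) (Fin 3) F
local notation "V3" => (Fin 3 → F)

theorem comm_of_card_dvd_nine {G : Type*} [Group G] (h : Nat.card G ∣ 9) (a b : G) : a * b = b * a := by
  haveI : Fact (Nat.Prime 3) := ⟨Nat.prime_three⟩
  have h9 : (9 : ℕ) = 3 ^ 2 := by norm_num
  rw [h9] at h
  obtain ⟨k, hk, hc⟩ := (Nat.dvd_prime_pow Nat.prime_three).mp h
  interval_cases k
  · have : Subsingleton G := by
      have := (Nat.card_eq_one_iff_unique.mp (by simpa using hc)).1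
      exact this
    exact Subsingleton.elim _ _
  · haveI : Fact (Nat.card G).Prime := ⟨by rw [hc]; norm_num⟩
    haveI : IsCyclic G := isCyclic_of_prime_card rfl
    exact mul_comm' a b
  · exact IsPGroup.commutative_of_card_eq_prime_sq hc a b

theorem commutator_central {G : Type*} [Group G] (hG : Nat.card G = 27) (a b : G) :
    a⁻¹ * b⁻¹ * a * b ∈ Subgroup.center G := by
  haveI : Fact (Nat.Prime 3) := ⟨Nat.prime_three⟩
  haveI : Finite G := Nat.finite_of_card_ne_zero (by rw [hG]; norm_num)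
  have h27 : Nat.card G = 3 ^ 3 := by rw [hG]; norm_num
  have hp : IsPGroup 3 G := IsPGroup.of_card h27
  haveI : Nontrivial G := by
    rw [← Finite.one_lt_card_iff_nontrivial, hG]
    norm_num
  haveI := hp.center_nontrivial
  set Z := Subgroup.center G
  have h1 : Nat.card (G ⧸ Z) * Nat.card Z = 27 := by
    rw [← hG]
    exact (Subgroup.card_eq_card_quotient_mul_card_subgroup Z).symm
  have hZ1 : 1 < Nat.card Z := Finite.one_lt_card
  have hZd : Nat.card Z ∣ 3 ^ 3 := by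
    rw [← h27]
    exact Subgroup.card_subgroup_dvd_card Z
  obtain ⟨k, hk, hc⟩ := (Nat.dvd_prime_pow Nat.prime_three).mp hZd
  have hq : Nat.card (G ⧸ Z) ∣ 9 := by
    rw [hc] at h1 hZ1
    interval_cases k
    · simp at hZ1
    · have : Nat.card (G ⧸ Z) = 9 := by omega
      rw [this]
    · have : Nat.card (G ⧸ Z) = 3 := by omega
      rw [this]
      norm_num
    · have : Nat.card (G ⧸ Z) = 1 := by omega
      rw [this]
      norm_num
  have hcomm := comm_of_card_dvd_nine hq ((a⁻¹ : G) : G ⧸ Z) ((b⁻¹ : G) : G ⧸ Z)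
  have : (a⁻¹ * b⁻¹ * a * b : G) = (b * a)⁻¹ * (a * b) := by group
  rw [this, ← QuotientGroup.eq]
  rw [← QuotientGroup.mk_mul, ← QuotientGroup.mk_mul] at hcomm
  have h2 := congrArg (fun t : G ⧸ Z => t⁻¹) hcomm
  simp only [← QuotientGroup.mk_inv] at h2
  simpa [_root_.mul_inv_rev] using h2

/-- An eigenvector of `a` inside an eigenspace of `c`. -/
theorem eig_in (ω : F) (hω : ω ^ 2 + ω + 1 = 0) (a c : M3) (ha3 : a * a * a = 1) (hca : c * a = a * c)
    (v : V3) (hv0 : v ≠ 0) (μ : F) (hv : c *ᵥ v = μ • v) :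
    ∃ (l : F) (u : V3), u ≠ 0 ∧ c *ᵥ u = μ • u ∧ a *ᵥ u = l • u ∧ l ^ 3 = 1 := by
  have hω3 : ω ^ 3 = 1 := by linear_combination (ω - 1) * hω
  have hca' : ∀ u, c *ᵥ (a *ᵥ u) = a *ᵥ (c *ᵥ u) := by
    intro u
    rw [Matrix.mulVec_mulVec, hca, ← Matrix.mulVec_mulVec]
  have ha3' : ∀ u, a *ᵥ (a *ᵥ (a *ᵥ u)) = u := by
    intro u
    rw [Matrix.mulVec_mulVec, Matrix.mulVec_mulVec, ha3, Matrix.one_mulVec]
  set v₁ : V3 := a *ᵥ v - ω • v with hv₁
  set v₂ : V3 := a *ᵥ v₁ - ω ^ 2 • v₁ with hv₂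
  have hcv₁ : c *ᵥ v₁ = μ • v₁ := by
    rw [hv₁, Matrix.mulVec_sub, Matrix.mulVec_smul, hca', hv, Matrix.mulVec_smul]
    module
  have hcv₂ : c *ᵥ v₂ = μ • v₂ := by
    rw [hv₂, Matrix.mulVec_sub, Matrix.mulVec_smul, hca', hcv₁, Matrix.mulVec_smul]
    module
  have hav₁ : a *ᵥ v₁ = ω ^ 2 • v₁ + v₂ := by
    rw [hv₂]; abel
  have hav₂ : a *ᵥ v₂ = v₂ := by
    have e1 : v₂ = a *ᵥ (a *ᵥ v) + a *ᵥ v + v := by
      rw [hv₂, hv₁, Matrix.mulVec_sub, Matrix.mulVec_smul, smul_sub, smul_smul]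
      have e2 : ω ^ 2 * ω = 1 := by linear_combination hω3
      rw [e2, one_smul]
      have e3 : ω ^ 2 = -ω - 1 := by linear_combination hω
      rw [e3]
      module
    rw [e1, Matrix.mulVec_add, Matrix.mulVec_add, ha3']
    abel
  by_cases h2 : v₂ = 0
  · by_cases h1 : v₁ = 0
    · refine ⟨ω, v, hv0, hv, ?_, hω3⟩
      exact sub_eq_zero.mp h1
    · refine ⟨ω ^ 2, v₁, h1, hcv₁, ?_, ?_⟩
      · rw [hav₁, h2, add_zero]
      · rw [← pow_mul, mul_comm, pow_mul, hω3, one_pow]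
  · refine ⟨1, v₂, h2, hcv₂, ?_, one_pow 3⟩
    rw [hav₂, one_smul]

/-- The normal form of a pair with central commutator. -/
theorem normal_form (h3 : (3 : F) ≠ 0) (ω : F) (hω : ω ^ 2 + ω + 1 = 0) (a b c : M3)
    (ha3 : a * a * a = 1) (hb3 : b * b * b = 1) (hc3 : c * c * c = 1)
    (hab : a * b = b * a * c) (hca : c * a = a * c) (hcb : c * b = b * c) (hc1 : c ≠ 1) :
    ∃ (μ : F) (e : Basis (Fin 3) F V3), μ ^ 2 + μ + 1 = 0 ∧ c = μ • (1 : M3) ∧
      a *ᵥ e 0 = e 0 ∧ a *ᵥ e 1 = μ • e 1 ∧ a *ᵥ e 2 = μ ^ 2 • e 2 ∧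
      b *ᵥ e 0 = e 1 ∧ b *ᵥ e 1 = e 2 ∧ b *ᵥ e 2 = e 0 := by
  classical
  have hω3 : ω ^ 3 = 1 := by linear_combination (ω - 1) * hω
  have hc3' : ∀ u, c *ᵥ (c *ᵥ (c *ᵥ u)) = u := by
    intro u
    rw [Matrix.mulVec_mulVec, Matrix.mulVec_mulVec, hc3, Matrix.one_mulVec]
  have hb3' : ∀ u, b *ᵥ (b *ᵥ (b *ᵥ u)) = u := by
    intro u
    rw [Matrix.mulVec_mulVec, Matrix.mulVec_mulVec, hb3, Matrix.one_mulVec]
  -- an eigenvector of `c` with eigenvalue `≠ 1`
  obtain ⟨μ, v, hv0, hv, hμ⟩ : ∃ (μ : F) (v : V3), v ≠ 0 ∧ c *ᵥ v = μ • v ∧ μ ^ 2 + μ + 1 = 0 := by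
    have : ∃ v₀ : V3, c *ᵥ v₀ ≠ v₀ := by
      by_contra hall
      push_neg at hall
      apply hc1
      apply Matrix.toLin'.injective
      apply LinearMap.ext
      intro v
      simp [hall]
    obtain ⟨v₀, hv₀⟩ := this
    set u₁ : V3 := c *ᵥ v₀ - v₀ with hu₁
    have hu₁0 : u₁ ≠ 0 := sub_ne_zero.mpr hv₀
    set u₂ : V3 := c *ᵥ u₁ - ω • u₁ with hu₂
    by_cases h2 : u₂ = 0
    · exact ⟨ω, u₁, hu₁0, sub_eq_zero.mp h2, hω⟩
    · refine ⟨ω ^ 2, u₂, h2, ?_, by linear_combination (ω ^ 2 - ω + 1) * hω⟩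
      have e1 : c *ᵥ (c *ᵥ (c *ᵥ v₀)) = v₀ := hc3' v₀
      rw [hu₂, hu₁]
      simp only [Matrix.mulVec_sub, Matrix.mulVec_smul, e1, smul_sub, smul_smul]
      have e2 : ω ^ 2 * ω = 1 := by linear_combination hω3
      have e3 : ω ^ 2 = -ω - 1 := by linear_combination hω
      rw [e2, e3]
      module
  have hμ3 : μ ^ 3 = 1 := by linear_combination (μ - 1) * hμ
  have hμ1 : μ ≠ 1 := by
    rintro rfl
    apply h3
    linear_combination hμ
  have hμ0 : μ ≠ 0 := by
    rintro rfl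
    norm_num at hμ3
  have hμμ : μ ^ 2 ≠ μ := by
    intro h
    apply hμ1
    have : μ * (μ - 1) = 0 := by linear_combination h
    rcases mul_eq_zero.mp this with h0 | h0
    · exact absurd h0 hμ0
    · exact sub_eq_zero.mp h0
  have hμ21 : μ ^ 2 ≠ 1 := by
    intro h
    apply hμμ
    have : μ ^ 2 * μ = μ := by rw [h, one_mul]
    have h2 : μ ^ 3 = μ := by rw [pow_succ, this]
    rw [hμ3] at h2
    rw [h, h2]
  obtain ⟨l, u, hu0, hcu, hau, hl3⟩ := eig_in ω hω a c ha3 hca v hv0 μ hv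
  have hbinj : ∀ w, b *ᵥ w = 0 → w = 0 := by
    intro w hw
    rw [← hb3' w, hw]
    simp
  have hstep : ∀ (w : V3) (ρ : F), w ≠ 0 → c *ᵥ w = μ • w → a *ᵥ w = ρ • w →
      b *ᵥ w ≠ 0 ∧ c *ᵥ (b *ᵥ w) = μ • (b *ᵥ w) ∧ a *ᵥ (b *ᵥ w) = (μ * ρ) • (b *ᵥ w) := by
    intro w ρ hw hcw haw
    refine ⟨fun h => hw (hbinj w h), ?_, ?_⟩
    · rw [Matrix.mulVec_mulVec, hcb, ← Matrix.mulVec_mulVec, hcw, Matrix.mulVec_smul]
    · rw [Matrix.mulVec_mulVec, hab, ← Matrix.mulVec_mulVec, hcw, Matrix.mulVec_smul, ← Matrix.mulVec_mulVec, haw,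
        Matrix.mulVec_smul, smul_smul]
  -- an eigenvector with eigenvalue `1`
  obtain ⟨e₀, he₀0, hce₀, hae₀⟩ : ∃ e₀ : V3, e₀ ≠ 0 ∧ c *ᵥ e₀ = μ • e₀ ∧ a *ᵥ e₀ = e₀ := by
    have hfac : (l - 1) * ((l - μ) * (l - μ ^ 2)) = 0 := by
      have e1 : (l - μ) * (l - μ ^ 2) = l ^ 2 + l + 1 + (l * (- μ ^ 2 - μ - 1) + (μ ^ 3 - 1)) := by ring
      rw [e1, hμ3]
      have e2 : - μ ^ 2 - μ - 1 = 0 := by linear_combination -hμ
      rw [e2]
      linear_combination hl3
    rcases mul_eq_zero.mp hfac with h | h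
    · have hl : l = 1 := sub_eq_zero.mp h
      exact ⟨u, hu0, hcu, by rw [hau, hl, one_smul]⟩
    · rcases mul_eq_zero.mp h with h | h
      · have hl : l = μ := sub_eq_zero.mp h
        obtain ⟨h1, h2, h3'⟩ := hstep u l hu0 hcu hau
        obtain ⟨h4, h5, h6⟩ := hstep _ _ h1 h2 h3'
        refine ⟨_, h4, h5, ?_⟩
        rw [h6, hl, show μ * (μ * μ) = μ ^ 3 by ring, hμ3, one_smul]
      · have hl : l = μ ^ 2 := sub_eq_zero.mp h
        obtain ⟨h1, h2, h3'⟩ := hstep u l hu0 hcu hau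
        refine ⟨_, h1, h2, ?_⟩
        rw [h3', hl, show μ * μ ^ 2 = μ ^ 3 by ring, hμ3, one_smul]
  obtain ⟨h1, hce₁, hae₁'⟩ := hstep e₀ 1 he₀0 hce₀ (by rw [hae₀, one_smul])
  rw [mul_one] at hae₁'
  obtain ⟨h2, hce₂, hae₂'⟩ := hstep _ μ h1 hce₁ hae₁'
  set e₁ : V3 := b *ᵥ e₀ with he₁
  set e₂ : V3 := b *ᵥ e₁ with he₂
  have hbe₂ : b *ᵥ e₂ = e₀ := hb3' e₀
  let vv : Fin 3 → V3 := ![e₀, e₁, e₂]
  let lam : Fin 3 → F := ![1, μ, μ ^ 2]
  have hinj : Function.Injective lam := by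
    intro i j hij
    fin_cases i <;> fin_cases j <;> first
      | rfl
      | exact absurd (show (1 : F) = μ from hij) (Ne.symm hμ1)
      | exact absurd (show (1 : F) = μ ^ 2 from hij) (Ne.symm hμ21)
      | exact absurd (show μ = 1 from hij) hμ1
      | exact absurd (show μ = μ ^ 2 from hij) (Ne.symm hμμ)
      | exact absurd (show μ ^ 2 = 1 from hij) hμ21
      | exact absurd (show μ ^ 2 = μ from hij) hμμ
  have hli : LinearIndependent F vv := by
    apply Module.End.eigenvectors_linearIndependent' (Matrix.toLin' a) lam hinj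
    intro i
    rw [Module.End.hasEigenvector_iff, Module.End.mem_eigenspace_iff]
    fin_cases i
    · refine ⟨?_, he₀0⟩
      simp [vv, lam, hae₀]
    · refine ⟨?_, h1⟩
      simp only [vv, lam, Matrix.toLin'_apply]
      simpa using hae₁'
    · refine ⟨?_, h2⟩
      simp only [vv, lam, Matrix.toLin'_apply]
      simpa [pow_two] using hae₂'
  let e : Basis (Fin 3) F V3 := basisOfLinearIndependentOfCardEqFinrank hli (by simp)
  have he : ∀ i, e i = vv i := by
    intro i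
    simp [e]
  have he0 : e 0 = e₀ := by rw [he]; rfl
  have he1 : e 1 = e₁ := by rw [he]; rfl
  have he2 : e 2 = e₂ := by rw [he]; rfl
  refine ⟨μ, e, hμ, ?_, ?_, ?_, ?_, ?_, ?_, ?_⟩
  · apply Matrix.toLin'.injective
    apply e.ext
    intro i
    simp only [Matrix.toLin'_apply, Matrix.smul_mulVec, Matrix.one_mulVec]
    fin_cases i
    · show c *ᵥ e 0 = μ • e 0
      rw [he0, hce₀]
    · show c *ᵥ e 1 = μ • e 1
      rw [he1, hce₁]
    · show c *ᵥ e 2 = μ • e 2
      rw [he2, hce₂]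
  · rw [he0, hae₀]
  · rw [he1, hae₁']
  · rw [he2, hae₂', pow_two]
  · rw [he0, he1]
  · rw [he1, he2]
  · rw [he2, he0, hbe₂]

/-- A monomial element in a given basis. -/
theorem exists_mono_gl {ι ι' : Type*} [Fintype ι] [DecidableEq ι] [Fintype ι'] [DecidableEq ι']
    (e : Basis ι' F (ι → F)) (π : Equiv.Perm ι') (m : ι' → F) (hm : ∀ i, m i ≠ 0) :
    ∃ D : GL ι F, ∀ i, (D : Matrix ι ι F) *ᵥ e i = m i • e (π i) := by
  classical
  let e' := (e.reindex π.symm).unitsSMul (fun i => Units.mk0 (m i) (hm i))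
  let E : (ι → F) ≃ₗ[F] (ι → F) := e.equiv e' (Equiv.refl _)
  refine ⟨glOfEquiv E, fun i => ?_⟩
  rw [glOfEquiv_mulVec]
  simp [E, e', Basis.equiv_apply, Basis.unitsSMul_apply, Units.smul_def]

theorem eq_of_basis {ι ι' : Type*} [Fintype ι] [DecidableEq ι] (e : Basis ι' F (ι → F)) (X Y : Matrix ι ι F)
    (h : ∀ i, X *ᵥ e i = Y *ᵥ e i) : X = Y := by
  apply Matrix.toLin'.injective
  apply e.ext
  intro i
  simpa using h i

/-- The standing data for a group of order 27. -/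
structure Std (R : Subgroup (GL (Fin 3) F)) (a b c : GL (Fin 3) F) (μ : F) (e : Basis (Fin 3) F V3) : Prop where
  ha : a ∈ R
  hb : b ∈ R
  hc : c ∈ R
  hcl : Subgroup.closure {a, b} = R
  hμ : μ ^ 2 + μ + 1 = 0
  hcv : (c : M3) = μ • (1 : M3)
  a0 : (a : M3) *ᵥ e 0 = e 0
  a1 : (a : M3) *ᵥ e 1 = μ • e 1
  a2 : (a : M3) *ᵥ e 2 = μ ^ 2 • e 2
  b0 : (b : M3) *ᵥ e 0 = e 1
  b1 : (b : M3) *ᵥ e 1 = e 2
  b2 : (b : M3) *ᵥ e 2 = e 0

theorem card_closure_27 (R : Subgroup (GL (Fin 3) F)) (hR : Nat.card R = 27) (a b : GL (Fin 3) F) (ha : a ∈ R) (hb : b ∈ R)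
    (hab : a * b ≠ b * a) : Subgroup.closure {a, b} = R := by
  haveI : Finite R := Nat.finite_of_card_ne_zero (by rw [hR]; norm_num)
  have hle : Subgroup.closure {a, b} ≤ R := by
    rw [Subgroup.closure_le]
    rintro u (rfl | rfl)
    · exact ha
    · exact hb
  have hd : Nat.card (Subgroup.closure ({a, b} : Set (GL (Fin 3) F))) ∣ Nat.card R := Subgroup.card_dvd_of_le hle
  rw [hR, show (27 : ℕ) = 3 ^ 3 by norm_num] at hd
  obtain ⟨k, hk, hc⟩ := (Nat.dvd_prime_pow Nat.prime_three).mp hd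
  have hk3 : k = 3 := by
    by_contra hne
    have h9 : Nat.card (Subgroup.closure ({a, b} : Set (GL (Fin 3) F))) ∣ 9 := by
      rw [hc, show (9 : ℕ) = 3 ^ 2 by norm_num]
      exact pow_dvd_pow 3 (by omega)
    have := comm_of_card_dvd_nine h9 ⟨a, Subgroup.subset_closure (by simp)⟩ ⟨b, Subgroup.subset_closure (by simp)⟩
    apply hab
    exact congrArg Subtype.val this
  subst hk3
  apply Subgroup.eq_of_le_of_card_ge hle
  rw [hR, hc]
  norm_num

/-- Existence of the standing data. -/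
theorem exists_std (h3 : (3 : F) ≠ 0) (ω : F) (hω : ω ^ 2 + ω + 1 = 0) (R : Subgroup (GL (Fin 3) F)) (hR : Nat.card R = 27)
    (hRe : Monoid.exponent R = 3) (hRna : ¬ IsMulCommutative R) :
    ∃ (a b c : GL (Fin 3) F) (μ : F) (e : Basis (Fin 3) F V3), Std R a b c μ e := by
  classical
  obtain ⟨a, b, hab⟩ : ∃ a b : R, a * b ≠ b * a := by
    by_contra hne
    push_neg at hne
    exact hRna ⟨⟨hne⟩⟩
  have hcen := commutator_central hR a b
  set c : R := a⁻¹ * b⁻¹ * a * b with hc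
  have hca : c * a = a * c := (Subgroup.mem_center_iff.mp hcen a).symm
  have hcb : c * b = b * c := (Subgroup.mem_center_iff.mp hcen b).symm
  have hab' : a * b = b * a * c := by
    rw [hc]
    group
  have hc1 : c ≠ 1 := by
    intro h1
    apply hab
    rw [hab', h1, mul_one]
  have hpow : ∀ u : R, u * u * u = 1 := by
    intro u
    have := Monoid.pow_exponent_eq_one u
    rw [hRe, pow_succ, pow_two] at this
    exact this
  have hv : ∀ u v : R, (((u * v : R) : GL (Fin 3) F) : M3) = ((u : GL (Fin 3) F) : M3) * ((v : GL (Fin 3) F) : M3) := fun u v => rfl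
  have hone : (((1 : R) : GL (Fin 3) F) : M3) = 1 := rfl
  have hinj : ∀ u v : R, ((u : GL (Fin 3) F) : M3) = ((v : GL (Fin 3) F) : M3) → u = v :=
    fun u v h => Subtype.ext (Units.ext h)
  obtain ⟨μ, e, hμ, hcv, h0, h1, h2, h4, h5, h6⟩ := normal_form h3 ω hω ((a : GL (Fin 3) F) : M3) ((b : GL (Fin 3) F) : M3) ((c : GL (Fin 3) F) : M3)
    (by rw [← hv, ← hv, hpow, hone]) (by rw [← hv, ← hv, hpow, hone]) (by rw [← hv, ← hv, hpow, hone])
    (by rw [← hv, ← hv, ← hv, hab']) (by rw [← hv, ← hv, hca]) (by rw [← hv, ← hv, hcb])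
    (fun h => hc1 (hinj _ _ (by rw [h, hone])))
  refine ⟨a, b, c, μ, e, ⟨a.2, b.2, c.2, card_closure_27 R hR a b a.2 b.2 ?_, hμ, hcv, h0, h1, h2, h4, h5, h6⟩⟩
  intro h
  apply hab
  exact Subtype.ext h

section StdFacts

variable {R : Subgroup (GL (Fin 3) F)} {a b c : GL (Fin 3) F} {μ : F} {e : Basis (Fin 3) F (Fin 3 → F)}

theorem mem_norm_of [Finite R] (h : Std R a b c μ e) (y : GL (Fin 3) F) (hya : y * a * y⁻¹ ∈ R) (hyb : y * b * y⁻¹ ∈ R) :
    y ∈ subgroupNormalizer R := by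
  classical
  have hfw : ∀ u ∈ R, y * u * y⁻¹ ∈ R := by
    intro u hu
    rw [← h.hcl] at hu
    induction hu using Subgroup.closure_induction with
    | mem x hx =>
      rcases hx with rfl | rfl
      · exact hya
      · exact hyb
    | one => simp [R.one_mem]
    | mul x₁ x₂ _ _ h₁ h₂ =>
      have : y * (x₁ * x₂) * y⁻¹ = (y * x₁ * y⁻¹) * (y * x₂ * y⁻¹) := by group
      rw [this]
      exact R.mul_mem h₁ h₂
    | inv x₁ _ h₁ =>
      have : y * x₁⁻¹ * y⁻¹ = (y * x₁ * y⁻¹)⁻¹ := by group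
      rw [this]
      exact R.inv_mem h₁
  unfold subgroupNormalizer
  rw [Subgroup.mem_normalizer_iff]
  intro u
  refine ⟨hfw u, fun hu => ?_⟩
  let φ : R → R := fun v => ⟨y * v * y⁻¹, hfw v v.2⟩
  have hφ : Function.Injective φ := by
    intro v₁ v₂ hv
    have := congrArg Subtype.val hv
    simp only [φ] at this
    exact Subtype.ext (by simpa using this)
  obtain ⟨v, hv⟩ := (Finite.injective_iff_surjective.mp hφ) ⟨y * u * y⁻¹, hu⟩
  have := congrArg Subtype.val hv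
  simp only [φ] at this
  have huv : (v : GL (Fin 3) F) = u := by simpa using this
  rw [← huv]
  exact v.2

/-- A scalar multiple of a normalizing element. -/
theorem smul_mem_norm (y y' : GL (Fin 3) F) (σ : F) (hy' : (y' : M3) = σ • (y : M3)) (hy : y ∈ subgroupNormalizer R) :
    y' ∈ subgroupNormalizer R := by
  unfold subgroupNormalizer at *
  rw [Subgroup.mem_normalizer_iff] at hy ⊢
  intro u
  rw [hy u]
  have : y' * u * y'⁻¹ = y * u * y⁻¹ := by
    have hσ : σ ≠ 0 := by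
      rintro rfl
      have h1 := (Matrix.isUnits_det_units y').ne_zero
      rw [hy', zero_smul, Matrix.det_zero] at h1
      exact h1 rfl
    rw [mul_inv_eq_iff_eq_mul]
    apply Units.ext
    have h1 : ((y * u * y⁻¹ : GL (Fin 3) F) * y : GL (Fin 3) F) = y * u := by group
    rw [Units.val_mul (y * u * y⁻¹) y', hy', Matrix.mul_smul, ← Units.val_mul, h1, Units.val_mul y' u, hy', Matrix.smul_mul, Units.val_mul]
  rw [this]

/-- A triple of eigenvalues realised by an element of the normalizer. -/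
def Realized (R : Subgroup (GL (Fin 3) F)) (l₀ l₁ l₂ : F) : Prop :=
  ∃ (y : GL (Fin 3) F) (f : Basis (Fin 3) F V3), y ∈ subgroupNormalizer R ∧
    (y : M3) *ᵥ f 0 = l₀ • f 0 ∧ (y : M3) *ᵥ f 1 = l₁ • f 1 ∧ (y : M3) *ᵥ f 2 = l₂ • f 2

theorem Realized.swap12 {l₀ l₁ l₂ : F} (h : Realized R l₀ l₁ l₂) : Realized R l₀ l₂ l₁ := by
  obtain ⟨y, f, hy, h0, h1, h2⟩ := h
  refine ⟨y, f.reindex (Equiv.swap 1 2), hy, ?_, ?_, ?_⟩
  · simpa [Basis.reindex_apply, Equiv.swap_apply_of_ne_of_ne] using h0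
  · simpa [Basis.reindex_apply] using h2
  · simpa [Basis.reindex_apply] using h1

theorem Realized.swap02 {l₀ l₁ l₂ : F} (h : Realized R l₀ l₁ l₂) : Realized R l₂ l₁ l₀ := by
  obtain ⟨y, f, hy, h0, h1, h2⟩ := h
  refine ⟨y, f.reindex (Equiv.swap 0 2), hy, ?_, ?_, ?_⟩
  · simpa [Basis.reindex_apply] using h2
  · simpa [Basis.reindex_apply, Equiv.swap_apply_of_ne_of_ne] using h1
  · simpa [Basis.reindex_apply] using h0

/-- Scaling a realised triple. -/
theorem Realized.smul {l₀ l₁ l₂ : F} (hr : Realized R l₀ l₁ l₂) (σ : F) (hσ : σ ≠ 0) :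
    Realized R (σ * l₀) (σ * l₁) (σ * l₂) := by
  obtain ⟨y, f, hy, h0, h1, h2⟩ := hr
  let s : GL (Fin 3) F := ⟨σ • (y : M3), σ⁻¹ • ((y⁻¹ : GL (Fin 3) F) : M3), by
    rw [Matrix.smul_mul, Matrix.mul_smul, smul_smul, mul_inv_cancel₀ hσ, one_smul, ← Units.val_mul, mul_inv_cancel]; rfl, by
    rw [Matrix.smul_mul, Matrix.mul_smul, smul_smul, inv_mul_cancel₀ hσ, one_smul, ← Units.val_mul, inv_mul_cancel]; rfl⟩
  have hs : (s : M3) = σ • (y : M3) := rfl
  refine ⟨s, f, smul_mem_norm y s σ hs hy, ?_, ?_, ?_⟩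
  · rw [hs, Matrix.smul_mulVec, h0, smul_smul]
  · rw [hs, Matrix.smul_mulVec, h1, smul_smul]
  · rw [hs, Matrix.smul_mulVec, h2, smul_smul]

variable [Finite R]

theorem realized_a (h : Std R a b c μ e) : Realized R 1 μ (μ ^ 2) :=
  ⟨a, e, Subgroup.le_normalizer h.ha, by rw [h.a0, one_smul], h.a1, h.a2⟩

theorem conj_mem_of (y u w : GL (Fin 3) F) (h : y * u = w * y) (hw : w ∈ R) : y * u * y⁻¹ ∈ R := by
  rw [h, mul_inv_cancel_right]
  exact hw

theorem mu3 (h : Std R a b c μ e) : μ ^ 3 = 1 := by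
  linear_combination (μ - 1) * h.hμ

theorem mu0 (h : Std R a b c μ e) : μ ≠ 0 := by
  intro h0
  have := mu3 h
  rw [h0] at this
  norm_num at this

theorem realized_d (h : Std R a b c μ e) : Realized R 1 1 μ ∧ Realized R 1 1 (μ ^ 2) := by
  have h3 := mu3 h
  have h00 := mu0 h
  obtain ⟨d, hd⟩ := exists_mono_gl e (Equiv.refl _) ![1, 1, μ] (by
    intro i
    fin_cases i
    · exact one_ne_zero
    · exact one_ne_zero
    · exact h00)
  have d0 : (d : M3) *ᵥ e 0 = e 0 := by simpa using hd 0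
  have d1 : (d : M3) *ᵥ e 1 = e 1 := by simpa using hd 1
  have d2 : (d : M3) *ᵥ e 2 = μ • e 2 := by simpa using hd 2
  have hdN : d ∈ subgroupNormalizer R := by
    apply mem_norm_of h
    · apply conj_mem_of d a a _ h.ha
      apply Units.ext
      apply eq_of_basis e
      intro i
      rw [Units.val_mul, Units.val_mul, ← Matrix.mulVec_mulVec, ← Matrix.mulVec_mulVec]
      fin_cases i
      · show (d : M3) *ᵥ (a : M3) *ᵥ e 0 = (a : M3) *ᵥ (d : M3) *ᵥ e 0
        rw [h.a0, d0, h.a0]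
      · show (d : M3) *ᵥ (a : M3) *ᵥ e 1 = (a : M3) *ᵥ (d : M3) *ᵥ e 1
        rw [h.a1, Matrix.mulVec_smul, d1, h.a1]
      · show (d : M3) *ᵥ (a : M3) *ᵥ e 2 = (a : M3) *ᵥ (d : M3) *ᵥ e 2
        rw [h.a2, Matrix.mulVec_smul, d2, Matrix.mulVec_smul, h.a2, smul_comm]
    · apply conj_mem_of d b (b * a) _ (R.mul_mem h.hb h.ha)
      apply Units.ext
      apply eq_of_basis e
      intro i
      rw [Units.val_mul, Units.val_mul, Units.val_mul, ← Matrix.mulVec_mulVec, ← Matrix.mulVec_mulVec, ← Matrix.mulVec_mulVec]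
      fin_cases i
      · show (d : M3) *ᵥ (b : M3) *ᵥ e 0 = (b : M3) *ᵥ (a : M3) *ᵥ (d : M3) *ᵥ e 0
        rw [h.b0, d1, d0, h.a0, h.b0]
      · show (d : M3) *ᵥ (b : M3) *ᵥ e 1 = (b : M3) *ᵥ (a : M3) *ᵥ (d : M3) *ᵥ e 1
        rw [h.b1, d2, d1, h.a1, Matrix.mulVec_smul, h.b1]
      · show (d : M3) *ᵥ (b : M3) *ᵥ e 2 = (b : M3) *ᵥ (a : M3) *ᵥ (d : M3) *ᵥ e 2
        rw [h.b2, d0, d2, Matrix.mulVec_smul, h.a2, Matrix.mulVec_smul, Matrix.mulVec_smul, h.b2, smul_smul]
        rw [show μ * μ ^ 2 = μ ^ 3 by ring, h3, one_smul]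
  constructor
  · exact ⟨d, e, hdN, by rw [d0, one_smul], by rw [d1, one_smul], d2⟩
  · refine ⟨d * d, e, mul_mem hdN hdN, ?_, ?_, ?_⟩
    · rw [Units.val_mul, ← Matrix.mulVec_mulVec, d0, d0, one_smul]
    · rw [Units.val_mul, ← Matrix.mulVec_mulVec, d1, d1, one_smul]
    · rw [Units.val_mul, ← Matrix.mulVec_mulVec, d2, Matrix.mulVec_smul, d2, smul_smul, pow_two]

theorem realized_t (h : Std R a b c μ e) (h2 : (2 : F) ≠ 0) : Realized R 1 1 (-1) := by
  have h3 := mu3 h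
  have h00 := mu0 h
  obtain ⟨t, ht⟩ := exists_mono_gl e (Equiv.swap 1 2) (fun _ => (-1 : F)) (fun _ => neg_ne_zero.mpr one_ne_zero)
  have t0 : (t : M3) *ᵥ e 0 = - e 0 := by simpa [Equiv.swap_apply_of_ne_of_ne] using ht 0
  have t1 : (t : M3) *ᵥ e 1 = - e 2 := by simpa using ht 1
  have t2 : (t : M3) *ᵥ e 2 = - e 1 := by simpa using ht 2
  have htN : t ∈ subgroupNormalizer R := by
    apply mem_norm_of h
    · apply conj_mem_of t a (a * a) _ (R.mul_mem h.ha h.ha)
      apply Units.ext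
      apply eq_of_basis e
      intro i
      rw [Units.val_mul, Units.val_mul, Units.val_mul, ← Matrix.mulVec_mulVec, ← Matrix.mulVec_mulVec, ← Matrix.mulVec_mulVec]
      fin_cases i
      · show (t : M3) *ᵥ (a : M3) *ᵥ e 0 = (a : M3) *ᵥ (a : M3) *ᵥ (t : M3) *ᵥ e 0
        rw [h.a0, t0, Matrix.mulVec_neg, Matrix.mulVec_neg, h.a0, h.a0]
      · show (t : M3) *ᵥ (a : M3) *ᵥ e 1 = (a : M3) *ᵥ (a : M3) *ᵥ (t : M3) *ᵥ e 1
        rw [h.a1, Matrix.mulVec_smul, t1, Matrix.mulVec_neg, Matrix.mulVec_neg, h.a2, Matrix.mulVec_smul, h.a2, smul_smul,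
          smul_neg]
        rw [show μ ^ 2 * μ ^ 2 = μ * μ ^ 3 by ring, h3, mul_one]
      · show (t : M3) *ᵥ (a : M3) *ᵥ e 2 = (a : M3) *ᵥ (a : M3) *ᵥ (t : M3) *ᵥ e 2
        rw [h.a2, Matrix.mulVec_smul, t2, Matrix.mulVec_neg, Matrix.mulVec_neg, h.a1, Matrix.mulVec_smul, h.a1, smul_smul,
          smul_neg]
        rw [show μ * μ = μ ^ 2 by ring]
    · apply conj_mem_of t b (b * b) _ (R.mul_mem h.hb h.hb)
      apply Units.ext
      apply eq_of_basis e
      intro i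
      rw [Units.val_mul, Units.val_mul, Units.val_mul, ← Matrix.mulVec_mulVec, ← Matrix.mulVec_mulVec, ← Matrix.mulVec_mulVec]
      fin_cases i
      · show (t : M3) *ᵥ (b : M3) *ᵥ e 0 = (b : M3) *ᵥ (b : M3) *ᵥ (t : M3) *ᵥ e 0
        rw [h.b0, t0, t1, Matrix.mulVec_neg, Matrix.mulVec_neg, h.b0, h.b1]
      · show (t : M3) *ᵥ (b : M3) *ᵥ e 1 = (b : M3) *ᵥ (b : M3) *ᵥ (t : M3) *ᵥ e 1
        rw [h.b1, t1, t2, Matrix.mulVec_neg, Matrix.mulVec_neg, h.b2, h.b0]
      · show (t : M3) *ᵥ (b : M3) *ᵥ e 2 = (b : M3) *ᵥ (b : M3) *ᵥ (t : M3) *ᵥ e 2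
        rw [h.b2, t0, t2, Matrix.mulVec_neg, Matrix.mulVec_neg, h.b1, h.b2]
  -- the eigenbasis of `-t`
  let s : GL (Fin 3) F := ⟨(-1 : F) • (t : M3), (-1 : F) • ((t⁻¹ : GL (Fin 3) F) : M3), by
    rw [Matrix.smul_mul, Matrix.mul_smul, smul_smul, ← Units.val_mul, mul_inv_cancel]; simp, by
    rw [Matrix.smul_mul, Matrix.mul_smul, smul_smul, ← Units.val_mul, inv_mul_cancel]; simp⟩
  have hs : (s : M3) = (-1 : F) • (t : M3) := rfl
  let vv : Fin 3 → V3 := ![e 0, e 1 + e 2, e 1 - e 2]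
  have hli : LinearIndependent F vv := by
    rw [Fintype.linearIndependent_iff]
    intro g hg i
    rw [Fin.sum_univ_three] at hg
    have hvv0 : vv 0 = e 0 := rfl
    have hvv1 : vv 1 = e 1 + e 2 := rfl
    have hvv2 : vv 2 = e 1 - e 2 := rfl
    rw [hvv0, hvv1, hvv2] at hg
    have hg' : g 0 • e 0 + (g 1 + g 2) • e 1 + (g 1 - g 2) • e 2 = 0 := by
      rw [← hg]
      module
    have hrep := e.linearIndependent
    rw [Fintype.linearIndependent_iff] at hrep
    have := hrep ![g 0, g 1 + g 2, g 1 - g 2] (by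
      rw [Fin.sum_univ_three]
      simpa using hg')
    have h0 := this 0
    have h1 := this 1
    have h2' := this 2
    simp at h0 h1 h2'
    have hg1 : g 1 = 0 := by
      have : 2 * g 1 = 0 := by linear_combination h1 + h2'
      exact (mul_eq_zero.mp this).resolve_left h2
    have hg2 : g 2 = 0 := by
      rw [hg1] at h1
      simpa using h1
    fin_cases i
    · exact h0
    · exact hg1
    · exact hg2
  let f : Basis (Fin 3) F V3 := basisOfLinearIndependentOfCardEqFinrank hli (by simp)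
  have hf : ∀ i, f i = vv i := by
    intro i
    simp [f]
  refine ⟨s, f, smul_mem_norm t s (-1) hs htN, ?_, ?_, ?_⟩
  · rw [hf, hs, Matrix.smul_mulVec]
    show (-1 : F) • ((t : M3) *ᵥ e 0) = (1 : F) • e 0
    rw [t0]; simp
  · rw [hf, hs, Matrix.smul_mulVec]
    show (-1 : F) • ((t : M3) *ᵥ (e 1 + e 2)) = (1 : F) • (e 1 + e 2)
    rw [Matrix.mulVec_add, t1, t2]
    module
  · rw [hf, hs, Matrix.smul_mulVec]
    show (-1 : F) • ((t : M3) *ᵥ (e 1 - e 2)) = (-1 : F) • (e 1 - e 2)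
    rw [Matrix.mulVec_sub, t1, t2]
    module

theorem mem_S_iff (x : GL (Fin 3) F) : x ∈ specialLinear (Fin 3) F ↔ (x : M3).det = 1 := by
  unfold specialLinear
  rw [MonoidHom.mem_ker, Units.ext_iff]
  rfl

/-- Conjugate into the normalizer from a realised triple of eigenvalues. -/
theorem conj_of_realized (x : GL (Fin 3) F) (f : Basis (Fin 3) F (Fin 3 → F)) (l₀ l₁ l₂ : F) (h0 : (x : M3) *ᵥ f 0 = l₀ • f 0)
    (h1 : (x : M3) *ᵥ f 1 = l₁ • f 1) (h2 : (x : M3) *ᵥ f 2 = l₂ • f 2) (hr : Realized R l₀ l₁ l₂) :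
    ∃ g ∈ specialLinear (Fin 3) F, g⁻¹ * x * g ∈ subgroupNormalizer R := by
  obtain ⟨y, f', hy, h0', h1', h2'⟩ := hr
  obtain ⟨P, hPd, hP⟩ := Cfsg.Agent.S5971.exists_conj_diag x y f f' ![l₀, l₁, l₂] (by
    intro i
    fin_cases i
    · exact h0
    · exact h1
    · exact h2) (by
    intro i
    fin_cases i
    · exact h0'
    · exact h1'
    · exact h2') 0
  refine ⟨P, (mem_S_iff P).mpr hPd, ?_⟩
  rw [hP]
  exact hy

theorem to_fin3 {ι' : Type*} [Fintype ι'] (e : Basis ι' F (Fin 3 → F)) (T : Module.End F (Fin 3 → F)) (lam : ι' → F)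
    (hT : ∀ i, T (e i) = lam i • e i) :
    ∃ (f : Basis (Fin 3) F (Fin 3 → F)) (l : Fin 3 → F), (∀ i, T (f i) = l i • f i) ∧ ∀ i, ∃ j, l i = lam j := by
  classical
  have hc : Fintype.card ι' = 3 := by
    have := Module.finrank_eq_card_basis e
    simpa using this.symm
  let g : ι' ≃ Fin 3 := Fintype.equivFinOfCardEq hc
  refine ⟨e.reindex g, lam ∘ g.symm, ?_, ?_⟩
  · intro i
    simp [Basis.reindex_apply, hT]
  · intro i
    exact ⟨g.symm i, rfl⟩

theorem scalar_of_eigen (x : GL (Fin 3) F) (f : Basis (Fin 3) F (Fin 3 → F)) (l : F) (h : ∀ i, (x : M3) *ᵥ f i = l • f i) :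
    (x : M3) = l • (1 : M3) := by
  apply eq_of_basis f
  intro i
  rw [h, Matrix.smul_mulVec, Matrix.one_mulVec]

/-- Involutions. -/
theorem case_two (h : Std R a b c μ e) (h2 : (2 : F) ≠ 0) (x : GL (Fin 3) F) (hxS : x ∈ specialLinear (Fin 3) F) (z : F)
    (hz : ((x ^ 2 : GL (Fin 3) F) : M3) = z • (1 : M3)) (hns : ∀ z : F, (x : M3) ≠ z • (1 : M3)) :
    ∃ g ∈ specialLinear (Fin 3) F, g⁻¹ * x * g ∈ subgroupNormalizer R := by
  classical
  have hxd := (mem_S_iff x).mp hxS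
  have hxx : (x : M3) * (x : M3) = z • (1 : M3) := by
    rw [← hz, pow_two, Units.val_mul]
  have hz3 : z ^ 3 = 1 := by
    have := congrArg Matrix.det hxx
    rw [Matrix.det_mul, hxd, Matrix.det_smul, Matrix.det_one] at this
    simpa using this.symm
  have hz0 : z ≠ 0 := by
    rintro rfl
    norm_num at hz3
  set w : F := z ^ 2 with hw
  have hw0 : w ≠ 0 := pow_ne_zero _ hz0
  have hww : w * w = z := by
    rw [hw]
    linear_combination z * hz3
  have hne : w ≠ -w := by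
    intro hn
    have : 2 * w = 0 := by linear_combination hn
    exact (mul_eq_zero.mp this).elim h2 hw0
  let T : Module.End F (Fin 3 → F) := Matrix.toLin' (x : M3)
  have hTv : ∀ v, T v = (x : M3) *ᵥ v := fun v => rfl
  have h00 : aeval T ((X - C w) * (X - C (-w)) : F[X]) = 0 := by
    have e1 : ((X - C w) * (X - C (-w)) : F[X]) = X ^ 2 - C z := by
      rw [C_neg, ← hww, C_mul]
      ring
    rw [e1]
    apply LinearMap.ext
    intro v
    simp [hTv, Matrix.mulVec_mulVec, pow_two, hxx, Module.End.mul_apply, sub_eq_zero]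
    rw [Matrix.smul_mulVec, Matrix.one_mulVec]
  obtain ⟨r, s, e₀, he1, he2⟩ := exists_basis_two T w (-w) hne h00
  obtain ⟨f, l, hf, hl⟩ := to_fin3 e₀ T (Sum.elim (fun _ => w) (fun _ => -w)) (by
    rintro (i | i)
    · simpa using he1 i
    · simpa using he2 i)
  have hl' : ∀ i, l i = w ∨ l i = -w := by
    intro i
    obtain ⟨j, hj⟩ := hl i
    rcases j with j | j
    · exact Or.inl hj
    · exact Or.inr hj
  have hrel : ∀ σ : F, σ ≠ 0 → Realized R σ σ (-σ) := by
    intro σ hσ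
    have := (realized_t h h2).smul σ hσ
    simpa using this
  have hf0 := hf 0
  have hf1 := hf 1
  have hf2 := hf 2
  rw [hTv] at hf0 hf1 hf2
  have hgo : Realized R (l 0) (l 1) (l 2) := by
    rcases hl' 0 with h0 | h0 <;> rcases hl' 1 with h1 | h1 <;> rcases hl' 2 with h2' | h2' <;> rw [h0, h1, h2']
    · exact absurd (scalar_of_eigen x f w (by
        intro i
        fin_cases i
        · show (x : M3) *ᵥ f 0 = w • f 0
          rw [hf0, h0]
        · show (x : M3) *ᵥ f 1 = w • f 1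
          rw [hf1, h1]
        · show (x : M3) *ᵥ f 2 = w • f 2
          rw [hf2, h2'])) (hns w)
    · exact hrel w hw0
    · exact (hrel w hw0).swap12
    · have := (hrel (-w) (neg_ne_zero.mpr hw0)).swap02
      simpa using this
    · have := (hrel w hw0).swap02
      exact this
    · have := (hrel (-w) (neg_ne_zero.mpr hw0)).swap12
      simpa using this
    · have := hrel (-w) (neg_ne_zero.mpr hw0)
      simpa using this
    · exact absurd (scalar_of_eigen x f (-w) (by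
        intro i
        fin_cases i
        · show (x : M3) *ᵥ f 0 = (-w) • f 0
          rw [hf0, h0]
        · show (x : M3) *ᵥ f 1 = (-w) • f 1
          rw [hf1, h1]
        · show (x : M3) *ᵥ f 2 = (-w) • f 2
          rw [hf2, h2'])) (hns (-w))
  exact conj_of_realized x f _ _ _ hf0 hf1 hf2 hgo

theorem realized_all (h : Std R a b c μ e) (σ : F) (hσ : σ ≠ 0) (ρ₁ ρ₂ : F) (h1 : ρ₁ = 1 ∨ ρ₁ = μ ∨ ρ₁ = μ ^ 2)
    (h2 : ρ₂ = 1 ∨ ρ₂ = μ ∨ ρ₂ = μ ^ 2) (hne : ¬ (ρ₁ = 1 ∧ ρ₂ = 1)) : Realized R σ (σ * ρ₁) (σ * ρ₂) := by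
  have h3 := mu3 h
  have h0 := mu0 h
  have hA : ∀ τ : F, τ ≠ 0 → Realized R τ (τ * μ) (τ * μ ^ 2) := by
    intro τ hτ
    have := (realized_a h).smul τ hτ
    simpa using this
  have hD : ∀ τ : F, τ ≠ 0 → Realized R τ τ (τ * μ) := by
    intro τ hτ
    have := (realized_d h).1.smul τ hτ
    simpa using this
  have hD' : ∀ τ : F, τ ≠ 0 → Realized R τ τ (τ * μ ^ 2) := by
    intro τ hτ
    have := (realized_d h).2.smul τ hτ
    simpa using this
  rcases h1 with h1 | h1 | h1 <;> rcases h2 with h2 | h2 | h2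
  · exact absurd ⟨h1, h2⟩ hne
  · rw [h1, h2, mul_one]; exact hD σ hσ
  · rw [h1, h2, mul_one]; exact hD' σ hσ
  · rw [h1, h2, mul_one]; exact (hD σ hσ).swap12
  · rw [h1, h2]
    have := (hD' (σ * μ) (mul_ne_zero hσ h0)).swap02
    have e1 : σ * μ * μ ^ 2 = σ := by linear_combination σ * h3
    rwa [e1] at this
  · rw [h1, h2]; exact hA σ hσ
  · rw [h1, h2, mul_one]; exact (hD' σ hσ).swap12
  · rw [h1, h2]; exact (hA σ hσ).swap12
  · rw [h1, h2]
    have := (hD (σ * μ ^ 2) (mul_ne_zero hσ (pow_ne_zero _ h0))).swap02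
    have e1 : σ * μ ^ 2 * μ = σ := by linear_combination σ * h3
    rwa [e1] at this

/-- Elements with cube a cube. -/
theorem case_three (h : Std R a b c μ e) (h3F : (3 : F) ≠ 0) (x : GL (Fin 3) F) (w : F) (hw0 : w ≠ 0)
    (hz : ((x ^ 3 : GL (Fin 3) F) : M3) = w ^ 3 • (1 : M3)) (hns : ∀ z : F, (x : M3) ≠ z • (1 : M3)) :
    ∃ g ∈ specialLinear (Fin 3) F, g⁻¹ * x * g ∈ subgroupNormalizer R := by
  classical
  have h3 := mu3 h
  have h0 := mu0 h
  have hμ := h.hμ
  have hxxx : (x : M3) * (x : M3) * (x : M3) = w ^ 3 • (1 : M3) := by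
    rw [← hz, pow_succ, pow_two, Units.val_mul, Units.val_mul]
  have hμ1 : μ ≠ 1 := by
    intro h1
    rw [h1] at hμ
    apply h3F
    linear_combination hμ
  have hμμ : μ ^ 2 ≠ μ := by
    intro h'
    apply hμ1
    have : μ * (μ - 1) = 0 := by linear_combination h'
    rcases mul_eq_zero.mp this with h'' | h''
    · exact absurd h'' h0
    · exact sub_eq_zero.mp h''
  have hμ21 : μ ^ 2 ≠ 1 := by
    intro h'
    apply hμμ
    have : μ ^ 2 * μ = μ := by rw [h', one_mul]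
    have h2 : μ ^ 3 = μ := by rw [pow_succ, this]
    rw [h3] at h2
    rw [h', h2]
  let T : Module.End F (Fin 3 → F) := Matrix.toLin' (x : M3)
  have hTv : ∀ v, T v = (x : M3) *ᵥ v := fun v => rfl
  have h00 : aeval T ((X - C w) * ((X - C (w * μ)) * (X - C (w * μ ^ 2))) : F[X]) = 0 := by
    have hM : (C μ) ^ 2 + C μ + 1 = (0 : F[X]) := by
      rw [← C_pow, ← C_add, ← C_1, ← C_add, hμ, C_0]
    have e1 : ((X - C w) * ((X - C (w * μ)) * (X - C (w * μ ^ 2))) : F[X]) = X ^ 3 - C (w ^ 3) := by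
      rw [C_mul, C_mul, C_pow, C_pow]
      linear_combination (X - C w) * (- C w * X + (C w) ^ 2 * (C μ - 1)) * hM
    rw [e1]
    apply LinearMap.ext
    intro v
    simp only [map_sub, aeval_X_pow, aeval_C, LinearMap.sub_apply, LinearMap.zero_apply, sub_eq_zero]
    show (T ^ 3) v = _
    simp only [pow_succ, pow_zero, one_mul, Module.End.mul_apply, hTv, Matrix.mulVec_mulVec]
    have : (x : M3) * ((x : M3) * (x : M3)) = w ^ 3 • (1 : M3) := by
      rw [← hxxx, Matrix.mul_assoc]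
    rw [this, Matrix.smul_mulVec, Matrix.one_mulVec]
    simp [Algebra.algebraMap_eq_smul_one, pow_succ, Module.algebraMap_end_apply]
  obtain ⟨r, s, t, e₀, he1, he2, he3⟩ := exists_basis_three T w (w * μ) (w * μ ^ 2)
    (fun hn => hμ1 (mul_left_cancel₀ hw0 (by rw [mul_one]; exact hn.symm)))
    (fun hn => hμ21 (mul_left_cancel₀ hw0 (by rw [mul_one]; exact hn.symm)))
    (fun hn => hμμ (mul_left_cancel₀ hw0 hn.symm)) h00
  obtain ⟨f, l, hf, hl⟩ := to_fin3 e₀ T (Sum.elim (fun _ => w) (Sum.elim (fun _ => w * μ) (fun _ => w * μ ^ 2))) (by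
    rintro (i | i | i)
    · simpa using he1 i
    · simpa using he2 i
    · simpa using he3 i)
  have hl' : ∀ i, l i = w ∨ l i = w * μ ∨ l i = w * μ ^ 2 := by
    intro i
    obtain ⟨j, hj⟩ := hl i
    rcases j with j | j | j
    · exact Or.inl hj
    · exact Or.inr (Or.inl hj)
    · exact Or.inr (Or.inr hj)
  have hratio : ∀ m m' : F, (m = w ∨ m = w * μ ∨ m = w * μ ^ 2) → (m' = w ∨ m' = w * μ ∨ m' = w * μ ^ 2) →
      ∃ ρ : F, (ρ = 1 ∨ ρ = μ ∨ ρ = μ ^ 2) ∧ m' = m * ρ := by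
    intro m m' hm hm'
    rcases hm with hm | hm | hm <;> rcases hm' with hm' | hm' | hm' <;> rw [hm, hm']
    · exact ⟨1, Or.inl rfl, by ring⟩
    · exact ⟨μ, Or.inr (Or.inl rfl), rfl⟩
    · exact ⟨μ ^ 2, Or.inr (Or.inr rfl), rfl⟩
    · exact ⟨μ ^ 2, Or.inr (Or.inr rfl), by linear_combination -w * h3⟩
    · exact ⟨1, Or.inl rfl, by ring⟩
    · exact ⟨μ, Or.inr (Or.inl rfl), by ring⟩
    · exact ⟨μ, Or.inr (Or.inl rfl), by linear_combination -w * h3⟩
    · exact ⟨μ ^ 2, Or.inr (Or.inr rfl), by linear_combination -w * μ * h3⟩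
    · exact ⟨1, Or.inl rfl, by ring⟩
  obtain ⟨ρ₁, hρ₁, h1⟩ := hratio _ _ (hl' 0) (hl' 1)
  obtain ⟨ρ₂, hρ₂, h2⟩ := hratio _ _ (hl' 0) (hl' 2)
  have hl00 : l 0 ≠ 0 := by
    rcases hl' 0 with h' | h' | h' <;> rw [h']
    · exact hw0
    · exact mul_ne_zero hw0 h0
    · exact mul_ne_zero hw0 (pow_ne_zero _ h0)
  have hf0 := hf 0
  have hf1 := hf 1
  have hf2 := hf 2
  rw [hTv] at hf0 hf1 hf2
  rw [h1] at hf1
  rw [h2] at hf2
  by_cases hne : ρ₁ = 1 ∧ ρ₂ = 1
  · exfalso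
    apply hns (l 0)
    apply scalar_of_eigen x f
    intro i
    fin_cases i
    · exact hf0
    · show (x : M3) *ᵥ f 1 = l 0 • f 1
      rw [hf1, hne.1, mul_one]
    · show (x : M3) *ᵥ f 2 = l 0 • f 2
      rw [hf2, hne.2, mul_one]
  · exact conj_of_realized x f _ _ _ hf0 hf1 hf2 (realized_all h _ hl00 _ _ hρ₁ hρ₂ hne)

theorem R_le_S (h : Std R a b c μ e) : R ≤ specialLinear (Fin 3) F := by
  rw [← h.hcl, Subgroup.closure_le]
  have h3 := mu3 h
  rintro u (rfl | rfl)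
  · show _ ∈ specialLinear (Fin 3) F
    rw [mem_S_iff]
    have h1 : LinearMap.det (Matrix.toLin' (u : M3)) = (u : M3).det := LinearMap.det_toLin' _
    have h2 := Cfsg.Agent.S5971.det_of_basis (Matrix.toLin' (u : M3)) e ![1, μ, μ ^ 2] (by
      intro i
      rw [Matrix.toLin'_apply]
      fin_cases i
      · show (u : M3) *ᵥ e 0 = (1 : F) • e 0
        rw [h.a0, one_smul]
      · exact h.a1
      · exact h.a2)
    rw [← h1, h2, Fin.prod_univ_three]
    simp
    linear_combination h3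
  · show _ ∈ specialLinear (Fin 3) F
    rw [mem_S_iff]
    have h1 : LinearMap.det (Matrix.toLin' (u : M3)) = (u : M3).det := LinearMap.det_toLin' _
    rw [← h1, ← LinearMap.det_toMatrix e, Matrix.det_fin_three]
    simp [LinearMap.toMatrix_apply, h.b0, h.b1, h.b2, Basis.repr_self, Finsupp.single_apply]

/-- The centraliser of the pair is scalar. -/
theorem scalar_of_comm (h : Std R a b c μ e) (h3F : (3 : F) ≠ 0) (y : GL (Fin 3) F) (hya : y * a = a * y) (hyb : y * b = b * y) :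
    ∃ κ : F, (y : M3) = κ • (1 : M3) := by
  classical
  have hμ := h.hμ
  have h3 := mu3 h
  have h0 := mu0 h
  have hμ1 : μ ≠ 1 := by
    intro h1
    rw [h1] at hμ
    apply h3F
    linear_combination hμ
  have hμ21 : μ ^ 2 ≠ 1 := by
    intro h'
    have : μ = 1 := by
      have e1 : μ ^ 3 = μ ^ 2 * μ := by ring
      rw [h3, h'] at e1
      linear_combination -e1
    exact hμ1 this
  have hya' : ∀ v, (y : M3) *ᵥ ((a : M3) *ᵥ v) = (a : M3) *ᵥ ((y : M3) *ᵥ v) := by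
    intro v
    rw [Matrix.mulVec_mulVec, Matrix.mulVec_mulVec, ← Units.val_mul, ← Units.val_mul, hya]
  have hyb' : ∀ v, (y : M3) *ᵥ ((b : M3) *ᵥ v) = (b : M3) *ᵥ ((y : M3) *ᵥ v) := by
    intro v
    rw [Matrix.mulVec_mulVec, Matrix.mulVec_mulVec, ← Units.val_mul, ← Units.val_mul, hyb]
  set w : Fin 3 → F := (y : M3) *ᵥ e 0 with hw
  have haw : (a : M3) *ᵥ w = w := by
    rw [hw, ← hya', h.a0]
  have hsum : e.repr w 0 • e 0 + e.repr w 1 • e 1 + e.repr w 2 • e 2 = w := by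
    have := e.sum_repr w
    rwa [Fin.sum_univ_three] at this
  have hlin : ((e.repr w 0 - e.repr w 0) • e 0 + (e.repr w 1 * μ - e.repr w 1) • e 1 + (e.repr w 2 * μ ^ 2 - e.repr w 2) • e 2 : Fin 3 → F) = 0 := by
    have e1 : (a : M3) *ᵥ w = e.repr w 0 • e 0 + (e.repr w 1 * μ) • e 1 + (e.repr w 2 * μ ^ 2) • e 2 := by
      conv_lhs => rw [← hsum]
      rw [Matrix.mulVec_add, Matrix.mulVec_add, Matrix.mulVec_smul, Matrix.mulVec_smul, Matrix.mulVec_smul, h.a0, h.a1, h.a2, smul_smul, smul_smul]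
    have e2 : (e.repr w 0 • e 0 + (e.repr w 1 * μ) • e 1 + (e.repr w 2 * μ ^ 2) • e 2 : Fin 3 → F) =
        e.repr w 0 • e 0 + e.repr w 1 • e 1 + e.repr w 2 • e 2 := by
      rw [← e1, haw, hsum]
    rw [sub_smul, sub_smul, sub_smul]
    have e3 : ∀ A B C D E G : Fin 3 → F, A + C + E = A + D + G → (A - A) + (C - D) + (E - G) = 0 := by
      intro A B C D E G h'
      have : A + C + E - (A + D + G) = 0 := sub_eq_zero.mpr h'
      rw [← this]
      abel
    exact e3 _ 0 _ _ _ _ e2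
  have hrep := e.linearIndependent
  rw [Fintype.linearIndependent_iff] at hrep
  have hco := hrep ![e.repr w 0 - e.repr w 0, e.repr w 1 * μ - e.repr w 1, e.repr w 2 * μ ^ 2 - e.repr w 2] (by
    rw [Fin.sum_univ_three]
    simpa using hlin)
  have hco1 := hco 1
  have hco2 := hco 2
  simp only [Matrix.cons_val_one, Matrix.cons_val] at hco1 hco2
  have hk1 : e.repr w 1 = 0 := by
    have : e.repr w 1 * (μ - 1) = 0 := by linear_combination hco1
    exact (mul_eq_zero.mp this).resolve_right (sub_ne_zero.mpr hμ1)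
  have hk2 : e.repr w 2 = 0 := by
    have : e.repr w 2 * (μ ^ 2 - 1) = 0 := by linear_combination hco2
    exact (mul_eq_zero.mp this).resolve_right (sub_ne_zero.mpr hμ21)
  rw [hk1, hk2] at hsum
  simp only [zero_smul, add_zero] at hsum
  set κ := e.repr w 0
  have y0 : (y : M3) *ᵥ e 0 = κ • e 0 := by rw [← hw, hsum]
  have y1 : (y : M3) *ᵥ e 1 = κ • e 1 := by
    rw [← h.b0, hyb', y0, Matrix.mulVec_smul]
  have y2 : (y : M3) *ᵥ e 2 = κ • e 2 := by
    rw [← h.b1, hyb', y1, Matrix.mulVec_smul]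
  refine ⟨κ, scalar_of_eigen y e κ ?_⟩
  intro i
  fin_cases i
  · exact y0
  · exact y1
  · exact y2

theorem root_trivial {r : ℕ} (hr : r.Prime) (hr3 : r ≠ 3) (κ : F) (h1 : κ ^ 3 = 1) (h2 : κ ^ r = 1) : κ = 1 := by
  have hd1 := orderOf_dvd_of_pow_eq_one h1
  have hd2 := orderOf_dvd_of_pow_eq_one h2
  have hco : Nat.Coprime 3 r := (Nat.coprime_primes Nat.prime_three hr).mpr (Ne.symm hr3)
  have : orderOf κ ∣ 1 := by
    rw [← hco.gcd_eq_one]
    exact Nat.dvd_gcd hd1 hd2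
  exact orderOf_eq_one_iff.mp (Nat.dvd_one.mp this)

/-- Prime order at least five. -/
theorem no_large (h : Std R a b c μ e) (h3F : (3 : F) ≠ 0) (hR : Nat.card R = 27) (r : ℕ) [Fact r.Prime] (hr2 : r ≠ 2) (hr3 : r ≠ 3)
    (y : GL (Fin 3) F) (hyN : y ∈ subgroupNormalizer R) (hyS : y ∈ specialLinear (Fin 3) F) (hyr : y ^ r = 1) (hy1 : y ≠ 1) : False := by
  classical
  have hrp : r.Prime := Fact.out
  have hμ := h.hμ
  have hμ1 : μ ≠ 1 := by
    intro h1
    rw [h1] at hμ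
    apply h3F
    linear_combination hμ
  haveI : Fintype R := Fintype.ofFinite _
  have hmem : ∀ u : R, y * (u : GL (Fin 3) F) * y⁻¹ ∈ R := by
    intro u
    unfold subgroupNormalizer at hyN
    rw [Subgroup.mem_normalizer_iff] at hyN
    exact (hyN u).mp u.2
  let φ : Function.End R := fun u => ⟨y * u * y⁻¹, hmem u⟩
  have hpow : ∀ (k : ℕ) (u : R), (((φ ^ k) u : R) : GL (Fin 3) F) = y ^ k * u * (y ^ k)⁻¹ := by
    intro k
    induction k with
    | zero =>
      intro u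
      simp
      rfl
    | succ k ih =>
      intro u
      rw [pow_succ']
      show y * (((φ ^ k) u : R) : GL (Fin 3) F) * y⁻¹ = _
      rw [ih, pow_succ']
      group
  have hφ : φ ^ r ^ 1 = 1 := by
    rw [pow_one]
    funext u
    apply Subtype.ext
    rw [hpow, hyr]
    simp
    rfl
  have hmod := Equiv.Perm.card_fixedPoints_modEq hφ
  -- the centraliser
  let C : Subgroup R := (Subgroup.centralizer {y}).subgroupOf R
  have hC : ∀ u : R, u ∈ C ↔ y * (u : GL (Fin 3) F) = u * y := by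
    intro u
    rw [Subgroup.mem_subgroupOf, Subgroup.mem_centralizer_singleton_iff]
    constructor
    · intro h'
      exact h'.symm
    · intro h'
      exact h'.symm
  have hfix : Nat.card (Function.fixedPoints φ) = Nat.card C := by
    apply Nat.card_congr
    exact Equiv.subtypeEquivRight (fun u => by
      rw [hC, Function.mem_fixedPoints_iff]
      constructor
      · intro h'
        have := congrArg Subtype.val h'
        simp only [φ] at this
        rw [mul_inv_eq_iff_eq_mul] at this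
        exact this
      · intro h'
        apply Subtype.ext
        simp only [φ]
        rw [mul_inv_eq_iff_eq_mul]
        exact h')
  rw [← Nat.card_eq_fintype_card, ← Nat.card_eq_fintype_card, hfix, hR] at hmod
  have hCd : Nat.card C ∣ 3 ^ 3 := by
    rw [show (3 : ℕ) ^ 3 = 27 by norm_num, ← hR]
    exact Subgroup.card_subgroup_dvd_card C
  obtain ⟨k, hk, hCk⟩ := (Nat.dvd_prime_pow Nat.prime_three).mp hCd
  have hcC : (⟨c, h.hc⟩ : R) ∈ C := by
    rw [hC]
    apply Units.ext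
    rw [Units.val_mul, Units.val_mul, h.hcv, Matrix.mul_smul, Matrix.smul_mul, Matrix.mul_one, Matrix.one_mul]
  have hc1 : c ≠ 1 := by
    intro h1
    have h2 : (c : M3) = 1 := by rw [h1]; rfl
    rw [h.hcv] at h2
    have h3 := congrFun (congrFun h2 0) 0
    simp at h3
    exact hμ1 h3
  have hCne : Nat.card C ≠ 1 := by
    intro h1
    have := Subgroup.eq_bot_of_card_eq C h1
    rw [this, Subgroup.mem_bot] at hcC
    exact hc1 (congrArg Subtype.val hcC)
  have hprime : ∀ n : ℕ, r ∣ 2 ^ n * 3 ^ 2 → False := by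
    intro n hn
    rcases (Nat.Prime.dvd_mul hrp).mp hn with h' | h'
    · exact hr2 ((Nat.prime_dvd_prime_iff_eq hrp Nat.prime_two).mp (hrp.dvd_of_dvd_pow h'))
    · exact hr3 ((Nat.prime_dvd_prime_iff_eq hrp Nat.prime_three).mp (hrp.dvd_of_dvd_pow h'))
  have hk3 : k = 3 := by
    interval_cases k
    · rw [pow_zero] at hCk
      exact absurd hCk hCne
    · exfalso
      rw [hCk] at hmod
      have := (Nat.modEq_iff_dvd' (by norm_num)).mp hmod.symm
      apply hprime 3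
      exact dvd_trans this (by norm_num)
    · exfalso
      rw [hCk] at hmod
      have := (Nat.modEq_iff_dvd' (by norm_num)).mp hmod.symm
      apply hprime 1
      exact dvd_trans this (by norm_num)
    · rfl
  subst hk3
  have hCtop : C = ⊤ := by
    apply Subgroup.eq_top_of_card_eq
    rw [hCk, hR]
    norm_num
  have hall : ∀ u : R, y * (u : GL (Fin 3) F) = u * y := by
    intro u
    rw [← hC, hCtop]
    exact Subgroup.mem_top u
  obtain ⟨κ, hκ⟩ := scalar_of_comm h h3F y (hall ⟨a, h.ha⟩) (hall ⟨b, h.hb⟩)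
  have h31 : κ ^ 3 = 1 := by
    have := (mem_S_iff y).mp hyS
    rw [hκ, Matrix.det_smul, Matrix.det_one] at this
    simpa using this
  have hr1 : κ ^ r = 1 := by
    have h1 : ((y ^ r : GL (Fin 3) F) : M3) = 1 := by rw [hyr]; rfl
    rw [Units.val_pow_eq_pow_val, hκ, _root_.smul_pow, one_pow] at h1
    have h3 := congrFun (congrFun h1 0) 0
    simpa using h3
  have hκ1 := root_trivial hrp hr3 κ h31 hr1
  apply hy1
  apply Units.ext
  rw [hκ, hκ1, one_smul]
  rfl

end StdFacts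

theorem exists_omega [Fintype F] {p : ℕ} (hF : Fintype.card F = p) (hp3 : p % 3 = 1) : ∃ ω : F, ω ^ 2 + ω + 1 = 0 := by
  classical
  haveI : Fact (Nat.Prime 3) := ⟨Nat.prime_three⟩
  have h1 : 3 ∣ Nat.card Fˣ := by
    rw [Nat.card_eq_fintype_card, Fintype.card_units, hF]
    omega
  obtain ⟨u, hu⟩ := exists_prime_orderOf_dvd_card' 3 h1
  refine ⟨(u : F), ?_⟩
  have h2 : (u : F) ^ 3 = 1 := by
    have : u ^ 3 = 1 := by rw [← hu]; exact pow_orderOf_eq_one u
    have := congrArg Units.val this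
    simpa using this
  have h3 : (u : F) ≠ 1 := by
    intro h'
    have : u = 1 := Units.ext h'
    rw [this, orderOf_one] at hu
    norm_num at hu
  have h4 : ((u : F) - 1) * ((u : F) ^ 2 + u + 1) = 0 := by linear_combination h2
  exact (mul_eq_zero.mp h4).resolve_left (sub_ne_zero.mpr h3)

theorem cube_of_nine [Fintype F] {p : ℕ} (hF : Fintype.card F = p) (hp9 : p % 9 = 1) (z : F) (hz : z ^ 3 = 1) :
    ∃ w : F, w ≠ 0 ∧ w ^ 3 = z := by
  classical
  have hz0 : z ≠ 0 := by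
    rintro rfl
    norm_num at hz
  obtain ⟨g, hg⟩ := IsCyclic.exists_monoid_generator (α := Fˣ)
  have hord : orderOf g = p - 1 := by
    have := orderOf_eq_card_of_forall_mem_zpowers (fun x => by
      obtain ⟨k, hk⟩ := hg x
      exact ⟨k, by simpa using hk⟩ : ∀ x : Fˣ, x ∈ Subgroup.zpowers g)
    rw [this, Nat.card_eq_fintype_card, Fintype.card_units, hF]
  obtain ⟨i, hi⟩ := hg (Units.mk0 z hz0)
  have h1 : g ^ (i * 3) = 1 := by
    rw [pow_mul]
    show (g ^ i) ^ 3 = 1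
    rw [show g ^ i = Units.mk0 z hz0 from hi]
    apply Units.ext
    simpa using hz
  have h2 : (p - 1) ∣ i * 3 := by
    rw [← hord]
    exact orderOf_dvd_of_pow_eq_one h1
  have h3 : 3 ∣ i := by
    obtain ⟨t, ht⟩ := h2
    obtain ⟨m, hm⟩ : 9 ∣ p - 1 := by omega
    rw [hm] at ht
    have h4 : i * 3 = (3 * (m * t)) * 3 := by rw [ht]; ring
    exact ⟨m * t, Nat.eq_of_mul_eq_mul_right (by norm_num) h4⟩
  obtain ⟨t, rfl⟩ := h3
  refine ⟨((g ^ t : Fˣ) : F), Units.ne_zero _, ?_⟩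
  have : (g ^ t) ^ 3 = Units.mk0 z hz0 := by
    rw [← pow_mul, mul_comm]
    exact hi
  have := congrArg Units.val this
  simpa using this

/-- The index is prime to 3 unless `p ≡ 1 (mod 9)`. -/
theorem not_three_dvd [Fintype F] {R : Subgroup (GL (Fin 3) F)} {a b c : GL (Fin 3) F} {μ : F} {e : Basis (Fin 3) F (Fin 3 → F)}
    (h : Std R a b c μ e) {p : ℕ} (hF : Fintype.card F = p) (hp1 : 1 < p) (hp3 : p % 3 = 1) (hp9 : p % 9 ≠ 1) (hR : Nat.card R = 27)
    (hΩ : 3 ∣ (subgroupNormalizer R).relIndex (specialLinear (Fin 3) F)) : False := by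
  classical
  set N := subgroupNormalizer R
  set S := specialLinear (Fin 3) F
  have h1 : (N.subgroupOf S).index * Nat.card (N.subgroupOf S) = Nat.card S := Subgroup.index_mul_card _
  have hle : R ≤ S := R_le_S h
  have h27 : 27 ∣ Nat.card (N.subgroupOf S) := by
    have h2 : R.subgroupOf S ≤ N.subgroupOf S := by
      intro u hu
      rw [Subgroup.mem_subgroupOf] at hu ⊢
      exact Subgroup.le_normalizer hu
    have h3 := Subgroup.card_dvd_of_le h2
    have h4 : Nat.card (R.subgroupOf S) = 27 := by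
      rw [← hR]
      exact Nat.card_congr (Subgroup.subgroupOfEquivOfLe hle).toEquiv
    rwa [h4] at h3
  have h81 : 81 ∣ Nat.card S := by
    rw [← h1, show (81 : ℕ) = 3 * 27 by norm_num]
    exact mul_dvd_mul hΩ h27
  have hcS : Nat.card S = Nat.card (Matrix.SpecialLinearGroup (Fin 3) F) :=
    (Nat.card_congr (Cfsg.Agent.Lib.ClassicalCore.slEquivKer (n := Fin 3) (F := F)).toEquiv).symm
  have hGL := Cfsg.Agent.Lib.ClassicalCore.card_GL_eq_mul_card_SL (n := Fin 3) (F := F)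
  rw [Matrix.card_GL_field, Fin.prod_univ_three, hF, ← hcS] at hGL
  simp only [Fin.val_zero, Fin.val_one, Fin.val_two, pow_zero, pow_one] at hGL
  obtain ⟨m, rfl⟩ : ∃ m, p = 3 * m + 1 := ⟨p / 3, by omega⟩
  have hm0 : 0 < m := by omega
  have e0 : 3 * m + 1 - 1 = 3 * m := by omega
  have e1 : (3 * m + 1) ^ 3 - 1 = 9 * m * (3 * m ^ 2 + 3 * m + 1) := by
    apply Nat.sub_eq_of_eq_add
    ring
  have e2 : (3 * m + 1) ^ 3 - (3 * m + 1) = (3 * m + 1) * (3 * m * (3 * m + 2)) := by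
    apply Nat.sub_eq_of_eq_add
    ring
  have e3 : (3 * m + 1) ^ 3 - (3 * m + 1) ^ 2 = (3 * m + 1) ^ 2 * (3 * m) := by
    apply Nat.sub_eq_of_eq_add
    ring
  rw [e0, e1, e2, e3] at hGL
  have hcard : Nat.card S = 27 * (m ^ 2 * (3 * m ^ 2 + 3 * m + 1) * (3 * m + 2) * (3 * m + 1) ^ 3) := by
    apply Nat.eq_of_mul_eq_mul_left (show 0 < 3 * m by omega)
    rw [← hGL]
    ring
  rw [hcard, show (81 : ℕ) = 27 * 3 by norm_num] at h81
  have h3d : 3 ∣ m ^ 2 * (3 * m ^ 2 + 3 * m + 1) * (3 * m + 2) * (3 * m + 1) ^ 3 :=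
    Nat.dvd_of_mul_dvd_mul_left (by norm_num) h81
  have hp := Nat.prime_three
  rcases (Nat.Prime.dvd_mul hp).mp h3d with h4 | h4
  · rcases (Nat.Prime.dvd_mul hp).mp h4 with h5 | h5
    · rcases (Nat.Prime.dvd_mul hp).mp h5 with h6 | h6
      · have h7 := hp.dvd_of_dvd_pow h6
        omega
      · have e : 3 * m ^ 2 + 3 * m + 1 = 3 * (m ^ 2 + m) + 1 := by ring
        rw [e] at h6
        omega
    · omega
  · have h7 := hp.dvd_of_dvd_pow h4
    omega



/-- Elements of prime order of PSL_3(p), p ≡ 1 (mod 3), and the normalizer of an extraspecial subgroup of order 27. Here `T = PSL_3(F)` for the field `F` with `p` elements, `p` a prime with `p ≡ 1 (mod 3)`; `R` is a non-abelian subgroup of GL_3(F) of order 27 and exponent 3 (an extraspecial group 3^{1+2}, acting absolutely irreducibly), and `H` is the subgroup of matrices of determinant 1 normalizing `R` — a subgroup of type 3^{1+2}.Sp₂(3) (maximality is not assumed). Ω is the set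 of cosets of `H` in `T`, so an element of `T` of prime order `r` (a matrix `x` of determinant 1 with `x^r` scalar, `x` not scalar) fixes a point of Ω exactly when some conjugate of `x` by a matrix of determinant 1 normalizes `R`. Let `r` be a prime dividing the index of `H`. Then every element of `T` of order `r` fixes a point of Ω if and only if `r = 2`, or `r = 3` and `p ≡ 1 (mod 9)`. -/
theorem result {F : Type*} [Field F] [Fintype F] {p : ℕ} [Fact p.Prime] [CharP F p] (hF : Fintype.card F = p) (hp3 : p % 3 = 1)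
    (R : Subgroup (GL (Fin 3) F)) (hR : Nat.card R = 27) (hRe : Monoid.exponent R = 3) (hRna : ¬ IsMulCommutative R)
    (r : ℕ) [Fact r.Prime]
    (hΩ : r ∣ (Cfsg.Geo.subgroupNormalizer R).relIndex (Cfsg.Geo.specialLinear (Fin 3) F)) :
    (∀ x ∈ Cfsg.Geo.specialLinear (Fin 3) F, (∃ z : F, ((x ^ r : GL (Fin 3) F) : Matrix (Fin 3) (Fin 3) F) = z • (1 : Matrix (Fin 3) (Fin 3) F)) →
      (∀ z : F, (x : Matrix (Fin 3) (Fin 3) F) ≠ z • (1 : Matrix (Fin 3) (Fin 3) F)) →
      ∃ g ∈ Cfsg.Geo.specialLinear (Fin 3) F, g⁻¹ * x * g ∈ Cfsg.Geo.subgroupNormalizer R) ↔ (r = 2 ∨ (r = 3 ∧ p % 9 = 1)) := by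
  classical
  have hpp : p.Prime := Fact.out
  have hp1 : 1 < p := hpp.one_lt
  have hrp : r.Prime := Fact.out
  have h3F : (3 : F) ≠ 0 := by
    intro h
    have h1 : ((3 : ℕ) : F) = 0 := by exact_mod_cast h
    have h2 := (CharP.cast_eq_zero_iff F p 3).mp h1
    have h3 : p = 3 := (Nat.prime_dvd_prime_iff_eq hpp Nat.prime_three).mp h2
    omega
  have h2F : (2 : F) ≠ 0 := by
    intro h
    have h1 : ((2 : ℕ) : F) = 0 := by exact_mod_cast h
    have h2 := (CharP.cast_eq_zero_iff F p 2).mp h1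
    have h3 : p = 2 := (Nat.prime_dvd_prime_iff_eq hpp Nat.prime_two).mp h2
    omega
  obtain ⟨ω, hω⟩ := exists_omega hF hp3
  obtain ⟨a, b, c, μ, e, hstd⟩ := exists_std h3F ω hω R hR hRe hRna
  haveI : Finite R := inferInstance
  constructor
  · intro hall
    by_cases hr2 : r = 2
    · exact Or.inl hr2
    by_cases hr3 : r = 3
    · refine Or.inr ⟨hr3, ?_⟩
      by_contra hp9
      subst hr3
      exact not_three_dvd hstd hF hp1 hp3 hp9 hR hΩ
    · exfalso
      haveI : Finite (specialLinear (Fin 3) F) := inferInstance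
      have hrd : r ∣ Nat.card (specialLinear (Fin 3) F) := by
        apply dvd_trans hΩ
        exact Subgroup.index_dvd_card _
      obtain ⟨x, hx⟩ := exists_prime_orderOf_dvd_card' r hrd
      have hxr : ((x : GL (Fin 3) F) ^ r) = 1 := by
        have : x ^ r = 1 := by rw [← hx]; exact pow_orderOf_eq_one x
        have := congrArg Subtype.val this
        simpa using this
      have hx1 : (x : GL (Fin 3) F) ≠ 1 := by
        intro h
        have : x = 1 := Subtype.ext h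
        rw [this, orderOf_one] at hx
        exact hrp.one_lt.ne hx
      obtain ⟨g, hg, hgx⟩ := hall (x : GL (Fin 3) F) x.2 ⟨1, by rw [hxr, one_smul]; rfl⟩ (by
        intro z hz
        have h31 : z ^ 3 = 1 := by
          have := (mem_S_iff (x : GL (Fin 3) F)).mp x.2
          rw [hz, Matrix.det_smul, Matrix.det_one] at this
          simpa using this
        have hr1 : z ^ r = 1 := by
          have h1 : (((x : GL (Fin 3) F) ^ r : GL (Fin 3) F) : Matrix (Fin 3) (Fin 3) F) = 1 := by rw [hxr]; rfl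
          rw [Units.val_pow_eq_pow_val, hz, _root_.smul_pow, one_pow] at h1
          have h3 := congrFun (congrFun h1 0) 0
          simpa using h3
        have hz1 := root_trivial hrp hr3 z h31 hr1
        apply hx1
        apply Units.ext
        rw [hz, hz1, one_smul]
        rfl)
      refine no_large hstd h3F hR r hr2 hr3 _ hgx (mul_mem (mul_mem (inv_mem hg) x.2) hg) ?_ ?_
      · have : g⁻¹ * (x : GL (Fin 3) F) * g = MulAut.conj g⁻¹ (x : GL (Fin 3) F) := by simp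
        rw [this, ← map_pow, hxr, map_one]
      · intro h
        apply hx1
        have : (x : GL (Fin 3) F) = g * (g⁻¹ * (x : GL (Fin 3) F) * g) * g⁻¹ := by group
        rw [this, h]
        group
  · rintro (rfl | ⟨rfl, hp9⟩)
    · rintro x hx ⟨z, hz⟩ hns
      exact case_two hstd h2F x hx z hz hns
    · rintro x hx ⟨z, hz⟩ hns
      have hz3 : z ^ 3 = 1 := by
        have h1 := congrArg Matrix.det hz
        rw [Units.val_pow_eq_pow_val, Matrix.det_pow, (mem_S_iff x).mp hx, one_pow, Matrix.det_smul, Matrix.det_one] at h1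
        simpa using h1.symm
      obtain ⟨w, hw0, hw⟩ := cube_of_nine hF hp9 z hz3
      rw [← hw] at hz
      exact case_three hstd h3F x w hw0 hz hns

end Cfsg.Agent.S5998
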