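import Mathlib
import Cfsg.Agent.S5998
import Cfsg.Agent.S5984
import Cfsg.Statements.S5999
-- import your own Cfsg.Agent.* helpers here

set_option autoImplicit false
open scoped MatrixGroups
open Cfsg

namespace Cfsg.Agent.S5999

open Matrix Module Polynomial Cfsg.Geo
open Cfsg.Agent.Lib.MatConj Cfsg.Agent.Lib.EigenThree
open Cfsg.Agent.S5998 (Std exists_std mem_norm_of conj_mem_of smul_mem_norm mu3 mu0 exists_mono_gl eq_of_basis scalar_of_eigen mem_S_iff R_le_S no_large root_trivial)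
open Cfsg.Agent.Lib.UnitaryBasic Cfsg.Agent.Lib.HermCount Cfsg.Agent.Lib.UnitarySU

set_option linter.unusedSimpArgs false
set_option linter.unusedVariables false
set_option linter.unusedSectionVars false

variable {F : Type*} [Field F] [Fintype F] {q n : ℕ}

/-- Orthonormal in the standard Hermitian form. -/
def ON {ι' : Type*} [DecidableEq ι'] (f : ι' → Fin n → F) (q : ℕ) : Prop :=
  ∀ i j, hermForm n F q (f i) (f j) = if i = j then 1 else 0

theorem mem_GU_of_ON {m : ℕ} (f : Basis (Fin m) F (Fin n → F)) (A : GL (Fin n) F) (hF : Fintype.card F = q ^ 2)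
    (hf : ON f q) (hA : ON (fun i => (A : Matrix (Fin n) (Fin n) F) *ᵥ f i) q) : A ∈ GU n F q := by
  classical
  intro u v
  show hermForm n F q ((A : Matrix (Fin n) (Fin n) F) *ᵥ u) ((A : Matrix (Fin n) (Fin n) F) *ᵥ v) = hermForm n F q u v
  have e1 : ∀ c : Fin m → F, (A : Matrix (Fin n) (Fin n) F) *ᵥ ∑ i, c i • f i = ∑ i, c i • ((A : Matrix (Fin n) (Fin n) F) *ᵥ f i) := by
    intro c
    rw [Matrix.mulVec_sum]
    simp only [Matrix.mulVec_smul]
  obtain ⟨a, rfl⟩ : ∃ a : Fin m → F, u = ∑ i, a i • f i := ⟨f.repr u, (f.sum_repr u).symm⟩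
  obtain ⟨b, rfl⟩ : ∃ b : Fin m → F, v = ∑ i, b i • f i := ⟨f.repr v, (f.sum_repr v).symm⟩
  rw [e1, e1, Cfsg.Agent.S5984.sum_pair hF a b _ _ hA, Cfsg.Agent.S5984.sum_pair hF a b _ _ hf]

/-- Orthonormal eigenbases of diagonalisable unitary matrices. -/
theorem exists_on_eigen (hF : Fintype.card F = q ^ 2) (x : GL (Fin n) F) (hxU : x ∈ GU n F q) {ι' : Type*} [Fintype ι'] [DecidableEq ι']
    (e₀ : Basis ι' F (Fin n → F)) (lam : ι' → F) (he : ∀ a, (x : Matrix (Fin n) (Fin n) F) *ᵥ e₀ a = lam a • e₀ a)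
    (hnorm : ∀ a, nrm q (lam a) = 1) :
    ∃ (f : Basis (Fin n) F (Fin n → F)) (l : Fin n → F), (∀ i, (x : Matrix (Fin n) (Fin n) F) *ᵥ f i = l i • f i) ∧ ON f q ∧
      ∀ i, ∃ a, l i = lam a := by
  classical
  have hq2 := two_le_q hF
  have hq0 : q ≠ 0 := by omega
  let E : F → Submodule F (Fin n → F) := fun s => LinearMap.ker (Matrix.toLin' (x : Matrix (Fin n) (Fin n) F) - s • LinearMap.id)
  have hE : ∀ s v, v ∈ E s ↔ (x : Matrix (Fin n) (Fin n) F) *ᵥ v = s • v := by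
    intro s v
    simp only [E, LinearMap.mem_ker, LinearMap.sub_apply, Matrix.toLin'_apply, LinearMap.smul_apply, LinearMap.id_apply, sub_eq_zero]
  have horth : ∀ s t : F, s ≠ t → nrm q t = 1 → ∀ u ∈ E s, ∀ v ∈ E t, hermForm n F q u v = 0 := by
    intro s t hst ht u hu v hv
    have h1 : hermForm n F q ((x : Matrix (Fin n) (Fin n) F) *ᵥ u) ((x : Matrix (Fin n) (Fin n) F) *ᵥ v) = hermForm n F q u v := hxU u v
    rw [(hE s u).1 hu, (hE t v).1 hv, herm_smul_left, herm_smul_right, ← mul_assoc] at h1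
    have ht' : t * t ^ q = 1 := ht
    have h3 : (s - t) * t ^ q * hermForm n F q u v = 0 := by
      have : (s - t) * t ^ q * hermForm n F q u v = s * t ^ q * hermForm n F q u v - t * t ^ q * hermForm n F q u v := by ring
      rw [this, h1, ht', one_mul, sub_self]
    have ht0 : t ≠ 0 := by
      rintro rfl
      simp [hq0] at ht'
    rcases mul_eq_zero.1 h3 with h4 | h4
    · exact absurd h4 (mul_ne_zero (sub_ne_zero.2 hst) (pow_ne_zero _ ht0))
    · exact h4
  have hmem0 : ∀ a, e₀ a ∈ E (lam a) := fun a => (hE _ _).2 (he a)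
  have hND : ∀ s, Cfsg.Agent.Lib.HermOrtho.ND q (E s) := by
    intro s u hu hperp
    apply herm_nondeg hF
    intro w
    rw [← e₀.sum_repr w, Cfsg.Agent.Lib.HermOrtho.herm_sum_right hF]
    refine Finset.sum_eq_zero fun a _ => ?_
    rw [herm_smul_right]
    by_cases hs : s = lam a
    · rw [hperp _ (hs ▸ hmem0 a), mul_zero]
    · rw [horth s (lam a) hs (hnorm a) u hu _ (hmem0 a), mul_zero]
  let S : Finset F := Finset.univ.image lam
  have hS : ∀ s ∈ S, nrm q s = 1 := by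
    intro s hs
    obtain ⟨a, -, rfl⟩ := Finset.mem_image.1 hs
    exact hnorm a
  have hc : ∀ s : S, ∃ c : Fin (finrank F (E s.1)) → Fin n → F, (∀ i, c i ∈ E s.1) ∧ ON c q := fun s =>
    Cfsg.Agent.Lib.HermOrtho.exists_orthonormal hF _ (E s.1) rfl (hND s.1)
  choose c hcE hcO using hc
  let J := Σ s : S, Fin (finrank F (E s.1))
  let C : J → Fin n → F := fun j => c j.1 j.2
  have hCO : ON C q := by
    rintro ⟨s, i⟩ ⟨t, j⟩
    by_cases hst : s = t
    · subst hst
      simp only [C]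
      rw [hcO s i j]
      by_cases hij : i = j
      · subst hij
        simp
      · rw [if_neg hij, if_neg]
        intro h
        exact hij (eq_of_heq (Sigma.mk.inj_iff.1 h).2)
    · simp only [C]
      rw [horth s.1 t.1 (fun h => hst (Subtype.ext h)) (hS t.1 t.2) _ (hcE s i) _ (hcE t j), if_neg]
      intro h
      exact hst (congrArg Sigma.fst h)
  have hli : LinearIndependent F C := by
    rw [Fintype.linearIndependent_iff]
    intro g hg j
    have h1 := congrArg (fun w => hermForm n F q w (C j)) hg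
    simp only [Cfsg.Agent.Lib.HermOrtho.herm_sum_left, herm_smul_left] at h1
    rw [Finset.sum_eq_single j, hCO j j, if_pos rfl, mul_one] at h1
    · rw [h1]
      exact Cfsg.Agent.Lib.HermForm.hermForm_zero_left _
    · intro i _ hi
      rw [hCO i j, if_neg hi, mul_zero]
    · intro h
      exact absurd (Finset.mem_univ j) h
  have hsp : ⊤ ≤ Submodule.span F (Set.range C) := by
    rw [← e₀.span_eq, Submodule.span_le]
    rintro _ ⟨a, rfl⟩
    have hs : lam a ∈ S := Finset.mem_image_of_mem lam (Finset.mem_univ a)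
    have h1 := Cfsg.Agent.Lib.HermOrtho.span_orthonormal hF rfl (hcE ⟨lam a, hs⟩) (hcO ⟨lam a, hs⟩)
    have h2 : e₀ a ∈ Submodule.span F (Set.range (c ⟨lam a, hs⟩)) := by
      rw [h1]
      exact hmem0 a
    refine Submodule.span_mono ?_ h2
    rintro _ ⟨i, rfl⟩
    exact ⟨⟨⟨lam a, hs⟩, i⟩, rfl⟩
  let b : Basis J F (Fin n → F) := Basis.mk hli hsp
  have hb : ∀ j, b j = C j := fun j => Basis.mk_apply hli hsp j
  have hcard : Fintype.card J = n := by
    have := Module.finrank_eq_card_basis b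
    simpa using this.symm
  let g : J ≃ Fin n := Fintype.equivFinOfCardEq hcard
  refine ⟨b.reindex g, fun i => (g.symm i).1.1, ?_, ?_, ?_⟩
  · intro i
    rw [Basis.reindex_apply, hb]
    exact (hE _ _).1 (hcE _ _)
  · intro i i'
    rw [Basis.reindex_apply, Basis.reindex_apply, hb, hb, hCO]
    simp
  · intro i
    obtain ⟨a, -, ha⟩ := Finset.mem_image.1 (g.symm i).1.2
    exact ⟨a, ha.symm⟩

/-- Conjugacy of elements with the same eigenvalues on orthonormal bases. -/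
theorem uconj (hF : Fintype.card F = q ^ 2) {m : ℕ} (hm : 0 < m) (x y : GL (Fin n) F) (f f' : Basis (Fin m) F (Fin n → F)) (l : Fin m → F)
    (hx : ∀ i, (x : Matrix (Fin n) (Fin n) F) *ᵥ f i = l i • f i) (hy : ∀ i, (y : Matrix (Fin n) (Fin n) F) *ᵥ f' i = l i • f' i)
    (hf : ON f q) (hf' : ON f' q) : ∃ g ∈ GU n F q ⊓ specialLinear (Fin n) F, g⁻¹ * x * g = y := by
  classical
  have hq2 := two_le_q hF
  have hq0 : q ≠ 0 := by omega
  let E : (Fin n → F) ≃ₗ[F] (Fin n → F) := f'.equiv f (Equiv.refl _)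
  have hEe : ∀ i, E (f' i) = f i := by
    intro i
    simp [E, Basis.equiv_apply]
  let g₀ : GL (Fin n) F := glOfEquiv E
  have hg₀ : ∀ i, (g₀ : Matrix (Fin n) (Fin n) F) *ᵥ f' i = f i := by
    intro i
    rw [glOfEquiv_mulVec, hEe]
  have hg₀U : g₀ ∈ GU n F q := by
    apply mem_GU_of_ON f' g₀ hF hf'
    intro i j
    simp only [hg₀]
    exact hf i j
  set δ := (g₀ : Matrix (Fin n) (Fin n) F).det with hδ
  have hδn : nrm q δ = 1 := nrm_det hF hg₀U
  have hδ0 : δ ≠ 0 := by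
    rintro h
    rw [h, nrm] at hδn
    simp at hδn
  let i₀ : Fin m := ⟨0, hm⟩
  let mm : Fin m → F := fun i => if i = i₀ then δ⁻¹ else 1
  have hmm0 : ∀ i, mm i ≠ 0 := by
    intro i
    simp only [mm]
    split_ifs
    · exact inv_ne_zero hδ0
    · exact one_ne_zero
  have hmmn : ∀ i, mm i * (mm i) ^ q = 1 := by
    intro i
    simp only [mm]
    split_ifs
    · have : δ * δ ^ q = 1 := hδn
      rw [inv_pow, ← mul_inv, this, inv_one]
    · simp
  obtain ⟨D, hD⟩ := exists_mono_gl f' (Equiv.refl _) mm hmm0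
  have hD' : ∀ i, (D : Matrix (Fin n) (Fin n) F) *ᵥ f' i = mm i • f' i := by
    intro i
    simpa using hD i
  have hON : ∀ (i j : Fin m), hermForm n F q (mm i • f i) (mm j • f j) = if i = j then 1 else 0 := by
    intro i j
    rw [herm_smul_left, herm_smul_right, hf i j]
    by_cases hij : i = j
    · subst hij
      simp only [if_true, mul_one]
      exact hmmn i
    · simp [hij]
  have hg : ∀ i, ((g₀ * D : GL (Fin n) F) : Matrix (Fin n) (Fin n) F) *ᵥ f' i = mm i • f i := by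
    intro i
    rw [Units.val_mul, ← Matrix.mulVec_mulVec, hD', Matrix.mulVec_smul, hg₀]
  have hdetD : (D : Matrix (Fin n) (Fin n) F).det = δ⁻¹ := by
    rw [← LinearMap.det_toLin', Cfsg.Agent.S5971.det_of_basis (Matrix.toLin' (D : Matrix (Fin n) (Fin n) F)) f' mm (fun i => by
      rw [Matrix.toLin'_apply]
      exact hD' i)]
    rw [Finset.prod_eq_single i₀]
    · simp [mm]
    · intro b _ hb
      simp [mm, hb]
    · intro h
      exact absurd (Finset.mem_univ _) h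
  refine ⟨g₀ * D, ⟨?_, ?_⟩, ?_⟩
  · apply mem_GU_of_ON f' _ hF hf'
    intro i j
    simp only [hg]
    exact hON i j
  · show Matrix.GeneralLinearGroup.det _ = 1
    apply Units.ext
    show ((g₀ * D : GL (Fin n) F) : Matrix (Fin n) (Fin n) F).det = 1
    rw [Units.val_mul, Matrix.det_mul, hdetD, ← hδ, mul_inv_cancel₀ hδ0]
  · have key : x * (g₀ * D) = (g₀ * D) * y := by
      apply Units.ext
      apply eq_of_basis f'
      intro i
      rw [Units.val_mul x, Units.val_mul (g₀ * D) y, ← Matrix.mulVec_mulVec, ← Matrix.mulVec_mulVec, hg, hy, Matrix.mulVec_smul, Matrix.mulVec_smul, hg, hx, smul_comm]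
    rw [mul_assoc, key, ← mul_assoc, inv_mul_cancel, one_mul]

section Std

local notation "M3" => Matrix (Fin 3) (Fin 3) F
local notation "V3" => (Fin 3 → F)

theorem pow_mu {p : ℕ} (hp3 : p % 3 = 2) {μ : F} (h3 : μ ^ 3 = 1) : μ ^ p = μ ^ 2 := by
  obtain ⟨t, ht⟩ : ∃ t, p = 3 * t + 2 := ⟨p / 3, by omega⟩
  rw [ht, pow_add, pow_mul, h3, one_pow, one_mul]

theorem nrm_of_cube {p : ℕ} (hp3 : p % 3 = 2) {μ : F} (h3 : μ ^ 3 = 1) : nrm p μ = 1 := by
  rw [nrm_eq_pow]
  obtain ⟨t, ht⟩ : ∃ t, p + 1 = 3 * t := ⟨(p + 1) / 3, by omega⟩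
  rw [ht, pow_mul, h3, one_pow]

variable {R : Subgroup (GL (Fin 3) F)} {a b c : GL (Fin 3) F} {μ : F} {e : Basis (Fin 3) F V3}

/-- The standing data can be taken orthonormal. -/
theorem exists_std_on {p : ℕ} {e : Basis (Fin 3) F V3} (hF : Fintype.card F = p ^ 2) (hp3 : p % 3 = 2) (hRU : R ≤ GU 3 F p) (h3F : (3 : F) ≠ 0)
    (h : Std R a b c μ e) : ∃ e' : Basis (Fin 3) F V3, Std R a b c μ e' ∧ ON e' p := by
  classical
  have hq2 := two_le_q hF
  have hq0 : p ≠ 0 := by omega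
  have h3 := mu3 h
  have h0 := mu0 h
  have hμ := h.hμ
  have hμ1 : μ ≠ 1 := by
    intro h1
    rw [h1] at hμ
    apply h3F
    linear_combination hμ
  have hμ21 : μ ^ 2 ≠ 1 := by
    intro h'
    apply hμ1
    have h4 : μ ^ 3 = μ := by rw [pow_succ, h', one_mul]
    rw [← h4, h3]
  have hap := pow_mu hp3 h3
  have hap2 : (μ ^ 2) ^ p = μ := by
    rw [← pow_mul, mul_comm, pow_mul, hap]
    linear_combination μ * h3
  have hA : ∀ u v : V3, hermForm 3 F p ((a : M3) *ᵥ u) ((a : M3) *ᵥ v) = hermForm 3 F p u v := hRU h.ha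
  have hB : ∀ u v : V3, hermForm 3 F p ((b : M3) *ᵥ u) ((b : M3) *ᵥ v) = hermForm 3 F p u v := hRU h.hb
  have key : ∀ (s : F) (u v : V3), s ≠ 1 → s * hermForm 3 F p u v = hermForm 3 F p u v → hermForm 3 F p u v = 0 := by
    intro s u v hs h1
    have : (s - 1) * hermForm 3 F p u v = 0 := by linear_combination h1
    exact (mul_eq_zero.1 this).resolve_left (sub_ne_zero.2 hs)
  have h01 : hermForm 3 F p (e 0) (e 1) = 0 := by
    apply key (μ ^ 2) _ _ hμ21
    have := hA (e 0) (e 1)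
    rw [h.a0, h.a1, herm_smul_right, hap] at this
    exact this
  have h02 : hermForm 3 F p (e 0) (e 2) = 0 := by
    apply key μ _ _ hμ1
    have := hA (e 0) (e 2)
    rw [h.a0, h.a2, herm_smul_right, hap2] at this
    exact this
  have h12 : hermForm 3 F p (e 1) (e 2) = 0 := by
    apply key (μ ^ 2) _ _ hμ21
    have := hA (e 1) (e 2)
    rw [h.a1, h.a2, herm_smul_left, herm_smul_right, hap2, ← mul_assoc, ← pow_two] at this
    exact this
  have hconj := fun {u v : V3} (h1 : hermForm 3 F p u v = 0) => Cfsg.Agent.Lib.GUParab.herm_zero_conj hF h1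
  have h11 : hermForm 3 F p (e 1) (e 1) = hermForm 3 F p (e 0) (e 0) := by
    have := hB (e 0) (e 0)
    rwa [h.b0] at this
  have h22 : hermForm 3 F p (e 2) (e 2) = hermForm 3 F p (e 0) (e 0) := by
    have := hB (e 1) (e 1)
    rw [h.b1, h11] at this
    exact this
  set κ := hermForm 3 F p (e 0) (e 0) with hκ
  have hκ0 : κ ≠ 0 := by
    intro h1
    have h5 : e 0 = 0 := by
      apply herm_nondeg hF
      intro w
      rw [← e.sum_repr w, Cfsg.Agent.Lib.HermOrtho.herm_sum_right hF, Fin.sum_univ_three, herm_smul_right, herm_smul_right, herm_smul_right,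
        h01, h02, ← hκ, h1]
      ring
    exact e.ne_zero 0 h5
  have hκp : κ ^ p = κ := herm_self_fixed hF (e 0)
  obtain ⟨s, hs0, hs⟩ := Cfsg.Agent.Lib.FFNorm.exists_norm_eq hF (inv_ne_zero hκ0) (by rw [inv_pow, hκp])
  let e' : Basis (Fin 3) F V3 := e.unitsSMul (fun _ => Units.mk0 s hs0)
  have he' : ∀ i, e' i = s • e i := by
    intro i
    simp [e', Basis.unitsSMul_apply, Units.smul_def]
  have hss : s * s ^ p = κ⁻¹ := by
    rw [← hs, pow_succ]
    ring
  refine ⟨e', ⟨h.ha, h.hb, h.hc, h.hcl, h.hμ, h.hcv, ?_, ?_, ?_, ?_, ?_, ?_⟩, ?_⟩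
  · rw [he', Matrix.mulVec_smul, h.a0]
  · rw [he', Matrix.mulVec_smul, h.a1, smul_comm]
  · rw [he', Matrix.mulVec_smul, h.a2, smul_comm]
  · rw [he', he', Matrix.mulVec_smul, h.b0]
  · rw [he', he', Matrix.mulVec_smul, h.b1]
  · rw [he', he', Matrix.mulVec_smul, h.b2]
  · intro i j
    rw [he', he', herm_smul_left, herm_smul_right, ← mul_assoc, hss]
    have hc01 := hconj h01
    have hc02 := hconj h02
    have hc12 := hconj h12
    fin_cases i <;> fin_cases j <;> simp [h01, h02, h12, hc01, hc02, hc12, h11, h22, ← hκ, hκ0]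

/-- A triple of eigenvalues realised on an orthonormal basis by an element of the normalizer. -/
def URealized (p : ℕ) (R : Subgroup (GL (Fin 3) F)) (l₀ l₁ l₂ : F) : Prop :=
  ∃ (y : GL (Fin 3) F) (f : Basis (Fin 3) F V3), y ∈ subgroupNormalizer R ∧ ON f p ∧
    (y : M3) *ᵥ f 0 = l₀ • f 0 ∧ (y : M3) *ᵥ f 1 = l₁ • f 1 ∧ (y : M3) *ᵥ f 2 = l₂ • f 2

variable {p : ℕ}

theorem ON.reindex {f : Basis (Fin 3) F V3} (hf : ON f p) (π : Equiv.Perm (Fin 3)) : ON (f.reindex π) p := by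
  intro i j
  rw [Basis.reindex_apply, Basis.reindex_apply, hf]
  simp

theorem URealized.swap12 {l₀ l₁ l₂ : F} (h : URealized p R l₀ l₁ l₂) : URealized p R l₀ l₂ l₁ := by
  obtain ⟨y, f, hy, hf, h0, h1, h2⟩ := h
  refine ⟨y, f.reindex (Equiv.swap 1 2), hy, hf.reindex _, ?_, ?_, ?_⟩
  · simpa [Basis.reindex_apply, Equiv.swap_apply_of_ne_of_ne] using h0
  · simpa [Basis.reindex_apply] using h2
  · simpa [Basis.reindex_apply] using h1

theorem URealized.swap02 {l₀ l₁ l₂ : F} (h : URealized p R l₀ l₁ l₂) : URealized p R l₂ l₁ l₀ := by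
  obtain ⟨y, f, hy, hf, h0, h1, h2⟩ := h
  refine ⟨y, f.reindex (Equiv.swap 0 2), hy, hf.reindex _, ?_, ?_, ?_⟩
  · simpa [Basis.reindex_apply] using h2
  · simpa [Basis.reindex_apply, Equiv.swap_apply_of_ne_of_ne] using h1
  · simpa [Basis.reindex_apply] using h0

/-- Scaling a realised triple. -/
theorem URealized.smul {l₀ l₁ l₂ : F} (hr : URealized p R l₀ l₁ l₂) (σ : F) (hσ : σ ≠ 0) :
    URealized p R (σ * l₀) (σ * l₁) (σ * l₂) := by
  obtain ⟨y, f, hy, hf, h0, h1, h2⟩ := hr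
  let s : GL (Fin 3) F := ⟨σ • (y : M3), σ⁻¹ • ((y⁻¹ : GL (Fin 3) F) : M3), by
    rw [Matrix.smul_mul, Matrix.mul_smul, smul_smul, mul_inv_cancel₀ hσ, one_smul, ← Units.val_mul, mul_inv_cancel]; rfl, by
    rw [Matrix.smul_mul, Matrix.mul_smul, smul_smul, inv_mul_cancel₀ hσ, one_smul, ← Units.val_mul, inv_mul_cancel]; rfl⟩
  have hs : (s : M3) = σ • (y : M3) := rfl
  refine ⟨s, f, smul_mem_norm y s σ hs hy, hf, ?_, ?_, ?_⟩
  · rw [hs, Matrix.smul_mulVec, h0, smul_smul]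
  · rw [hs, Matrix.smul_mulVec, h1, smul_smul]
  · rw [hs, Matrix.smul_mulVec, h2, smul_smul]


theorem urealized_a {R : Subgroup (GL (Fin 3) F)} [Finite R] {a b c : GL (Fin 3) F} {μ : F} {e : Basis (Fin 3) F (Fin 3 → F)} {p : ℕ} (h : Std R a b c μ e) (he : ON e p) : URealized p R 1 μ (μ ^ 2) :=
  ⟨a, e, Subgroup.le_normalizer h.ha, he, by rw [h.a0, one_smul], h.a1, h.a2⟩

theorem urealized_d {R : Subgroup (GL (Fin 3) F)} [Finite R] {a b c : GL (Fin 3) F} {μ : F} {e : Basis (Fin 3) F (Fin 3 → F)} {p : ℕ} (h : Std R a b c μ e) (he : ON e p) : URealized p R 1 1 μ ∧ URealized p R 1 1 (μ ^ 2) := by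
  have h3 := mu3 h
  have h00 := mu0 h
  obtain ⟨d, hd⟩ := exists_mono_gl e (Equiv.refl _) ![1, 1, μ] (by
    intro i
    fin_cases i
    · exact one_ne_zero
    · exact one_ne_zero
    · exact h00)
  have d0 : (d : M3) *ᵥ e 0 = e 0 := by simpa using hd 0
  have d1 : (d : M3) *ᵥ e 1 = e 1 := by simpa using hd 1
  have d2 : (d : M3) *ᵥ e 2 = μ • e 2 := by simpa using hd 2
  have hdN : d ∈ subgroupNormalizer R := by
    apply mem_norm_of h
    · apply conj_mem_of d a a _ h.ha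
      apply Units.ext
      apply eq_of_basis e
      intro i
      rw [Units.val_mul, Units.val_mul, ← Matrix.mulVec_mulVec, ← Matrix.mulVec_mulVec]
      fin_cases i
      · show (d : M3) *ᵥ (a : M3) *ᵥ e 0 = (a : M3) *ᵥ (d : M3) *ᵥ e 0
        rw [h.a0, d0, h.a0]
      · show (d : M3) *ᵥ (a : M3) *ᵥ e 1 = (a : M3) *ᵥ (d : M3) *ᵥ e 1
        rw [h.a1, Matrix.mulVec_smul, d1, h.a1]
      · show (d : M3) *ᵥ (a : M3) *ᵥ e 2 = (a : M3) *ᵥ (d : M3) *ᵥ e 2
        rw [h.a2, Matrix.mulVec_smul, d2, Matrix.mulVec_smul, h.a2, smul_comm]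
    · apply conj_mem_of d b (b * a) _ (R.mul_mem h.hb h.ha)
      apply Units.ext
      apply eq_of_basis e
      intro i
      rw [Units.val_mul, Units.val_mul, Units.val_mul, ← Matrix.mulVec_mulVec, ← Matrix.mulVec_mulVec, ← Matrix.mulVec_mulVec]
      fin_cases i
      · show (d : M3) *ᵥ (b : M3) *ᵥ e 0 = (b : M3) *ᵥ (a : M3) *ᵥ (d : M3) *ᵥ e 0
        rw [h.b0, d1, d0, h.a0, h.b0]
      · show (d : M3) *ᵥ (b : M3) *ᵥ e 1 = (b : M3) *ᵥ (a : M3) *ᵥ (d : M3) *ᵥ e 1
        rw [h.b1, d2, d1, h.a1, Matrix.mulVec_smul, h.b1]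
      · show (d : M3) *ᵥ (b : M3) *ᵥ e 2 = (b : M3) *ᵥ (a : M3) *ᵥ (d : M3) *ᵥ e 2
        rw [h.b2, d0, d2, Matrix.mulVec_smul, h.a2, Matrix.mulVec_smul, Matrix.mulVec_smul, h.b2, smul_smul]
        rw [show μ * μ ^ 2 = μ ^ 3 by ring, h3, one_smul]
  constructor
  · exact ⟨d, e, hdN, he, by rw [d0, one_smul], by rw [d1, one_smul], d2⟩
  · refine ⟨d * d, e, mul_mem hdN hdN, he, ?_, ?_, ?_⟩
    · rw [Units.val_mul, ← Matrix.mulVec_mulVec, d0, d0, one_smul]
    · rw [Units.val_mul, ← Matrix.mulVec_mulVec, d1, d1, one_smul]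
    · rw [Units.val_mul, ← Matrix.mulVec_mulVec, d2, Matrix.mulVec_smul, d2, smul_smul, pow_two]

theorem li_of_on {ι' : Type*} [Fintype ι'] [DecidableEq ι'] {f : ι' → V3} (hf : ON f p) : LinearIndependent F f := by
  rw [Fintype.linearIndependent_iff]
  intro g hg j
  have h1 := congrArg (fun w => hermForm 3 F p w (f j)) hg
  simp only [Cfsg.Agent.Lib.HermOrtho.herm_sum_left, herm_smul_left] at h1
  rw [Finset.sum_eq_single j, hf j j, if_pos rfl, mul_one] at h1
  · rw [h1]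
    exact Cfsg.Agent.Lib.HermForm.hermForm_zero_left _
  · intro i _ hi
    rw [hf i j, if_neg hi, mul_zero]
  · intro h
    exact absurd (Finset.mem_univ j) h

theorem urealized_t {R : Subgroup (GL (Fin 3) F)} [Finite R] {a b c : GL (Fin 3) F} {μ : F} {e : Basis (Fin 3) F (Fin 3 → F)} {p : ℕ} (hF : Fintype.card F = p ^ 2) (h : Std R a b c μ e) (he : ON e p) (h2 : (2 : F) ≠ 0) : URealized p R 1 1 (-1) := by
  classical
  have hq2 := two_le_q hF
  have h3 := mu3 h
  have h00 := mu0 h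
  obtain ⟨t, ht⟩ := exists_mono_gl e (Equiv.swap 1 2) (fun _ => (-1 : F)) (fun _ => neg_ne_zero.mpr one_ne_zero)
  have t0 : (t : M3) *ᵥ e 0 = - e 0 := by simpa [Equiv.swap_apply_of_ne_of_ne] using ht 0
  have t1 : (t : M3) *ᵥ e 1 = - e 2 := by simpa using ht 1
  have t2 : (t : M3) *ᵥ e 2 = - e 1 := by simpa using ht 2
  have htN : t ∈ subgroupNormalizer R := by
    apply mem_norm_of h
    · apply conj_mem_of t a (a * a) _ (R.mul_mem h.ha h.ha)
      apply Units.ext
      apply eq_of_basis e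
      intro i
      rw [Units.val_mul, Units.val_mul, Units.val_mul, ← Matrix.mulVec_mulVec, ← Matrix.mulVec_mulVec, ← Matrix.mulVec_mulVec]
      fin_cases i
      · show (t : M3) *ᵥ (a : M3) *ᵥ e 0 = (a : M3) *ᵥ (a : M3) *ᵥ (t : M3) *ᵥ e 0
        rw [h.a0, t0, Matrix.mulVec_neg, Matrix.mulVec_neg, h.a0, h.a0]
      · show (t : M3) *ᵥ (a : M3) *ᵥ e 1 = (a : M3) *ᵥ (a : M3) *ᵥ (t : M3) *ᵥ e 1
        rw [h.a1, Matrix.mulVec_smul, t1, Matrix.mulVec_neg, Matrix.mulVec_neg, h.a2, Matrix.mulVec_smul, h.a2, smul_smul,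
          smul_neg]
        rw [show μ ^ 2 * μ ^ 2 = μ * μ ^ 3 by ring, h3, mul_one]
      · show (t : M3) *ᵥ (a : M3) *ᵥ e 2 = (a : M3) *ᵥ (a : M3) *ᵥ (t : M3) *ᵥ e 2
        rw [h.a2, Matrix.mulVec_smul, t2, Matrix.mulVec_neg, Matrix.mulVec_neg, h.a1, Matrix.mulVec_smul, h.a1, smul_smul,
          smul_neg]
        rw [show μ * μ = μ ^ 2 by ring]
    · apply conj_mem_of t b (b * b) _ (R.mul_mem h.hb h.hb)
      apply Units.ext
      apply eq_of_basis e
      intro i
      rw [Units.val_mul, Units.val_mul, Units.val_mul, ← Matrix.mulVec_mulVec, ← Matrix.mulVec_mulVec, ← Matrix.mulVec_mulVec]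
      fin_cases i
      · show (t : M3) *ᵥ (b : M3) *ᵥ e 0 = (b : M3) *ᵥ (b : M3) *ᵥ (t : M3) *ᵥ e 0
        rw [h.b0, t0, t1, Matrix.mulVec_neg, Matrix.mulVec_neg, h.b0, h.b1]
      · show (t : M3) *ᵥ (b : M3) *ᵥ e 1 = (b : M3) *ᵥ (b : M3) *ᵥ (t : M3) *ᵥ e 1
        rw [h.b1, t1, t2, Matrix.mulVec_neg, Matrix.mulVec_neg, h.b2, h.b0]
      · show (t : M3) *ᵥ (b : M3) *ᵥ e 2 = (b : M3) *ᵥ (b : M3) *ᵥ (t : M3) *ᵥ e 2
        rw [h.b2, t0, t2, Matrix.mulVec_neg, Matrix.mulVec_neg, h.b1, h.b2]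
  -- the eigenbasis of `-t`
  let s : GL (Fin 3) F := ⟨(-1 : F) • (t : M3), (-1 : F) • ((t⁻¹ : GL (Fin 3) F) : M3), by
    rw [Matrix.smul_mul, Matrix.mul_smul, smul_smul, ← Units.val_mul, mul_inv_cancel]; simp, by
    rw [Matrix.smul_mul, Matrix.mul_smul, smul_smul, ← Units.val_mul, inv_mul_cancel]; simp⟩
  have hs : (s : M3) = (-1 : F) • (t : M3) := rfl
  have h2p : ((2 : F)⁻¹) ^ p = (2 : F)⁻¹ := by
    rw [inv_pow]
    have h22 : (2 : F) ^ p = 2 := by
      have e1 : (2 : F) = 1 + 1 := by norm_num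
      rw [e1, Cfsg.Agent.Lib.HermCount.add_pow_q hF, one_pow]
    rw [h22]
  obtain ⟨κ, hκ0, hκ⟩ := Cfsg.Agent.Lib.FFNorm.exists_norm_eq hF (inv_ne_zero h2) h2p
  have hκκ : κ * κ ^ p = (2 : F)⁻¹ := by
    rw [← hκ, pow_succ]
    ring
  let vv : Fin 3 → V3 := ![e 0, κ • (e 1 + e 2), κ • (e 1 - e 2)]
  have he' : ∀ i j : Fin 3, hermForm 3 F p (e i) (e j) = if i = j then 1 else 0 := he
  have hvvO : ON vv p := by
    intro i j
    have hi : ∀ u w : V3, hermForm 3 F p (κ • u) (κ • w) = (2 : F)⁻¹ * hermForm 3 F p u w := by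
      intro u w
      rw [herm_smul_left, herm_smul_right, ← mul_assoc, hκκ]
    fin_cases i <;> fin_cases j <;> simp only [vv, Matrix.cons_val_zero, Matrix.cons_val_one, Matrix.cons_val, Fin.zero_eta, Fin.mk_one, Fin.reduceFinMk, hi] <;>
      simp only [herm_smul_left, herm_smul_right, herm_add_left, herm_add_right hF, herm_sub_left, herm_sub_right hF, he'] <;>
      simp <;> first | (field_simp; norm_num) | skip
  let f : Basis (Fin 3) F V3 := basisOfLinearIndependentOfCardEqFinrank (li_of_on hvvO) (by simp)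
  have hf : ∀ i, f i = vv i := by
    intro i
    simp [f]
  have hfO : ON f p := by
    intro i j
    rw [hf, hf]
    exact hvvO i j
  refine ⟨s, f, smul_mem_norm t s (-1) hs htN, hfO, ?_, ?_, ?_⟩
  · rw [hf, hs, Matrix.smul_mulVec]
    show (-1 : F) • ((t : M3) *ᵥ e 0) = (1 : F) • e 0
    rw [t0]; simp
  · rw [hf, hs, Matrix.smul_mulVec]
    show (-1 : F) • ((t : M3) *ᵥ (κ • (e 1 + e 2))) = (1 : F) • (κ • (e 1 + e 2))
    rw [Matrix.mulVec_smul, Matrix.mulVec_add, t1, t2]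
    module
  · rw [hf, hs, Matrix.smul_mulVec]
    show (-1 : F) • ((t : M3) *ᵥ (κ • (e 1 - e 2))) = (-1 : F) • (κ • (e 1 - e 2))
    rw [Matrix.mulVec_smul, Matrix.mulVec_sub, t1, t2]
    module

/-- Conjugate into the normalizer from a realised triple of eigenvalues. -/
theorem uconj_of_realized (hF : Fintype.card F = p ^ 2) (x : GL (Fin 3) F) (f : Basis (Fin 3) F (Fin 3 → F)) (hf : ON f p) (l₀ l₁ l₂ : F)
    (h0 : (x : M3) *ᵥ f 0 = l₀ • f 0) (h1 : (x : M3) *ᵥ f 1 = l₁ • f 1) (h2 : (x : M3) *ᵥ f 2 = l₂ • f 2) (hr : URealized p R l₀ l₁ l₂) :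
    ∃ g ∈ GU 3 F p ⊓ specialLinear (Fin 3) F, g⁻¹ * x * g ∈ subgroupNormalizer R := by
  obtain ⟨y, f', hy, hf', h0', h1', h2'⟩ := hr
  obtain ⟨g, hg, hgy⟩ := uconj hF (by norm_num) x y f f' ![l₀, l₁, l₂] (by
    intro i
    fin_cases i
    · exact h0
    · exact h1
    · exact h2) (by
    intro i
    fin_cases i
    · exact h0'
    · exact h1'
    · exact h2') hf hf'
  refine ⟨g, hg, ?_⟩
  rw [hgy]
  exact hy

/-- Involutions. -/
theorem case_two {R : Subgroup (GL (Fin 3) F)} [Finite R] {a b c : GL (Fin 3) F} {μ : F} {e : Basis (Fin 3) F (Fin 3 → F)} {p : ℕ} (hF : Fintype.card F = p ^ 2) (hp3 : p % 3 = 2) (h : Std R a b c μ e) (he : ON e p) (h2 : (2 : F) ≠ 0) (x : GL (Fin 3) F)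
    (hxS : x ∈ GU 3 F p ⊓ specialLinear (Fin 3) F) (z : F)
    (hz : ((x ^ 2 : GL (Fin 3) F) : M3) = z • (1 : M3)) (hns : ∀ z : F, (x : M3) ≠ z • (1 : M3)) :
    ∃ g ∈ GU 3 F p ⊓ specialLinear (Fin 3) F, g⁻¹ * x * g ∈ subgroupNormalizer R := by
  classical
  have hxd := (mem_S_iff x).mp hxS.2
  have hxx : (x : M3) * (x : M3) = z • (1 : M3) := by
    rw [← hz, pow_two, Units.val_mul]
  have hz3 : z ^ 3 = 1 := by
    have := congrArg Matrix.det hxx
    rw [Matrix.det_mul, hxd, Matrix.det_smul, Matrix.det_one] at this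
    simpa using this.symm
  have hz0 : z ≠ 0 := by
    rintro rfl
    norm_num at hz3
  set w : F := z ^ 2 with hw
  have hw0 : w ≠ 0 := pow_ne_zero _ hz0
  have hww : w * w = z := by
    rw [hw]
    linear_combination z * hz3
  have hw3 : w ^ 3 = 1 := by
    rw [hw]
    linear_combination (z ^ 3 + 1) * hz3
  have hne : w ≠ -w := by
    intro hn
    have : 2 * w = 0 := by linear_combination hn
    exact (mul_eq_zero.mp this).elim h2 hw0
  let T : Module.End F (Fin 3 → F) := Matrix.toLin' (x : M3)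
  have hTv : ∀ v, T v = (x : M3) *ᵥ v := fun v => rfl
  have h00 : aeval T ((X - C w) * (X - C (-w)) : F[X]) = 0 := by
    have e1 : ((X - C w) * (X - C (-w)) : F[X]) = X ^ 2 - C z := by
      rw [C_neg, ← hww, C_mul]
      ring
    rw [e1]
    apply LinearMap.ext
    intro v
    simp [hTv, Matrix.mulVec_mulVec, pow_two, hxx, Module.End.mul_apply, sub_eq_zero]
    rw [Matrix.smul_mulVec, Matrix.one_mulVec]
  obtain ⟨r, s, e₀, he1, he2⟩ := exists_basis_two T w (-w) hne h00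
  have hnw : nrm p w = 1 := nrm_of_cube hp3 hw3
  have hnw' : nrm p (-w) = 1 := by
    rw [show -w = (-1) * w by ring, nrm_mul', nrm_neg_one hF, hnw, one_mul]
  obtain ⟨f, l, hf, hfO, hl⟩ := exists_on_eigen hF x hxS.1 e₀ (Sum.elim (fun _ => w) (fun _ => -w)) (by
    rintro (i | i)
    · rw [← hTv]; simpa using he1 i
    · rw [← hTv]; simpa using he2 i) (by
    rintro (i | i)
    · exact hnw
    · exact hnw')
  have hl' : ∀ i, l i = w ∨ l i = -w := by
    intro i
    obtain ⟨j, hj⟩ := hl i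
    rcases j with j | j
    · exact Or.inl hj
    · exact Or.inr hj
  have hrel : ∀ σ : F, σ ≠ 0 → URealized p R σ σ (-σ) := by
    intro σ hσ
    have := (urealized_t hF h he h2).smul σ hσ
    simpa using this
  have hf0 := hf 0
  have hf1 := hf 1
  have hf2 := hf 2
  have hgo : URealized p R (l 0) (l 1) (l 2) := by
    rcases hl' 0 with h0 | h0 <;> rcases hl' 1 with h1 | h1 <;> rcases hl' 2 with h2' | h2' <;> rw [h0, h1, h2']
    · exact absurd (scalar_of_eigen x f w (by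
        intro i
        fin_cases i
        · show (x : M3) *ᵥ f 0 = w • f 0
          rw [hf0, h0]
        · show (x : M3) *ᵥ f 1 = w • f 1
          rw [hf1, h1]
        · show (x : M3) *ᵥ f 2 = w • f 2
          rw [hf2, h2'])) (hns w)
    · exact hrel w hw0
    · exact (hrel w hw0).swap12
    · have := (hrel (-w) (neg_ne_zero.mpr hw0)).swap02
      simpa using this
    · have := (hrel w hw0).swap02
      exact this
    · have := (hrel (-w) (neg_ne_zero.mpr hw0)).swap12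
      simpa using this
    · have := hrel (-w) (neg_ne_zero.mpr hw0)
      simpa using this
    · exact absurd (scalar_of_eigen x f (-w) (by
        intro i
        fin_cases i
        · show (x : M3) *ᵥ f 0 = (-w) • f 0
          rw [hf0, h0]
        · show (x : M3) *ᵥ f 1 = (-w) • f 1
          rw [hf1, h1]
        · show (x : M3) *ᵥ f 2 = (-w) • f 2
          rw [hf2, h2'])) (hns (-w))
  exact uconj_of_realized hF x f hfO _ _ _ hf0 hf1 hf2 hgo

theorem urealized_all {R : Subgroup (GL (Fin 3) F)} [Finite R] {a b c : GL (Fin 3) F} {μ : F} {e : Basis (Fin 3) F (Fin 3 → F)} {p : ℕ} (h : Std R a b c μ e) (he : ON e p) (σ : F) (hσ : σ ≠ 0) (ρ₁ ρ₂ : F) (h1 : ρ₁ = 1 ∨ ρ₁ = μ ∨ ρ₁ = μ ^ 2)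
    (h2 : ρ₂ = 1 ∨ ρ₂ = μ ∨ ρ₂ = μ ^ 2) (hne : ¬ (ρ₁ = 1 ∧ ρ₂ = 1)) : URealized p R σ (σ * ρ₁) (σ * ρ₂) := by
  have h3 := mu3 h
  have h0 := mu0 h
  have hA : ∀ τ : F, τ ≠ 0 → URealized p R τ (τ * μ) (τ * μ ^ 2) := by
    intro τ hτ
    have := (urealized_a h he).smul τ hτ
    simpa using this
  have hD : ∀ τ : F, τ ≠ 0 → URealized p R τ τ (τ * μ) := by
    intro τ hτ
    have := (urealized_d h he).1.smul τ hτ
    simpa using this
  have hD' : ∀ τ : F, τ ≠ 0 → URealized p R τ τ (τ * μ ^ 2) := by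
    intro τ hτ
    have := (urealized_d h he).2.smul τ hτ
    simpa using this
  rcases h1 with h1 | h1 | h1 <;> rcases h2 with h2 | h2 | h2
  · exact absurd ⟨h1, h2⟩ hne
  · rw [h1, h2, mul_one]; exact hD σ hσ
  · rw [h1, h2, mul_one]; exact hD' σ hσ
  · rw [h1, h2, mul_one]; exact (hD σ hσ).swap12
  · rw [h1, h2]
    have := (hD' (σ * μ) (mul_ne_zero hσ h0)).swap02
    have e1 : σ * μ * μ ^ 2 = σ := by linear_combination σ * h3
    rwa [e1] at this
  · rw [h1, h2]; exact hA σ hσ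
  · rw [h1, h2, mul_one]; exact (hD' σ hσ).swap12
  · rw [h1, h2]; exact (hA σ hσ).swap12
  · rw [h1, h2]
    have := (hD (σ * μ ^ 2) (mul_ne_zero hσ (pow_ne_zero _ h0))).swap02
    have e1 : σ * μ ^ 2 * μ = σ := by linear_combination σ * h3
    rwa [e1] at this

/-- Elements with cube a cube of a norm-one element. -/
theorem case_three {R : Subgroup (GL (Fin 3) F)} [Finite R] {a b c : GL (Fin 3) F} {μ : F} {e : Basis (Fin 3) F (Fin 3 → F)} {p : ℕ} (hF : Fintype.card F = p ^ 2) (hp3 : p % 3 = 2) (h : Std R a b c μ e) (he : ON e p) (h3F : (3 : F) ≠ 0) (x : GL (Fin 3) F)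
    (hxS : x ∈ GU 3 F p ⊓ specialLinear (Fin 3) F) (w : F) (hw0 : w ≠ 0) (hwn : nrm p w = 1)
    (hz : ((x ^ 3 : GL (Fin 3) F) : M3) = w ^ 3 • (1 : M3)) (hns : ∀ z : F, (x : M3) ≠ z • (1 : M3)) :
    ∃ g ∈ GU 3 F p ⊓ specialLinear (Fin 3) F, g⁻¹ * x * g ∈ subgroupNormalizer R := by
  classical
  have h3 := mu3 h
  have h0 := mu0 h
  have hμ := h.hμ
  have hxxx : (x : M3) * (x : M3) * (x : M3) = w ^ 3 • (1 : M3) := by
    rw [← hz, pow_succ, pow_two, Units.val_mul, Units.val_mul]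
  have hμ1 : μ ≠ 1 := by
    intro h1
    rw [h1] at hμ
    apply h3F
    linear_combination hμ
  have hμμ : μ ^ 2 ≠ μ := by
    intro h'
    apply hμ1
    have : μ * (μ - 1) = 0 := by linear_combination h'
    rcases mul_eq_zero.mp this with h'' | h''
    · exact absurd h'' h0
    · exact sub_eq_zero.mp h''
  have hμ21 : μ ^ 2 ≠ 1 := by
    intro h'
    apply hμμ
    have : μ ^ 2 * μ = μ := by rw [h', one_mul]
    have h2 : μ ^ 3 = μ := by rw [pow_succ, this]
    rw [h3] at h2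
    rw [h', h2]
  let T : Module.End F (Fin 3 → F) := Matrix.toLin' (x : M3)
  have hTv : ∀ v, T v = (x : M3) *ᵥ v := fun v => rfl
  have h00 : aeval T ((X - C w) * ((X - C (w * μ)) * (X - C (w * μ ^ 2))) : F[X]) = 0 := by
    have hM : (C μ) ^ 2 + C μ + 1 = (0 : F[X]) := by
      rw [← C_pow, ← C_add, ← C_1, ← C_add, hμ, C_0]
    have e1 : ((X - C w) * ((X - C (w * μ)) * (X - C (w * μ ^ 2))) : F[X]) = X ^ 3 - C (w ^ 3) := by
      rw [C_mul, C_mul, C_pow, C_pow]
      linear_combination (X - C w) * (- C w * X + (C w) ^ 2 * (C μ - 1)) * hM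
    rw [e1]
    apply LinearMap.ext
    intro v
    simp only [map_sub, aeval_X_pow, aeval_C, LinearMap.sub_apply, LinearMap.zero_apply, sub_eq_zero]
    show (T ^ 3) v = _
    simp only [pow_succ, pow_zero, one_mul, Module.End.mul_apply, hTv, Matrix.mulVec_mulVec]
    have : (x : M3) * ((x : M3) * (x : M3)) = w ^ 3 • (1 : M3) := by
      rw [← hxxx, Matrix.mul_assoc]
    rw [this, Matrix.smul_mulVec, Matrix.one_mulVec]
    simp [Algebra.algebraMap_eq_smul_one, pow_succ, Module.algebraMap_end_apply]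
  obtain ⟨r, s, t, e₀, he1, he2, he3⟩ := exists_basis_three T w (w * μ) (w * μ ^ 2)
    (fun hn => hμ1 (mul_left_cancel₀ hw0 (by rw [mul_one]; exact hn.symm)))
    (fun hn => hμ21 (mul_left_cancel₀ hw0 (by rw [mul_one]; exact hn.symm)))
    (fun hn => hμμ (mul_left_cancel₀ hw0 hn.symm)) h00
  have hnμ := nrm_of_cube hp3 h3
  have hnμ2 : nrm p (μ ^ 2) = 1 := by
    rw [pow_two, nrm_mul', hnμ, one_mul]
  obtain ⟨f, l, hf, hfO, hl⟩ := exists_on_eigen hF x hxS.1 e₀ (Sum.elim (fun _ => w) (Sum.elim (fun _ => w * μ) (fun _ => w * μ ^ 2))) (by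
    rintro (i | i | i)
    · rw [← hTv]; simpa using he1 i
    · rw [← hTv]; simpa using he2 i
    · rw [← hTv]; simpa using he3 i) (by
    rintro (i | i | i)
    · exact hwn
    · show nrm p (w * μ) = 1
      rw [nrm_mul', hwn, hnμ, one_mul]
    · show nrm p (w * μ ^ 2) = 1
      rw [nrm_mul', hwn, hnμ2, one_mul])
  have hl' : ∀ i, l i = w ∨ l i = w * μ ∨ l i = w * μ ^ 2 := by
    intro i
    obtain ⟨j, hj⟩ := hl i
    rcases j with j | j | j
    · exact Or.inl hj
    · exact Or.inr (Or.inl hj)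
    · exact Or.inr (Or.inr hj)
  have hratio : ∀ m m' : F, (m = w ∨ m = w * μ ∨ m = w * μ ^ 2) → (m' = w ∨ m' = w * μ ∨ m' = w * μ ^ 2) →
      ∃ ρ : F, (ρ = 1 ∨ ρ = μ ∨ ρ = μ ^ 2) ∧ m' = m * ρ := by
    intro m m' hm hm'
    rcases hm with hm | hm | hm <;> rcases hm' with hm' | hm' | hm' <;> rw [hm, hm']
    · exact ⟨1, Or.inl rfl, by ring⟩
    · exact ⟨μ, Or.inr (Or.inl rfl), rfl⟩
    · exact ⟨μ ^ 2, Or.inr (Or.inr rfl), rfl⟩
    · exact ⟨μ ^ 2, Or.inr (Or.inr rfl), by linear_combination -w * h3⟩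
    · exact ⟨1, Or.inl rfl, by ring⟩
    · exact ⟨μ, Or.inr (Or.inl rfl), by ring⟩
    · exact ⟨μ, Or.inr (Or.inl rfl), by linear_combination -w * h3⟩
    · exact ⟨μ ^ 2, Or.inr (Or.inr rfl), by linear_combination -w * μ * h3⟩
    · exact ⟨1, Or.inl rfl, by ring⟩
  obtain ⟨ρ₁, hρ₁, h1⟩ := hratio _ _ (hl' 0) (hl' 1)
  obtain ⟨ρ₂, hρ₂, h2⟩ := hratio _ _ (hl' 0) (hl' 2)
  have hl00 : l 0 ≠ 0 := by
    rcases hl' 0 with h' | h' | h' <;> rw [h']
    · exact hw0
    · exact mul_ne_zero hw0 h0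
    · exact mul_ne_zero hw0 (pow_ne_zero _ h0)
  have hf0 := hf 0
  have hf1 := hf 1
  have hf2 := hf 2
  rw [h1] at hf1
  rw [h2] at hf2
  by_cases hne : ρ₁ = 1 ∧ ρ₂ = 1
  · exfalso
    apply hns (l 0)
    apply scalar_of_eigen x f
    intro i
    fin_cases i
    · exact hf0
    · show (x : M3) *ᵥ f 1 = l 0 • f 1
      rw [hf1, hne.1, mul_one]
    · show (x : M3) *ᵥ f 2 = l 0 • f 2
      rw [hf2, hne.2, mul_one]
  · exact uconj_of_realized hF x f hfO _ _ _ hf0 hf1 hf2 (urealized_all h he _ hl00 _ _ hρ₁ hρ₂ hne)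

end Std

theorem exists_omega {p : ℕ} (hF : Fintype.card F = p ^ 2) (hp3 : p % 3 = 2) : ∃ ω : F, ω ^ 2 + ω + 1 = 0 := by
  classical
  haveI : Fact (Nat.Prime 3) := ⟨Nat.prime_three⟩
  have hq2 := two_le_q hF
  have h1 : 3 ∣ Nat.card Fˣ := by
    rw [Nat.card_eq_fintype_card, Fintype.card_units, hF]
    have : p ^ 2 - 1 = (p + 1) * (p - 1) := by
      zify [Nat.one_le_pow 2 p (by omega), (by omega : 1 ≤ p)]
      ring
    rw [this]
    exact Dvd.dvd.mul_right (by omega) _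
  obtain ⟨u, hu⟩ := exists_prime_orderOf_dvd_card' 3 h1
  refine ⟨(u : F), ?_⟩
  have h2 : (u : F) ^ 3 = 1 := by
    have : u ^ 3 = 1 := by rw [← hu]; exact pow_orderOf_eq_one u
    have := congrArg Units.val this
    simpa using this
  have h3 : (u : F) ≠ 1 := by
    intro h'
    have : u = 1 := Units.ext h'
    rw [this, orderOf_one] at hu
    norm_num at hu
  have h4 : ((u : F) - 1) * ((u : F) ^ 2 + u + 1) = 0 := by linear_combination h2
  exact (mul_eq_zero.mp h4).resolve_left (sub_ne_zero.mpr h3)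

theorem cube_of_nine {p : ℕ} (hF : Fintype.card F = p ^ 2) (hp9 : p % 9 = 8) (z : F) (hz : z ^ 3 = 1) :
    ∃ w : F, w ≠ 0 ∧ nrm p w = 1 ∧ w ^ 3 = z := by
  classical
  have hq2 := two_le_q hF
  have hz0 : z ≠ 0 := by
    rintro rfl
    norm_num at hz
  obtain ⟨g, hg⟩ := IsCyclic.exists_monoid_generator (α := Fˣ)
  obtain ⟨u, hu⟩ : ∃ u, p + 1 = 9 * u := ⟨(p + 1) / 9, by omega⟩
  have hcardU : p ^ 2 - 1 = 9 * u * (p - 1) := by
    rw [← hu]
    zify [Nat.one_le_pow 2 p (by omega), (by omega : 1 ≤ p)]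
    ring
  have hord : orderOf g = p ^ 2 - 1 := by
    have := orderOf_eq_card_of_forall_mem_zpowers (fun x => by
      obtain ⟨k, hk⟩ := hg x
      exact ⟨k, by simpa using hk⟩ : ∀ x : Fˣ, x ∈ Subgroup.zpowers g)
    rw [this, Nat.card_eq_fintype_card, Fintype.card_units, hF]
  obtain ⟨i, hi⟩ := hg (Units.mk0 z hz0)
  have h1 : g ^ (i * 3) = 1 := by
    rw [pow_mul]
    show (g ^ i) ^ 3 = 1
    rw [show g ^ i = Units.mk0 z hz0 from hi]
    apply Units.ext
    simpa using hz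
  have h2 : (p ^ 2 - 1) ∣ i * 3 := by
    rw [← hord]
    exact orderOf_dvd_of_pow_eq_one h1
  obtain ⟨t, ht⟩ := h2
  have hi3 : i = 3 * (u * (p - 1) * t) := by
    rw [hcardU] at ht
    have h4 : i * 3 = (3 * (u * (p - 1) * t)) * 3 := by rw [ht]; ring
    exact Nat.eq_of_mul_eq_mul_right (by norm_num) h4
  refine ⟨((g ^ (u * (p - 1) * t) : Fˣ) : F), Units.ne_zero _, ?_, ?_⟩
  · rw [nrm_eq_pow, ← Units.val_pow_eq_pow_val, ← pow_mul, hu]
    have : u * (p - 1) * t * (9 * u) = (p ^ 2 - 1) * (u * t) := by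
      rw [hcardU]
      ring
    rw [this, pow_mul, ← hord, pow_orderOf_eq_one, one_pow, Units.val_one]
  · have : (g ^ (u * (p - 1) * t)) ^ 3 = Units.mk0 z hz0 := by
      rw [← pow_mul, mul_comm, ← hi3]
      exact hi
    have := congrArg Units.val this
    simpa using this

/-- The index is prime to 3 unless `p ≡ 8 (mod 9)`. -/
theorem not_three_dvd {R : Subgroup (GL (Fin 3) F)} {a b c : GL (Fin 3) F} {μ : F} {e : Basis (Fin 3) F (Fin 3 → F)}
    (h : Std R a b c μ e) {p : ℕ} (hF : Fintype.card F = p ^ 2) (hRU : R ≤ GU 3 F p) (hp5 : 5 ≤ p) (hp3 : p % 3 = 2) (hp9 : p % 9 ≠ 8) (hR : Nat.card R = 27)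
    (hΩ : 3 ∣ (subgroupNormalizer R).relIndex (GU 3 F p ⊓ specialLinear (Fin 3) F)) : False := by
  classical
  set N := subgroupNormalizer R
  set S := GU 3 F p ⊓ specialLinear (Fin 3) F with hS
  have h1 : (N.subgroupOf S).index * Nat.card (N.subgroupOf S) = Nat.card S := Subgroup.index_mul_card _
  have hle : R ≤ S := le_inf hRU (R_le_S h)
  have h27 : 27 ∣ Nat.card (N.subgroupOf S) := by
    have h2 : R.subgroupOf S ≤ N.subgroupOf S := by
      intro u hu
      rw [Subgroup.mem_subgroupOf] at hu ⊢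
      exact Subgroup.le_normalizer hu
    have h3 := Subgroup.card_dvd_of_le h2
    have h4 : Nat.card (R.subgroupOf S) = 27 := by
      rw [← hR]
      exact Nat.card_congr (Subgroup.subgroupOfEquivOfLe hle).toEquiv
    rwa [h4] at h3
  have h81 : 81 ∣ Nat.card S := by
    rw [← h1, show (81 : ℕ) = 3 * 27 by norm_num]
    exact mul_dvd_mul hΩ h27
  have hcS : Nat.card S = Nat.card (SU 3 F p) := Cfsg.Agent.S5984.card_S 3 p
  have hSU := card_SU hF 3 (by omega)
  rw [← hcS] at hSU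
  simp only [Finset.prod_range_succ, Finset.prod_range_zero, one_mul] at hSU
  norm_num at hSU
  obtain ⟨m, rfl⟩ : ∃ m, p = 3 * m + 2 := ⟨p / 3, by omega⟩
  have e1 : (3 * m + 2) ^ 2 - 1 = 3 * (3 * m + 1) * (m + 1) := by
    apply Nat.sub_eq_of_eq_add
    ring
  rw [e1] at hSU
  have hcard : Nat.card S = 27 * ((3 * m + 2) ^ 3 * (3 * m + 1) * (m + 1) ^ 2 * (3 * m ^ 2 + 3 * m + 1)) := by
    apply Nat.eq_of_mul_eq_mul_left (show 0 < 3 * m + 2 + 1 by omega)
    rw [Nat.card_eq_fintype_card, hSU]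
    ring
  rw [hcard, show (81 : ℕ) = 27 * 3 by norm_num] at h81
  have h3d : 3 ∣ (3 * m + 2) ^ 3 * (3 * m + 1) * (m + 1) ^ 2 * (3 * m ^ 2 + 3 * m + 1) :=
    Nat.dvd_of_mul_dvd_mul_left (by norm_num) h81
  have hp := Nat.prime_three
  rcases (Nat.Prime.dvd_mul hp).mp h3d with h4 | h4
  · rcases (Nat.Prime.dvd_mul hp).mp h4 with h5 | h5
    · rcases (Nat.Prime.dvd_mul hp).mp h5 with h6 | h6
      · have h7 := hp.dvd_of_dvd_pow h6
        omega
      · omega
    · have h7 := hp.dvd_of_dvd_pow h5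
      omega
  · have e : 3 * m ^ 2 + 3 * m + 1 = 3 * (m ^ 2 + m) + 1 := by ring
    rw [e] at h4
    omega



/-- Elements of prime order of PSU_3(p), p ≡ 2 (mod 3), and the normalizer of an extraspecial subgroup of order 27. Here `T = PSU_3(p)` for a prime `p ≥ 5` with `p ≡ 2 (mod 3)`, realised through `SU_3(p)`, the matrices of determinant 1 over the field `F` with `p²` elements preserving the hermitian form `Σ uᵢvᵢ^p`; `R` is a non-abelian subgroup of order 27 and exponent 3 of the full unitary group of that form (an extraspecial group 3^{1+2}, acting absolutely irreducibly), and `H` is the subgroup of `SU_3(p)` normalizing `R` — a subgroup of type 3^{1+2}.Sp₂(3) (maximality is not assumed). Ω is the set of cosets of `H`, so an element of `T` of prime order `r` (`x ∈ SU_3(p)` with `x^r` scalar, `x` not scalar) fixes a point of Ω exactly when some `SU_3(p)`-conjugate of `x` normalizes `R`. Let `r` be a prime dividing the index of `H`.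 Then every element of `T` of order `r` fixes a point of Ω if and only if `r = 2`, or `r = 3` and `p ≡ 8 (mod 9)`. -/
theorem result {F : Type*} [Field F] [Fintype F] {p : ℕ} [Fact p.Prime] [CharP F p] (hF : Fintype.card F = p ^ 2) (hp : 5 ≤ p) (hp3 : p % 3 = 2)
    (R : Subgroup (GL (Fin 3) F)) (hRU : R ≤ Cfsg.GU 3 F p) (hR : Nat.card R = 27) (hRe : Monoid.exponent R = 3) (hRna : ¬ IsMulCommutative R)
    (r : ℕ) [Fact r.Prime]
    (hΩ : r ∣ (Cfsg.Geo.subgroupNormalizer R).relIndex (Cfsg.GU 3 F p ⊓ Cfsg.Geo.specialLinear (Fin 3) F)) :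
    (∀ x ∈ Cfsg.GU 3 F p ⊓ Cfsg.Geo.specialLinear (Fin 3) F, (∃ z : F, ((x ^ r : GL (Fin 3) F) : Matrix (Fin 3) (Fin 3) F) = z • (1 : Matrix (Fin 3) (Fin 3) F)) →
      (∀ z : F, (x : Matrix (Fin 3) (Fin 3) F) ≠ z • (1 : Matrix (Fin 3) (Fin 3) F)) →
      ∃ g ∈ Cfsg.GU 3 F p ⊓ Cfsg.Geo.specialLinear (Fin 3) F, g⁻¹ * x * g ∈ Cfsg.Geo.subgroupNormalizer R) ↔ (r = 2 ∨ (r = 3 ∧ p % 9 = 8)) := by
  classical
  have hpp : p.Prime := Fact.out
  have hrp : r.Prime := Fact.out
  have h3F : (3 : F) ≠ 0 := by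
    intro h
    have h1 : ((3 : ℕ) : F) = 0 := by exact_mod_cast h
    have h2 := (CharP.cast_eq_zero_iff F p 3).mp h1
    have h3 : p = 3 := (Nat.prime_dvd_prime_iff_eq hpp Nat.prime_three).mp h2
    omega
  have h2F : (2 : F) ≠ 0 := by
    intro h
    have h1 : ((2 : ℕ) : F) = 0 := by exact_mod_cast h
    have h2 := (CharP.cast_eq_zero_iff F p 2).mp h1
    have h3 : p = 2 := (Nat.prime_dvd_prime_iff_eq hpp Nat.prime_two).mp h2
    omega
  obtain ⟨ω, hω⟩ := exists_omega hF hp3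
  obtain ⟨a, b, c, μ, e₀, hstd₀⟩ := exists_std h3F ω hω R hR hRe hRna
  obtain ⟨e, hstd, he⟩ := exists_std_on hF hp3 hRU h3F hstd₀
  haveI : Finite R := inferInstance
  constructor
  · intro hall
    by_cases hr2 : r = 2
    · exact Or.inl hr2
    by_cases hr3 : r = 3
    · refine Or.inr ⟨hr3, ?_⟩
      by_contra hp9
      subst hr3
      exact not_three_dvd hstd hF hRU hp hp3 hp9 hR hΩ
    · exfalso
      haveI : Finite (Cfsg.GU 3 F p ⊓ Cfsg.Geo.specialLinear (Fin 3) F : Subgroup (GL (Fin 3) F)) := inferInstance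
      have hrd : r ∣ Nat.card (Cfsg.GU 3 F p ⊓ Cfsg.Geo.specialLinear (Fin 3) F : Subgroup (GL (Fin 3) F)) := by
        apply dvd_trans hΩ
        exact Subgroup.index_dvd_card _
      obtain ⟨x, hx⟩ := exists_prime_orderOf_dvd_card' r hrd
      have hxr : ((x : GL (Fin 3) F) ^ r) = 1 := by
        have : x ^ r = 1 := by rw [← hx]; exact pow_orderOf_eq_one x
        have := congrArg Subtype.val this
        simpa using this
      have hx1 : (x : GL (Fin 3) F) ≠ 1 := by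
        intro h
        have : x = 1 := Subtype.ext h
        rw [this, orderOf_one] at hx
        exact hrp.one_lt.ne hx
      obtain ⟨g, hg, hgx⟩ := hall (x : GL (Fin 3) F) x.2 ⟨1, by rw [hxr, one_smul]; rfl⟩ (by
        intro z hz
        have h31 : z ^ 3 = 1 := by
          have := (mem_S_iff (x : GL (Fin 3) F)).mp x.2.2
          rw [hz, Matrix.det_smul, Matrix.det_one] at this
          simpa using this
        have hr1 : z ^ r = 1 := by
          have h1 : (((x : GL (Fin 3) F) ^ r : GL (Fin 3) F) : Matrix (Fin 3) (Fin 3) F) = 1 := by rw [hxr]; rfl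
          rw [Units.val_pow_eq_pow_val, hz, _root_.smul_pow, one_pow] at h1
          have h3 := congrFun (congrFun h1 0) 0
          simpa using h3
        have hz1 := root_trivial hrp hr3 z h31 hr1
        apply hx1
        apply Units.ext
        rw [hz, hz1, one_smul]
        rfl)
      refine no_large hstd h3F hR r hr2 hr3 _ hgx (mul_mem (mul_mem (inv_mem hg.2) x.2.2) hg.2) ?_ ?_
      · have : g⁻¹ * (x : GL (Fin 3) F) * g = MulAut.conj g⁻¹ (x : GL (Fin 3) F) := by simp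
        rw [this, ← map_pow, hxr, map_one]
      · intro h
        apply hx1
        have : (x : GL (Fin 3) F) = g * (g⁻¹ * (x : GL (Fin 3) F) * g) * g⁻¹ := by group
        rw [this, h]
        group
  · rintro (rfl | ⟨rfl, hp9⟩)
    · rintro x hx ⟨z, hz⟩ hns
      exact case_two hF hp3 hstd he h2F x hx z hz hns
    · rintro x hx ⟨z, hz⟩ hns
      have hz3 : z ^ 3 = 1 := by
        have h1 := congrArg Matrix.det hz
        rw [Units.val_pow_eq_pow_val, Matrix.det_pow, (mem_S_iff x).mp hx.2, one_pow, Matrix.det_smul, Matrix.det_one] at h1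
        simpa using h1.symm
      obtain ⟨w, hw0, hwn, hw⟩ := cube_of_nine hF hp9 z hz3
      rw [← hw] at hz
      exact case_three hF hp3 hstd he h3F x hx w hw0 hwn hz hns

end Cfsg.Agent.S5999
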