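import Cfsg.Statements.S6000
import Cfsg.Agent.Lib.Sym64F

set_option autoImplicit false
open scoped MatrixGroups
open Cfsg

namespace Cfsg.Agent.S6000

/-- Elements of prime order of PSL_4(p), p ≡ 1 (mod 4), and the normalizer of a 2-group of symplectic type of order 2⁶. Here `T = PSL_4(F)` for the field `F` with `p` elements, `p` a prime with `p ≡ 1 (mod 4)`; `R` is an absolutely irreducible subgroup of GL_4(F) of order 2⁶ that is a 2-group of symplectic type of exponent 4 with centre of order 4 (the central product of the scalars of order 4 with an extraspecial group 2^{1+4}), and `H` is the subgroup of matrices of determinant 1 normalizing `R` — a subgroup of type 2⁴.Sp₄(2) (maximality is not assumed). Ω is the set of cosets of `H` in `T`, so an element of `T` of prime order `r` (a matrix `x` of determinant 1 with `x^r` scalar, `x` not scalar) fixes a point of Ω exactly when some conjugate of `x` by a matrix of determinant 1 normalizes `R`. Let `r` be a prime dividing the index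 of `H`. Then every element of `T` of order `r` fixes a point of Ω if and only if `r = 2`, or `r = 3` and `p ≡ 2 (mod 3)`, or `r = 5` and `p ≡ ±2 (mod 5)` (`p` has multiplicative order 4 modulo 5). -/
theorem result {F : Type*} [Field F] [Fintype F] {p : ℕ} [Fact p.Prime] [CharP F p] (hF : Fintype.card F = p) (hp4 : p % 4 = 1)
    (R : Subgroup (GL (Fin 4) F)) (hR : Cfsg.Geo.IsLinearSymplecticTypeData 2 R) (hR6 : Nat.card R = 2 ^ 6)
    (r : ℕ) [Fact r.Prime]
    (hΩ : r ∣ (Cfsg.Geo.subgroupNormalizer R).relIndex (Cfsg.Geo.specialLinear (Fin 4) F)) :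
    (∀ x ∈ Cfsg.Geo.specialLinear (Fin 4) F, (∃ z : F, ((x ^ r : GL (Fin 4) F) : Matrix (Fin 4) (Fin 4) F) = z • (1 : Matrix (Fin 4) (Fin 4) F)) →
      (∀ z : F, (x : Matrix (Fin 4) (Fin 4) F) ≠ z • (1 : Matrix (Fin 4) (Fin 4) F)) →
      ∃ g ∈ Cfsg.Geo.specialLinear (Fin 4) F, g⁻¹ * x * g ∈ Cfsg.Geo.subgroupNormalizer R) ↔ (r = 2 ∨ (r = 3 ∧ p % 3 = 2) ∨ (r = 5 ∧ orderOf (p : ZMod 5) = 4)) := by
  have hp2 : (2 : F) ≠ 0 := by
    intro h
    have h2 : ((2 : ℕ) : F) = 0 := by exact_mod_cast h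
    have hd := (CharP.cast_eq_zero_iff F p 2).mp h2
    have hpp : p.Prime := Fact.out
    have := (Nat.prime_dvd_prime_iff_eq hpp Nat.prime_two).mp hd
    omega
  obtain ⟨i, s, hb⟩ := Cfsg.Agent.Lib.Sym64.exists_base hp2 R hR hR6
  obtain ⟨a1, b1, a2, b2, P, hstd⟩ := Cfsg.Agent.Lib.Sym64.exists_std hb
  constructor
  · intro H
    exact Cfsg.Agent.Lib.Sym64.forward hF hp4 hb r hΩ H
  · intro hc x hx hz hn
    obtain ⟨z, hz⟩ := hz
    rcases hc with rfl | ⟨rfl, h3⟩ | ⟨rfl, h5⟩
    · exact Cfsg.Agent.Lib.Sym64.back_two hstd x hx z hz hn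
    · exact Cfsg.Agent.Lib.Sym64.back_three hF hstd h3 x z hz hn
    · exact Cfsg.Agent.Lib.Sym64.back_five hF hstd h5 x z hz hn

end Cfsg.Agent.S6000
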