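import Mathlib
import Cfsg.Statements.S6001
import Cfsg.Agent.Lib.SymType64Ex
-- import your own Cfsg.Agent.* helpers here

set_option autoImplicit false
open scoped MatrixGroups
open Cfsg

namespace Cfsg.Agent.S6001

theorem ord2_aux : orderOf (2 : ZMod 5) = 4 := by
  rw [orderOf_eq_iff (by norm_num)]
  decide

theorem ord3_aux : orderOf (3 : ZMod 5) = 4 := by
  rw [orderOf_eq_iff (by norm_num)]
  decide

/-- Elements of prime order of PSU_4(p), p ≡ 3 (mod 4), and the normalizer of a 2-group of symplectic type of order 2⁶. Here `T = PSU_4(p)` for a prime `p ≡ 3 (mod 4)`, realised through `SU_4(p)`, the matrices of determinant 1 over the field `F` with `p²` elements preserving the hermitian form `f = Σ uᵢvᵢ^p`; `R` is an absolutely irreducible subgroup of the full unitary group of `f` of order 2⁶ that is a 2-group of symplectic type of exponent 4 with centre of order 4, and `H` is the subgroup of `SU_4(p)` normalizing `R` — a subgroup of type 2⁴.Sp₄(2) (maximality is not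 assumed). Ω is the set of cosets of `H`, so an element of `T` of prime order `r` (`x ∈ SU_4(p)` with `x^r` scalar, `x` not scalar) fixes a point of Ω exactly when some `SU_4(p)`-conjugate of `x` normalizes `R`. Let `r` be a prime dividing the index of `H`. Then every element of `T` of order `r` fixes a point of Ω if and only if `r = 2`, or `r = 3` and `p ≡ 1 (mod 3)`, or `r = 5` and `p ≡ ±2 (mod 5)` (`p` has multiplicative order 4 modulo 5). -/
theorem result {F : Type*} [Field F] [Fintype F] {p : ℕ} [Fact p.Prime] [CharP F p] (hF : Fintype.card F = p ^ 2) (hp4 : p % 4 = 3)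
    (R : Subgroup (GL (Fin 4) F)) (hRs : Cfsg.Geo.IsSymplecticTypeGroup 2 R) (hRi : Cfsg.Geo.ActsAbsolutelyIrreducibly (Cfsg.Geo.matrixSet R))
    (hRU : R ≤ Cfsg.GU 4 F p) (hR6 : Nat.card R = 2 ^ 6) (hRZ : Nat.card (Subgroup.center R) = 4)
    (r : ℕ) [Fact r.Prime]
    (hΩ : r ∣ (Cfsg.Geo.subgroupNormalizer R).relIndex (Cfsg.GU 4 F p ⊓ Cfsg.Geo.specialLinear (Fin 4) F)) :
    (∀ x ∈ Cfsg.GU 4 F p ⊓ Cfsg.Geo.specialLinear (Fin 4) F, (∃ z : F, ((x ^ r : GL (Fin 4) F) : Matrix (Fin 4) (Fin 4) F) = z • (1 : Matrix (Fin 4) (Fin 4) F)) →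
      (∀ z : F, (x : Matrix (Fin 4) (Fin 4) F) ≠ z • (1 : Matrix (Fin 4) (Fin 4) F)) →
      ∃ g ∈ Cfsg.GU 4 F p ⊓ Cfsg.Geo.specialLinear (Fin 4) F, g⁻¹ * x * g ∈ Cfsg.Geo.subgroupNormalizer R) ↔ (r = 2 ∨ (r = 3 ∧ p % 3 = 1) ∨ (r = 5 ∧ orderOf (p : ZMod 5) = 4)) := by
  have hpp : p.Prime := Fact.out
  have h2 : (2 : F) ≠ 0 := by
    intro h
    have h1 : ((2 : ℕ) : F) = 0 := by exact_mod_cast h
    have h3 := (CharP.cast_eq_zero_iff F p 2).1 h1
    have h4 := (Nat.prime_dvd_prime_iff_eq hpp Nat.prime_two).1 h3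
    omega
  obtain ⟨hD, ι, h, i₀, a₁, b₁, a₂, b₂, hf⟩ := Cfsg.Agent.Lib.SymType64NF.exists_frame h2 hRs hRi hR6 hRZ
  have hR : Finite R := Nat.finite_of_card_ne_zero (by rw [hD.card]; norm_num)
  obtain ⟨c, hG⟩ := Cfsg.Agent.Lib.SymType64U.gram_scalar hF hD hRU hf
  have h5F : (5 : F) ≠ 0 := Cfsg.Agent.Lib.SymType64Fin.five_ne_zero' hp4
  have hp1 : 1 ≤ p := hpp.one_le
  constructor
  · intro H
    by_contra hcon
    push Not at hcon
    obtain ⟨hr2, hr3, hr5⟩ := hcon
    have hr : r.Prime := Fact.out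
    by_cases h3 : r = 3
    · subst h3
      have hp3 : p % 3 ≠ 1 := hr3 rfl
      by_cases hp0 : p % 3 = 2
      · exact Cfsg.Agent.Lib.SymType64Ex.neg_r3_two hF hD hp0 H
      · have h30 : 3 ∣ p := by omega
        have hp3' : 3 = p := (Nat.prime_dvd_prime_iff_eq Nat.prime_three hpp).1 h30
        subst hp3'
        have h3F : (3 : F) = 0 := by
          have := CharP.cast_eq_zero F 3
          exact_mod_cast this
        exact Cfsg.Agent.Lib.SymType64Ex.neg_r3_three hF h3F hD H
    by_cases h5 : r = 5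
    · subst h5
      have hord : orderOf (p : ZMod 5) ≠ 4 := hr5 rfl
      have ord2 := ord2_aux
      have ord3 := ord3_aux
      have hpc : (p : ZMod 5) = ((p % 5 : ℕ) : ZMod 5) := (ZMod.natCast_mod p 5).symm
      have hq5 : p % 5 = 1 ∨ p % 5 = 4 := by
        have h0 : p % 5 ≠ 0 := by
          intro h0
          have h50 : 5 ∣ p := Nat.dvd_of_mod_eq_zero h0
          have := (Nat.prime_dvd_prime_iff_eq (by norm_num) hpp).1 h50
          omega
        have h20 : p % 5 ≠ 2 := by
          intro h0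
          apply hord
          rw [hpc, h0]
          exact_mod_cast ord2
        have h30 : p % 5 ≠ 3 := by
          intro h0
          apply hord
          rw [hpc, h0]
          exact_mod_cast ord3
        omega
      exact Cfsg.Agent.Lib.SymType64Ex.neg_r5 hF hD h5F hq5 H
    · have hr7 : 7 ≤ r := by
        by_contra hlt
        have h6 : r ≤ 6 := by omega
        interval_cases r <;> first | omega | (revert hr; norm_num)
      have hdvd : r ∣ Nat.card (Cfsg.GU 4 F p ⊓ Cfsg.Geo.specialLinear (Fin 4) F : Subgroup (GL (Fin 4) F)) :=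
        hΩ.trans (Subgroup.index_dvd_card _)
      exact Cfsg.Agent.Lib.SymType64Ex.neg_big hF hD hr7 hdvd H
  · rintro (rfl | ⟨rfl, hp3⟩ | ⟨rfl, hord⟩) x hx ⟨z, hz⟩ hns
    · have hz' : (x : Matrix (Fin 4) (Fin 4) F) ^ 2 = z • 1 := by
        rw [← Units.val_pow_eq_pow_val]; exact hz
      have hdet : (x : Matrix (Fin 4) (Fin 4) F).det = 1 := congrArg Units.val (Subgroup.mem_inf.1 hx).2
      exact Cfsg.Agent.Lib.SymType64Pos.pos_two hF hp4 h2 hf hR hG (Subgroup.mem_inf.1 hx).1 hdet hz' hns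
    · have hz' : (x : Matrix (Fin 4) (Fin 4) F) ^ 3 = z • 1 := by
        rw [← Units.val_pow_eq_pow_val]; exact hz
      have hdvd : 3 ∣ Fintype.card F - 1 := by
        rw [hF]
        obtain ⟨k, hk⟩ : ∃ k, p = 3 * k + 1 := ⟨p / 3, by omega⟩
        rw [hk]
        refine ⟨3 * k * k + 2 * k, ?_⟩
        have : (3 * k + 1) ^ 2 = 3 * (3 * k * k + 2 * k) + 1 := by ring
        omega
      obtain ⟨ω, hω3, hω1⟩ := Cfsg.Agent.Lib.SymType64Fin.exists_root Nat.prime_three hdvd
      have hω : ω * ω + ω + 1 = 0 := by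
        have h1 : (ω - 1) * (ω * ω + ω + 1) = 0 := by linear_combination hω3
        exact (mul_eq_zero.1 h1).resolve_left (sub_ne_zero.2 hω1)
      have hωq : ω ^ p = ω := by
        obtain ⟨k, hk⟩ : ∃ k, p = 3 * k + 1 := ⟨p / 3, by omega⟩
        rw [hk, pow_add, pow_mul, hω3, one_pow, one_mul, pow_one]
      have h3 : (3 : F) ≠ 0 := by
        intro h
        have h1 : ((3 : ℕ) : F) = 0 := by exact_mod_cast h
        have h30 := (CharP.cast_eq_zero_iff F p 3).1 h1
        have h4 := (Nat.prime_dvd_prime_iff_eq hpp Nat.prime_three).1 h30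
        omega
      have hp7 : 7 ≤ p := by
        by_contra hlt
        have h6 : p ≤ 6 := by omega
        interval_cases p <;> omega
      have hinj : ∀ a b : ℕ, a ≤ 4 → b ≤ 4 → (a : F) = b → a = b := by
        intro a b ha hb hab
        have := (CharP.natCast_eq_natCast F p).1 hab
        exact Nat.ModEq.eq_of_lt_of_lt this (by omega) (by omega)
      exact Cfsg.Agent.Lib.SymType64Pos.pos_three hF hp4 h2 hf hR hG h3 hω hωq hinj hp3 (Subgroup.mem_inf.1 hx).1 hz' hns
    · have hz' : (x : Matrix (Fin 4) (Fin 4) F) ^ 5 = z • 1 := by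
        rw [← Units.val_pow_eq_pow_val]; exact hz
      obtain ⟨τ, hτ⟩ := Cfsg.Agent.Lib.SymType64Fin.exists_tau hF hp4 h2 hord
      have hq5 : ¬ 5 ∣ p + 1 := by
        intro h5
        have h1 : ((p + 1 : ℕ) : ZMod 5) = 0 := (ZMod.natCast_eq_zero_iff _ 5).2 h5
        push_cast at h1
        have h6 : (p : ZMod 5) = -1 := by linear_combination h1
        have h7 : (p : ZMod 5) ^ 2 = 1 := by rw [h6]; ring
        have h8 := orderOf_dvd_of_pow_eq_one h7
        rw [hord] at h8
        omega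
      exact Cfsg.Agent.Lib.SymType64Fin.pos_five hF hp4 h2 hf hR hG hτ hq5 (Subgroup.mem_inf.1 hx).1 hz' hns

end Cfsg.Agent.S6001
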