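import Cfsg.Statements.S6002
import Mathlib
import Cfsg.Agent.Lib.Ext32I

set_option autoImplicit false
set_option linter.unusedSimpArgs false
set_option linter.unusedVariables false
open scoped MatrixGroups
open Cfsg

namespace Cfsg.Agent.S6002

open Matrix Subgroup Cfsg.Geo Cfsg.Agent.Lib.Ext32 Cfsg.Agent.Lib.SympForm

section helpers

variable {F : Type*} [Field F]

local notation "ι" => (Fin 2 ⊕ Fin 2)
local notation "Mt" => Matrix (Fin 2 ⊕ Fin 2) (Fin 2 ⊕ Fin 2) F

theorem conj_ns {g x : GL ι F} (hns : ∀ w : F, (x : Mt) ≠ w • (1 : Mt)) (w : F) :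
    ((g⁻¹ * x * g : GL ι F) : Mt) ≠ w • (1 : Mt) := by
  intro h
  apply hns w
  have h1 : x = g * (g⁻¹ * x * g) * g⁻¹ := by group
  have h2 : (x : Mt) = (g : Mt) * ((g⁻¹ * x * g : GL ι F) : Mt) * ((g⁻¹ : GL ι F) : Mt) := by
    conv_lhs => rw [h1]
    simp only [Units.val_mul]
  rw [h2, h, Matrix.mul_smul, Matrix.mul_one, Matrix.smul_mul, ← Units.val_mul, mul_inv_cancel, Units.val_one]

theorem conj_trace {g x : GL ι F} : ((g⁻¹ * x * g : GL ι F) : Mt).trace = (x : Mt).trace := by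
  simp only [Units.val_mul]
  rw [Matrix.trace_mul_comm, ← Matrix.mul_assoc, ← Units.val_mul, mul_inv_cancel, Units.val_one, Matrix.one_mul]

theorem neg_mem_norm {R : Subgroup (GL ι F)} {u : GL ι F} (hu : u ∈ subgroupNormalizer R) : -u ∈ subgroupNormalizer R := by
  have hu' := Subgroup.mem_normalizer_iff.mp hu
  refine Subgroup.mem_normalizer_iff.mpr fun g => ?_
  rw [hu' g]
  have : (-u) * g * (-u)⁻¹ = u * g * u⁻¹ := by
    rw [inv_neg, neg_mul, mul_neg, neg_mul, neg_neg]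
  rw [this]

theorem mem_norm_of_mem {R : Subgroup (GL ι F)} {u : GL ι F} (hu : u ∈ R) : u ∈ subgroupNormalizer R := by
  refine Subgroup.mem_normalizer_iff.mpr fun g => ?_
  constructor
  · intro hg
    exact R.mul_mem (R.mul_mem hu hg) (R.inv_mem hu)
  · intro hg
    have : g = u⁻¹ * (u * g * u⁻¹) * u := by group
    rw [this]
    exact R.mul_mem (R.mul_mem (R.inv_mem hu) hg) hu

theorem sq_eq_of_scalar {w : F} (hww : w * w = 1) : w = 1 ∨ w = -1 := by
  have h5 : (w - 1) * (w + 1) = 0 := by linear_combination hww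
  rcases mul_eq_zero.mp h5 with h6 | h6
  · exact Or.inl (sub_eq_zero.mp h6)
  · exact Or.inr (by linear_combination h6)

theorem exists_root {p : ℕ} [hp : Fact p.Prime] [CharP F p] (h2 : (2 : F) ≠ 0) (hp5 : p ≠ 5) (hord : orderOf (p : ZMod 5) ≠ 4) :
    ∃ t : F, t * t + t - 1 = 0 := by
  have hp2 : p ≠ 2 := by
    rintro rfl
    apply h2
    exact_mod_cast CharP.cast_eq_zero F 2
  have hall : ∀ q : ZMod 5, q = 0 ∨ q = 1 ∨ q = 2 ∨ q = 3 ∨ q = 4 := by decide
  have hq0 : (p : ZMod 5) ≠ 0 := by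
    intro h
    have h1 : 5 ∣ p := (ZMod.natCast_eq_zero_iff p 5).mp h
    exact hp5 ((Nat.prime_dvd_prime_iff_eq (by norm_num) hp.out).mp h1).symm
  have o2 : orderOf (2 : ZMod 5) = 4 := by
    rw [orderOf_eq_iff (by norm_num)]
    decide
  have o3 : orderOf (3 : ZMod 5) = 4 := by
    rw [orderOf_eq_iff (by norm_num)]
    decide
  have hsq : IsSquare (p : ZMod 5) := by
    rcases hall (p : ZMod 5) with h | h | h | h | h
    · exact absurd h hq0
    · rw [h]
      exact ⟨1, by decide⟩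
    · rw [h] at hord
      exact absurd o2 hord
    · rw [h] at hord
      exact absurd o3 hord
    · rw [h]
      exact ⟨2, by decide⟩
  have hsq5 : IsSquare ((5 : ℕ) : ZMod p) :=
    (ZMod.exists_sq_eq_prime_iff_of_mod_four_eq_one (p := 5) (q := p) (by norm_num) hp2).mp hsq
  obtain ⟨s, hs⟩ := hsq5
  let f : ZMod p →+* F := ZMod.castHom (dvd_refl p) F
  have h5 : (5 : F) = f s * f s := by
    rw [← map_mul, ← hs]
    have h5a : f ((5 : ℕ) : ZMod p) = ((5 : ℕ) : F) := map_natCast f 5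
    rw [h5a]; norm_num
  refine ⟨(f s - 1) / 2, ?_⟩
  field_simp
  linear_combination -h5

section inner

variable {R : Subgroup (GL ι F)} [Fintype F]

variable {z a b c d : R} (D : ES32 z a b c d) (hz : ((z : GL ι F) : Matrix (Fin 2 ⊕ Fin 2) (Fin 2 ⊕ Fin 2) F) = -1)
include D hz

/-- What happens for an element of odd prime order conjugate into the normalizer. -/
theorem key_cases (hRi : ActsAbsolutelyIrreducibly (matrixSet R)) (hR5 : Nat.card R = 32) (h2 : (2 : F) ≠ 0)
    {r : ℕ} [hr : Fact r.Prime] (hr2 : r ≠ 2) {x g : GL ι F} (hx : x ∈ spGL 2 F) (hxr : x ^ r = 1)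
    (hns : ∀ w : F, (x : Mt) ≠ w • (1 : Mt)) (hg : g ∈ spGL 2 F) (hN : g⁻¹ * x * g ∈ subgroupNormalizer R) :
    (r = 3 ∧ 2 * (x : Mt).trace * (x : Mt).trace = 8) ∨ (r = 5 ∧ 2 * (x : Mt).trace * (x : Mt).trace = 2) := by
  have hsp : g⁻¹ * x * g ∈ spGL 2 F := (spGL 2 F).mul_mem ((spGL 2 F).mul_mem ((spGL 2 F).inv_mem hg) hx) hg
  have hyr : (g⁻¹ * x * g) ^ r = 1 := by
    have := conj_pow (a := g⁻¹) (b := x) (i := r)
    rw [inv_inv] at this
    rw [this, hxr]
    simp
  have h1 := norm_cases D hz hRi hR5 h2 (g⁻¹ * x * g) hN hr2 hyr (conj_ns hns)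
  rw [sp_trace_inv hsp, conj_trace] at h1
  exact h1

end inner

end helpers

/-- Elements of prime order of PSp_4(p), p odd, and the normalizer of an extraspecial 2-group of order 2⁵ of minus type. Here `T = PSp_4(F)` for the field `F` with `p` elements, `p` an odd prime, realised through the matrices preserving the standard alternating form `f`; `R` is an absolutely irreducible subgroup of `T` (it preserves `f`) that is a 2-group of symplectic type of exponent 4, order 2⁵ and centre of order 2, of minus type (no elementary abelian subgroup of order 2³), and `H` is the subgroup of `T` normalizing `R` — a subgroup of type 2^{1+4}.O₄⁻(2) (maximality is not assumed). Ω is the set of cosets of `H` in `T`, so an element of `T` of prime order `r` (`x ∈ T` with `x^r` scalar, `x` not scalar) fixes a point of Ω exactly when some `T`-conjugate of `x` normalizes `R`. Let `r` be a prime dividing the index of `H`. Then every element of `T` of order `r`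 fixes a point of Ω if and only if `r = 2`, or `r = 5` and `p` has multiplicative order 4 modulo 5. -/
theorem result {F : Type*} [Field F] [Fintype F] {p : ℕ} [Fact p.Prime] [CharP F p] (hF : Fintype.card F = p) (hodd : Odd p)
    (R : Subgroup (GL (Fin 2 ⊕ Fin 2) F)) (hRs : Cfsg.Geo.IsSymplecticTypeGroup 2 R) (hRi : Cfsg.Geo.ActsAbsolutelyIrreducibly (Cfsg.Geo.matrixSet R))
    (hRf : R ≤ Cfsg.spGL 2 F) (hR5 : Nat.card R = 2 ^ 5) (hRZ : Nat.card (Subgroup.center R) = 2) (hRm : Cfsg.Geo.IsOfMinusType 2 R)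
    (r : ℕ) [Fact r.Prime]
    (hΩ : r ∣ (Cfsg.Geo.subgroupNormalizer R).relIndex (Cfsg.spGL 2 F)) :
    (∀ x ∈ Cfsg.spGL 2 F, (∃ z : F, ((x ^ r : GL (Fin 2 ⊕ Fin 2) F) : Matrix (Fin 2 ⊕ Fin 2) (Fin 2 ⊕ Fin 2) F) = z • (1 : Matrix (Fin 2 ⊕ Fin 2) (Fin 2 ⊕ Fin 2) F)) →
      (∀ z : F, (x : Matrix (Fin 2 ⊕ Fin 2) (Fin 2 ⊕ Fin 2) F) ≠ z • (1 : Matrix (Fin 2 ⊕ Fin 2) (Fin 2 ⊕ Fin 2) F)) →
      ∃ g ∈ Cfsg.spGL 2 F, g⁻¹ * x * g ∈ Cfsg.Geo.subgroupNormalizer R) ↔ (r = 2 ∨ (r = 5 ∧ orderOf (p : ZMod 5) = 4)) := by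
  classical
  have h2 : (2 : F) ≠ 0 := by
    intro h
    have h1 : ((2 : ℕ) : F) = 0 := by exact_mod_cast h
    have h3 := (CharP.cast_eq_zero_iff F p 2).mp h1
    have h4 : p = 2 := (Nat.prime_dvd_prime_iff_eq (Fact.out) Nat.prime_two).mp h3
    rw [h4] at hodd
    exact absurd hodd (by decide)
  have hR5' : Nat.card R = 32 := by rw [hR5]; norm_num
  haveI : Finite R := Nat.finite_of_card_ne_zero (by rw [hR5']; norm_num)
  obtain ⟨z, a, b, c, d, D, hz⟩ := exists_data h2 hRs hRi hRf hR5' hRZ hRm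
  have hE : ∀ A : Subgroup R, IsMulCommutative A → (∀ x ∈ A, x * x = 1) → Nat.card A < 8 := by
    intro A h1 h3
    have h4 : Nat.card A < 2 ^ (2 + 1) := hRm A h1 h3
    have h5 : (2 : ℕ) ^ (2 + 1) = 8 := by norm_num
    rw [h5] at h4
    exact h4
  constructor
  · intro H
    by_contra hcon
    push Not at hcon
    obtain ⟨hr2, hcon2⟩ := hcon
    have hrodd : Odd r := (Fact.out : r.Prime).odd_of_ne_two hr2
    by_cases hrp : r = p
    · -- transvection
      subst hrp
      obtain ⟨g, hg, hN⟩ := H (tt32 F) tt32_sp ⟨1, by rw [tt32_pow, one_smul]; rfl⟩ tt32_ns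
      let e : Fin 2 ⊕ Fin 2 → F := Pi.single (Sum.inl 0) 1
      let φ : (Fin 2 ⊕ Fin 2 → F) →ₗ[F] F :=
        { toFun := fun ξ => sympForm 2 F ((g : Matrix (Fin 2 ⊕ Fin 2) (Fin 2 ⊕ Fin 2) F) *ᵥ ξ) e
          map_add' := by
            intro u v
            rw [mulVec_add, sympForm_add_left]
          map_smul' := by
            intro k u
            rw [mulVec_smul, sympForm_smul_left]
            rfl }
      refine no_transv D hz hE hRi hR5' h2 (g⁻¹ * tt32 F * g) hN hrodd ?_ φ ?_ (conj_ns tt32_ns)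
      · have := conj_pow (a := g⁻¹) (b := tt32 F) (i := r)
        rw [inv_inv] at this
        rw [this, tt32_pow]
        simp
      · intro ξ hξ
        have h1 : sympForm 2 F ((g : Matrix (Fin 2 ⊕ Fin 2) (Fin 2 ⊕ Fin 2) F) *ᵥ ξ) e = 0 := hξ
        have h3 : ((tt32 F : GL (Fin 2 ⊕ Fin 2) F) : Matrix (Fin 2 ⊕ Fin 2) (Fin 2 ⊕ Fin 2) F) *ᵥ ((g : Matrix (Fin 2 ⊕ Fin 2) (Fin 2 ⊕ Fin 2) F) *ᵥ ξ) = (g : Matrix (Fin 2 ⊕ Fin 2) (Fin 2 ⊕ Fin 2) F) *ᵥ ξ := by
          rw [tt32_apply]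
          show (g : Matrix (Fin 2 ⊕ Fin 2) (Fin 2 ⊕ Fin 2) F) *ᵥ ξ + (sympForm 2 F ((g : Matrix (Fin 2 ⊕ Fin 2) (Fin 2 ⊕ Fin 2) F) *ᵥ ξ) e) • e = _
          rw [h1, zero_smul, add_zero]
        simp only [Units.val_mul]
        rw [← mulVec_mulVec, ← mulVec_mulVec, h3, mulVec_mulVec, ← Units.val_mul, inv_mul_cancel, Units.val_one, one_mulVec]
    · have hpr : ((3 : ℕ) : F) = 0 → p = 3 := by
        intro h
        have h1 := (CharP.cast_eq_zero_iff F p 3).mp h
        exact (Nat.prime_dvd_prime_iff_eq (Fact.out) (by norm_num)).mp h1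
      have hpr5 : ((5 : ℕ) : F) = 0 → p = 5 := by
        intro h
        have h1 := (CharP.cast_eq_zero_iff F p 5).mp h
        exact (Nat.prime_dvd_prime_iff_eq (Fact.out) (by norm_num)).mp h1
      by_cases hr3 : r = 3
      · subst hr3
        have hpow : xx32 (-1 : F) ^ 3 = 1 := xx32_pow _ yy_cube
        obtain ⟨g, hg, hN⟩ := H (xx32 (-1 : F)) (xx32_sp _) ⟨1, by rw [hpow, one_smul]; rfl⟩ (xx32_ns _)
        rcases key_cases D hz hRi hR5' h2 hr2 (xx32_sp _) hpow (xx32_ns _) hg hN with ⟨-, h1⟩ | ⟨h1, -⟩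
        · rw [xx32_trace] at h1
          apply hrp
          symm
          apply hpr
          have h3 : (2 : F) * ((3 : ℕ) : F) = 0 := by
            push_cast
            linear_combination -h1
          exact (mul_eq_zero.mp h3).resolve_left h2
        · norm_num at h1
      · by_cases hr5 : r = 5
        · subst hr5
          have hord : orderOf (p : ZMod 5) ≠ 4 := fun h => hcon2 rfl h
          have hp5 : p ≠ 5 := fun h => hrp h.symm
          obtain ⟨t, ht⟩ := exists_root h2 hp5 hord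
          have hpow : xx32 t ^ 5 = 1 := xx32_pow _ (yy_five ht)
          obtain ⟨g, hg, hN⟩ := H (xx32 t) (xx32_sp _) ⟨1, by rw [hpow, one_smul]; rfl⟩ (xx32_ns _)
          rcases key_cases D hz hRi hR5' h2 hr2 (xx32_sp _) hpow (xx32_ns _) hg hN with ⟨h1, -⟩ | ⟨-, h1⟩
          · norm_num at h1
          · rw [xx32_trace] at h1
            apply hp5
            apply hpr5
            have e2 : (2 : F) * ((t + 2) * (t + 2) - 1) = 0 := by linear_combination h1
            have e3 : (t + 2) * (t + 2) - 1 = 0 := (mul_eq_zero.mp e2).resolve_left h2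
            have e4 : 3 * t + 4 = 0 := by linear_combination e3 - ht
            push_cast
            linear_combination (3 * t - 1) * e4 - 9 * ht
        · -- large primes
          have hd : r ∣ Nat.card (spGL 2 F) := hΩ.trans (Subgroup.index_dvd_card _)
          obtain ⟨x', hx'⟩ := exists_prime_orderOf_dvd_card' r hd
          have hxr : ((x' : GL (Fin 2 ⊕ Fin 2) F)) ^ r = 1 := by
            have h1 : x' ^ r = 1 := orderOf_dvd_iff_pow_eq_one.mp (by rw [hx'])
            exact congrArg Subtype.val h1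
          have hns : ∀ w : F, ((x' : GL (Fin 2 ⊕ Fin 2) F) : Matrix (Fin 2 ⊕ Fin 2) (Fin 2 ⊕ Fin 2) F) ≠ w • (1 : Matrix (Fin 2 ⊕ Fin 2) (Fin 2 ⊕ Fin 2) F) := by
            intro w hw
            have hww := sp_scalar x'.2 hw
            have h1 : x' ^ 2 = 1 := by
              apply Subtype.ext
              apply Units.ext
              show ((x' : GL (Fin 2 ⊕ Fin 2) F) ^ 2 : GL (Fin 2 ⊕ Fin 2) F).val = 1
              rw [Units.val_pow_eq_pow_val, hw, pow_two, smul_mul_smul_comm, hww, one_mul, one_smul]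
            have h3 := orderOf_dvd_of_pow_eq_one h1
            rw [hx'] at h3
            exact hr2 ((Nat.prime_dvd_prime_iff_eq Fact.out Nat.prime_two).mp h3)
          obtain ⟨g, hg, hN⟩ := H (x' : GL (Fin 2 ⊕ Fin 2) F) x'.2 ⟨1, by rw [hxr, one_smul]; rfl⟩ hns
          rcases key_cases D hz hRi hR5' h2 hr2 x'.2 hxr hns hg hN with ⟨h1, -⟩ | ⟨h1, -⟩
          · exact hr3 h1
          · exact hr5 h1
  · rintro (rfl | ⟨rfl, hord⟩)
    · -- involutions and square roots of `-1`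
      rintro x hx ⟨w, hw⟩ hns
      have hxsq : (x : Matrix (Fin 2 ⊕ Fin 2) (Fin 2 ⊕ Fin 2) F) * (x : Matrix (Fin 2 ⊕ Fin 2) (Fin 2 ⊕ Fin 2) F) = w • (1 : Matrix (Fin 2 ⊕ Fin 2) (Fin 2 ⊕ Fin 2) F) := by
        rw [← hw, pow_two]
        rfl
      have hww : w * w = 1 := sp_scalar (x := x ^ 2) ((spGL 2 F).pow_mem hx 2) hw
      have hab : ∀ w' : F, ((a : GL (Fin 2 ⊕ Fin 2) F) : Matrix (Fin 2 ⊕ Fin 2) (Fin 2 ⊕ Fin 2) F) ≠ w' • (1 : Matrix (Fin 2 ⊕ Fin 2) (Fin 2 ⊕ Fin 2) F) := by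
        intro w' h
        have h1 := congrArg (fun t : R => ((t : GL (Fin 2 ⊕ Fin 2) F) : Matrix (Fin 2 ⊕ Fin 2) (Fin 2 ⊕ Fin 2) F)) D.ab
        simp only [Subgroup.coe_mul, Units.val_mul] at h1
        rw [h, hz, Matrix.smul_mul, Matrix.one_mul, neg_mul, Matrix.one_mul, Matrix.mul_smul, Matrix.mul_one] at h1
        have h3 : ((b : GL (Fin 2 ⊕ Fin 2) F) : Matrix (Fin 2 ⊕ Fin 2) (Fin 2 ⊕ Fin 2) F) ≠ 0 := by
          intro h4
          have h5 : (b : GL (Fin 2 ⊕ Fin 2) F) * (b : GL (Fin 2 ⊕ Fin 2) F)⁻¹ = 1 := mul_inv_cancel _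
          have h6 := congrArg Units.val h5
          rw [Units.val_mul, h4, Matrix.zero_mul] at h6
          exact zero_ne_one h6
        have h4 : (2 : F) • (w' • ((b : GL (Fin 2 ⊕ Fin 2) F) : Matrix (Fin 2 ⊕ Fin 2) (Fin 2 ⊕ Fin 2) F)) = 0 := by
          rw [two_smul]
          nth_rw 1 [h1]
          simp
        have hw0 : w' ≠ 0 := by
          rintro rfl
          have h5 : (a : GL (Fin 2 ⊕ Fin 2) F) * (a : GL (Fin 2 ⊕ Fin 2) F)⁻¹ = 1 := mul_inv_cancel _
          have h6 := congrArg Units.val h5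
          rw [Units.val_mul, h, zero_smul, Matrix.zero_mul] at h6
          exact zero_ne_one h6
        have h5 := (smul_eq_zero.mp h4).resolve_left h2
        exact h3 ((smul_eq_zero.mp h5).resolve_left hw0)
      rcases sq_eq_of_scalar hww with rfl | rfl
      · rw [one_smul] at hxsq
        have ha : ((a : GL (Fin 2 ⊕ Fin 2) F) : Matrix (Fin 2 ⊕ Fin 2) (Fin 2 ⊕ Fin 2) F) * ((a : GL (Fin 2 ⊕ Fin 2) F) : Matrix (Fin 2 ⊕ Fin 2) (Fin 2 ⊕ Fin 2) F) = 1 := sq_coe D.aa
        obtain ⟨g, hg, hgx⟩ := Cfsg.Agent.Lib.SpInvol.sp_invol_conj h2 x (a : GL (Fin 2 ⊕ Fin 2) F) hx (hRf a.2) hxsq ha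
          (by rw [rank_two h2 hx hxsq hns, rank_two h2 (hRf a.2) ha hab])
        exact ⟨g, hg, by rw [hgx]; exact mem_norm_of_mem a.2⟩
      · have hc : ((c : GL (Fin 2 ⊕ Fin 2) F) : Matrix (Fin 2 ⊕ Fin 2) (Fin 2 ⊕ Fin 2) F) * ((c : GL (Fin 2 ⊕ Fin 2) F) : Matrix (Fin 2 ⊕ Fin 2) (Fin 2 ⊕ Fin 2) F) = (-1 : F) • (1 : Matrix (Fin 2 ⊕ Fin 2) (Fin 2 ⊕ Fin 2) F) := by
          have h1 := congrArg (fun t : R => ((t : GL (Fin 2 ⊕ Fin 2) F) : Matrix (Fin 2 ⊕ Fin 2) (Fin 2 ⊕ Fin 2) F)) D.cc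
          simp only [Subgroup.coe_mul, Units.val_mul] at h1
          rw [h1, hz]
          simp
        obtain ⟨g, hg, hgx⟩ := Cfsg.Agent.Lib.SpInvol.sp_J_conj h2 x (c : GL (Fin 2 ⊕ Fin 2) F) hx (hRf c.2) hxsq hc
        exact ⟨g, hg, by rw [hgx]; exact mem_norm_of_mem c.2⟩
    · -- order five
      rintro x hx ⟨w, hw⟩ hns
      have hww : w * w = 1 := sp_scalar (x := x ^ 5) ((spGL 2 F).pow_mem hx 5) hw
      obtain ⟨h, hhsp, hhN, hh5, hh1⟩ := exists_order5 D hz hRi hRf hR5' h2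
      rcases sq_eq_of_scalar hww with rfl | rfl
      · have hx5 : x ^ 5 = 1 := Units.ext (by rw [hw, one_smul]; rfl)
        have hx1 : x ≠ 1 := by
          rintro rfl
          exact hns 1 (by simp)
        obtain ⟨g, hg, n, hgx⟩ := sp_five_conj hF hord x h hx hhsp hx5 hh5 hx1 hh1
        exact ⟨g, hg, by rw [hgx]; exact (subgroupNormalizer R).pow_mem hhN n⟩
      · have hx5 : (-x) ^ 5 = 1 := by
          rw [Odd.neg_pow (by decide)]
          apply Units.ext
          rw [Units.val_neg, hw]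
          simp
        have hx1 : -x ≠ 1 := by
          intro e
          apply hns (-1)
          have h1 : (x : Matrix (Fin 2 ⊕ Fin 2) (Fin 2 ⊕ Fin 2) F) = -1 := by
            have h3 := congrArg Units.val e
            rw [Units.val_neg, Units.val_one] at h3
            rw [← h3, neg_neg]
          rw [h1]
          simp
        have hxsp : -x ∈ spGL 2 F := by
          rw [Cfsg.Agent.Lib.SpInvol.spGL_iff]
          intro v w
          have := (Cfsg.Agent.Lib.SpInvol.spGL_iff x).mp hx v w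
          rw [Units.val_neg, neg_mulVec, neg_mulVec, sympForm_neg_left, sympForm_neg_right, neg_neg, this]
        obtain ⟨g, hg, n, hgx⟩ := sp_five_conj hF hord (-x) h hxsp hhsp hx5 hh5 hx1 hh1
        refine ⟨g, hg, ?_⟩
        have h1 : g⁻¹ * x * g = -(g⁻¹ * (-x) * g) := by
          rw [mul_neg, neg_mul, neg_neg]
        rw [h1, hgx]
        exact neg_mem_norm ((subgroupNormalizer R).pow_mem hhN n)

end Cfsg.Agent.S6002
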